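import Cfsg.Agent.H26.L81CA
import Cfsg.Agent.H80.E82Datb

/-! Project L81: the checker for the pieces COMB. -/

set_option autoImplicit false
set_option maxRecDepth 1000000

namespace Cfsg.Agent.H26.L81C

open Equiv Cfsg.Lie H37 H40 H34 H29 H50.E83 H50.L81
open H42.Fv (Sum2 Clo)
open H42 (fld allB anyB allL anyL force tb iteB allB_iff of_allB force_eq tb_eq beq_iff ble_iff
  beq_false_iff cnt_eq_card)

/-- membership of an index -/
def In (A : Set Rt) (n : ℕ) : Prop := ∃ h : n < 240, (⟨n, h⟩ : Rt) ∈ A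

theorem in_val {A : Set Rt} {r : Rt} (h : r ∈ A) : In A r := ⟨r.2, h⟩

theorem mulk {s : ℕ} (hs : 0 < s) (k : ℕ) (l : List (Fin chevE8.rank)) (a : List ℕ)
    (h : ∀ j < chevE8.rank,
      ((l.map Fin.val).foldl (svN s cartE8) a).getD j 0 % s = k * a.getD j 0 % s) (r : Rt) :
    (vN C8 a (C8.S.word l r) : ZMod s) = k * vN C8 a r := by
  have h1 := (H80.E82Datb.rp_word hs H80.E82Datb.hA l (rp_vN C8 s a) (isAdd_vN C8 a)).vN_eq
    ((isAdd_vN C8 a).comp (C8.S.word_mem_W l)) r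
  rw [← h1]
  simp only [vN, Int.cast_sum, Int.cast_mul, Int.cast_natCast, Finset.mul_sum]
  refine Finset.sum_congr rfl fun j _ => ?_
  rw [(ZMod.natCast_eq_natCast_iff' _ _ _).2 (h j j.2)]
  push_cast
  ring

theorem add_of {l : Rt → ℤ} (hl : IsAdd C8.R l) {r s t : Rt} (h : Sum2 r s t) : l t = l r + l s := by
  rw [hl t, hl r, hl s, ← Finset.sum_add_distrib, show C8.R.rc t = _ from h]
  exact Finset.sum_congr rfl fun j _ => by rw [Pi.add_apply, add_mul]

theorem neg_of {l : Rt → ℤ} (hl : IsAdd C8.R l) (s : Rt) : l (ng s) = -l s := by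
  rw [hl (ng s), hl s, ← Finset.sum_neg_distrib, C8.R.rc_neg]
  exact Finset.sum_congr rfl fun j _ => by rw [Pi.neg_apply, neg_mul]

theorem ind_cl {A : Set Rt} (hA : Pt A) {Q : Rt → Prop} (h1 : ∀ r ∈ Ind A, Q r)
    (h2 : ∀ r s t, Q r → Q s → Sum2 r s t → Q t) : ∀ r ∈ A, Q r := by
  obtain ⟨-, l, hl, hp⟩ := hA
  have key : ∀ n : ℕ, ∀ r ∈ A, l r < n → Q r := by
    intro n
    induction n with
    | zero => intro r hr h; have := hp r hr; omega
    | succ n ih =>
      intro r hr h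
      by_cases e : r ∈ Ind A
      · exact h1 r e
      · obtain ⟨s, hs, s', hs', e'⟩ : ∃ s ∈ A, ∃ s' ∈ A, Sum2 s s' r := by
          by_contra c
          exact e ⟨hr, c⟩
        have := add_of hl e'
        have := hp s hs
        have := hp s' hs'
        exact h2 s s' r (ih s hs (by omega)) (ih s' hs' (by omega)) e'
  exact fun r hr => key ((l r).toNat + 1) r hr (by omega)

theorem ind_w {A : Set Rt} {w : Perm Rt} (hw : w ∈ C8.S.W) (h : ∀ r ∈ A, w r ∈ A) :
    ∀ r ∈ Ind A, w r ∈ Ind A := by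
  have h1 : w '' A = A := Set.eq_of_subset_of_ncard_le (Set.image_subset_iff.2 h)
    (Set.ncard_image_of_injective A w.injective).ge (Set.toFinite _)
  rintro r ⟨h2, h3⟩
  refine ⟨h r h2, fun ⟨s, hs, s', hs', e⟩ => h3 ?_⟩
  rw [← h1] at hs hs'
  obtain ⟨a, ha, rfl⟩ := hs
  obtain ⟨b, hb, rfl⟩ := hs'
  exact ⟨a, ha, b, hb, by simpa using e.W (inv_mem hw)⟩

/-- run a derivation -/
noncomputable def run (D : List ℕ) (k : ℕ → Bool) : ℕ → Bool :=
  List.rec k (fun x _ ih C => force (Nat.mod x 256) fun t => force (Nat.mod (Nat.div x 256) 256) fun r =>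
    force (Nat.div x 65536) fun s => Bool.and (Bool.and (Bool.and (Nat.ble t 239) (tb C r))
      (Bool.and (tb C s) (Nat.beq (Nat.add (cd t) 283744936200) (Nat.add (cd r) (cd s)))))
      (force (Nat.lor C (Nat.shiftLeft 1 t)) ih)) D

theorem run_spec {A : Set Rt} (hA : Clo A) {D : List ℕ} {k : ℕ → Bool} {C : ℕ}
    (h : run D k C = true) (hC : ∀ n, C.testBit n = true → In A n) :
    ∃ C', k C' = true ∧ (∀ n, C'.testBit n = true → In A n) ∧
      ∀ n, C.testBit n = true → C'.testBit n = true := by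
  induction D generalizing C with
  | nil => exact ⟨C, h, hC, fun _ h => h⟩
  | cons x D ih =>
    change (force (Nat.mod x 256) fun t => force (Nat.mod (Nat.div x 256) 256) fun r =>
      force (Nat.div x 65536) fun s => Bool.and (Bool.and (Bool.and (Nat.ble t 239) (tb C r))
      (Bool.and (tb C s) (Nat.beq (Nat.add (cd t) 283744936200) (Nat.add (cd r) (cd s)))))
      (force (Nat.lor C (Nat.shiftLeft 1 t)) (run D k))) = true at h
    rw [force_eq, force_eq, force_eq, force_eq] at h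
    generalize Nat.mod x 256 = t at h
    generalize Nat.mod (Nat.div x 256) 256 = r at h
    generalize Nat.div x 65536 = s at h
    simp only [Bool.and_eq_true, ble_iff, beq_iff, tb_eq] at h
    obtain ⟨⟨⟨h1, h2⟩, h3, h4⟩, h5⟩ := h
    have e : ∀ n, (Nat.lor C (Nat.shiftLeft 1 t)).testBit n = (C.testBit n || decide (t = n)) :=
      fun n => by
        change (C ||| 1 <<< t).testBit n = _
        rw [Nat.testBit_or, Nat.one_shiftLeft, Nat.testBit_two_pow]
    obtain ⟨C', k1, k2, k3⟩ := ih h5 fun n hn => by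
      rw [e, Bool.or_eq_true, decide_eq_true_eq] at hn
      rcases hn with hn | rfl
      · exact hC n hn
      · obtain ⟨a1, a2⟩ := hC r h2
        obtain ⟨b1, b2⟩ := hC s h3
        exact ⟨by omega, hA _ a2 _ b2 _ ((sum_iff _ _ _).2 h4)⟩
    exact ⟨C', k1, k2, fun n hn => k3 n (by rw [e, hn]; rfl)⟩

/-- the set is closed -/
noncomputable def closed (C : ℕ) : Bool :=
  allB (fun r => Bool.or (Bool.not (tb C r)) (force (fld 1920 sT r) fun row =>
    allB (fun s => Bool.or (Bool.not (tb C s)) (force (fld 8 row s) fun t =>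
      Bool.or (Nat.ble 240 t) (tb C t))) 240)) 240

theorem closed_spec {C : ℕ} (h : closed C = true) {r s t : Rt} (hr : C.testBit r = true)
    (hs : C.testBit s = true) (e : Sum2 r s t) : C.testBit t = true := by
  have h1 := of_allB h r.2
  rw [tb_eq, hr, force_eq, Bool.not_true, Bool.false_or] at h1
  have h2 := of_allB h1 s.2
  rw [tb_eq, hs, force_eq, show fld 8 (fld 1920 sT r) s = t from st_eq e, tb_eq] at h2
  simp only [Bool.not_true, Bool.false_or, Bool.or_eq_true, ble_iff] at h2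
  exact h2.resolve_left (not_le.2 t.2)

/-- the five reasons -/
noncomputable def rs (FT : ℕ) (od : List ℕ) (m : ℕ → ℕ) (J C k a b c : ℕ) : Bool :=
  Bool.or (Bool.and (Nat.beq k 0) (Bool.and (Bool.and (tb C a) (tb C b))
    (Nat.beq (Nat.add (cd a) (cd b)) 567489872400)))
  (Bool.or (Bool.and (Nat.beq k 1) (Bool.and (Bool.and (tb C a) (tb C b)) (Bool.and (tb J c)
    (Nat.beq (Nat.add (cd c) 283744936200) (Nat.add (cd a) (cd b))))))
  (Bool.or (Bool.and (Nat.beq k 2) (Bool.and (Nat.ble a 2) (Nat.beq (Nat.land J (od.getD a 0)) 0)))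
  (Bool.and (closed C) (Bool.or
    (Bool.and (Nat.beq k 3) (Bool.and (Bool.and (Nat.ble 1 a) (Nat.ble a 39))
      (Nat.ble (Nat.succ (m (2 * a))) (H42.cnt (fun r => Bool.and (Nat.beq (fld 8 FT r) a)
        (allB (fun s => Bool.or (Bool.not (tb C s))
          (Bool.and (Bool.not (Nat.beq (Nat.add (cd r) (cd s)) 567489872400))
            (Nat.ble 240 (st s r)))) 240)) 240))))
    (Bool.and (Bool.and (Bool.and (tb J a) (tb J b)) (Bool.and (Nat.ble c 239)
      (Nat.beq (Nat.add (cd c) 283744936200) (Nat.add (cd a) (cd b)))))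
      (Bool.and (Bool.not (Nat.beq (fld 8 FT a) (fld 8 FT b)))
        (allB (fun s => Bool.or (Bool.not (tb C s)) (Bool.or (Nat.beq s a) (Bool.or (Nat.beq s b)
          (force (fld 1920 sT s) fun row => allB (fun s' => Bool.or (Bool.not (tb C s'))
            (Bool.not (Nat.beq (fld 8 row s') c))) 240)))) 240)))))))

/-- the mask of a list -/
noncomputable def mk (o : List ℕ) : ℕ :=
  List.rec 0 (fun a _ m => Nat.lor m (Nat.shiftLeft 1 a)) o

theorem testBit_mk (o : List ℕ) (n : ℕ) : (mk o).testBit n = true ↔ n ∈ o := by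
  induction o with
  | nil => simp [mk]
  | cons a o ih =>
    change (mk o ||| 1 <<< a).testBit n = true ↔ _
    rw [Nat.testBit_or, Nat.one_shiftLeft, Nat.testBit_two_pow, Bool.or_eq_true, ih,
      decide_eq_true_eq, List.mem_cons, or_comm, eq_comm]

/-- all unions of orbits -/
noncomputable def go (L : List (List ℕ)) (lf : ℕ → ℕ → Bool) : ℕ → ℕ → Bool :=
  List.rec lf (fun o _ ih J i => Bool.and (force (Nat.mul 2 i) (ih J))
    (force (Nat.lor J (mk o)) fun J' => force (Nat.succ (Nat.mul 2 i)) (ih J'))) L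

theorem go_spec {S : ℕ → Prop} {L : List (List ℕ)} {lf : ℕ → ℕ → Bool} {J i : ℕ}
    (hL : ∀ o ∈ L, (∀ r ∈ o, S r) ∨ ∀ r ∈ o, ¬ S r) (h : go L lf J i = true)
    (hJ : ∀ n, J.testBit n = true → S n) :
    ∃ J' i', lf J' i' = true ∧ (∀ n, J'.testBit n = true → S n) ∧
      (∀ n, J.testBit n = true → J'.testBit n = true) ∧
      ∀ o ∈ L, ∀ r ∈ o, S r → J'.testBit r = true := by
  induction L generalizing J i with
  | nil => exact ⟨J, i, h, hJ, fun _ h => h, by simp⟩
  | cons o L ih =>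
    change Bool.and (force (Nat.mul 2 i) (go L lf J))
      (force (Nat.lor J (mk o)) fun J' => force (Nat.succ (Nat.mul 2 i)) (go L lf J')) = true at h
    rw [force_eq, force_eq, force_eq, Bool.and_eq_true] at h
    have hL' := fun o' ho' => hL o' (List.mem_cons_of_mem _ ho')
    rcases hL o List.mem_cons_self with e | e
    · have e1 : ∀ n, (Nat.lor J (mk o)).testBit n = true ↔ J.testBit n = true ∨ n ∈ o := fun n => by
        change (J ||| mk o).testBit n = true ↔ _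
        rw [Nat.testBit_or, Bool.or_eq_true, testBit_mk]
      obtain ⟨J', i', k1, k2, k3, k4⟩ := ih hL' h.2 fun n hn =>
        ((e1 n).1 hn).elim (hJ n) (e n)
      refine ⟨J', i', k1, k2, fun n hn => k3 n ((e1 n).2 (Or.inl hn)), ?_⟩
      exact List.forall_mem_cons.2 ⟨fun r hr _ => k3 r ((e1 r).2 (Or.inr hr)), k4⟩
    · obtain ⟨J', i', k1, k2, k3, k4⟩ := ih hL' h.1 hJ
      exact ⟨J', i', k1, k2, k3, List.forall_mem_cons.2 ⟨fun r hr h => absurd h (e r hr), k4⟩⟩

/-- the test of a union of orbits -/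
noncomputable def leaf (FT : ℕ) (od : List ℕ) (m : ℕ → ℕ) (ce : List (List ℕ × List ℕ))
    (J i : ℕ) : Bool :=
  run (ce.getD i ([], [])).1 (fun C => force ((ce.getD i ([], [])).2.getD 0 0) fun k =>
    force ((ce.getD i ([], [])).2.getD 1 0) fun a => force ((ce.getD i ([], [])).2.getD 2 0) fun b =>
      force ((ce.getD i ([], [])).2.getD 3 0) fun c => rs FT od m J C k a b c) J

theorem vN_eq (a : List ℕ) (r : Rt) :
    vN C8 a r = ∑ j : Fin 8, gt rcE8 r j * (a.getD j 0 : ℕ) := by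
  simp only [vN, rc_eq C8 tabOKE8]
  rfl

theorem comb_of (a : List ℕ) (m : ℕ → ℕ) (l : List (Fin chevE8.rank)) (ob : List (List ℕ))
    (FT : ℕ) (ch : List (List ℕ)) (od : List ℕ) (ce : List (List ℕ × List ℕ))
    (h1 : ∀ j < chevE8.rank,
      ((l.map Fin.val).foldl (svN 40 cartE8) a).getD j 0 % 40 = 3 * a.getD j 0 % 40)
    (h2 : ∀ q < 3, ∀ j < chevE8.rank, ((l.map Fin.val).foldl (svN 2 cartE8) (ch.getD q [])).getD j 0 % 2 =
      1 * (ch.getD q []).getD j 0 % 2)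
    (h3 : ∀ r < 240, (fld 8 FT r : ℤ) = (∑ j : Fin 8, gt rcE8 r j * (a.getD j 0 : ℕ)) % 40)
    (h4 : ∀ q < 3, (∃ r < 240, (∑ j : Fin 8, gt rcE8 r j * ((ch.getD q []).getD j 0 : ℕ)) % 2 = 1) ∧
      ∀ r < 240, (∑ j : Fin 8, gt rcE8 r j * ((ch.getD q []).getD j 0 : ℕ)) % 2 = 1 →
        (od.getD q 0).testBit r = true)
    (h5 : ∀ o ∈ ob, o = [o.getD 0 0, o.getD 1 0, o.getD 2 0, o.getD 3 0] ∧ ∀ k < 4,
      (l.map Fin.val).foldr chevE8.reflectRoot (o.getD k 0) = o.getD ((k + 1) % 4) 0)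
    (h6 : ∀ r < 240, ∀ k < 4, fld 8 FT r = 3 ^ k → ∃ o ∈ ob, r ∈ o)
    (h7 : go ob (leaf FT od m ce) 0 0 = true) :
    ∃ w ∈ C8.S.W, (∀ r, (vN C8 a (w r) : ZMod 40) = 3 * vN C8 a r) ∧
      ∀ A, Good (vN C8 a) w m A → ∃ χ : Rt → ℤ, IsAdd C8.R χ ∧ (∀ r, (χ (w r) : ZMod 2) = χ r) ∧
        (∃ r, Odd (χ r)) ∧ ∀ r ∈ A, Even (χ r) := by
  classical
  have hw := C8.S.word_mem_W l
  refine ⟨C8.S.word l, hw, fun r => by simpa using mulk (by norm_num) 3 l a h1 r, fun A hA => ?_⟩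
  obtain ⟨g1, g2, g3, g4, g5⟩ := hA
  have hf : ∀ r : Rt, (vN C8 a r : ZMod 40) = (fld 8 FT r : ℕ) ∧ fld 8 FT r < 40 := fun r => by
    have := h3 r r.2
    rw [← vN_eq] at this
    refine ⟨?_, by omega⟩
    rw [← Int.cast_natCast, this]
    exact (ZMod.intCast_mod _ 40).symm
  have hf' : ∀ r : Rt, ∀ e < 40, (vN C8 a r : ZMod 40) = (e : ℕ) ↔ fld 8 FT r = e := fun r e he => by
    rw [(hf r).1, ZMod.natCast_eq_natCast_iff', Nat.mod_eq_of_lt (hf r).2, Nat.mod_eq_of_lt he]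
  have hS : ∀ n, In (Ind A) n → In (Ind A) ((l.map Fin.val).foldr chevE8.reflectRoot n) := by
    rintro n ⟨hn, h⟩
    have e := H80.E82Datb.word_val (C := C8) l ⟨n, hn⟩
    rw [← e]
    exact in_val (ind_w hw g2 _ h)
  obtain ⟨J, i, k1, k2, -, k4⟩ := go_spec (S := In (Ind A)) (fun o ho => by
    obtain ⟨e, c⟩ := h5 o ho
    have c0 := fun h => c 0 (by norm_num) ▸ hS (o.getD 0 0) h
    have c1 := fun h => c 1 (by norm_num) ▸ hS (o.getD 1 0) h
    have c2 := fun h => c 2 (by norm_num) ▸ hS (o.getD 2 0) h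
    have c3 := fun h => c 3 (by norm_num) ▸ hS (o.getD 3 0) h
    rw [e]
    simp only [List.forall_mem_cons, List.not_mem_nil, false_imp_iff, implies_true, and_true]
    by_cases x : In (Ind A) (o.getD 0 0)
    · exact Or.inl ⟨x, c0 x, c1 (c0 x), c2 (c1 (c0 x))⟩
    · exact Or.inr ⟨x, fun y => x (c3 (c2 (c1 y))), fun y => x (c3 (c2 y)), fun y => x (c3 y)⟩)
    h7 (by simp)
  have k5 : ∀ r ∈ Ind A, J.testBit r = true := fun r hr => by
    obtain ⟨k, hk, e⟩ := g3 r hr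
    have h8 : 3 ^ k < 40 := by interval_cases k <;> norm_num
    obtain ⟨o, ho, hr'⟩ := h6 r r.2 k hk ((hf' r _ h8).1 (by simpa using e))
    exact k4 o ho r hr' (in_val hr)
  obtain ⟨C, c1, c2, c3⟩ := run_spec g1.1 k1 fun n hn => by
    obtain ⟨x, y⟩ := k2 n hn
    exact ⟨x, y.1⟩
  rw [force_eq, force_eq, force_eq, force_eq] at c1
  generalize (ce.getD i ([], [])).2.getD 0 0 = k at c1
  generalize (ce.getD i ([], [])).2.getD 1 0 = x at c1
  generalize (ce.getD i ([], [])).2.getD 2 0 = y at c1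
  generalize (ce.getD i ([], [])).2.getD 3 0 = z at c1
  rw [rs] at c1
  simp only [Bool.or_eq_true, Bool.and_eq_true] at c1
  rcases c1 with ⟨-, ⟨a1, a2⟩, a3⟩ | ⟨-, ⟨a1, a2⟩, a3, a4⟩ | ⟨-, a1, a2⟩ | ⟨a0, c1⟩
  · exfalso
    obtain ⟨x1, x2⟩ := c2 x (tb_eq C x ▸ a1)
    obtain ⟨y1, y2⟩ := c2 y (tb_eq C y ▸ a2)
    obtain ⟨-, l', hl, hp⟩ := g1
    have e := (neg_iff ⟨x, x1⟩ ⟨y, y1⟩).2 (beq_iff.1 a3)
    have b1 := hp _ x2
    have b2 := hp _ y2
    rw [e, neg_of hl] at b1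
    omega
  · exfalso
    obtain ⟨x1, x2⟩ := c2 x (tb_eq C x ▸ a1)
    obtain ⟨y1, y2⟩ := c2 y (tb_eq C y ▸ a2)
    obtain ⟨z1, z2⟩ := k2 z (tb_eq J z ▸ a3)
    exact z2.2 ⟨_, x2, _, y2, (sum_iff _ _ _).2 (beq_iff.1 a4)⟩
  · have x3 : x < 3 := Nat.lt_succ_of_le (ble_iff.1 a1)
    obtain ⟨⟨r, hr, b1⟩, b2⟩ := h4 x x3
    refine ⟨vN C8 (ch.getD x []), isAdd_vN _ _, fun r => by
      simpa using mulk (by norm_num) 1 l _ (h2 x x3) r, ⟨⟨r, hr⟩, ?_⟩, ind_cl g1 (fun r hr => ?_)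
        fun r s t e1 e2 e3 => ?_⟩
    · rw [vN_eq, Int.odd_iff]; exact b1
    · by_contra c
      rw [Int.not_even_iff, vN_eq] at c
      have := (Nat.testBit_and J (od.getD x 0) r).symm.trans
        (show (Nat.land J (od.getD x 0)).testBit r = false by rw [beq_iff.1 a2]; simp)
      rw [k5 r hr, b2 r r.2 c] at this
      exact absurd this (by simp)
    · rw [add_of (isAdd_vN _ _) e3]
      exact e1.add e2
  exfalso
  have hAC : ∀ r ∈ A, C.testBit r = true :=
    ind_cl g1 (fun r hr => c3 r (k5 r hr)) fun r s t e1 e2 e3 => closed_spec a0 e1 e2 e3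
  rcases c1 with ⟨-, ⟨a1, a2⟩, a3⟩ | ⟨⟨⟨a1, a2⟩, a3, a4⟩, a5, a6⟩
  · rw [ble_iff] at a1 a2 a3
    have b1 := g4 x (by omega) (by omega)
    rw [cnt_eq_card, ← Set.ncard_coe_finset] at a3
    rw [← Set.ncard_image_of_injective _ Fin.val_injective] at b1
    refine absurd ((a3.trans (Set.ncard_le_ncard (fun r hr => ?_) (Set.toFinite _))).trans b1)
      (Nat.not_succ_le_self _)
    obtain ⟨r1, r2⟩ := Finset.mem_filter.1 hr
    rw [Finset.mem_range] at r1
    rw [Bool.and_eq_true, beq_iff] at r2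
    refine ⟨⟨r, r1⟩, ⟨fun s hs => ?_, (hf' ⟨r, r1⟩ x (by omega)).2 r2.1⟩, rfl⟩
    have := of_allB r2.2 s.2
    rw [tb_eq, hAC s hs] at this
    simp only [Bool.not_true, Bool.false_or, Bool.and_eq_true, Bool.not_eq_true', beq_false_iff,
      ble_iff] at this
    refine ⟨fun e => this.1 ((neg_iff _ _).1 e), fun ⟨t, e⟩ => ?_⟩
    have b2 := st_eq e
    have b3 : (t : ℕ) < 240 := t.2
    have b4 := this.2
    change st s r = t at b2
    omega
  · obtain ⟨x1, x2⟩ := k2 x (tb_eq J x ▸ a1)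
    obtain ⟨y1, y2⟩ := k2 y (tb_eq J y ▸ a2)
    have z1 : z < 240 := Nat.lt_succ_of_le (ble_iff.1 a3)
    have b1 := g5 ⟨x, x1⟩ ⟨y, y1⟩ ⟨z, z1⟩ ⟨x2, y2, (sum_iff _ _ _).2 (beq_iff.1 a4),
      fun s hs s' hs' e => by
        have := of_allB a6 s.2
        rw [tb_eq, hAC s hs, force_eq] at this
        simp only [Bool.not_true, Bool.false_or, Bool.or_eq_true, beq_iff] at this
        rcases this with c | c | c
        · exact Or.inl (Fin.ext c)
        · exact Or.inr (Fin.ext c)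
        · have := of_allB c s'.2
          rw [tb_eq, hAC s' hs', show fld 8 (fld 1920 sT s) s' = z from st_eq e,
            Nat.beq_refl] at this
          exact absurd this (by simp)⟩
    rw [(hf ⟨y, y1⟩).1, hf' _ _ (hf ⟨y, y1⟩).2] at b1
    rw [Bool.not_eq_true', beq_false_iff] at a5
    exact a5 b1

end Cfsg.Agent.H26.L81C
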