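import Mathlib.Tactic.Ring
import Mathlib.Data.List.Range

/-!
# The search over small parameters for the degrees `m t - c`, dimension eleven
-/

set_option autoImplicit false

namespace Cfsg.Agent.H26.N11

/-- `t` as a function of `k = (q + 1) / 11` -/
def tk (k : ℕ) : ℕ := ((11 * k - 1) ^ 11 + 1) / (121 * k)

/-- the test on a dyadic block -/
def chk (f : ℕ → ℕ) (C : ℕ) : ℕ → ℕ → Bool
  | 0, k => Nat.blt k 4 || !Nat.beq (C % f k) 0
  | d + 1, k => chk f C d (2 * k) && chk f C d (2 * k + 1)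

/-- the test on the first `nb` blocks -/
def chkA (f : ℕ → ℕ) (C nb : ℕ) : Bool := (List.range nb).all fun j => chk f C 10 j

theorem chk_sp (f : ℕ → ℕ) (C : ℕ) : ∀ (d j : ℕ), chk f C d j = true → ∀ k, k / 2 ^ d = j →
    4 ≤ k → ¬ f k ∣ C
  | 0, j, h, k, hk, h4 => by
    simp only [pow_zero, Nat.div_one] at hk
    subst hk
    intro hd
    have h0 : C % f k = 0 := Nat.mod_eq_zero_of_dvd hd
    have h1 : Nat.blt k 4 = false := by
      rw [← Bool.not_eq_true, Nat.blt_eq]; omega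
    simp [chk, h0, h1] at h
  | d + 1, j, h, k, hk, h4 => by
    simp only [chk, Bool.and_eq_true] at h
    rw [pow_succ, ← Nat.div_div_eq_div_mul] at hk
    rcases (show k / 2 ^ d = 2 * j ∨ k / 2 ^ d = 2 * j + 1 by omega) with h1 | h1
    · exact chk_sp f C d _ h.1 k h1 h4
    · exact chk_sp f C d _ h.2 k h1 h4

theorem chkA_sp {f : ℕ → ℕ} {C nb : ℕ} (h : chkA f C nb = true) {k : ℕ} (h4 : 4 ≤ k)
    (hk : k < nb * 1024) : ¬ f k ∣ C := by
  rw [chkA, List.all_eq_true] at h
  refine chk_sp f C 10 (k / 1024) (h _ (List.mem_range.2 ?_)) k rfl h4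
  omega

end Cfsg.Agent.H26.N11
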