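import Cfsg.Agent.H26.N11Chk

/-! The searches, part A. -/

set_option autoImplicit false
set_option maxRecDepth 100000

namespace Cfsg.Agent.H26.N11

theorem c1_1 : chkA (fun k => (tk k - 1) / (11 * k)) 380604026488964497114806476015625000000000 6 = true := by
  decide +kernel

theorem c2_1 : chkA (fun k => 2 * tk k - 1) 6548327941065151057569431548734375 1 = true := by
  decide +kernel

theorem c3_1 : chkA (fun k => 3 * tk k - 1) 2661908857468937066863987793277747200 1 = true := by
  decide +kernel

theorem c4_1 : chkA (fun k => 4 * tk k - 1) 57925030539026545775834298035564309247 1 = true := by
  decide +kernel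

theorem c5_1 : chkA (fun k => 5 * tk k - 1) 481834080341201074221796462558753849344 1 = true := by
  decide +kernel

theorem c6_1 : chkA (fun k => 6 * tk k - 1) 3221449022759940636197136855316162109375 1 = true := by
  decide +kernel

theorem c7_1 : chkA (fun k => 7 * tk k - 1) 19311905822648090054656049127481776537600 2 = true := by
  decide +kernel

theorem c8_1 : chkA (fun k => 8 * tk k - 1) 73716030623602643582084645214197633777175 2 = true := by
  decide +kernel

theorem c9_1 : chkA (fun k => 9 * tk k - 1) 116589787945997249023403368260319022415872 2 = true := by
  decide +kernel

theorem c10_1 : chkA (fun k => 10 * tk k - 1) 27295086608969162453533858035522892874679 1 = true := by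
  decide +kernel

theorem c1_2 : chkA (fun k => 1 * tk k - 2) 3400291453004083936297158653362790183608669050 5 = true := by
  decide +kernel

theorem c3_2 : chkA (fun k => 3 * tk k - 2) 540110064574080055685977508223508825702872458 4 = true := by
  decide +kernel

theorem c4_2 : chkA (fun k => 4 * tk k - 2) 460797613676262837412831588370428245049344000000 6 = true := by
  decide +kernel

theorem c5_2 : chkA (fun k => 5 * tk k - 2) 17310824935802045827705937254990048793535825497646 9 = true := by
  decide +kernel

theorem c6_2 : chkA (fun k => 6 * tk k - 2) 187315183415489495663624074891610240918414478540800 11 = true := by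
  decide +kernel

theorem c7_2 : chkA (fun k => 7 * tk k - 2) 1057357618729276318702954563699988216218566894531250 12 = true := by
  decide +kernel

theorem c8_2 : chkA (fun k => 8 * tk k - 2) 4076111655484133634589577333602152499129473206059008 14 = true := by
  decide +kernel

theorem c9_2 : chkA (fun k => 9 * tk k - 2) 12500505008235996630442327335941013148444892651595350 15 = true := by
  decide +kernel

theorem c10_2 : chkA (fun k => 10 * tk k - 2) 33906059135609981094177742144443781307540947825852416 17 = true := by
  decide +kernel

theorem c11_2 : chkA (fun k => 11 * tk k - 2) 344295726447163050 1 = true := by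
  decide +kernel

end Cfsg.Agent.H26.N11
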