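import Cfsg.Agent.H26.N11Chk

/-! The searches, part B. -/

set_option autoImplicit false
set_option maxRecDepth 100000

namespace Cfsg.Agent.H26.N11

theorem c1_3 : chkA (fun k => 1 * tk k - 3) 13889200793482514195386088537552097231140790242535014400 38 = true := by
  decide +kernel

theorem c2_3 : chkA (fun k => 2 * tk k - 3) 3621330770711037320926575809467437043366764490896537 16 = true := by
  decide +kernel

theorem c4_3 : chkA (fun k => 4 * tk k - 3) 1061099041623207271864905776728154339780862211169175 13 = true := by
  decide +kernel

theorem c5_3 : chkA (fun k => 5 * tk k - 3) 1198072460100662860613143677929798196035233317195350016 25 = true := by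
  decide +kernel

theorem c6_3 : chkA (fun k => 6 * tk k - 3) 58037425328851903928672781551093085849699352460414859375 36 = true := by
  decide +kernel

end Cfsg.Agent.H26.N11
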