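import Cfsg.Agent.H26.N11Chk

/-! The searches, part C. -/

set_option autoImplicit false
set_option maxRecDepth 100000

namespace Cfsg.Agent.H26.N11

theorem c7_3 : chkA (fun k => 7 * tk k - 3) 783976778718062248510524896099569771363523494258239602688 46 = true := by
  decide +kernel

theorem c8_3 : chkA (fun k => 8 * tk k - 3) 5319193162590299797630556652186421735267961025238037109375 55 = true := by
  decide +kernel

end Cfsg.Agent.H26.N11
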