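import Cfsg.Agent.H26.N11Chk

/-! The searches, part D. -/

set_option autoImplicit false
set_option maxRecDepth 100000

namespace Cfsg.Agent.H26.N11

theorem c9_3 : chkA (fun k => 9 * tk k - 3) 23592333483902078635082482894595520399622525147088211148800 63 = true := by
  decide +kernel

theorem c10_3 : chkA (fun k => 10 * tk k - 3) 78803606017304280679687154123216744330242224257100791117271 71 = true := by
  decide +kernel

theorem c11_3 : chkA (fun k => 11 * tk k - 3) 845106274507907766681600 1 = true := by
  decide +kernel

end Cfsg.Agent.H26.N11
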