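import Cfsg.Agent.H26.N11Alg
import Cfsg.Agent.H26.N11ChkA
import Cfsg.Agent.H26.N11ChkB
import Cfsg.Agent.H26.N11ChkC
import Cfsg.Agent.H26.N11ChkD

/-!
# The numerical facts for overgroups of the unitary Singer cycle in dimension eleven
-/

set_option autoImplicit false

namespace Cfsg.Agent.H26.N11

open Cfsg.Agent.H31

/-- `t = 1 + 11 k (-5 + 11 k w₁)` -/
def w1 (k : ℤ) : ℤ := (15) * k ^ 0 + (-330) * k ^ 1 + (5082) * k ^ 2 + (-55902) * k ^ 3 + (439230) * k ^ 4 + (-2415765) * k ^ 5 + (8857805) * k ^ 6 + (-19487171) * k ^ 7 + (19487171) * k ^ 8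

theorem t_eq {q k t : ℕ} (hk : q + 1 = 11 * k) (ht : q ^ 11 + 1 = 11 * (q + 1) * t) :
    (t : ℤ) = 1 + 11 * k * (-5 + 11 * k * w1 k) := by
  have h1 : (q : ℤ) = 11 * k - 1 := by omega
  have h2 : Ph (-q) = 11 * t := ph_eq (by exact_mod_cast ht)
  have h3 : Ph (-q) = 11 * (1 + 11 * k * (-5 + 11 * k * w1 k)) := by
    rw [h1, Ph, w1]; ring
  omega

theorem tk_eq {q k t : ℕ} (h4 : 4 ≤ k) (hk : q + 1 = 11 * k)
    (ht : q ^ 11 + 1 = 11 * (q + 1) * t) : tk k = t := by
  rw [tk, show 11 * k - 1 = q by omega, ht, hk, show 11 * (11 * k) * t = 121 * k * t by ring]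
  exact Nat.mul_div_cancel_left _ (by omega)

theorem t_ge {q k t : ℕ} (h4 : 4 ≤ k) (hk : q + 1 = 11 * k)
    (ht : q ^ 11 + 1 = 11 * (q + 1) * t) : q ^ 10 ≤ 12 * t := by
  have h1 : 11 * (q + 1) * t ≤ q * (12 * t) := by
    rw [← mul_assoc]; exact Nat.mul_le_mul_right _ (by omega)
  have h2 : q * q ^ 10 ≤ q * (12 * t) := by
    rw [show q * q ^ 10 = q ^ 11 by ring]; omega
  exact Nat.le_of_mul_le_mul_left h2 (by omega)

theorem ord_eq' {q k t : ℕ} (h4 : 4 ≤ k) (hk : q + 1 = 11 * k)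
    (ht : q ^ 11 + 1 = 11 * (q + 1) * t) : (ordGU q 11 : ℤ) =
    -(11 ^ 12 * ((k : ℤ) ^ 11 * ((t : ℤ) ^ 1 * ((q : ℤ) ^ 55 * (rest (-q) * 1))))) := by
  have h2 : Ph (-q) = 11 * t := ph_eq (by exact_mod_cast ht)
  have h1 : (q : ℤ) + 1 = 11 * k := by omega
  rw [ord_eq (by omega), h2, h1]
  generalize rest (-(q : ℤ)) = r
  ring

theorem core {q : ℕ} (hq : IsPrimePow q) {D m s k t R₁ R₂ : ℤ} {e : ℕ}
    (hM : D ∣ m * Ph (-q) - s) (hr : m - s ≠ 0) (hrq : |m - s| < q) (h₁ : Red D k R₁)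
    (h₂ : Red D t R₂) (h : D ∣ k ^ e * (t ^ 1 * ((q : ℤ) ^ 55 * (rest (-q) * 1)))) :
    D ∣ cst m s * (m - s) * R₁ ^ e * R₂ := by
  have a1 := h₁.rot e h
  rw [mul_assoc] at a1
  have a2 := h₂.rot 1 a1
  rw [mul_assoc, mul_assoc] at a2
  have a3 := qpart hq hr hrq (y := -(m * ((-q : ℤ) ^ 9 + (-q) ^ 8 + (-q) ^ 7 + (-q) ^ 6 + (-q) ^ 5
    + (-q) ^ 4 + (-q) ^ 3 + (-q) ^ 2 + (-q) + 1)))
    (hM.trans (dvd_of_eq (by rw [Ph]; ring))) 55 a2
  have a4 := rest_red hM (Z := (m - s) * R₁ ^ e * R₂) (a3.trans (dvd_of_eq (by ring)))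
  exact a4.trans (dvd_of_eq (by ring))

theorem cop11 {D a b : ℤ} (h : D = a + 11 * b) (ha : ¬ (11 : ℤ) ∣ a) : IsCoprime D 11 := by
  have hp : Prime (11 : ℤ) := Int.prime_iff_natAbs_prime.2 (by norm_num)
  refine (hp.coprime_iff_not_dvd.2 ?_).symm
  omega

theorem fin {q k t m c C nb : ℕ} (hq : IsPrimePow q) (h4 : 4 ≤ k) (hk : q + 1 = 11 * k)
    (ht : q ^ 11 + 1 = 11 * (q + 1) * t) (hm : 1 ≤ m ∧ m ≤ 11) (hc : 1 ≤ c ∧ c ≤ 3)
    (hmc : m ≠ c) (hr : m ≠ 11 * c) (hchk : chkA (fun k => m * tk k - c) C nb = true) (j : ℕ)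
    (hC : (cst m (11 * c) * (m - 11 * c) * (m - c) ^ 11 * c : ℤ).natAbs = 11 ^ j * C)
    (hb : 0 < C ∧ 12 * (C + c) < m * (11 * (nb * 1024) - 1) ^ 10) :
    ¬ m * t - c ∣ ordGU q 11 := by
  intro hd
  have hge := t_ge h4 hk ht
  have hq43 : 43 ^ 10 ≤ q ^ 10 := Nat.pow_le_pow_left (by omega) _
  have hmt : t ≤ m * t := Nat.le_mul_of_pos_left _ hm.1
  have hD : ((m * t - c : ℕ) : ℤ) = m * t - c := by
    rw [Nat.cast_sub (by omega)]; push_cast; rfl
  have hte := t_eq hk ht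
  have h2 : Ph (-q) = 11 * t := ph_eq (by exact_mod_cast ht)
  have hd' : ((m : ℤ) * t - c) ∣ (ordGU q 11 : ℤ) := by
    rw [← hD]; exact_mod_cast hd
  have h11 : IsCoprime ((m : ℤ) * t - c) 11 :=
    cop11 (a := m - c) (b := m * k * (-5 + 11 * k * w1 k)) (by rw [hte]; ring) (by omega)
  rw [ord_eq' h4 hk ht, dvd_neg] at hd'
  have h3 := core hq (m := m) (s := 11 * c) (R₁ := m - c) (R₂ := c)
    (⟨11, by rw [h2]; ring⟩) (by omega) (by rw [abs_lt]; omega)
    ⟨-(11 * m * (-5 + 11 * k * w1 k)), dvd_of_eq (by rw [hte]; ring)⟩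
    ⟨m, ⟨-1, by ring⟩⟩ ((h11.pow_right).dvd_of_dvd_mul_left hd')
  have h5 : ((m : ℤ) * t - c) ∣ 11 ^ j * (C : ℤ) := by
    have := Int.dvd_natAbs.2 h3
    rw [hC] at this
    exact_mod_cast this
  have h6 : m * t - c ∣ C := by
    have := (h11.pow_right).dvd_of_dvd_mul_left h5
    rw [← hD] at this
    exact_mod_cast this
  rcases Nat.lt_or_ge k (nb * 1024) with hlt | hge'
  · have := chkA_sp hchk h4 hlt
    rw [tk_eq h4 hk ht] at this
    exact this h6
  · have h7 := Nat.le_of_dvd hb.1 h6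
    have h8 : (11 * (nb * 1024) - 1) ^ 10 ≤ q ^ 10 := Nat.pow_le_pow_left (by omega) _
    have h9 : m * (11 * (nb * 1024) - 1) ^ 10 ≤ m * (12 * t) :=
      Nat.mul_le_mul_left _ (h8.trans hge)
    have h10 : m * (12 * t) = 12 * (m * t) := by ring
    omega

theorem finw {q k t : ℕ} (hq : IsPrimePow q) (h4 : 4 ≤ k) (hk : q + 1 = 11 * k)
    (ht : q ^ 11 + 1 = 11 * (q + 1) * t) (c : ℕ) (hc : 1 ≤ c) :
    ¬ c * t - c ∣ ordGU q 11 := by
  intro hd
  have hge := t_ge h4 hk ht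
  have hq43 : 43 ^ 10 ≤ q ^ 10 := Nat.pow_le_pow_left (by omega) _
  have hte := t_eq hk ht
  have h2 : Ph (-q) = 11 * t := ph_eq (by exact_mod_cast ht)
  have hD : ((c * t - c : ℕ) : ℤ) = c * t - c := by
    rw [Nat.cast_sub (Nat.le_mul_of_pos_right _ (by omega))]; push_cast; rfl
  have hd' : ((c : ℤ) * t - c) ∣ (ordGU q 11 : ℤ) := by
    rw [← hD]; exact_mod_cast hd
  have hk0 : (k : ℤ) ≠ 0 := by omega
  generalize hw : (-5 + 11 * k * w1 k : ℤ) = w at hte
  have h11 : IsCoprime w 11 := cop11 (a := -5) (b := k * w1 k) (by rw [← hw]; ring) (by omega)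
  rw [ord_eq' h4 hk ht, dvd_neg] at hd'
  have h0 : w ∣ 11 ^ 12 * ((k : ℤ) ^ 10 * ((t : ℤ) ^ 1 * ((q : ℤ) ^ 55 * (rest (-q) * 1)))) := by
    apply (mul_dvd_mul_iff_left hk0).1
    have hkw : (k : ℤ) * w ∣ (c : ℤ) * t - c := ⟨11 * c, by rw [hte]; ring⟩
    refine (hkw.trans hd').trans (dvd_of_eq ?_)
    generalize (t : ℤ) ^ 1 * ((q : ℤ) ^ 55 * (rest (-q) * 1)) = r
    ring
  have h3 := core hq (m := 1) (s := 11) (R₁ := 5) (R₂ := 1)
    (⟨121 * k, by rw [h2, hte]; ring⟩) (by omega) (by rw [abs_lt]; omega)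
    ⟨11 * w1 k, ⟨-1, by rw [← hw]; ring⟩⟩
    ⟨1, ⟨-(11 * k), by rw [hte]; ring⟩⟩ ((h11.pow_right).dvd_of_dvd_mul_left h0)
  have hw0 : 0 ≤ w := by
    by_contra hneg
    have : (11 * k : ℤ) * w ≤ 0 := mul_nonpos_of_nonneg_of_nonpos (by omega) (by omega)
    omega
  lift w to ℕ using hw0
  have hte' : t = 1 + 11 * k * w := by exact_mod_cast hte
  have h6 : w ∣ 380604026488964497114806476015625000000000 := by
    have := Int.dvd_natAbs.2 h3
    rw [show (cst 1 11 * (1 - 11) * 5 ^ 10 * 1 : ℤ).natAbs = 380604026488964497114806476015625000000000 by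
      decide +kernel] at this
    exact_mod_cast this
  rcases Nat.lt_or_ge k (6 * 1024) with hlt | hge'
  · have := chkA_sp c1_1 h4 hlt
    rw [tk_eq h4 hk ht, hte', Nat.add_sub_cancel_left,
      Nat.mul_div_cancel_left _ (by omega)] at this
    exact this h6
  · have h7 := Nat.le_of_dvd (by norm_num) h6
    have h8 : (11 * (6 * 1024) - 1) ^ 9 ≤ q ^ 9 := Nat.pow_le_pow_left (by omega) _
    have h9 : 11 * k * w ≤ (q + 1) * 380604026488964497114806476015625000000000 := by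
      rw [hk]; exact Nat.mul_le_mul_left _ h7
    have h10 : q * (11 * (6 * 1024) - 1) ^ 9 ≤ q ^ 10 := by
      rw [pow_succ' q 9]; exact Nat.mul_le_mul_left _ h8
    norm_num at h10
    omega

set_option synthInstance.maxSize 2000 in
set_option synthInstance.maxHeartbeats 200000 in
theorem small : ∀ k < 4, 1 ≤ k → ∀ m < 12, 1 ≤ m → ∀ c < 4, 1 ≤ c → ¬ (m = 11 ∧ c = 1) →
    ¬ m * tk k - c ∣ ordGU (11 * k - 1) 11 := by
  decide +kernel

/-- The degrees `m t - c` do not divide the order of `GU₁₁(q)`, `11 ∣ q + 1`. -/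
theorem num11 (q t m c : ℕ) (hq : IsPrimePow q) (h11 : 11 ∣ q + 1)
    (ht : q ^ 11 + 1 = 11 * (q + 1) * t) (hm1 : 1 ≤ m) (hm : m ≤ 11)
    (hc : c = 1 ∨ c = 2 ∨ c = 3) (hne : ¬ (m = 11 ∧ c = 1)) : ¬ m * t - c ∣ ordGU q 11 := by
  obtain ⟨k, hk⟩ := h11
  rcases Nat.lt_or_ge k 4 with h4 | h4
  · have h := small k h4 (by omega) m (by omega) hm1 c (by omega) (by omega) hne
    have h1 : tk k = t := by
      rw [tk, show 11 * k - 1 = q by omega, ht, hk, show 11 * (11 * k) * t = 121 * k * t by ring]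
      exact Nat.mul_div_cancel_left _ (by omega)
    rwa [h1, show 11 * k - 1 = q by omega] at h
  rcases hc with rfl | rfl | rfl
  · interval_cases m
    · exact finw hq h4 hk ht 1 (by norm_num)
    · exact fin hq h4 hk ht (by norm_num) (by norm_num) (by norm_num) (by norm_num) c2_1 0
        (by decide +kernel) (by norm_num)
    · exact fin hq h4 hk ht (by norm_num) (by norm_num) (by norm_num) (by norm_num) c3_1 0
        (by decide +kernel) (by norm_num)
    · exact fin hq h4 hk ht (by norm_num) (by norm_num) (by norm_num) (by norm_num) c4_1 0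
        (by decide +kernel) (by norm_num)
    · exact fin hq h4 hk ht (by norm_num) (by norm_num) (by norm_num) (by norm_num) c5_1 0
        (by decide +kernel) (by norm_num)
    · exact fin hq h4 hk ht (by norm_num) (by norm_num) (by norm_num) (by norm_num) c6_1 0
        (by decide +kernel) (by norm_num)
    · exact fin hq h4 hk ht (by norm_num) (by norm_num) (by norm_num) (by norm_num) c7_1 0
        (by decide +kernel) (by norm_num)
    · exact fin hq h4 hk ht (by norm_num) (by norm_num) (by norm_num) (by norm_num) c8_1 0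
        (by decide +kernel) (by norm_num)
    · exact fin hq h4 hk ht (by norm_num) (by norm_num) (by norm_num) (by norm_num) c9_1 0
        (by decide +kernel) (by norm_num)
    · exact fin hq h4 hk ht (by norm_num) (by norm_num) (by norm_num) (by norm_num) c10_1 0
        (by decide +kernel) (by norm_num)
    · exact absurd ⟨rfl, rfl⟩ hne
  · interval_cases m
    · exact fin hq h4 hk ht (by norm_num) (by norm_num) (by norm_num) (by norm_num) c1_2 0
        (by decide +kernel) (by norm_num)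
    · exact finw hq h4 hk ht 2 (by norm_num)
    · exact fin hq h4 hk ht (by norm_num) (by norm_num) (by norm_num) (by norm_num) c3_2 0
        (by decide +kernel) (by norm_num)
    · exact fin hq h4 hk ht (by norm_num) (by norm_num) (by norm_num) (by norm_num) c4_2 0
        (by decide +kernel) (by norm_num)
    · exact fin hq h4 hk ht (by norm_num) (by norm_num) (by norm_num) (by norm_num) c5_2 0
        (by decide +kernel) (by norm_num)
    · exact fin hq h4 hk ht (by norm_num) (by norm_num) (by norm_num) (by norm_num) c6_2 0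
        (by decide +kernel) (by norm_num)
    · exact fin hq h4 hk ht (by norm_num) (by norm_num) (by norm_num) (by norm_num) c7_2 0
        (by decide +kernel) (by norm_num)
    · exact fin hq h4 hk ht (by norm_num) (by norm_num) (by norm_num) (by norm_num) c8_2 0
        (by decide +kernel) (by norm_num)
    · exact fin hq h4 hk ht (by norm_num) (by norm_num) (by norm_num) (by norm_num) c9_2 0
        (by decide +kernel) (by norm_num)
    · exact fin hq h4 hk ht (by norm_num) (by norm_num) (by norm_num) (by norm_num) c10_2 0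
        (by decide +kernel) (by norm_num)
    · exact fin hq h4 hk ht (by norm_num) (by norm_num) (by norm_num) (by norm_num) c11_2 34
        (by decide +kernel) (by norm_num)
  · interval_cases m
    · exact fin hq h4 hk ht (by norm_num) (by norm_num) (by norm_num) (by norm_num) c1_3 0
        (by decide +kernel) (by norm_num)
    · exact fin hq h4 hk ht (by norm_num) (by norm_num) (by norm_num) (by norm_num) c2_3 0
        (by decide +kernel) (by norm_num)
    · exact finw hq h4 hk ht 3 (by norm_num)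
    · exact fin hq h4 hk ht (by norm_num) (by norm_num) (by norm_num) (by norm_num) c4_3 0
        (by decide +kernel) (by norm_num)
    · exact fin hq h4 hk ht (by norm_num) (by norm_num) (by norm_num) (by norm_num) c5_3 0
        (by decide +kernel) (by norm_num)
    · exact fin hq h4 hk ht (by norm_num) (by norm_num) (by norm_num) (by norm_num) c6_3 0
        (by decide +kernel) (by norm_num)
    · exact fin hq h4 hk ht (by norm_num) (by norm_num) (by norm_num) (by norm_num) c7_3 0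
        (by decide +kernel) (by norm_num)
    · exact fin hq h4 hk ht (by norm_num) (by norm_num) (by norm_num) (by norm_num) c8_3 0
        (by decide +kernel) (by norm_num)
    · exact fin hq h4 hk ht (by norm_num) (by norm_num) (by norm_num) (by norm_num) c9_3 0
        (by decide +kernel) (by norm_num)
    · exact fin hq h4 hk ht (by norm_num) (by norm_num) (by norm_num) (by norm_num) c10_3 0
        (by decide +kernel) (by norm_num)
    · exact fin hq h4 hk ht (by norm_num) (by norm_num) (by norm_num) (by norm_num) c11_3 34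
        (by decide +kernel) (by norm_num)

theorem small1 : ∀ q < 64, 2 ≤ q → ¬ (q ^ 11 + 1) / (q + 1) - 2 ∣ ordGU q 11 := by
  decide +kernel

/-- The degree `t - 2` does not divide the order of `GU₁₁(q)`. -/
theorem num1 (q t : ℕ) (hq : 2 ≤ q) (ht : q ^ 11 + 1 = (q + 1) * t) : ¬ t - 2 ∣ ordGU q 11 := by
  rcases Nat.lt_or_ge q 64 with h | h
  · have := small1 q h hq
    rwa [ht, Nat.mul_div_cancel_left _ (by omega)] at this
  intro hd
  have h2 : Ph (-q) = 1 * t := ph_eq (by rw [one_mul]; exact_mod_cast ht)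
  rw [one_mul] at h2
  have hge : q ^ 10 ≤ 2 * t := by
    have h1 : (q + 1) * t ≤ q * (2 * t) := by
      rw [← mul_assoc]; exact Nat.mul_le_mul_right _ (by omega)
    have h2 : q * q ^ 10 ≤ q * (2 * t) := by
      rw [show q * q ^ 10 = q ^ 11 by ring]; omega
    exact Nat.le_of_mul_le_mul_left h2 (by omega)
  have hq64 : 64 ^ 10 ≤ q ^ 10 := Nat.pow_le_pow_left h _
  have hD : ((t - 2 : ℕ) : ℤ) = t - 2 := by
    rw [Nat.cast_sub (by omega)]; rfl
  have hd' : ((t : ℤ) - 2) ∣ (q : ℤ) ^ 55 * ((-((q : ℤ) + 1)) ^ 11 * ((t : ℤ) ^ 1 *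
      (rest (-q) * 1))) := by
    rw [← hD]
    refine (Int.natCast_dvd_natCast.2 hd).trans (dvd_of_eq ?_)
    rw [ord_eq (by omega), h2]
    generalize rest (-(q : ℤ)) = r
    ring
  have r0 : Red ((t : ℤ) - 2) q 1 :=
    ⟨-((-q : ℤ) ^ 9 + (-q) ^ 8 + (-q) ^ 7 + (-q) ^ 6 + (-q) ^ 5 + (-q) ^ 4 + (-q) ^ 3 + (-q) ^ 2
      + (-q) + 1), ⟨-1, by rw [← h2, Ph]; ring⟩⟩
  have r1 : Red ((t : ℤ) - 2) (-((q : ℤ) + 1)) 9 :=
    ⟨-((-q : ℤ) ^ 9 + 2 * (-q) ^ 8 + 3 * (-q) ^ 7 + 4 * (-q) ^ 6 + 5 * (-q) ^ 5 + 6 * (-q) ^ 4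
      + 7 * (-q) ^ 3 + 8 * (-q) ^ 2 + 9 * (-q) + 10), dvd_of_eq (by rw [← h2, Ph]; ring)⟩
  have r2 : Red ((t : ℤ) - 2) t 2 := ⟨1, ⟨-1, by ring⟩⟩
  have a1 := r0.rot 55 hd'
  rw [mul_assoc] at a1
  have a2 := r1.rot 11 a1
  rw [mul_assoc, mul_assoc] at a2
  have a3 := r2.rot 1 a2
  have a4 := rest_red (m := 1) (s := 2) (x := -q) (Z := 9 ^ 11 * 2)
    (dvd_of_eq (by rw [h2]; ring)) (a3.trans (dvd_of_eq (by ring)))
  have a5 := Int.dvd_natAbs.2 a4
  rw [show (cst 1 2 * (9 ^ 11 * 2) : ℤ).natAbs = 344295726447163050 by decide +kernel,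
    ← hD] at a5
  have a6 := Nat.le_of_dvd (by norm_num) (Int.natCast_dvd_natCast.1 a5)
  omega

set_option synthInstance.maxSize 2000 in
set_option synthInstance.maxHeartbeats 200000 in
theorem res5 : ∀ p < 122, ∀ r < p, p ∣ r ^ 4 + r ^ 3 + r ^ 2 + r + 1 →
    p = 1 ∨ p = 5 ∨ (p = 11 ∧ r ≠ 10) ∨ p = 31 ∨ p = 41 ∨ p = 55 ∨ p = 61 ∨ p = 71 ∨ p = 101 ∨
      p = 121 := by
  decide +kernel

theorem small2 : ∀ q < 256, 21 ≤ q → 11 ∣ q + 1 →
    ¬ q ^ 4 + q ^ 3 + q ^ 2 + q + 1 ∣ 2779874005 := by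
  decide +kernel

theorem res_dvd {p q : ℕ} (h : p ∣ q ^ 4 + q ^ 3 + q ^ 2 + q + 1) :
    p ∣ (q % p) ^ 4 + (q % p) ^ 3 + (q % p) ^ 2 + q % p + 1 := by
  have h1 : q % p ≡ q [MOD p] := Nat.mod_modEq q p
  have h2 := ((((h1.pow 4).add (h1.pow 3)).add (h1.pow 2)).add h1).add_right 1
  exact (Nat.modEq_zero_iff_dvd.1 (h2.trans (Nat.modEq_zero_iff_dvd.2 h)))

/-- A large prime power dividing `Φ₅(q)`. -/
theorem num2 (q : ℕ) (hq : 21 ≤ q) (h11 : 11 ∣ q + 1) :
    ∃ l s : ℕ, l.Prime ∧ l ≠ 5 ∧ l ^ s ∣ q ^ 4 + q ^ 3 + q ^ 2 + q + 1 ∧ 122 ≤ l ^ s := by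
  by_contra hcon
  push Not at hcon
  have hd : q ^ 4 + q ^ 3 + q ^ 2 + q + 1 ∣ 2779874005 := by
    rw [Nat.dvd_iff_prime_pow_dvd_dvd]
    intro p k hp hk
    rcases Nat.eq_zero_or_pos k with rfl | hk0
    · simp
    have hp1 : p ∣ q ^ 4 + q ^ 3 + q ^ 2 + q + 1 := (dvd_pow_self p hk0.ne').trans hk
    by_cases h5 : p = 5
    · subst h5
      rcases (show k = 1 ∨ 2 ≤ k by omega) with rfl | h2
      · norm_num
      · have h25 : 25 ∣ q ^ 4 + q ^ 3 + q ^ 2 + q + 1 :=
          (pow_dvd_pow 5 h2).trans hk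
        have := res5 25 (by norm_num) (q % 25) (Nat.mod_lt _ (by norm_num)) (res_dvd h25)
        omega
    have hlt := hcon p k hp h5 hk
    have hle : p ≤ p ^ k := Nat.le_self_pow hk0.ne' p
    have h := res5 p (by omega) (q % p) (Nat.mod_lt _ hp.pos) (res_dvd hp1)
    have hk1 : 31 ≤ p → k = 1 := by
      intro h31
      by_contra hne
      have h1 : p ^ 2 ≤ p ^ k := Nat.pow_le_pow_right hp.pos (by omega)
      have h2 : 31 ^ 2 ≤ p ^ 2 := Nat.pow_le_pow_left h31 2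
      omega
    rcases h with rfl | rfl | ⟨rfl, h⟩ | rfl | rfl | rfl | rfl | rfl | rfl | rfl
    · exact absurd hp (by norm_num)
    · exact absurd rfl h5
    · omega
    · rw [hk1 (by norm_num)]; norm_num
    · rw [hk1 (by norm_num)]; norm_num
    · exact absurd hp (by norm_num)
    · rw [hk1 (by norm_num)]; norm_num
    · rw [hk1 (by norm_num)]; norm_num
    · rw [hk1 (by norm_num)]; norm_num
    · exact absurd hp (by norm_num)
  rcases Nat.lt_or_ge q 256 with h | h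
  · exact small2 q h hq h11 hd
  · have h1 := Nat.le_of_dvd (by norm_num) hd
    have h2 : 256 ^ 4 ≤ q ^ 4 := Nat.pow_le_pow_left h 4
    omega

end Cfsg.Agent.H26.N11
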