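import Cfsg.Agent.H26.PC2
import Cfsg.Agent.H26.PC1Geo

/-!
Elements interchanging two totally singular subspaces; maximality of stabilizers of pairs of
subspaces in `Sp`, `SU` and `Ω`.
-/

set_option autoImplicit false

namespace Cfsg.Agent.H26

open Module
open scoped Matrix

namespace PForm

variable {F : Type*} [Field F] {V : Type*} [AddCommGroup V] [Module F V] {P : PForm F V}

variable (P) in
/-- Some element of `E` interchanges `A` and `B` and fixes their orthogonal complement. -/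
def Swap (A B : Submodule F V) : Prop :=
  ∃ s ∈ P.E, (∀ a ∈ A, s a ∈ B) ∧ (∀ b ∈ B, s b ∈ A) ∧ ∀ x ∈ P.perp (A ⊔ B), s x = x

theorem swap_bot : P.Swap ⊥ ⊥ := ⟨1, P.E.one_mem, fun _ h => h, fun _ h => h, fun _ _ => rfl⟩

theorem Swap.sup {A B A' B' : Submodule F V} (h : P.Swap A B) (h' : P.Swap A' B')
    (ho : A ⊔ B ≤ P.perp (A' ⊔ B')) : P.Swap (A ⊔ A') (B ⊔ B') := by
  obtain ⟨s, hs, h1, h2, h3⟩ := h
  obtain ⟨t, ht, h4, h5, h6⟩ := h'
  have ho' := le_perp_comm.1 ho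
  refine ⟨s * t, P.E.mul_mem hs ht, fun x hx => ?_, fun x hx => ?_, fun x hx => ?_⟩
  · obtain ⟨a, ha, a', ha', rfl⟩ := Submodule.mem_sup.1 hx
    rw [mul_apply', map_add, h6 a (ho (Submodule.mem_sup_left ha)), map_add,
      h3 _ (ho' (Submodule.mem_sup_right (h4 a' ha')))]
    exact Submodule.add_mem_sup (h1 a ha) (h4 a' ha')
  · obtain ⟨a, ha, a', ha', rfl⟩ := Submodule.mem_sup.1 hx
    rw [mul_apply', map_add, h6 a (ho (Submodule.mem_sup_right ha)), map_add,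
      h3 _ (ho' (Submodule.mem_sup_left (h5 a' ha')))]
    exact Submodule.add_mem_sup (h2 a ha) (h5 a' ha')
  · rw [mul_apply', h6 x (perp_anti (sup_le_sup le_sup_right le_sup_right) hx),
      h3 x (perp_anti (sup_le_sup le_sup_left le_sup_left) hx)]

theorem map_mem_of_span {g : V ≃ₗ[F] V} {B : Submodule F V} {e x : V} (h : g e ∈ B)
    (hx : x ∈ F ∙ e) : g x ∈ B := by
  obtain ⟨c, rfl⟩ := Submodule.mem_span_singleton.1 hx
  rw [map_smul]
  exact B.smul_mem _ h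

theorem map_mem_of_sup {g : V ≃ₗ[F] V} {A A' B : Submodule F V} (h : ∀ x ∈ A, g x ∈ B)
    (h' : ∀ x ∈ A', g x ∈ B) {x : V} (hx : x ∈ A ⊔ A') : g x ∈ B := by
  obtain ⟨a, ha, a', ha', rfl⟩ := Submodule.mem_sup.1 hx
  rw [map_add]
  exact B.add_mem (h a ha) (h' a' ha')

theorem swap_line (hΛ : P.Λ ≠ ⊥) {e e' : V} (he : P.Sing e) (he' : P.Sing e')
    (h : P.f e e' = 1) : P.Swap (F ∙ e) (F ∙ e') := by
  obtain ⟨ν, hν, hν0⟩ := exists_mem_Λ hΛ
  have hμ : -(P.ε * ν⁻¹) ∈ P.Λ := by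
    convert P.Λ_smul ν⁻¹ ν hν using 1
    rw [map_inv₀, P.Λ_σ hν]
    have := P.ε_ne_zero
    field_simp
    linear_combination -P.ε_sq
  have h1 := EV.of_mem he hν
  have h2 := EV.of_mem he' hμ
  refine ⟨h1.equiv * h2.equiv * h1.equiv, P.E.mul_mem (P.E.mul_mem h1.equiv_mem_E h2.equiv_mem_E)
    h1.equiv_mem_E, fun x => map_mem_of_span ?_, fun x => map_mem_of_span ?_, fun x hx => ?_⟩
  · refine Submodule.mem_span_singleton.2 ⟨ν⁻¹, ?_⟩
    simp only [mul_apply', EV.equiv_apply, eich_zero_apply, f_sub_left, P.f_smul_left, h,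
      f_symm_one h, he.f_self]
    rcases P.ε_cases with h | h <;> rw [h] <;> match_scalars <;> field_simp <;> ring
  · refine Submodule.mem_span_singleton.2 ⟨-ν, ?_⟩
    simp only [mul_apply', EV.equiv_apply, eich_zero_apply, f_sub_left, P.f_smul_left, h,
      f_symm_one h, he.f_self, he'.f_self]
    rcases P.ε_cases with h | h <;> rw [h] <;> match_scalars <;> field_simp <;> ring
  · rw [mem_perp_sup_span, mem_perp_span_singleton] at hx
    simp only [mul_apply', EV.equiv_apply, eich_zero_apply, hx.1, hx.2, mul_zero, zero_smul,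
      sub_zero]

theorem swap_plane (hε : P.ε = 1) {e₁ e₁' e₂ e₂' : V} (h₁ : P.Sing e₁) (h₁' : P.Sing e₁')
    (h₂ : P.Sing e₂) (h₂' : P.Sing e₂') (a1 : P.f e₁ e₁' = 1) (a2 : P.f e₂ e₂' = 1)
    (a3 : P.f e₂ e₁ = 0) (a4 : P.f e₂' e₁' = 0) (a5 : P.f e₂ e₁' = 0) (a6 : P.f e₂' e₁ = 0) :
    P.Swap ((F ∙ e₁) ⊔ F ∙ e₂) ((F ∙ e₁') ⊔ F ∙ e₂') := by
  have h1 := EV.of_sing h₁ h₂ a3
  have h2 := EV.of_sing h₁' h₂' a4
  have b1 := f_symm_one a1
  have b2 := f_symm_one a2
  rw [hε] at b1 b2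
  refine ⟨h1.equiv * h2.equiv * h1.equiv, P.E.mul_mem (P.E.mul_mem h1.equiv_mem_E h2.equiv_mem_E)
    h1.equiv_mem_E, fun x => map_mem_of_sup (fun x => map_mem_of_span ?_)
      (fun x => map_mem_of_span ?_), fun x => map_mem_of_sup (fun x => map_mem_of_span ?_)
      (fun x => map_mem_of_span ?_), fun x hx => ?_⟩
  · refine Submodule.mem_sup_right (Submodule.mem_span_singleton.2 ⟨1, ?_⟩)
    simp only [mul_apply', EV.equiv_apply, eich_apply, f_sub_left, P.f_add_left, P.f_smul_left,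
      a1, a2, a3, a4, a5, a6, b1, b2, f_symm_zero a3, f_symm_zero a4, f_symm_zero a5,
      f_symm_zero a6, h₁.f_self, h₁'.f_self, h₂.f_self, h₂'.f_self, hε]
    module
  · refine Submodule.mem_sup_left (Submodule.mem_span_singleton.2 ⟨-1, ?_⟩)
    simp only [mul_apply', EV.equiv_apply, eich_apply, f_sub_left, P.f_add_left, P.f_smul_left,
      a1, a2, a3, a4, a5, a6, b1, b2, f_symm_zero a3, f_symm_zero a4, f_symm_zero a5,
      f_symm_zero a6, h₁.f_self, h₁'.f_self, h₂.f_self, h₂'.f_self, hε]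
    module
  · refine Submodule.mem_sup_right (Submodule.mem_span_singleton.2 ⟨1, ?_⟩)
    simp only [mul_apply', EV.equiv_apply, eich_apply, f_sub_left, P.f_add_left, P.f_smul_left,
      a1, a2, a3, a4, a5, a6, b1, b2, f_symm_zero a3, f_symm_zero a4, f_symm_zero a5,
      f_symm_zero a6, h₁.f_self, h₁'.f_self, h₂.f_self, h₂'.f_self, hε]
    module
  · refine Submodule.mem_sup_left (Submodule.mem_span_singleton.2 ⟨-1, ?_⟩)
    simp only [mul_apply', EV.equiv_apply, eich_apply, f_sub_left, P.f_add_left, P.f_smul_left,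
      a1, a2, a3, a4, a5, a6, b1, b2, f_symm_zero a3, f_symm_zero a4, f_symm_zero a5,
      f_symm_zero a6, h₁.f_self, h₁'.f_self, h₂.f_self, h₂'.f_self, hε]
    module
  · rw [perp_sup, Submodule.mem_inf, mem_perp_sup_span, mem_perp_span_singleton,
      mem_perp_sup_span, mem_perp_span_singleton] at hx
    simp only [mul_apply', EV.equiv_apply, P.eich_apply_of_orth₂ _ hx.1.1 hx.1.2,
      P.eich_apply_of_orth₂ _ hx.2.1 hx.2.2]

variable (P) in
/-- Two totally singular subspaces of dimension `k` in non-degenerate pairing. -/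
structure Paired (k : ℕ) (A B : Submodule F V) : Prop where
  singA : ∀ a ∈ A, P.Sing a
  singB : ∀ b ∈ B, P.Sing b
  orthA : A ≤ P.perp A
  orthB : B ≤ P.perp B
  dimA : finrank F A = k
  dimB : finrank F B = k
  pair : ∀ a ∈ A, a ∈ P.perp B → a = 0

variable [FiniteDimensional F V]

theorem sup_inf_perp_eq {A : Submodule F V} {e e' : V} (he : e ∈ A) (h : P.f e e' ≠ 0) :
    (F ∙ e) ⊔ (A ⊓ P.perp (F ∙ e')) = A ∧
      finrank F ↥(A ⊓ P.perp (F ∙ e')) + 1 = finrank F A := by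
  have h1 : (F ∙ e) ⊔ (A ⊓ P.perp (F ∙ e')) = A := by
    refine le_antisymm (sup_le ((Submodule.span_singleton_le_iff_mem _ _).2 he) inf_le_left)
      fun a ha => ?_
    rw [sup_comm]
    refine mem_sup_span.2 ⟨a - (P.f a e' / P.f e e') • e, ⟨A.sub_mem ha (A.smul_mem _ he),
      mem_perp_span_singleton.2 ?_⟩, P.f a e' / P.f e e', by simp⟩
    rw [f_sub_left, P.f_smul_left, div_mul_cancel₀ _ h, sub_self]
  refine ⟨h1, ?_⟩
  conv_rhs => rw [← h1, sup_comm]
  exact (finrank_sup_span_of_notMem fun h2 => h (mem_perp_span_singleton.1 (Submodule.mem_inf.1 h2).2)).symm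

theorem Paired.split {k : ℕ} {A B : Submodule F V} (h : P.Paired (k + 1) A B) :
    ∃ e ∈ A, ∃ e' ∈ B, P.f e e' = 1 ∧ ∃ A' B', P.Paired k A' B' ∧ (F ∙ e) ⊔ A' = A ∧
      (F ∙ e') ⊔ B' = B ∧ A' ≤ P.perp (F ∙ e') ∧ B' ≤ P.perp (F ∙ e) := by
  obtain ⟨e, he, he0⟩ := exists_mem_ne_zero_of_finrank (A := A) (by rw [h.dimA]; omega)
  obtain ⟨b, hb, hb0⟩ : ∃ b ∈ B, P.f e b ≠ 0 := by
    by_contra hc
    push Not at hc
    exact he0 (h.pair e he hc)
  have h1 := f_smul_inv hb0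
  have hb' := B.smul_mem (P.σ (P.f e b)⁻¹) hb
  generalize P.σ (P.f e b)⁻¹ • b = e' at h1 hb'
  have h2 : P.f e e' ≠ 0 := by rw [h1]; exact one_ne_zero
  obtain ⟨h3, h4⟩ := sup_inf_perp_eq he h2
  obtain ⟨h5, h6⟩ := sup_inf_perp_eq hb' (f_symm_ne h2)
  have := h.dimA
  have := h.dimB
  refine ⟨e, he, e', hb', h1, A ⊓ P.perp (F ∙ e'), B ⊓ P.perp (F ∙ e),
    ⟨fun a ha => h.singA a ha.1, fun a ha => h.singB a ha.1,
    inf_le_left.trans (h.orthA.trans (perp_anti inf_le_left)),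
    inf_le_left.trans (h.orthB.trans (perp_anti inf_le_left)), by omega, by omega,
    fun a ha ha' => h.pair a ha.1 ?_⟩, h3, h5, inf_le_right, inf_le_right⟩
  rw [← h5, perp_sup]
  exact ⟨ha.2, ha'⟩

omit [FiniteDimensional F V] in
theorem Paired.swap_zero {A B : Submodule F V} [FiniteDimensional F A] [FiniteDimensional F B]
    (h : P.Paired 0 A B) : P.Swap A B := by
  rw [Submodule.finrank_eq_zero.1 h.dimA, Submodule.finrank_eq_zero.1 h.dimB]
  exact swap_bot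

theorem Paired.swap_of_Λ (hΛ : P.Λ ≠ ⊥) {k : ℕ} {A B : Submodule F V} (h : P.Paired k A B) :
    P.Swap A B := by
  induction k generalizing A B with
  | zero => exact h.swap_zero
  | succ k ih =>
    obtain ⟨e, he, e', he', h1, A', B', h2, h3, h4, h5, h6⟩ := h.split
    have hA : A' ≤ A := h3 ▸ le_sup_right
    have hB : B' ≤ B := h4 ▸ le_sup_right
    rw [← h3, ← h4]
    refine (swap_line hΛ (h.singA e he) (h.singB e' he') h1).sup (ih h2) ?_
    rw [le_perp_comm, perp_sup, le_inf_iff, sup_le_iff, sup_le_iff]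
    refine ⟨⟨?_, h6⟩, h5, ?_⟩
    · exact hA.trans (h.orthA.trans (perp_anti ((Submodule.span_singleton_le_iff_mem _ _).2 he)))
    · exact hB.trans (h.orthB.trans (perp_anti ((Submodule.span_singleton_le_iff_mem _ _).2 he')))

theorem Paired.swap_of_even (hε : P.ε = 1) {k : ℕ} {A B : Submodule F V}
    (h : P.Paired (2 * k) A B) : P.Swap A B := by
  induction k generalizing A B with
  | zero => exact h.swap_zero
  | succ k ih =>
    obtain ⟨e, he, e', he', h1, A', B', h2, h3, h4, h5, h6⟩ := Paired.split (k := 2 * k + 1) h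
    obtain ⟨u, hu, u', hu', k1, A'', B'', k2, k3, k4, k5, k6⟩ := h2.split
    have hA : A' ≤ A := h3 ▸ le_sup_right
    have hB : B' ≤ B := h4 ▸ le_sup_right
    have kA : A'' ≤ A' := k3 ▸ le_sup_right
    have kB : B'' ≤ B' := k4 ▸ le_sup_right
    rw [← h3, ← h4, ← k3, ← k4, ← sup_assoc, ← sup_assoc]
    refine (swap_plane hε (h.singA e he) (h.singB e' he') (h2.singA u hu) (h2.singB u' hu') h1 k1
      (h.orthA (hA hu) e he) (h.orthB (hB hu') e' he') (mem_perp_span_singleton.1 (h5 hu))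
      (mem_perp_span_singleton.1 (h6 hu'))).sup (ih k2) ?_
    rw [le_perp_comm, perp_sup, perp_sup, perp_sup]
    simp only [le_inf_iff, sup_le_iff]
    refine ⟨⟨⟨?_, kB.trans h6⟩, ?_, k6⟩, ⟨kA.trans h5, ?_⟩, k5, ?_⟩
    · exact (kA.trans hA).trans
        (h.orthA.trans (perp_anti ((Submodule.span_singleton_le_iff_mem _ _).2 he)))
    · exact kA.trans (h2.orthA.trans (perp_anti ((Submodule.span_singleton_le_iff_mem _ _).2 hu)))
    · exact (kB.trans hB).trans
        (h.orthB.trans (perp_anti ((Submodule.span_singleton_le_iff_mem _ _).2 he')))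
    · exact kB.trans (h2.orthB.trans (perp_anti ((Submodule.span_singleton_le_iff_mem _ _).2 hu')))

theorem TSPair.exists_swap {A B : Submodule F V} (h : P.TSPair A B)
    (hk : P.Λ ≠ ⊥ ∨ Even (finrank F A)) : ∃ s ∈ P.E, (∀ a ∈ A, s a ∈ B) ∧ ∀ b ∈ B, s b ∈ A := by
  have h1 : P.Paired (finrank F A) A B := ⟨h.singA, h.singB, h.orthA, h.orthB, rfl, h.dim.symm,
    fun a ha ha' => h.eq_zero ha (h.symm.mem_of_perp ha')⟩
  have h2 : P.Swap A B := by
    by_cases hΛ : P.Λ = ⊥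
    · obtain ⟨k, hk⟩ := hk.resolve_left (not_not.2 hΛ)
      rw [hk, ← two_mul] at h1
      exact h1.swap_of_even (ε_eq_one_of_Λ hΛ)
    · exact h1.swap_of_Λ hΛ
  obtain ⟨s, hs, h3, h4, -⟩ := h2
  exact ⟨s, hs, h3, h4⟩

theorem TSPair.not_E_le {A B : Submodule F V} (h : P.TSPair A B) (h2 : 2 ≤ finrank F A) :
    ¬ P.E ≤ pairStab A B := by
  intro hE
  obtain ⟨e, he, he0⟩ := exists_mem_ne_zero_of_finrank (A := A) (by omega)
  obtain ⟨y, hy, hye⟩ := exists_mem_notMem_of_finrank_lt (A := A) (S := F ∙ e)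
    (by have := finrank_span_singleton_le (F := F) e; omega)
  have hv := EV.of_sing (h.singA e he) (h.singA y hy) (h.orthA hy e he)
  obtain ⟨b, hb, hb1, hb2⟩ := h.exists_f ((Submodule.span_singleton_le_iff_mem _ _).2 he) hy hye 1
  rcases hE hv.equiv_mem_E with h3 | h3
  · have h4 := (h3.2 b).1 hb
    rw [EV.equiv_apply, eich_apply_of_orth _ _ (mem_perp_span_singleton.1 hb1), f_symm_one hb2,
      P.ε_sq, one_smul] at h4
    exact he0 (h.eq_zero he (by simpa using B.sub_mem hb h4))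
  · have h4 := (h3.1 e).1 he
    rw [EV.equiv_apply, hv.eich_self] at h4
    exact he0 (h.eq_zero he h4)

end PForm

open PForm QuadraticMap

variable {ι : Type} [Fintype ι] [DecidableEq ι] {F : Type*} [Field F]

omit [Fintype ι] [DecidableEq ι] in
theorem isCompl_of_isMDecomposition {k : ℕ} {D : Fin 2 → Submodule F (ι → F)}
    (hD : Geo.IsMDecomposition k D) : IsCompl (D 0) (D 1) := by
  refine ⟨hD.indep.pairwiseDisjoint (by decide), ?_⟩
  rw [codisjoint_iff, eq_top_iff, ← hD.iSup_eq_top]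
  exact iSup_le (Fin.forall_fin_two.2 ⟨le_sup_left, le_sup_right⟩)

theorem isMaximalIn_tsPair (P : PForm F (ι → F)) {G : Subgroup (GL ι F)}
    (hG : ∀ g, g ∈ G ↔ gl g ∈ P.E) {k : ℕ} {D : Fin 2 → Submodule F (ι → F)}
    (hD : Geo.IsMDecomposition k D) (hs : ∀ i, ∀ x ∈ D i, P.Sing x)
    (ho : ∀ i, D i ≤ P.perp (D i)) (h5 : 5 ≤ k) (hΛ : ∀ ν ∈ P.Λ, ∃ a, ν = a - P.ε * P.σ a)
    (hk : P.Λ ≠ ⊥ ∨ Even k) : Geo.IsMaximalIn G (Geo.decompositionStabilizer D ⊓ G) := by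
  have h : P.TSPair (D 0) (D 1) := ⟨hs 0, hs 1, ho 0, ho 1, isCompl_of_isMDecomposition hD,
    by rw [hD.finrank_eq, hD.finrank_eq]⟩
  rw [← hD.finrank_eq 0] at h5 hk
  exact isMaximalIn_of_E P hG _ (mem_decompositionStabilizer_two D) (h.not_E_le (by omega))
    fun M h1 h2 => h.c2 h5 hΛ (h2.trans E_le_isom) h1 (h.exists_swap hk)

omit [Fintype ι] [DecidableEq ι] in
theorem sympP_Λ_min {f : (ι → F) → (ι → F) → F} (hf : Geo.IsSymplecticForm f) (h2 : (2 : F) ≠ 0) :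
    ∀ ν ∈ (sympP hf).Λ, ∃ a, ν = a - (sympP hf).ε * (sympP hf).σ a := fun ν _ =>
  ⟨ν / 2, by change ν = ν / 2 - -1 * (ν / 2); field_simp; ring⟩

omit [Fintype ι] [DecidableEq ι] in
theorem unitP_Λ_min [Finite F] {σ : F ≃+* F} {f : (ι → F) → (ι → F) → F}
    (hf : Geo.IsUnitaryForm σ f) (l : F) (hl : l + σ l = 1) :
    ∀ ν ∈ (unitP hf l hl).Λ, ∃ a, ν = a - (unitP hf l hl).ε * (unitP hf l hl).σ a := by
  intro ν hν
  refine ⟨l * ν, ?_⟩
  change ν + σ ν = 0 at hν
  change ν = l * ν - 1 * σ (l * ν)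
  rw [map_mul]
  linear_combination (-ν) * hl + σ l * hν

omit [Fintype ι] [DecidableEq ι] in
theorem unitP_Λ_ne_bot [Finite F] {σ : F ≃+* F} {f : (ι → F) → (ι → F) → F}
    (hf : Geo.IsUnitaryForm σ f) (l : F) (hl : l + σ l = 1) : (unitP hf l hl).Λ ≠ ⊥ := by
  intro h
  obtain ⟨a, ha⟩ := exists_ne_of_ne_refl hf.ne_refl
  exact ha (σ_eq_of_Λ h a)

omit [Fintype ι] [DecidableEq ι] in
theorem unitP_sing_iff [Finite F] {σ : F ≃+* F} {f : (ι → F) → (ι → F) → F}
    (hf : Geo.IsUnitaryForm σ f) (l : F) (hl : l + σ l = 1) (x : ι → F) :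
    (unitP hf l hl).Sing x ↔ f x x = 0 :=
  ⟨fun h => h.f_self, fun h => by change l * f x x + σ (l * f x x) = 0; simp [h]⟩

omit [Fintype ι] [DecidableEq ι] in
theorem quadP_Λ_min [Finite F] {Q : (ι → F) → F} (hQ : Geo.IsNondegenerateQuadraticForm Q) :
    ∀ ν ∈ (quadP hQ).Λ, ∃ a, ν = a - (quadP hQ).ε * (quadP hQ).σ a := fun ν hν =>
  ⟨0, by rw [show ν = 0 from hν]; simp⟩

omit [Fintype ι] [DecidableEq ι] in
theorem le_perp_of_isTotallySingularQuad [Finite F] {Q : (ι → F) → F}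
    (hQ : Geo.IsNondegenerateQuadraticForm Q) {W : Submodule F (ι → F)}
    (hW : Geo.IsTotallySingularQuad Q W) : W ≤ (quadP hQ).perp W := fun u hu v hv => by
  change polar Q u v = 0
  rw [polar, hW _ (W.add_mem hu hv), hW u hu, hW v hv]; simp

theorem sp_c2_ts {f : (ι → F) → (ι → F) → F} (hf : Geo.IsSymplecticForm f) (h2 : (2 : F) ≠ 0)
    {k : ℕ} (h5 : 5 ≤ k) {D : Fin 2 → Submodule F (ι → F)} (hD : Geo.IsMDecomposition k D)
    (hts : ∀ i, Geo.IsTotallySingularFor f (D i)) :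
    Geo.IsMaximalIn (preserving (glToMat ι F) f)
      (Geo.decompositionStabilizer D ⊓ preserving (glToMat ι F) f) :=
  isMaximalIn_tsPair (sympP hf) (mem_preserving_iff_sympP hf) hD (fun _ _ _ => trivial)
    (fun i u hu v hv => hts i u hu v hv) h5 (sympP_Λ_min hf h2) (Or.inl top_ne_bot)

theorem su_c2_ts [Fintype F] {q : ℕ} (hF : Fintype.card F = q ^ 2) {n : ℕ} (hn : n ≠ 3)
    {k : ℕ} (h5 : 5 ≤ k) {D : Fin 2 → Submodule F (Fin n → F)} (hD : Geo.IsMDecomposition k D)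
    (hts : ∀ i, Geo.IsTotallySingularFor (hermForm n F q) (D i)) :
    Geo.IsMaximalIn (GU n F q ⊓ Geo.specialLinear (Fin n) F)
      (Geo.decompositionStabilizer D ⊓ (GU n F q ⊓ Geo.specialLinear (Fin n) F)) := by
  obtain ⟨l, hl⟩ := exists_trace_one (isUnitaryForm_hermForm hF n)
  exact isMaximalIn_tsPair _ (mem_GU_inf_iff hF hn l hl) hD
    (fun i x hx => (unitP_sing_iff _ l hl x).2 (hts i x hx x hx))
    (fun i u hu v hv => hts i u hu v hv) h5 (unitP_Λ_min _ l hl) (Or.inl (unitP_Λ_ne_bot _ l hl))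

theorem omega_c2_ts [Finite F] {Q : (ι → F) → F} (hQ : Geo.IsNondegenerateQuadraticForm Q)
    (hn : 5 ≤ Fintype.card ι) {k : ℕ} (h5 : 5 ≤ k) (hk : Even k)
    {D : Fin 2 → Submodule F (ι → F)} (hD : Geo.IsMDecomposition k D)
    (hts : ∀ i, Geo.IsTotallySingularQuad Q (D i)) :
    Geo.IsMaximalIn (Geo.omegaGL Q) (Geo.decompositionStabilizer D ⊓ Geo.omegaGL Q) :=
  isMaximalIn_tsPair (quadP hQ) (mem_omegaGL_iff hQ hn) hD hts
    (fun i => le_perp_of_isTotallySingularQuad hQ (hts i)) h5 (quadP_Λ_min hQ) (Or.inr hk)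

/-- Two non-isometric orthogonal non-degenerate subspaces of dimension at least five. -/
theorem omega_c2_nonisometric [Finite F] {Q : (ι → F) → F}
    (hQ : Geo.IsNondegenerateQuadraticForm Q) {k : ℕ} (h5 : 5 ≤ k)
    {D : Fin 2 → Submodule F (ι → F)} (hD : Geo.IsNondegenerateMDecomposition (polar Q) k D)
    (hni : ¬ Geo.AreIsometricFor Q (D 0) (D 1)) :
    Geo.IsMaximalIn (Geo.omegaGL Q) (Geo.decompositionStabilizer D ⊓ Geo.omegaGL Q) := by
  set P := quadP hQ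
  have hc := isCompl_of_isMDecomposition hD.decomp
  have h0 := hD.decomp.finrank_eq 0
  have h1 := hD.decomp.finrank_eq 1
  have h2 := Submodule.finrank_add_eq_of_isCompl hc
  have h3 := P.finrank_perp (D 1)
  have h4 : P.perp (D 1) = D 0 := (Submodule.eq_of_le_of_finrank_le
    (show D 0 ≤ P.perp (D 1) from fun u hu v hv => hD.orthogonal 0 1 (by decide) u hu v hv)
    (by omega)).symm
  have hsw : ∀ g ∈ P.isom, ¬ ∀ x ∈ D 0, g x ∈ D 1 := by
    intro g hg h
    have h5 := (map_eq_iff_forall g).2 (iff_of_map_le g (by omega) h)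
    refine hni ⟨(g.submoduleMap (D 0)).trans (LinearEquiv.ofEq _ _ h5), fun w => ?_⟩
    exact sub_eq_zero.1 (isom_h hg w)
  have h6 : Geo.decompositionStabilizer D ⊓ Geo.omegaGL Q =
      Geo.subspaceStabilizer (D 1) ⊓ Geo.omegaGL Q := by
    ext g
    simp only [Subgroup.mem_inf, mem_subspaceStabilizer_iff, mem_decompositionStabilizer_two]
    refine and_congr_left fun hg => ⟨fun h => ?_, fun h => Or.inl ⟨?_, h⟩⟩
    · exact h.elim (fun h => h.2) fun h =>
        absurd (fun x => (h.1 x).1) (hsw _ (gl_mem_isom_of_mem_omegaGL hQ g hg))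
    · rw [← h4]
      exact mem_stabSub_perp (gl_mem_isom_of_mem_omegaGL hQ g hg) h
  rw [h6]
  rw [finrank_pi_card] at h2
  refine omega_c1_nondeg_aux hQ ?_ (by rw [h4]; exact hc.inf_eq_bot) (by omega) ?_ (by omega)
  · intro h
    rw [h, finrank_bot] at h1
    omega
  · intro g hg
    rw [h4]
    simpa using hsw g hg

end Cfsg.Agent.H26
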