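import Cfsg.Agent.H26.PC5Main
import Cfsg.Agent.H26.PC2Geo
import Cfsg.Agent.H25.FinField

/-!
Maximality of subfield subgroups of `Sp`, `SU` and `Ω`.
-/

set_option autoImplicit false

namespace Cfsg.Agent.H26

open Module PForm QuadraticMap
open scoped Matrix

variable {ι : Type} [Fintype ι] [DecidableEq ι] {F : Type*} [Field F] {F₀ : Subfield F}

variable (F₀) in
/-- The rational structure spanned by the columns of `P`. -/
def jmap (P : GL ι F) : (ι → F₀) →ₗ[F₀] (ι → F) where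
  toFun x := (P : Matrix ι ι F) *ᵥ up x
  map_add' x y := by rw [up_add, Matrix.mulVec_add]
  map_smul' c x := by rw [up_smul, Matrix.mulVec_smul]; rfl

theorem jmap_apply (P : GL ι F) (x : ι → F₀) : jmap F₀ P x = (P : Matrix ι ι F) *ᵥ up x := rfl

theorem jmap_smul (P : GL ι F) (c : F₀) (x : ι → F₀) :
    jmap F₀ P (c • x) = (c : F) • jmap F₀ P x := map_smul _ c x

theorem jmap_span (P : GL ι F) : Submodule.span F (Set.range (jmap F₀ P)) = ⊤ := by
  rw [eq_top_iff]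
  intro x _
  obtain ⟨y, rfl⟩ := (gl P).surjective x
  rw [pi_eq_sum_univ' y, map_sum]
  refine Submodule.sum_mem _ fun i _ => ?_
  rw [map_smul]
  exact Submodule.smul_mem _ _ (Submodule.subset_span ⟨Pi.single i 1, by
    rw [jmap_apply, up_single, gl_apply]⟩)

theorem mem_subfieldSubgroup_iff [Finite F] (P g : GL ι F) :
    g ∈ Geo.subfieldSubgroup F₀ P ↔ gl g ∈ ratNorm F (jmap F₀ P) := by
  rw [← H31.glEquiv_mem_baerNorm_iff, ratNorm]
  have : H31.colSpan F₀ P = (LinearMap.range (jmap F₀ P)).toAddSubgroup := by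
    ext x
    rw [H31.mem_colSpan']
    exact ⟨fun ⟨u, hu, h⟩ => ⟨fun i => ⟨u i, hu i⟩, h.symm⟩,
      fun ⟨u, h⟩ => ⟨up u, fun i => (u i).2, h.symm⟩⟩
  rw [this]
  rfl

theorem exists_jmap_ne_zero (Pf : PForm F (ι → F)) (P : GL ι F) {v : ι → F₀} (hv : v ≠ 0) :
    (∃ x, Pf.f (jmap F₀ P x) (jmap F₀ P v) ≠ 0) ∧ ∃ x, Pf.f (jmap F₀ P v) (jmap F₀ P x) ≠ 0 := by
  have : ∃ x, Pf.f (jmap F₀ P v) (jmap F₀ P x) ≠ 0 := by
    by_contra hc
    push Not at hc
    have : jmap F₀ P v ∈ Pf.perp (Submodule.span F (Set.range (jmap F₀ P))) :=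
      mem_perp_span.2 (by rintro _ ⟨y, rfl⟩; exact hc y)
    rw [jmap_span, perp_top, Submodule.mem_bot] at this
    exact hv (up_eq_zero.1 ((gl P).map_eq_zero_iff.1 this))
  exact ⟨this.imp fun _ => f_symm_ne, this⟩

/-- The restriction of a form to a rational structure. -/
def restF (Pf : PForm F (ι → F)) {P : GL ι F}
    (hP : ∀ u v, Pf.f (jmap F₀ P u) (jmap F₀ P v) ∈ F₀) (u v : ι → F₀) : F₀ := ⟨_, hP u v⟩

section RestF

variable (Pf : PForm F (ι → F)) {P : GL ι F} (hP : ∀ u v, Pf.f (jmap F₀ P u) (jmap F₀ P v) ∈ F₀)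

theorem restF_add_left (x y v : ι → F₀) :
    restF Pf hP (x + y) v = restF Pf hP x v + restF Pf hP y v :=
  Subtype.ext (by change Pf.f _ _ = Pf.f _ _ + Pf.f _ _; rw [map_add, Pf.f_add_left])

theorem restF_smul_left (c : F₀) (x v : ι → F₀) :
    restF Pf hP (c • x) v = c * restF Pf hP x v :=
  Subtype.ext (by change Pf.f _ _ = c * Pf.f _ _; rw [jmap_smul, Pf.f_smul_left])

theorem restF_nondeg : Geo.IsNondegenerateForm (restF Pf hP) := fun _ hv =>
  (exists_jmap_ne_zero Pf P hv).imp (Exists.imp fun _ h h' => h (congrArg Subtype.val h'))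
    (Exists.imp fun _ h h' => h (congrArg Subtype.val h'))

theorem restF_bilin (hσ : ∀ c ∈ F₀, Pf.σ c = c) : Geo.IsBilinearForm (restF Pf hP) :=
  ⟨restF_add_left Pf hP, restF_smul_left Pf hP,
    fun x y v => Subtype.ext (by
      change Pf.f _ _ = Pf.f _ _ + Pf.f _ _; rw [map_add, Pf.f_add_right]),
    fun c x v => Subtype.ext (by
      change Pf.f _ _ = c * Pf.f _ _; rw [jmap_smul, Pf.f_smul_right, hσ c c.2])⟩

end RestF

theorem isMaximalIn_rat [Fintype F] {r : ℕ} (hr : r.Prime)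
    (hcard : Fintype.card F = Nat.card F₀ ^ r) {P₀ : PForm F₀ (ι → F₀)} {Pf : PForm F (ι → F)}
    {P : GL ι F} (R : Rat P₀ Pf (jmap F₀ P)) {G : Subgroup (GL ι F)}
    (hG : ∀ g, g ∈ G ↔ gl g ∈ Pf.E) (h5 : 5 ≤ Fintype.card ι) (hd : P₀.d + 2 ≤ Fintype.card ι)
    (hΛ : ∀ ν ∈ Pf.Λ, ∃ a c, ∃ ν₀ ∈ P₀.Λ,
      ν = a - Pf.ε * Pf.σ a + c * Pf.σ c * algebraMap F₀ F ν₀)
    (hc : P₀.Λ ≠ ⊥ ∨ (P₀.d + 4 ≤ Fintype.card ι ∧ (r = 2 ∨ Pf.Λ = ⊥))) :
    Geo.IsMaximalIn G (Geo.subfieldSubgroup F₀ P ⊓ G) := by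
  rw [← finrank_pi_card (F := F₀)] at h5 hd hc
  refine isMaximalIn_of_E Pf hG _ (mem_subfieldSubgroup_iff P) (R.not_E_le h5 hd ?_)
    fun M => R.le_or_le h5 hd (subalgebra_eq_bot_or_top hr hcard) hΛ (hc.imp_right
      (And.imp_right fun hc => ?_))
  · obtain ⟨c, hc⟩ := exists_notMem_subfield hr hcard
    exact ⟨c, fun ⟨x, hx⟩ => hc (hx ▸ x.2)⟩
  rcases hr.eq_two_or_odd' with h2 | h2
  · exact Or.inl (by rw [finrank_subfield_of_card hcard, h2])
  refine Or.inr ⟨hc.resolve_left (by rintro rfl; exact absurd h2 (by decide)), fun c ⟨x, hx⟩ => ?_⟩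
  obtain ⟨s, ⟨k, rfl⟩, hs⟩ := H25.exists_odd_pow_mem h2 hcard
  by_cases hc0 : c = 0
  · exact ⟨0, by simp [hc0]⟩
  have h3 : c * c ∈ F₀ := hx ▸ x.2
  refine ⟨⟨c, ?_⟩, rfl⟩
  convert F₀.div_mem (hs c) (F₀.pow_mem h3 k) using 1
  field_simp
  ring

theorem sp_c5_aux [Fintype F] {r : ℕ} (hr : r.Prime) (hcard : Fintype.card F = Nat.card F₀ ^ r)
    {f : (ι → F) → (ι → F) → F} (hf : Geo.IsSymplecticForm f) (h5 : 5 ≤ Fintype.card ι)
    {P : GL ι F} (hP : ∀ u v, f (jmap F₀ P u) (jmap F₀ P v) ∈ F₀) :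
    Geo.IsMaximalIn (preserving (glToMat ι F) f)
      (Geo.subfieldSubgroup F₀ P ⊓ preserving (glToMat ι F) f) := by
  have hf₀ : Geo.IsSymplecticForm (restF (sympP hf) hP) :=
    ⟨restF_bilin _ _ fun _ _ => rfl, fun v w => Subtype.ext (hf.skew _ _),
      fun v => Subtype.ext (hf.alternating _), restF_nondeg _ _⟩
  refine isMaximalIn_rat hr hcard (P₀ := sympP hf₀) (Pf := sympP hf)
    ⟨fun _ => rfl, by change -1 = algebraMap F₀ F (-1); simp, fun _ _ => rfl, fun _ => trivial,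
      fun _ => Iff.rfl, jmap_span P⟩
    (mem_preserving_iff_sympP hf) h5 (by change 1 + 2 ≤ _; omega) (fun ν hν => ?_)
    (Or.inl top_ne_bot)
  by_cases h2 : (2 : F) = 0
  · have : CharP F 2 := CharTwo.of_one_ne_zero_of_two_eq_zero one_ne_zero h2
    obtain ⟨c, hc⟩ := FiniteField.isSquare_of_char_two (ringChar.eq F 2) ν
    exact ⟨0, c, 1, trivial, by change ν = 0 - -1 * 0 + c * c * algebraMap F₀ F 1; simp [hc]⟩
  · obtain ⟨a, ha⟩ := sympP_Λ_min hf h2 ν hν
    exact ⟨a, 0, 0, trivial, by simpa using ha⟩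

theorem sp_c5 [Fintype F] {r : ℕ} (hr : r.Prime) (hcard : Fintype.card F = Nat.card F₀ ^ r)
    {f : (ι → F) → (ι → F) → F} (hf : Geo.IsSymplecticForm f) (h5 : 5 ≤ Fintype.card ι)
    {P : GL ι F} {ζ : F} (hζ : ζ ≠ 0) (hP : Geo.IsFormRationalStructure f F₀ ζ P) :
    Geo.IsMaximalIn (preserving (glToMat ι F) f)
      (Geo.subfieldSubgroup F₀ P ⊓ preserving (glToMat ι F) f) := by
  have hf' : Geo.IsSymplecticForm fun u v => ζ * f u v :=
    ⟨⟨fun x y v => by rw [hf.bilinear.add_left, mul_add],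
      fun c x v => by rw [hf.bilinear.smul_left, mul_left_comm],
      fun x y v => by rw [hf.bilinear.add_right, mul_add],
      fun c x v => by rw [hf.bilinear.smul_right, mul_left_comm]⟩,
      fun v w => by rw [hf.skew, mul_neg], fun v => by rw [hf.alternating, mul_zero],
      fun v hv => by simpa [hζ] using hf.nondegenerate v hv⟩
  have h : preserving (glToMat ι F) f = preserving (glToMat ι F) fun u v => ζ * f u v := by
    ext g
    exact forall₂_congr fun u v => (mul_right_inj' hζ).symm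
  rw [h]
  exact sp_c5_aux hr hcard hf' h5 fun u v => hP _ _ (fun i => (u i).2) fun i => (v i).2

/-- The restriction of a field automorphism to a subfield of a finite field. -/
noncomputable def restrictAut [Finite F] (σ : F ≃+* F) (F₀ : Subfield F) : F₀ ≃+* F₀ :=
  RingEquiv.ofBijective (((σ : F →+* F).comp F₀.subtype).codRestrict F₀
    fun x => H25.map_mem_subfield σ x.2) (Finite.injective_iff_bijective.1 (RingHom.injective _))

theorem su_c5 [Fintype F] {r : ℕ} (hr : r.Prime) (hro : Odd r)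
    (hcard : Fintype.card F = Nat.card F₀ ^ r) {σ : F ≃+* F} {f : (ι → F) → (ι → F) → F}
    (hf : Geo.IsUnitaryForm σ f) (h5 : 5 ≤ Fintype.card ι) {P : GL ι F}
    (hP : Geo.IsFormRationalStructure f F₀ 1 P) :
    Geo.IsMaximalIn (preserving (glToMat ι F) f ⊓ Geo.specialLinear ι F)
      (Geo.subfieldSubgroup F₀ P ⊓ (preserving (glToMat ι F) f ⊓ Geo.specialLinear ι F)) := by
  have hP' : ∀ u v, f (jmap F₀ P u) (jmap F₀ P v) ∈ F₀ := fun u v => by
    simpa only [one_mul, jmap_apply] using hP (up u) (up v) (fun i => (u i).2) fun i => (v i).2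
  obtain ⟨l', hl'⟩ := exists_trace_one hf
  have hf₀ : Geo.IsUnitaryForm (restrictAut σ F₀) (restF (unitP hf l' hl') hP') := by
    refine ⟨fun h => ?_, fun a => Subtype.ext (hf.involutive a), restF_add_left _ _,
      restF_smul_left _ _, fun v w => Subtype.ext (hf.herm _ _), restF_nondeg _ _⟩
    have h1 : ∀ x : F₀, σ x = x := fun x => congrArg Subtype.val (RingEquiv.congr_fun h x)
    rcases subalgebra_eq_bot_or_top hr hcard
      { (H25.fixedSub σ).toSubring with algebraMap_mem' := h1 } with h2 | h2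
    · have h3 : H25.fixedSub σ = F₀ := by
        refine le_antisymm (fun x hx => ?_) fun x hx => h1 ⟨x, hx⟩
        obtain ⟨y, rfl⟩ := Algebra.mem_bot.1 ((SetLike.ext_iff.1 h2 x).1 hx)
        exact y.2
      have h4 := H25.card_fixedSub hf.ne_refl hf.involutive
      rw [h3, hcard] at h4
      rw [Nat.pow_right_injective (H25.two_le_card_subfield F₀) h4] at hro
      exact absurd hro (by decide)
    · exact H25.fixedSub_ne_top hf.ne_refl
        (eq_top_iff.2 fun x _ => (SetLike.ext_iff.1 h2 x).2 Algebra.mem_top)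
  obtain ⟨l, hl⟩ := exists_trace_one hf₀
  have hl' : (l : F) + σ l = 1 := congrArg Subtype.val hl
  refine isMaximalIn_rat hr hcard (P₀ := unitP hf₀ l hl) (Pf := unitP hf l hl')
    ⟨fun _ => rfl, (map_one _).symm, fun _ _ => rfl, fun x => ?_,
      fun a => ⟨fun h => Subtype.ext h, fun h => congrArg Subtype.val h⟩, jmap_span P⟩
    (mem_SU_iff_unitP hf l hl' (Or.inl (by omega))) h5 (by change 2 + 2 ≤ _; omega)
    (fun ν hν => ?_) (Or.inl (unitP_Λ_ne_bot _ _ _))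
  · exact Eq.mpr (congrArg (· ∈ _) (sub_self _)) (zero_mem _)
  · obtain ⟨a, ha⟩ := unitP_Λ_min hf _ hl' ν hν
    exact ⟨a, 0, 0, zero_mem _, by simpa using ha⟩

theorem su_c5_o [Fintype F] (h2 : (2 : F) ≠ 0) (hcard : Fintype.card F = Nat.card F₀ ^ 2)
    {σ : F ≃+* F} {f : (ι → F) → (ι → F) → F}
    (hf : Geo.IsUnitaryForm σ f) (h7 : 7 ≤ Fintype.card ι) {P : GL ι F}
    (hP : Geo.IsFormRationalStructure f F₀ 1 P) :
    Geo.IsMaximalIn (preserving (glToMat ι F) f ⊓ Geo.specialLinear ι F)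
      (Geo.subfieldSubgroup F₀ P ⊓ (preserving (glToMat ι F) f ⊓ Geo.specialLinear ι F)) := by
  have hP' : ∀ u v, f (jmap F₀ P u) (jmap F₀ P v) ∈ F₀ := fun u v => by
    simpa only [one_mul, jmap_apply] using hP (up u) (up v) (fun i => (u i).2) fun i => (v i).2
  have hσ : ∀ x ∈ F₀, σ x = x := fun x hx => by
    rwa [H25.eq_fixedSub_of_card hf.ne_refl hf.involutive hcard] at hx
  have hl : (2 : F)⁻¹ + σ 2⁻¹ = 1 := by
    rw [map_inv₀, map_ofNat]; field_simp; ring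
  set Pf := unitP hf _ hl
  have h2' : (2 : F₀) ≠ 0 := fun h => h2 (congrArg Subtype.val h)
  set f₀ := restF Pf hP'
  have hb : Geo.IsBilinearForm f₀ := restF_bilin Pf hP' hσ
  have hs : ∀ x y, f₀ y x = f₀ x y := fun x y =>
    Subtype.ext ((hf.herm _ _).trans (hσ _ (hP' x y)))
  have hp : polar (fun x => 2⁻¹ * f₀ x x) = f₀ := by
    funext x y
    rw [polar, hb.add_left, hb.add_right, hb.add_right, hs x y]
    field_simp
    ring
  have hQ₀ : Geo.IsNondegenerateQuadraticForm fun x => 2⁻¹ * f₀ x x :=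
    ⟨fun c v => by rw [hb.smul_left, hb.smul_right]; ring, hp.symm ▸ hb,
      hp.symm ▸ restF_nondeg Pf hP'⟩
  refine isMaximalIn_rat Nat.prime_two hcard (P₀ := quadP hQ₀) (Pf := Pf)
    ⟨fun c => hσ c c.2, (map_one _).symm, fun x y => ?_, fun x => ?_, fun a => ?_, jmap_span P⟩
    (mem_SU_iff_unitP hf _ hl (Or.inl (by omega))) (by omega) (by change 3 + 2 ≤ _; omega)
    (fun ν hν => ?_) (Or.inr ⟨h7, Or.inl rfl⟩)
  · exact congrArg Subtype.val (congrFun (congrFun hp x) y).symm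
  · exact Eq.mpr (congrArg (· ∈ _) (sub_self _)) (zero_mem _)
  · change (a : F) + σ a = 0 ↔ a = 0
    rw [hσ a a.2, ← two_mul, mul_eq_zero, or_iff_right h2, ZeroMemClass.coe_eq_zero]
  · obtain ⟨a, ha⟩ := unitP_Λ_min hf _ hl ν hν
    exact ⟨a, 0, 0, zero_mem _, by simpa using ha⟩

theorem omega_c5_aux [Fintype F] {r : ℕ} (hr : r.Prime) (hcard : Fintype.card F = Nat.card F₀ ^ r)
    {Q : (ι → F) → F} (hQ : Geo.IsNondegenerateQuadraticForm Q) (h7 : 7 ≤ Fintype.card ι)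
    {P : GL ι F} (hP : Geo.IsQuadFormRationalStructure Q F₀ P) :
    Geo.IsMaximalIn (Geo.omegaGL Q) (Geo.subfieldSubgroup F₀ P ⊓ Geo.omegaGL Q) := by
  have hP' : ∀ u, Q (jmap F₀ P u) ∈ F₀ := fun u => hP _ fun i => (u i).2
  let Q₀ : (ι → F₀) → F₀ := fun u => ⟨_, hP' u⟩
  have hp : ∀ x y, ((polar Q₀ x y : F₀) : F) = polar Q (jmap F₀ P x) (jmap F₀ P y) := fun x y => by
    simp [polar, Q₀]
  have hP'' : ∀ u v, (quadP hQ).f (jmap F₀ P u) (jmap F₀ P v) ∈ F₀ := fun u v => by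
    change polar Q _ _ ∈ F₀
    exact (hp u v) ▸ (polar Q₀ u v).2
  have hp' : polar Q₀ = restF (quadP hQ) hP'' := funext₂ fun x y => Subtype.ext (hp x y)
  have hQ₀ : Geo.IsNondegenerateQuadraticForm Q₀ :=
    ⟨fun c v => Subtype.ext (by change Q _ = c ^ 2 * Q _; rw [jmap_smul, hQ.smul]),
      hp' ▸ restF_bilin _ _ fun _ _ => rfl, hp' ▸ restF_nondeg _ _⟩
  refine isMaximalIn_rat hr hcard (P₀ := quadP hQ₀) (Pf := quadP hQ)
    ⟨fun _ => rfl, (map_one _).symm, fun x y => (hp x y).symm, fun x => sub_self _,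
      fun a => ZeroMemClass.coe_eq_zero, jmap_span P⟩
    (mem_omegaGL_iff hQ (by omega)) (by omega) (by change 3 + 2 ≤ _; omega)
    (fun ν hν => ?_) (Or.inr ⟨h7, Or.inr rfl⟩)
  obtain ⟨a, ha⟩ := quadP_Λ_min hQ ν hν
  exact ⟨a, 0, 0, zero_mem _, by simpa using ha⟩

theorem omegaGL_smul {ζ : F} (hζ : ζ ≠ 0) (Q : (ι → F) → F) :
    Geo.omegaGL (fun v => ζ * Q v) = Geo.omegaGL Q := by
  have h : isometryGroup F (fun v => ζ * Q v) = isometryGroup F Q := by
    ext g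
    exact forall₂_congr fun u v => mul_right_inj' hζ
  rw [Geo.omegaGL, Geo.omegaGL, Subgroup.map_subtype_commutator, Subgroup.map_subtype_commutator,
    h]

omit [Fintype ι] [DecidableEq ι] in
theorem isNondegenerateQuadraticForm_smul {ζ : F} (hζ : ζ ≠ 0) {Q : (ι → F) → F}
    (hQ : Geo.IsNondegenerateQuadraticForm Q) :
    Geo.IsNondegenerateQuadraticForm fun v => ζ * Q v := by
  have hp : polar (fun v => ζ * Q v) = fun x y => ζ * polar Q x y := by
    funext x y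
    simp only [polar]
    ring
  have hb := hQ.polar_bilinear
  refine ⟨fun c v => by rw [hQ.smul, mul_left_comm], ?_, ?_⟩
  · rw [hp]
    exact ⟨fun x y v => by rw [hb.add_left, mul_add], fun c x v => by rw [hb.smul_left, mul_left_comm],
      fun x y v => by rw [hb.add_right, mul_add], fun c x v => by rw [hb.smul_right, mul_left_comm]⟩
  · rw [hp]
    exact fun v hv => by simpa [hζ] using hQ.nondegenerate v hv

theorem omega_c5 [Fintype F] {r : ℕ} (hr : r.Prime) (hcard : Fintype.card F = Nat.card F₀ ^ r)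
    {Q : (ι → F) → F} (hQ : Geo.IsNondegenerateQuadraticForm Q) (h7 : 7 ≤ Fintype.card ι)
    {P : GL ι F} {ζ : F} (hζ : ζ ≠ 0)
    (hP : Geo.IsQuadFormRationalStructure (fun v => ζ * Q v) F₀ P) :
    Geo.IsMaximalIn (Geo.omegaGL Q) (Geo.subfieldSubgroup F₀ P ⊓ Geo.omegaGL Q) := by
  rw [← omegaGL_smul hζ]
  exact omega_c5_aux hr hcard (isNondegenerateQuadraticForm_smul hζ hQ) h7 hP

end Cfsg.Agent.H26
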