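import Cfsg.Agent.H26.PC3OGeo
import Cfsg.Agent.H26.PC5Geo

/-!
Convenient forms of the maximality of subspace stabilizers in orthogonal groups of small dimension.
-/

set_option autoImplicit false

namespace Cfsg.Agent.H26

open Module QuadraticMap

variable {ι : Type} [Fintype ι] [DecidableEq ι] {F : Type*} [Field F] [Fintype F]
  {Q : (ι → F) → F}

theorem omega_c1_nd (hQ : Geo.IsNondegenerateQuadraticForm Q) (h7 : 7 ≤ Fintype.card ι)
    {W : Submodule F (ι → F)} {k : ℕ} (hk : finrank F W = k) (hk0 : 0 < k)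
    (hk1 : k < Fintype.card ι) (hW : Geo.IsNondegenerateOn (polar Q) W)
    (hne : 2 * k ≠ Fintype.card ι ∨ (¬ Geo.IsPlusTypeOn Q ⊤ ∧ Even k))
    (hex : 4 ≤ Fintype.card F ∨
      ((k ≠ 2 ∨ ¬ Geo.IsPlusTypeOn Q W) ∧ k + 2 ≠ Fintype.card ι)) :
    Geo.IsMaximalIn (Geo.omegaGL Q) (Geo.subspaceStabilizer W ⊓ Geo.omegaGL Q) := by
  subst hk
  refine omega_c1_nondeg_all hQ h7 (fun h => ?_) (fun h => ?_) hW hne ?_
  · rw [h, finrank_bot] at hk0
    exact lt_irrefl _ hk0
  · rw [h, finrank_top, finrank_pi_card] at hk1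
    exact lt_irrefl _ hk1
  · rintro ⟨h1, U, h2, -, h3, h4⟩
    rw [Nat.card_eq_fintype_card] at h1
    rcases hex with h | ⟨h, h'⟩
    · omega
    · rcases h4 with rfl | h4
      · exact h.elim (fun h => h h2) fun h => h h3
      · omega

/-- Non-degenerate subspaces of odd dimension in even-dimensional orthogonal spaces. -/
theorem omega_c1_odd (hQ : Geo.IsNondegenerateQuadraticForm Q) (h7 : 7 ≤ Fintype.card ι)
    (hev : Even (Fintype.card ι)) {W : Submodule F (ι → F)} (hodd : Odd (finrank F W))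
    (hne : 2 * finrank F W ≠ Fintype.card ι) (hW : Geo.IsNondegenerateOn (polar Q) W) :
    Geo.IsMaximalIn (Geo.omegaGL Q) (Geo.subspaceStabilizer W ⊓ Geo.omegaGL Q) := by
  have h1 := Submodule.finrank_le W
  rw [finrank_pi_card] at h1
  obtain ⟨a, ha⟩ := hodd
  obtain ⟨b, hb⟩ := hev
  exact omega_c1_nd hQ h7 rfl (by omega) (by omega) hW (Or.inl hne)
    (Or.inr ⟨Or.inl (by omega), by omega⟩)

end Cfsg.Agent.H26
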