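import Cfsg.Agent.H26.PC1

/-!
Maximality of the stabilizer of a pair of complementary totally singular subspaces.
-/

set_option autoImplicit false

namespace Cfsg.Agent.H26

open Module

variable {F : Type*} [Field F] {V : Type*} [AddCommGroup V] [Module F V]

/-- The stabilizer of an unordered pair of subspaces. -/
def pairStab (A B : Submodule F V) : Subgroup (V ≃ₗ[F] V) where
  carrier := {g | ((∀ x, x ∈ A ↔ g x ∈ A) ∧ ∀ x, x ∈ B ↔ g x ∈ B) ∨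
    ((∀ x, x ∈ A ↔ g x ∈ B) ∧ ∀ x, x ∈ B ↔ g x ∈ A)}
  mul_mem' {g k} hg hk := by
    rcases hg with hg | hg <;> rcases hk with hk | hk
    · exact Or.inl ⟨fun x => (hk.1 x).trans (hg.1 _), fun x => (hk.2 x).trans (hg.2 _)⟩
    · exact Or.inr ⟨fun x => (hk.1 x).trans (hg.2 _), fun x => (hk.2 x).trans (hg.1 _)⟩
    · exact Or.inr ⟨fun x => (hk.1 x).trans (hg.1 _), fun x => (hk.2 x).trans (hg.2 _)⟩
    · exact Or.inl ⟨fun x => (hk.1 x).trans (hg.2 _), fun x => (hk.2 x).trans (hg.1 _)⟩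
  one_mem' := Or.inl ⟨fun _ => Iff.rfl, fun _ => Iff.rfl⟩
  inv_mem' {g} hg := by
    rcases hg with hg | hg
    · exact Or.inl ⟨fun x => by rw [hg.1 (g⁻¹ x), PForm.apply_inv_apply],
        fun x => by rw [hg.2 (g⁻¹ x), PForm.apply_inv_apply]⟩
    · exact Or.inr ⟨fun x => by rw [hg.2 (g⁻¹ x), PForm.apply_inv_apply],
        fun x => by rw [hg.1 (g⁻¹ x), PForm.apply_inv_apply]⟩

theorem mem_pairStab_iff {A B : Submodule F V} {g : V ≃ₗ[F] V} : g ∈ pairStab A B ↔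
    ((∀ x, x ∈ A ↔ g x ∈ A) ∧ ∀ x, x ∈ B ↔ g x ∈ B) ∨
      ((∀ x, x ∈ A ↔ g x ∈ B) ∧ ∀ x, x ∈ B ↔ g x ∈ A) := Iff.rfl

theorem pairStab_comm (A B : Submodule F V) : pairStab A B = pairStab B A := by
  ext g
  simp only [mem_pairStab_iff, and_comm]

theorem iff_of_map_le [FiniteDimensional F V] {A B : Submodule F V} (g : V ≃ₗ[F] V)
    (hd : finrank F B ≤ finrank F A) (h : ∀ x ∈ A, g x ∈ B) (x : V) : x ∈ A ↔ g x ∈ B := by
  have h1 : A.map (g : V →ₗ[F] V) = B := by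
    apply Submodule.eq_of_le_of_finrank_le
    · rintro _ ⟨x, hx, rfl⟩
      exact h x hx
    · rwa [LinearEquiv.finrank_map_eq]
  refine ⟨h x, fun hx => ?_⟩
  rw [← h1] at hx
  obtain ⟨y, hy, h2⟩ := hx
  exact g.injective h2 ▸ hy

theorem mem_pairStab_of_fix [FiniteDimensional F V] {A B : Submodule F V} {g : V ≃ₗ[F] V}
    (hA : ∀ x ∈ A, g x ∈ A) (hB : ∀ x ∈ B, g x ∈ B) : g ∈ pairStab A B :=
  Or.inl ⟨iff_of_map_le g le_rfl hA, iff_of_map_le g le_rfl hB⟩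

theorem mem_pairStab_of_swap [FiniteDimensional F V] {A B : Submodule F V} {g : V ≃ₗ[F] V}
    (hd : finrank F A = finrank F B) (hA : ∀ x ∈ A, g x ∈ B) (hB : ∀ x ∈ B, g x ∈ A) :
    g ∈ pairStab A B :=
  Or.inr ⟨iff_of_map_le g hd.ge hA, iff_of_map_le g hd.le hB⟩

theorem map_eq_iff_forall {A B : Submodule F V} (g : V ≃ₗ[F] V) :
    A.map (g : V →ₗ[F] V) = B ↔ ∀ x, x ∈ A ↔ g x ∈ B := by
  constructor
  · rintro rfl x
    exact ⟨fun h => ⟨x, h, rfl⟩, fun ⟨y, hy, h⟩ => g.injective h ▸ hy⟩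
  · intro h
    ext y
    obtain ⟨x, rfl⟩ := g.surjective y
    exact ⟨fun ⟨z, hz, h'⟩ => h' ▸ (h z).1 hz, fun h' => ⟨x, (h x).2 h', rfl⟩⟩

theorem mem_decompositionStabilizer_two {ι : Type} [Fintype ι] [DecidableEq ι]
    (D : Fin 2 → Submodule F (ι → F)) (g : GL ι F) :
    g ∈ Geo.decompositionStabilizer D ↔ gl g ∈ pairStab (D 0) (D 1) := by
  rw [mem_pairStab_iff, ← map_eq_iff_forall, ← map_eq_iff_forall, ← map_eq_iff_forall,
    ← map_eq_iff_forall]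
  change (∃ σ : Equiv.Perm (Fin 2), ∀ i, (D i).map (gl g : (ι → F) →ₗ[F] (ι → F)) = D (σ i)) ↔ _
  constructor
  · rintro ⟨σ, hσ⟩
    have h0 := hσ 0
    have h1 := hσ 1
    have h2 : σ 0 ≠ σ 1 := σ.injective.ne (by decide)
    generalize σ 0 = i at h0 h2
    generalize σ 1 = j at h1 h2
    fin_cases i <;> fin_cases j
    · exact absurd rfl h2
    · exact Or.inl ⟨h0, h1⟩
    · exact Or.inr ⟨h0, h1⟩
    · exact absurd rfl h2
  · rintro (h | h)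
    · exact ⟨1, Fin.forall_fin_two.2 h⟩
    · exact ⟨Equiv.swap 0 1, Fin.forall_fin_two.2 h⟩

theorem exists_mem_notMem_of_finrank_lt {A S : Submodule F V} [FiniteDimensional F S]
    (h : finrank F S < finrank F A) : ∃ a ∈ A, a ∉ S := by
  by_contra hc
  push Not at hc
  exact absurd (Submodule.finrank_mono (show A ≤ S from hc)) (by omega)

theorem exists_mem_ne_zero_of_finrank {A : Submodule F V} (h : 1 ≤ finrank F A) :
    ∃ a ∈ A, a ≠ 0 :=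
  Submodule.exists_mem_ne_zero_of_ne_bot (by rintro rfl; simp at h)

namespace PForm

variable {P : PForm F V}

theorem Ei.of_tv_add {M : Subgroup (V ≃ₗ[F] V)} {e e' : V} {ν : F} (h : P.Ei M e 0 ν)
    (h' : P.Ei M e' 0 ν) (h'' : P.Ei M (e + e') 0 ν) (h0 : P.f e' e = 0) :
    P.Ei M e (-(P.ε * ν) • e') 0 := by
  refine Ei.of_eq (EV.of_sing h.ev.sing (h'.ev.sing.smul _) (by rw [P.f_smul_left, h0, mul_zero]))
    (M.mul_mem h''.mem (M.mul_mem h.neg_zero.mem h'.neg_zero.mem)) fun x => ?_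
  rw [eich_apply]
  simp only [mul_apply', EV.equiv_apply, eich_zero_apply, f_sub_left, f_add_right,
    P.f_smul_left, f_smul_right, h0, f_symm_zero h0, h.ev.sing.f_self, h'.ev.sing.f_self, map_neg,
    map_mul, σ_ε, P.Λ_σ h.ev.mem_Λ]
  match_scalars
  · ring
  · ring
  · linear_combination (P.ε * ν * P.f x e') * P.ε_sq

variable (P) in
/-- A pair of complementary totally singular subspaces of the same dimension. -/
structure TSPair (A B : Submodule F V) : Prop where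
  singA : ∀ a ∈ A, P.Sing a
  singB : ∀ b ∈ B, P.Sing b
  orthA : A ≤ P.perp A
  orthB : B ≤ P.perp B
  compl : IsCompl A B
  dim : finrank F A = finrank F B

namespace TSPair

variable {A B : Submodule F V}

theorem symm (h : P.TSPair A B) : P.TSPair B A :=
  ⟨h.singB, h.singA, h.orthB, h.orthA, h.compl.symm, h.dim.symm⟩

theorem exists_add (h : P.TSPair A B) (x : V) : ∃ a ∈ A, ∃ b ∈ B, a + b = x :=
  Submodule.mem_sup.1 (by rw [h.compl.sup_eq_top]; trivial)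

theorem eq_zero (h : P.TSPair A B) {x : V} (hA : x ∈ A) (hB : x ∈ B) : x = 0 :=
  (Submodule.disjoint_def.1 h.compl.disjoint) x hA hB

theorem mem_of_perp (h : P.TSPair A B) {x : V} (hx : x ∈ P.perp A) : x ∈ A := by
  obtain ⟨a, ha, b, hb, rfl⟩ := h.exists_add x
  have h1 : b ∈ P.perp A := by simpa using sub_mem hx (h.orthA ha)
  have h2 : b = 0 := eq_zero_of_f_left (P := P) fun y => by
    obtain ⟨a', ha', b', hb', rfl⟩ := h.exists_add y
    rw [f_add_right, h1 a' ha', h.orthB hb b' hb', add_zero]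
  simpa [h2] using ha

theorem ev (h : P.TSPair A B) {e y : V} (he : e ∈ A) (hy : y ∈ B) (h0 : P.f y e = 0) :
    P.EV e y 0 := EV.of_sing (h.singA e he) (h.singB y hy) h0

theorem eich_left (h : P.TSPair A B) {e x : V} (he : e ∈ A) (hx : x ∈ A) (y : V) (ν : F) :
    P.eich e y ν x = x - (P.ε * P.f x y) • e := P.eich_apply_of_orth _ (h.orthA hx e he)

variable [FiniteDimensional F V]

theorem equiv_mem (h : P.TSPair A B) {e y : V} (he : e ∈ A) (hy : y ∈ B) (h0 : P.f y e = 0) :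
    (h.ev he hy h0).equiv ∈ pairStab A B := by
  refine mem_pairStab_of_fix (fun x hx => ?_) fun x hx => ?_
  · rw [EV.equiv_apply, h.eich_left he hx]
    exact A.sub_mem hx (A.smul_mem _ he)
  · rw [EV.equiv_apply, eich_apply, h.orthB hx y hy]
    simpa using B.add_mem hx (B.smul_mem _ hy)

theorem exists_f (h : P.TSPair A B) {S : Submodule F V} (hS : S ≤ A) {x : V} (hx : x ∈ A)
    (hxS : x ∉ S) (c : F) : ∃ y ∈ B, y ∈ P.perp S ∧ P.f x y = c := by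
  obtain ⟨y, hy, h1⟩ := P.exists_perp_f_right hxS c
  obtain ⟨a, ha, b, hb, rfl⟩ := h.exists_add y
  refine ⟨b, hb, ?_, ?_⟩
  · simpa using sub_mem hy (perp_anti hS (h.orthA ha))
  · rwa [f_add_right, h.orthA hx a ha, zero_add] at h1

variable {G M : Subgroup (V ≃ₗ[F] V)}

theorem ei (h : P.TSPair A B) (hH : pairStab A B ⊓ P.E ≤ M) {e y : V} (he : e ∈ A) (hy : y ∈ B)
    (h0 : P.f y e = 0) : P.Ei M e y 0 :=
  ⟨h.ev he hy h0, hH ⟨h.equiv_mem he hy h0, EV.equiv_mem_E _⟩⟩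

theorem trans (h : P.TSPair A B) (hH : pairStab A B ⊓ P.E ≤ M) (h2 : 2 ≤ finrank F A)
    {a a' : V} (ha : a ∈ A) (ha' : a' ∈ A) (h0 : a ≠ 0) (h0' : a' ≠ 0) :
    ∃ g ∈ M, g ∈ P.isom ∧ g a = a' := by
  have key : ∀ a ∈ A, ∀ a' ∈ A, a ∉ F ∙ (a' - a) → ∃ g ∈ M, g ∈ P.isom ∧ g a = a' := by
    intro a ha a' ha' hn
    obtain ⟨y, hy, hy1, hy2⟩ := h.exists_f
      ((Submodule.span_singleton_le_iff_mem _ _).2 (A.sub_mem ha' ha)) ha hn (-P.ε)
    have h1 := h.ei hH (A.sub_mem ha' ha) hy (mem_perp_span_singleton.1 hy1)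
    refine ⟨_, h1.mem, h1.ev.equiv_mem_isom, ?_⟩
    rw [EV.equiv_apply, h.eich_left (A.sub_mem ha' ha) ha, hy2, mul_neg, P.ε_sq]
    module
  have key2 : ∀ a a' : V, a ≠ 0 → a' ∉ F ∙ a → a ∉ F ∙ (a' - a) := by
    intro a a' h0 hn hc
    obtain ⟨c, hc⟩ := Submodule.mem_span_singleton.1 hc
    have hc0 : c ≠ 0 := by rintro rfl; exact h0 (by simpa using hc.symm)
    refine hn (Submodule.mem_span_singleton.2 ⟨c⁻¹ + 1, ?_⟩)
    have : c⁻¹ • a = a' - a := by rw [← hc, smul_smul, inv_mul_cancel₀ hc0, one_smul, hc]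
    rw [add_smul, this]
    module
  by_cases hn : a' ∈ F ∙ a
  swap
  · exact key a ha a' ha' (key2 a a' h0 hn)
  obtain ⟨z, hz, hza⟩ : ∃ z ∈ A, z ∉ F ∙ a :=
    exists_mem_notMem_of_finrank_lt (by have := finrank_span_singleton_le (F := F) a; omega)
  have hza' : z ∉ F ∙ a' := fun h => hza ((Submodule.span_singleton_le_iff_mem _ _).2 hn h)
  obtain ⟨g, hg, hgi, hga⟩ := key a ha z hz (key2 a z h0 hza)
  obtain ⟨k, hk, hki, hka⟩ := key a' ha' z hz (key2 a' z h0' hza')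
  exact ⟨k⁻¹ * g, M.mul_mem (M.inv_mem hk) hg, P.isom.mul_mem (P.isom.inv_mem hki) hgi, by
    rw [mul_apply', hga, ← hka, inv_apply_apply]⟩

theorem Y1 (h : P.TSPair A B) (hH : pairStab A B ⊓ P.E ≤ M) (h3 : 3 ≤ finrank F A)
    (hΛ : ∀ ν ∈ P.Λ, ∃ a, ν = a - P.ε * P.σ a)
    (hs : ∃ s ∈ M, s ∈ P.isom ∧ ∀ a ∈ A, s a ∈ B) (hE : ¬ P.E ≤ M)
    {e a : V} {ν : F} (he : e ∈ A) (he0 : e ≠ 0) (ha : a ∈ A) (hae : a ∉ F ∙ e)
    (hi : P.Ei M e a ν) : False := by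
  have heA : F ∙ e ≤ A := (Submodule.span_singleton_le_iff_mem _ _).2 he
  have h1 : ∀ a' ∈ A, a' ∉ (F ∙ e) ⊔ F ∙ a → ∃ ν, P.Ei M e a' ν := by
    intro a' ha' hn
    obtain ⟨y, hy, hy1, hy2⟩ := h.exists_f (S := (F ∙ e) ⊔ F ∙ a')
      (sup_le heA ((Submodule.span_singleton_le_iff_mem _ _).2 ha')) ha
      (notMem_sup_span_exchange hae hn) (-P.ε)
    rw [mem_perp_sup_span, mem_perp_span_singleton] at hy1
    have h2 := ((h.ei hH ha' hy hy1.2).conj_ei hi)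
    rw [h.eich_left ha' he, h.eich_left ha' ha, f_symm_zero hy1.1, hy2, mul_neg, P.ε_sq,
      mul_zero, zero_smul, sub_zero] at h2
    have h3 := h2.sub hi
    rw [neg_smul, one_smul, sub_neg_eq_add, add_sub_cancel_left] at h3
    exact ⟨_, h3⟩
  obtain ⟨a₀, ha₀, hn₀⟩ : ∃ z ∈ A, z ∉ (F ∙ e) ⊔ F ∙ a := exists_mem_notMem_of_finrank_lt (by
    have := finrank_span_singleton_le (F := F) e
    have := finrank_sup_span_le (F ∙ e) a
    omega)
  have h2 : ∀ a' ∈ A, ∃ ν, P.Ei M e a' ν := by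
    intro a' ha'
    by_cases hn : a' ∈ (F ∙ e) ⊔ F ∙ a
    · obtain ⟨_, h3⟩ := h1 (a' + a₀) (A.add_mem ha' ha₀)
        fun h => hn₀ ((Submodule.add_mem_iff_right _ hn).1 h)
      obtain ⟨_, h4⟩ := h1 a₀ ha₀ hn₀
      have := h3.sub h4
      rw [add_sub_cancel_right] at this
      exact ⟨_, this⟩
    · exact h1 a' ha' hn
  have h4 : ∀ y, P.f y e = 0 → ∃ ν, P.Ei M e y ν := by
    intro y hy
    obtain ⟨a', ha', b, hb, rfl⟩ := h.exists_add y
    rw [P.f_add_left, h.orthA ha' e he, zero_add] at hy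
    obtain ⟨_, h5⟩ := h2 a' ha'
    exact ⟨_, h5.add (h.ei hH he hb hy)⟩
  have h5 : P.Full M e := ⟨h.singA e he, fun y ν hv => by
    obtain ⟨ν', h5⟩ := h4 y hv.orth
    obtain ⟨c, hc⟩ := hΛ _ (hv.sub_mem h5.ev)
    obtain ⟨z, hz, hz1, hz2⟩ := h.exists_f heA ha hae c
    have h6 := hi.comm (h.ei hH he hz (mem_perp_span_singleton.1 hz1))
    rw [P.herm a z, hz2, ← hc] at h6
    have := h5.add_zero h6
    rwa [add_sub_cancel] at this⟩
  obtain ⟨s, hsM, hsi, hs⟩ := hs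
  obtain ⟨e', he', -, h6⟩ := h.symm.exists_f bot_le (hs e he) (by simpa using he0) 1
  obtain ⟨g, hg, hgi, hge⟩ := h.trans hH (by omega) he he' he0
    (by rintro rfl; rw [f_zero_right] at h6; exact zero_ne_one h6)
  exact hE ((hge ▸ h5.conj hg hgi).E_le (h5.conj hsM hsi) (by rw [h6]; exact one_ne_zero))

theorem Y2 (h : P.TSPair A B) (hH : pairStab A B ⊓ P.E ≤ M) (h3 : 3 ≤ finrank F A)
    (hΛ : ∀ ν ∈ P.Λ, ∃ a, ν = a - P.ε * P.σ a)
    (hs : ∃ s ∈ M, s ∈ P.isom ∧ ∀ a ∈ A, s a ∈ B) (hE : ¬ P.E ≤ M)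
    {e : V} {ν : F} (he : e ∈ A) (he0 : e ≠ 0) (hi : P.Ei M e 0 ν) : ν = 0 := by
  by_contra hν
  have h1 : ∀ e' ∈ A, e' ≠ 0 → P.Ei M e' 0 ν := by
    intro e' he' h0
    obtain ⟨g, hg, hgi, rfl⟩ := h.trans hH (by omega) he he' he0 h0
    simpa using hi.conj hg hgi
  obtain ⟨z, hz, hze⟩ : ∃ z ∈ A, z ∉ F ∙ e :=
    exists_mem_notMem_of_finrank_lt (by have := finrank_span_singleton_le (F := F) e; omega)
  have h2 := hi.of_tv_add (h1 z hz (by rintro rfl; exact hze (zero_mem _)))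
    (h1 _ (A.add_mem he hz) fun h => hze (by
      rw [eq_neg_of_add_eq_zero_right h]
      exact neg_mem (Submodule.mem_span_singleton_self e))) (h.orthA hz e he)
  exact h.Y1 hH h3 hΛ hs hE he he0 (A.smul_mem _ hz) (by
    rwa [Submodule.smul_mem_iff _ (neg_ne_zero.2 (mul_ne_zero P.ε_ne_zero hν))]) h2

theorem Y3 (h : P.TSPair A B) (hH : pairStab A B ⊓ P.E ≤ M) (h3 : 3 ≤ finrank F A)
    (hΛ : ∀ ν ∈ P.Λ, ∃ a, ν = a - P.ε * P.σ a)
    (hs : ∃ s ∈ M, s ∈ P.isom ∧ ∀ a ∈ A, s a ∈ B) (hE : ¬ P.E ≤ M)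
    {e y : V} {ν : F} (he : e ∈ A) (he0 : e ≠ 0) (hi : P.Ei M e y ν) : y ∈ B ⊔ F ∙ e := by
  obtain ⟨a, ha, b, hb, rfl⟩ := h.exists_add y
  have h1 := hi.ev.orth
  rw [P.f_add_left, h.orthA ha e he, zero_add] at h1
  have h2 := hi.sub (h.ei hH he hb h1)
  rw [add_sub_cancel_right] at h2
  by_cases hae : a ∈ F ∙ e
  · rw [add_comm]
    exact Submodule.add_mem_sup hb hae
  · exact (h.Y1 hH h3 hΛ hs hE he he0 ha hae h2).elim

section Strong

variable {A' B' : Submodule F V} {τ : V ≃ₗ[F] V}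

omit [FiniteDimensional F V] in
theorem strong_two (h' : P.TSPair A' B') {e₁ e₂ b : V} (h1 : τ e₁ ∈ A') (h2 : τ e₂ ∈ A')
    (h0 : e₁ ≠ 0) (hn : e₂ ∉ F ∙ e₁) (hb1 : τ b ∈ B' ⊔ F ∙ τ e₁) (hb2 : τ b ∈ B' ⊔ F ∙ τ e₂) :
    τ b ∈ B' := by
  obtain ⟨b₁, hb₁, c₁, h3⟩ := mem_sup_span.1 hb1
  obtain ⟨b₂, hb₂, c₂, h4⟩ := mem_sup_span.1 hb2
  have h5 : c₁ • τ e₁ - c₂ • τ e₂ = 0 := h'.eq_zero (A'.sub_mem (A'.smul_mem _ h1) (A'.smul_mem _ h2))
    (by
      have : c₁ • τ e₁ - c₂ • τ e₂ = b₂ - b₁ := by linear_combination (norm := module) h4 - h3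
      rw [this]; exact B'.sub_mem hb₂ hb₁)
  rw [← map_smul, ← map_smul, ← map_sub, τ.map_eq_zero_iff, sub_eq_zero] at h5
  have h6 : c₂ = 0 := by
    by_contra h6
    apply hn
    rw [← Submodule.smul_mem_iff _ h6, ← h5]
    exact Submodule.smul_mem _ _ (Submodule.mem_span_singleton_self _)
  rw [h4, h6]
  simpa using hb₂

theorem strong_three (h' : P.TSPair A' B')
    (hS : ∀ e ∈ A, e ≠ 0 → τ e ∈ A' → ∀ b ∈ B, P.f b e = 0 → τ b ∈ B' ⊔ F ∙ τ e)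
    (h3 : 3 ≤ finrank F ↥(A ⊓ A'.comap (τ : V →ₗ[F] V))) : ∀ b ∈ B, τ b ∈ B' := by
  intro b hb
  have h1 := finrank_le_inf_perp (P := P) (A ⊓ A'.comap (τ : V →ₗ[F] V)) b
  obtain ⟨e₁, he₁, h0⟩ := exists_mem_ne_zero_of_finrank
    (A := (A ⊓ A'.comap (τ : V →ₗ[F] V)) ⊓ P.perp (F ∙ b)) (by omega)
  obtain ⟨e₂, he₂, hn⟩ := exists_mem_notMem_of_finrank_lt
    (A := (A ⊓ A'.comap (τ : V →ₗ[F] V)) ⊓ P.perp (F ∙ b)) (S := F ∙ e₁)
    (by have := finrank_span_singleton_le (F := F) e₁; omega)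
  exact h'.strong_two he₁.1.2 he₂.1.2 h0 hn
    (hS e₁ he₁.1.1 h0 he₁.1.2 b hb (f_symm_zero (mem_perp_span_singleton.1 he₁.2)))
    (hS e₂ he₂.1.1 (by rintro rfl; exact hn (zero_mem _)) he₂.1.2 b hb
      (f_symm_zero (mem_perp_span_singleton.1 he₂.2)))

theorem strong_one (h' : P.TSPair A' B') (hτ : τ ∈ P.isom) {e : V} (h0 : e ≠ 0) (he : τ e ∈ A')
    (hS : ∀ b ∈ B, P.f b e = 0 → τ b ∈ B' ⊔ F ∙ τ e) :
    finrank F B ≤ finrank F ↥(B ⊓ B'.comap (τ : V →ₗ[F] V)) + 2 := by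
  obtain ⟨z, hz, -, h1⟩ := h'.exists_f bot_le he (by simpa using h0) 1
  have h2 := finrank_le_inf_perp (P := P) B e
  have h3 := finrank_le_inf_perp (P := P) (B ⊓ P.perp (F ∙ e)) (τ⁻¹ z)
  have h4 : (B ⊓ P.perp (F ∙ e)) ⊓ P.perp (F ∙ τ⁻¹ z) ≤ B ⊓ B'.comap (τ : V →ₗ[F] V) := by
    intro b hb
    refine ⟨hb.1.1, ?_⟩
    obtain ⟨b', hb', c, h5⟩ := mem_sup_span.1 (hS b hb.1.1 (mem_perp_span_singleton.1 hb.1.2))
    have h6 := mem_perp_span_singleton.1 hb.2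
    rw [← isom_f_left hτ, h5, P.f_add_left, P.f_smul_left, h1, h'.orthB hb' z hz] at h6
    change τ b ∈ B'
    rw [h5, show c = 0 by simpa using h6]
    simpa using hb'
  have h5 := Submodule.finrank_mono h4
  omega

theorem strong (h : P.TSPair A B) (h' : P.TSPair A' B') (hτ : τ ∈ P.isom) (h5 : 5 ≤ finrank F A)
    (hS : ∀ e ∈ A, e ≠ 0 → τ e ∈ A' → ∀ b ∈ B, P.f b e = 0 → τ b ∈ B' ⊔ F ∙ τ e)
    (hS' : ∀ e ∈ B, e ≠ 0 → τ e ∈ B' → ∀ b ∈ A, P.f b e = 0 → τ b ∈ A' ⊔ F ∙ τ e)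
    {e : V} (he : e ∈ A) (h0 : e ≠ 0) (he' : τ e ∈ A') :
    (∀ a ∈ A, τ a ∈ A') ∧ ∀ b ∈ B, τ b ∈ B' := by
  have h1 := h'.strong_one hτ h0 he' (hS e he h0 he')
  have h2 := h.dim
  have h3 := h'.symm.strong_three hS' (by omega)
  refine ⟨h3, h'.strong_three hS ?_⟩
  rw [inf_eq_left.2 fun a ha => h3 a ha]
  omega

end Strong

omit [FiniteDimensional F V] in
theorem mem_span_of_stab (h : P.TSPair A B) {a b : V} (hab : b ∉ F ∙ a) (ha0 : a ≠ 0)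
    (hA : ∀ x ∈ A, P.eich a b 0 x ∈ A) (haA : a ∉ A) :
    ∃ α β : F, β ≠ 0 ∧ α • a + β • b ∈ A ∧ α • a + β • b ≠ 0 := by
  by_contra hc
  push Not at hc
  apply haA
  refine h.mem_of_perp (mem_perp'.2 fun x hx => ?_)
  by_contra h1
  have h2 := A.sub_mem (hA x hx) hx
  rw [eich_apply] at h2
  have h3 := hc (-(P.ε * P.f x b)) (P.f x a) h1 (by convert h2 using 1; module)
  apply hab
  rw [← Submodule.smul_mem_iff _ h1, eq_neg_of_add_eq_zero_right h3]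
  exact neg_mem (Submodule.smul_mem _ _ (Submodule.mem_span_singleton_self _))

/-- Stabilizers of pairs of complementary totally singular subspaces. -/
theorem c2 (h : P.TSPair A B) (h5 : 5 ≤ finrank F A)
    (hΛ : ∀ ν ∈ P.Λ, ∃ a, ν = a - P.ε * P.σ a) (hMI : M ≤ P.isom) (hH : pairStab A B ⊓ P.E ≤ M)
    (hs : ∃ s ∈ P.E, (∀ a ∈ A, s a ∈ B) ∧ ∀ b ∈ B, s b ∈ A) : M ≤ pairStab A B ∨ P.E ≤ M := by
  refine or_iff_not_imp_right.2 fun hE g hg => ?_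
  have hd := h.dim
  have hH' : pairStab B A ⊓ P.E ≤ M := by rwa [pairStab_comm]
  obtain ⟨s, hsE, hsA, hsB⟩ := hs
  have hsM : s ∈ M := hH ⟨mem_pairStab_of_swap hd hsA hsB, hsE⟩
  have YA : ∀ {e y ν}, e ∈ A → e ≠ 0 → P.Ei M e y ν → y ∈ B ⊔ F ∙ e :=
    h.Y3 hH (by omega) hΛ ⟨s, hsM, E_le_isom hsE, hsA⟩ hE
  have YB : ∀ {e y ν}, e ∈ B → e ≠ 0 → P.Ei M e y ν → y ∈ A ⊔ F ∙ e :=
    h.symm.Y3 hH' (by omega) hΛ ⟨s, hsM, E_le_isom hsE, hsB⟩ hE
  have SA : ∀ τ ∈ M, ∀ e ∈ A, e ≠ 0 → τ e ∈ A → (∀ a ∈ A, τ a ∈ A) ∧ ∀ b ∈ B, τ b ∈ B :=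
    fun τ hτ e he h0 he' => h.strong h (hMI hτ) h5
      (fun e he h0 he' b hb hbe => YA he' (by simpa using h0) ((h.ei hH he hb hbe).conj hτ (hMI hτ)))
      (fun e he h0 he' b hb hbe =>
        YB he' (by simpa using h0) ((h.symm.ei hH' he hb hbe).conj hτ (hMI hτ))) he h0 he'
  have SB : ∀ τ ∈ M, ∀ e ∈ A, e ≠ 0 → τ e ∈ B → (∀ a ∈ A, τ a ∈ B) ∧ ∀ b ∈ B, τ b ∈ A :=
    fun τ hτ e he h0 he' => h.strong h.symm (hMI hτ) h5
      (fun e he h0 he' b hb hbe => YB he' (by simpa using h0) ((h.ei hH he hb hbe).conj hτ (hMI hτ)))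
      (fun e he h0 he' b hb hbe =>
        YA he' (by simpa using h0) ((h.symm.ei hH' he hb hbe).conj hτ (hMI hτ))) he h0 he'
  obtain ⟨e, he, he0⟩ := exists_mem_ne_zero_of_finrank (A := A) (by omega)
  by_cases heA : g e ∈ A
  · exact mem_pairStab_of_fix (SA g hg e he he0 heA).1 (SA g hg e he he0 heA).2
  by_cases heB : g e ∈ B
  · exact mem_pairStab_of_swap hd (SB g hg e he he0 heB).1 (SB g hg e he he0 heB).2
  exfalso
  obtain ⟨a₀, ha₀, b₀, hb₀, hge⟩ := h.exists_add (g e)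
  have key : ∀ b ∈ B, b ≠ 0 → P.f b e = 0 → ∃ x y : F, y ≠ 0 ∧ g⁻¹ a₀ = x • e + y • b := by
    intro b hb hb0 hbe
    have h1 := (h.ei hH he hb hbe).conj hg (hMI hg)
    have h2 := finrank_le_inf_perp (P := P) A (g e)
    have h3 := finrank_le_inf_perp (P := P) (A ⊓ P.perp (F ∙ g e)) (g b)
    obtain ⟨z, hz, hz0⟩ := exists_mem_ne_zero_of_finrank
      (A := (A ⊓ P.perp (F ∙ g e)) ⊓ P.perp (F ∙ g b)) (by omega)
    have h4 : h1.ev.equiv z = z := P.eich_apply_of_orth₂ _ (mem_perp_span_singleton.1 hz.1.2)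
      (mem_perp_span_singleton.1 hz.2)
    obtain ⟨h6, h7⟩ := SA _ h1.mem z hz.1.1 hz0 (by rw [h4]; exact hz.1.1)
    have h8 : g b ∉ F ∙ g e := by
      rw [Submodule.mem_span_singleton]
      rintro ⟨c, hc⟩
      rw [← map_smul, g.injective.eq_iff] at hc
      exact hb0 (h.eq_zero (hc ▸ A.smul_mem _ he) hb)
    obtain ⟨α, β, hβ, hp, hp0⟩ := h.mem_span_of_stab h8 (by simpa using he0) h6 heA
    obtain ⟨γ, δ, hδ, hq, -⟩ := h.symm.mem_span_of_stab h8 (by simpa using he0) h7 heB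
    have h9 : δ • (α • g e + β • g b) - (α * δ - β * γ) • a₀ = 0 :=
      h.eq_zero (A.sub_mem (A.smul_mem _ hp) (A.smul_mem _ ha₀)) (by
        have : δ • (α • g e + β • g b) - (α * δ - β * γ) • a₀ =
            (α * δ - β * γ) • b₀ + β • (γ • g e + δ • g b) := by
          linear_combination (norm := module) (-(α * δ - β * γ)) • hge
        rw [this]
        exact B.add_mem (B.smul_mem _ hb₀) (B.smul_mem _ hq))
    have hD : α * δ - β * γ ≠ 0 := by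
      intro hD
      rw [hD, zero_smul, sub_zero, smul_eq_zero] at h9
      exact h9.elim hδ hp0
    refine ⟨δ * α / (α * δ - β * γ), δ * β / (α * δ - β * γ), div_ne_zero (mul_ne_zero hδ hβ) hD,
      g.injective ?_⟩
    apply smul_right_injective V hD
    simp only [apply_inv_apply, map_add, map_smul, smul_add, smul_smul, mul_div_cancel₀ _ hD]
    linear_combination (norm := module) -h9
  have h1 := finrank_le_inf_perp (P := P) B e
  obtain ⟨b, hb, hb0⟩ := exists_mem_ne_zero_of_finrank (A := B ⊓ P.perp (F ∙ e)) (by omega)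
  obtain ⟨b', hb', hn⟩ := exists_mem_notMem_of_finrank_lt (A := B ⊓ P.perp (F ∙ e)) (S := F ∙ b)
    (by have := finrank_span_singleton_le (F := F) b; omega)
  obtain ⟨x, y, -, h2⟩ := key b hb.1 hb0 (mem_perp_span_singleton.1 hb.2)
  obtain ⟨x', y', hy', h3⟩ := key b' hb'.1 (by rintro rfl; exact hn (zero_mem _))
    (mem_perp_span_singleton.1 hb'.2)
  have h4 : y' • b' - y • b = 0 := h.eq_zero (by
    have : y' • b' - y • b = (x - x') • e := by linear_combination (norm := module) h2 - h3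
    rw [this]; exact A.smul_mem _ he) (B.sub_mem (B.smul_mem _ hb'.1) (B.smul_mem _ hb.1))
  apply hn
  rw [← Submodule.smul_mem_iff _ hy', sub_eq_zero.1 h4]
  exact Submodule.smul_mem _ _ (Submodule.mem_span_singleton_self _)

end TSPair

end PForm

end Cfsg.Agent.H26
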