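import Cfsg.Agent.H26.PC5
import Cfsg.Agent.H27.AltExt

/-!
Unitary field extension subgroups of symplectic and orthogonal groups.
-/

set_option autoImplicit false

namespace Cfsg.Agent.H26

open Module

namespace PForm

section General

variable {F : Type*} [Field F] {V : Type*} [AddCommGroup V] [Module F V] {P : PForm F V}
  {M : Subgroup (V ≃ₗ[F] V)} [FiniteDimensional F V]

/-- An additive subgroup containing the singular vectors of `S^⊥` contains `S^⊥`. -/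
theorem mem_of_sing_add {S : Submodule F V} {U : AddSubgroup V}
    (h0 : ∃ e ∈ P.perp S, e ∉ S ∧ P.Sing e) (h : ∀ a ∈ P.perp S, P.Sing a → a ∈ U) {x : V}
    (hx : x ∈ P.perp S) : x ∈ U := by
  obtain ⟨e, h1, h2, h3⟩ := h0
  let W : Submodule F V :=
    { carrier := {x | ∀ c : F, c • x ∈ U}
      add_mem' := fun ha hb c => by rw [smul_add]; exact U.add_mem (ha c) (hb c)
      zero_mem' := fun c => by rw [smul_zero]; exact U.zero_mem
      smul_mem' := fun a x hx c => by rw [smul_smul]; exact hx _ }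
  have h4 : x ∈ W := mem_of_forall_perp (P := P) fun z hz => hx z (mem_of_orth_sing h3 h1 h2
    fun w hw hs => hz w fun c => h _ (Submodule.smul_mem _ c hw) (hs.smul c))
  simpa using h4 1

/-- If the form parameter is non-zero then the transvections generate the Eichler group. -/
theorem E_le_of_tv (hΛ : P.Λ ≠ ⊥) (hd : P.d + 2 ≤ finrank F V)
    (h : ∀ e, P.Sing e → ∀ ν ∈ P.Λ, P.Ei M e 0 ν) : P.E ≤ M := by
  obtain ⟨ν₀, hν₀, hν₀'⟩ := exists_mem_Λ hΛ
  refine E_le_of fun e y ν hv => ?_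
  let U : AddSubgroup V :=
    { carrier := {y | ∃ ν, P.Ei M e y ν}
      add_mem' := by rintro _ _ ⟨_, hx⟩ ⟨_, hy⟩; exact ⟨_, hx.add hy⟩
      zero_mem' := ⟨0, Ei.zero hv.sing⟩
      neg_mem' := by rintro _ ⟨_, hx⟩; exact ⟨_, hx.neg⟩ }
  obtain ⟨ν', h1⟩ : y ∈ U := by
    obtain ⟨a, h1, h2, h3⟩ := exists_sing_orth hd e
    refine mem_of_sing_add (S := F ∙ e) ⟨a, mem_perp_span_singleton.2 h2, h3, h1⟩ (fun b hb hs => ?_)
      (mem_perp_span_singleton.2 hv.orth)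
    have h4 : -(P.ε * ν₀) ≠ 0 := neg_ne_zero.2 (mul_ne_zero P.ε_ne_zero hν₀')
    have h5 : P.f ((-(P.ε * ν₀))⁻¹ • b) e = 0 := by
      rw [P.f_smul_left, mem_perp_span_singleton.1 hb, mul_zero]
    have h6 := (h e hv.sing ν₀ hν₀).of_tv_add (h _ (hs.smul _) ν₀ hν₀)
      (h _ (hv.sing.add (hs.smul _) (f_symm_zero h5)) ν₀ hν₀) h5
    rw [smul_smul, mul_inv_cancel₀ h4, one_smul] at h6
    exact ⟨0, h6⟩
  simpa using h1.add_zero (h e hv.sing _ (hv.sub_mem h1.ev))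

/-- An additive map fixing all singular points is a scalar. -/
theorem exists_scalar_of_sing (hd : P.d + 2 ≤ finrank F V) (hd0 : 1 ≤ P.d) (A : V →+ V)
    (hA : ∀ u, P.Sing u → A u ∈ F ∙ u) : ∃ c : F, ∀ x, A x = c • x := by
  have h1 : ∀ u v (a b : F), P.Sing u → P.Sing v → u ≠ 0 → P.f v u = 0 → v ∉ F ∙ u →
      A u = a • u → A v = b • v → a = b := by
    intro u v a b hu hv hu0 h0 hvu ha hb
    obtain ⟨c, hc⟩ := Submodule.mem_span_singleton.1 (hA _ (hu.add hv (f_symm_zero h0)))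
    rw [map_add, ha, hb] at hc
    have h2 : (c - b) • v = (a - c) • u := by linear_combination (norm := module) hc
    have h3 : c - b = 0 := by
      by_contra h3
      exact hvu ((Submodule.smul_mem_iff _ h3).1
        (h2 ▸ Submodule.smul_mem _ _ (Submodule.mem_span_singleton_self u)))
    rw [h3, zero_smul, eq_comm, smul_eq_zero, or_iff_left hu0] at h2
    linear_combination h2 + h3
  have h2 : ∀ u v w (a b : F), P.Sing u → P.Sing v → P.Sing w → u ≠ 0 → v ≠ 0 → P.f w u = 0 →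
      P.f w v = 0 → w ∉ F ∙ u → w ∉ F ∙ v → A u = a • u → A v = b • v → a = b := by
    intro u v w a b hu hv hw hu0 hv0 k1 k2 k3 k4 ha hb
    obtain ⟨c, hc⟩ := Submodule.mem_span_singleton.1 (hA w hw)
    rw [h1 u w a c hu hw hu0 k1 k3 ha hc.symm, h1 v w b c hv hw hv0 k2 k4 hb hc.symm]
  obtain ⟨e, -, he0, he⟩ := P.exists_sing ⊤ (by rw [finrank_top]; omega)
  obtain ⟨c, hc⟩ := Submodule.mem_span_singleton.1 (hA e he)
  refine ⟨c, fun x => ?_⟩
  let U : AddSubgroup V := (A - (DistribSMul.toAddMonoidHom V c)).ker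
  have h3 : x ∈ U := by
    refine mem_of_sing_add (P := P) (S := ⊥) ⟨e, by rw [perp_bot]; trivial, by simpa using he0, he⟩
      (fun v _ hv => ?_) (by rw [perp_bot]; trivial)
    change A v - c • v = 0
    by_cases hv0 : v = 0
    · simp [hv0]
    obtain ⟨b, hb⟩ := Submodule.mem_span_singleton.1 (hA v hv)
    rw [← hb, sub_eq_zero]
    congr 1
    by_cases h0 : P.f v e = 0
    · by_cases hve : v ∈ F ∙ e
      · obtain ⟨w, k1, k2, k3⟩ := exists_sing_orth hd e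
        refine (h2 e v w c b he hv k1 he0 hv0 k2 (mem_perp_span_singleton.2 k2 v hve) k3
          (fun h => k3 ?_) hc.symm hb.symm).symm
        exact (Submodule.span_singleton_le_iff_mem _ _).2 hve h
      · exact (h1 e v c b he hv he0 h0 hve hc.symm hb.symm).symm
    · obtain ⟨w, -, k1, k2, k3, k4⟩ := W2.of_finrank (P := P) (S := ⊥)
        (by rw [finrank_perp_bot, finrank_perp_bot']; omega) v (by rw [perp_bot]; trivial) e
        (by rw [perp_bot]; trivial) hv he h0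
      have k5 : ∀ x y : V, P.f x y ≠ 0 → P.f w y = 0 → w ∉ F ∙ x := fun x y h h' hw => by
        obtain ⟨a, rfl⟩ := Submodule.mem_span_singleton.1 hw
        rw [P.f_smul_left, mul_eq_zero, or_iff_left h] at h'
        exact k1 (by simp [h'])
      exact h2 v e w b c hv he k2 hv0 he0 k3 k4 (k5 v e h0 k4) (k5 e v (f_symm_ne h0) k3)
        hb.symm hc.symm
  exact sub_eq_zero.1 h3

end General

end PForm

variable {F K : Type*} [Field F] [Field K] [Algebra F K] {V : Type*} [AddCommGroup V]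
  [Module F V] [Module K V] [IsScalarTower F K V]

variable (F K V) in
/-- The `K`-semilinear automorphisms. -/
def semiN : Subgroup (V ≃ₗ[F] V) where
  carrier := {g | ∃ σ : K ≃ K, ∀ (a : K) (v : V), g (a • v) = σ a • g v}
  mul_mem' {a b} := by
    rintro ⟨σ, hσ⟩ ⟨τ, hτ⟩
    exact ⟨τ.trans σ, fun c v => by simp [hσ, hτ]⟩
  one_mem' := ⟨Equiv.refl K, fun _ _ => rfl⟩
  inv_mem' {a} := by
    rintro ⟨σ, hσ⟩
    refine ⟨σ.symm, fun c v => a.injective ?_⟩
    rw [hσ]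
    simp

omit [Algebra F K] [IsScalarTower F K V] in
theorem mem_semiN_of [Finite K] [Nontrivial V] {g : V ≃ₗ[F] V}
    (h : ∀ a : K, ∃ b : K, ∀ v, g (a • v) = b • g v) : g ∈ semiN F K V := by
  choose σ hσ using h
  obtain ⟨v, hv⟩ := exists_ne (0 : V)
  exact ⟨Equiv.ofBijective σ (Finite.injective_iff_bijective.1 fun a b hab =>
    smul_left_injective K hv (g.injective (by
      change g (a • v) = g (b • v)
      rw [hσ, hσ, hab]))), hσ⟩

omit [Algebra F K] [IsScalarTower F K V] in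
theorem smul_of_mem_semiN {g : V ≃ₗ[F] V} (hg : g ∈ semiN F K V) {v : V} (hv : v ≠ 0)
    (h : ∀ a : K, g (a • v) = a • v) (a : K) (x : V) : g (a • x) = a • g x := by
  obtain ⟨σ, hσ⟩ := hg
  have h1 := hσ a v
  have h2 := h 1
  rw [one_smul] at h2
  rw [h, h2] at h1
  rw [hσ, ← smul_left_injective K hv h1]

variable (F) in
/-- Restriction of scalars as a group homomorphism. -/
def resHom : (V ≃ₗ[K] V) →* (V ≃ₗ[F] V) where
  toFun g := g.restrictScalars F
  map_one' := rfl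
  map_mul' _ _ := rfl

theorem resHom_apply (g : V ≃ₗ[K] V) (x : V) : resHom F g x = g x := rfl

theorem resHom_mem_semiN (g : V ≃ₗ[K] V) : resHom F g ∈ semiN F K V :=
  ⟨Equiv.refl K, fun a v => g.map_smul a v⟩

namespace PForm

omit [Algebra F K] [IsScalarTower F K V] in
theorem mem_semiN_of_sing [Finite K] [FiniteDimensional K V] {P₁ : PForm K V}
    (hd : P₁.d + 2 ≤ finrank K V) (hd0 : 1 ≤ P₁.d) {g : V ≃ₗ[F] V}
    (h : ∀ u, P₁.Sing u → ∀ a : K, g⁻¹ (a • g u) ∈ K ∙ u) : g ∈ semiN F K V := by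
  have : Nontrivial V := Module.nontrivial_of_finrank_pos (R := K) (by omega)
  refine (inv_mem_iff (x := g)).1 (mem_semiN_of fun a => ?_)
  obtain ⟨c, hc⟩ := exists_scalar_of_sing hd hd0
    ((g⁻¹ : V ≃ₗ[F] V).toLinearMap.toAddMonoidHom.comp ((DistribSMul.toAddMonoidHom V a).comp
      g.toLinearMap.toAddMonoidHom)) fun u hu => h u hu a
  refine ⟨c, fun v => ?_⟩
  have := hc (g⁻¹ v)
  change g⁻¹ (a • g (g⁻¹ v)) = _ at this
  rwa [apply_inv_apply] at this

/-- The form `P` over `F` is the trace of the hermitian form `P₁` over `K`. -/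
structure Ext (P : PForm F V) (P₁ : PForm K V) (tr : K →ₗ[F] F) : Prop where
  f_tr : ∀ x y, P.f x y = tr (P₁.f x y)
  tr_ne : tr ≠ 0
  ε_eq : P₁.ε = 1
  σ_alg : ∀ c, P₁.σ (algebraMap F K c) = algebraMap F K c
  Λ_ne : P₁.Λ ≠ ⊥
  d_eq : P₁.d = 2
  ne : ∃ a : K, a ∉ Set.range (algebraMap F K)

namespace Ext

variable {P : PForm F V} {P₁ : PForm K V} {tr : K →ₗ[F] F} {M : Subgroup (V ≃ₗ[F] V)}

omit [IsScalarTower F K V] in
theorem f_eq_zero (X : Ext P P₁ tr) {x y : V} (h : P₁.f x y = 0) : P.f x y = 0 := by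
  rw [X.f_tr, h, map_zero]

omit [IsScalarTower F K V] in
theorem f_eq_zero_of (X : Ext P P₁ tr) {x y : V} (h : ∀ a : K, P.f x (a • y) = 0) :
    P₁.f x y = 0 := by
  by_contra h0
  obtain ⟨a, ha⟩ := H27.exists_map_mul_ne_zero X.tr_ne h0
  exact ha (by simpa [X.f_tr, f_smul_right, P₁.σσ] using h (P₁.σ a))

theorem f_smul_F (x y : V) (c : F) : P₁.f (c • x) y = c • P₁.f x y := by
  rw [← algebraMap_smul K c x, P₁.f_smul_left, Algebra.smul_def]

omit [IsScalarTower F K V] in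
theorem f_map_of_fix (X : Ext P P₁ tr) {g : V ≃ₗ[F] V} (hg : g ∈ P.isom) {u : V}
    (h : ∀ a : K, g (a • u) = a • u) (x : V) : P₁.f (g x) u = P₁.f x u := by
  rw [← sub_eq_zero, ← f_sub_left]
  refine X.f_eq_zero_of fun a => ?_
  rw [f_sub_left, ← h a, isom_f hg, h a, sub_self]

section Omega

variable [FiniteDimensional K V] [FiniteDimensional F V]

omit [FiniteDimensional K V] [FiniteDimensional F V] in
theorem eich_eq (X : Ext P P₁ tr) (hΛ : P.Λ = ⊥)
    (htr : ∀ k, algebraMap F K (tr k) = k + P₁.σ k) (e : V) (a : K) (x : V) :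
    P.eich e (a • e) 0 x = P₁.eich e 0 (P₁.σ a - a) x := by
  rw [eich_apply, eich_zero_apply, ε_eq_one_of_Λ hΛ, X.ε_eq, X.f_tr, X.f_tr, f_smul_right,
    zero_mul, add_zero, one_mul, ← algebraMap_smul K (tr _) e, ← algebraMap_smul K (tr _) (a • e),
    htr, htr, map_mul, P₁.σσ]
  module

omit [FiniteDimensional F V] in
theorem E_le_comap (X : Ext P P₁ tr) (hΛ : P.Λ = ⊥)
    (htr : ∀ k, algebraMap F K (tr k) = k + P₁.σ k) (hs : ∀ x, P.Sing x ↔ P₁.Sing x)
    (h4 : 4 ≤ finrank K V) : P₁.E ≤ P.E.comap (resHom F) := by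
  refine E_le_of_tv X.Λ_ne (by rw [X.d_eq]; exact h4) fun e he ν hν => ⟨EV.of_mem he hν, ?_⟩
  obtain ⟨l, hl⟩ := H27.exists_map_mul_eq X.tr_ne (one_ne_zero (α := K)) 1
  have h1 := htr l
  rw [mul_one] at hl
  rw [hl, map_one] at h1
  have h2 := EV.of_sing ((hs e).2 he) ((hs _).2 (he.smul (-(l * ν))))
    (X.f_eq_zero (by rw [P₁.f_smul_left, he.f_self, mul_zero]))
  have h3 : resHom F (EV.of_mem he hν).equiv = h2.equiv := LinearEquiv.ext fun x => by
    rw [resHom_apply, EV.equiv_apply, EV.equiv_apply, X.eich_eq hΛ htr, map_neg, map_mul,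
      P₁.Λ_σ hν, X.ε_eq]
    congr 2
    linear_combination ν * h1
  rw [Subgroup.mem_comap, h3]
  exact h2.equiv_mem_E

theorem omega_mem (X : Ext P P₁ tr) (hΛ : P.Λ = ⊥) (hs : ∀ x, P.Sing x ↔ P₁.Sing x)
    (h5 : 5 ≤ finrank K V) (hE : P₁.E ≤ M.comap (resHom F)) (hM : M ≤ P.isom) (hn : ¬ P.E ≤ M)
    {e y : V} {ν : F} (he0 : e ≠ 0) (h : P.Ei M e y ν) : y ∈ K ∙ e := by
  by_contra hy
  have hd : P₁.d + 2 ≤ finrank K V := by rw [X.d_eq]; omega
  have he := (hs e).1 h.ev.sing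
  have hc : ∀ {a b : V} {μ : K} (hv : P₁.EV a b μ) {e y : V} {ν : F}, P.Ei M e y ν →
      P.Ei M (P₁.eich a b μ e) (P₁.eich a b μ y) ν := fun hv _ _ _ h =>
    h.conj (g := resHom F hv.equiv) (hE hv.equiv_mem_E) (hM (hE hv.equiv_mem_E))
  have h1 : ∀ z, P₁.f z e = 0 → ∃ ν, P.Ei M e z ν := by
    let U : AddSubgroup V :=
      { carrier := {y | ∃ ν, P.Ei M e y ν}
        add_mem' := by rintro _ _ ⟨_, hx⟩ ⟨_, hy⟩; exact ⟨_, hx.add hy⟩
        zero_mem' := ⟨0, Ei.zero h.ev.sing⟩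
        neg_mem' := by rintro _ ⟨_, hx⟩; exact ⟨_, hx.neg⟩ }
    have k1 := finrank_span_singleton_le (F := K) e
    have k2 := P₁.finrank_perp (K ∙ e)
    have k3 : finrank K ↥(P₁.perp (K ∙ e) ⊓ K ∙ e) ≤ finrank K (K ∙ e) :=
      Submodule.finrank_mono inf_le_right
    intro z hz
    refine irr_add (P := P₁) (S := K ∙ e) (U := U) ?_ (P₁.exists_sing_perp_notMem _ (by omega))
      (by omega) ⟨ν, h⟩ hy z (mem_perp_span_singleton.2 hz)
    rintro a b μ hv ha hb x ⟨ν, hx⟩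
    have := hc hv hx
    rw [eich_apply_of_orth₂ _ _ (f_symm_zero (mem_perp_span_singleton.1 ha))
      (f_symm_zero (mem_perp_span_singleton.1 hb))] at this
    exact ⟨ν, this⟩
  have h2 : ∀ e', P₁.Sing e' → e' ≠ 0 → ∀ z, P₁.f z e' = 0 → ∃ ν, P.Ei M e' z ν := by
    intro e' he' he0'
    refine trans_sing hd (p := fun e => ∀ z, P₁.f z e = 0 → ∃ ν, P.Ei M e z ν) ?_ he0 he0' he he'
      h1
    intro a b μ hv w hw z hz
    obtain ⟨ν, h3⟩ := hw (hv.equiv⁻¹ z) (by rw [← isom_f_right hv.equiv_mem_isom]; exact hz)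
    have := hc hv h3
    rw [← hv.equiv_apply (hv.equiv⁻¹ z), apply_inv_apply] at this
    exact ⟨ν, this⟩
  have h3 : ∀ e, P.Sing e → e ≠ 0 → P.Full M e := by
    intro e he he0
    refine ⟨he, fun b ν hv => ?_⟩
    obtain ⟨ν', h4⟩ : ∃ ν, P.Ei M e b ν := by
      by_cases h4 : P₁.f b e = 0
      · exact h2 e ((hs e).1 he) he0 b h4
      obtain ⟨a, ha, ha0, has⟩ := P₁.exists_sing (P₁.perp ((K ∙ e) ⊔ K ∙ b)) (by
        have := finrank_sup_span_le (K ∙ e) b
        have := finrank_span_singleton_le (F := K) e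
        have := P₁.finrank_perp ((K ∙ e) ⊔ K ∙ b)
        omega)
      rw [mem_perp_sup_span, mem_perp_span_singleton] at ha
      obtain ⟨l, hl⟩ := H27.exists_map_mul_eq X.tr_ne (one_ne_zero (α := K)) 1
      obtain ⟨x, hx, h6⟩ := P₁.exists_perp_f_left (W := K ∙ e) (x := a) (fun h => by
        obtain ⟨c, rfl⟩ := Submodule.mem_span_singleton.1 h
        have h7 := ha.2
        rw [P₁.f_smul_left, mul_eq_zero, or_iff_left (f_symm_ne h4)] at h7
        exact ha0 (by rw [h7, zero_smul])) (l * 1)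
      obtain ⟨_, k1⟩ := h2 e ((hs e).1 he) he0 x (mem_perp_span_singleton.1 hx)
      obtain ⟨μ, k2⟩ := h2 a has ha0 b (f_symm_zero ha.2)
      obtain ⟨_, k3⟩ := k1.diff k2 (X.f_eq_zero (f_symm_zero ha.1)) hv.orth'
      obtain ⟨_, k4⟩ := h2 e ((hs e).1 he) he0 ((P.ε * (P.f x b + μ * P.f x a)) • a)
        (by rw [f_smul_F, ha.1, smul_zero])
      have k5 := k3.add k4
      rw [sub_add_cancel, X.f_tr x a, h6, hl, one_smul] at k5
      exact ⟨_, k5⟩
    have h5 := hv.sub_mem h4.ev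
    rw [hΛ, AddSubgroup.mem_bot, sub_eq_zero] at h5
    exact h5 ▸ h4
  obtain ⟨e', he', h4⟩ := h.ev.sing.exists_partner' he0
  refine hn ((h3 e h.ev.sing he0).E_le (h3 e' he' ?_) (by rw [h4]; exact one_ne_zero))
  rintro rfl
  rw [f_zero_left] at h4
  exact zero_ne_one h4

theorem omega_le_or [Finite K] (X : Ext P P₁ tr) (hΛ : P.Λ = ⊥)
    (htr : ∀ k, algebraMap F K (tr k) = k + P₁.σ k) (hs : ∀ x, P.Sing x ↔ P₁.Sing x)
    (h5 : 5 ≤ finrank K V) (h1 : semiN F K V ⊓ P.E ≤ M) (h2 : M ≤ P.E) :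
    M ≤ semiN F K V ∨ P.E ≤ M := by
  by_cases hn : P.E ≤ M
  · exact Or.inr hn
  left
  have hE : P₁.E ≤ M.comap (resHom F) := fun g hg =>
    h1 ⟨resHom_mem_semiN g, X.E_le_comap hΛ htr hs (by omega) hg⟩
  have hM := h2.trans E_le_isom
  intro g hg
  refine mem_semiN_of_sing (P₁ := P₁) (by rw [X.d_eq]; omega) (by rw [X.d_eq]; omega)
    fun u hu a => ?_
  by_cases hu0 : u = 0
  · simp [hu0]
  have h3 := (hs _).1 (((hs u).2 hu).map (hM hg))
  have h4 : P₁.σ a - a ∈ P₁.Λ := by simpa [X.ε_eq, P₁.σσ] using P₁.Λ_ge (P₁.σ a)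
  have h6 : P.Ei M (g u) (a • g u) 0 := Ei.of_eq (EV.of_sing ((hs _).2 h3) ((hs _).2 (h3.smul a))
    (X.f_eq_zero (by rw [P₁.f_smul_left, h3.f_self, mul_zero])))
    (hE (EV.of_mem h3 h4).equiv_mem_E) fun x => (X.eich_eq hΛ htr _ a x).symm
  have h7 := h6.conj (M.inv_mem hg) (hM (M.inv_mem hg))
  rw [inv_apply_apply] at h7
  exact X.omega_mem hΛ hs h5 hE hM hn hu0 h7

theorem omega_not_le (X : Ext P P₁ tr) (hs : ∀ x, P.Sing x ↔ P₁.Sing x)
    (h4 : 4 ≤ finrank K V) : ¬ P.E ≤ semiN F K V := by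
  intro h
  have hd : P₁.d + 2 ≤ finrank K V := by rw [X.d_eq]; omega
  obtain ⟨e, -, he0, he⟩ := P₁.exists_sing ⊤ (by rw [finrank_top]; omega)
  obtain ⟨y, hy, hye, hy'⟩ := exists_sing_orth hd e
  have hv := EV.of_sing ((hs e).2 he) ((hs y).2 hy) (X.f_eq_zero hye)
  obtain ⟨a, ha⟩ := X.ne
  obtain ⟨x, hx, h1⟩ := P.exists_perp_f_left (W := F ∙ e) (x := y) (fun h => by
    obtain ⟨c, rfl⟩ := Submodule.mem_span_singleton.1 h
    exact hy' (Submodule.smul_of_tower_mem _ _ (Submodule.mem_span_singleton_self e))) (-P.ε)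
  have h2 := smul_of_mem_semiN (h hv.equiv_mem_E) he0 (fun b => P.eich_apply_of_orth₂ _
    (X.f_eq_zero (by rw [P₁.f_smul_left, Sing.f_self he, mul_zero]))
    (X.f_eq_zero (by rw [P₁.f_smul_left, f_symm_zero hye, mul_zero]))) a x
  rw [EV.equiv_apply, EV.equiv_apply, eich_apply,
    eich_apply_of_orth _ _ (mem_perp_span_singleton.1 hx), h1, mul_neg, P.ε_sq] at h2
  generalize P.ε * (P.f (a • x) y + 0 * P.f (a • x) e) = c at h2
  have h3 : P.f (a • x) e • y = (a + algebraMap F K c) • e := by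
    rw [add_smul, algebraMap_smul]
    linear_combination (norm := module) h2
  have h5 : P.f (a • x) e = 0 := by
    by_contra h5
    refine hy' ((Submodule.smul_mem_iff _ ((map_ne_zero (algebraMap F K)).2 h5)).1 ?_)
    rw [algebraMap_smul, h3]
    exact Submodule.smul_mem _ _ (Submodule.mem_span_singleton_self e)
  rw [h5, zero_smul, eq_comm, smul_eq_zero, or_iff_left he0] at h3
  exact ha ⟨-c, by rw [map_neg]; linear_combination -h3⟩

end Omega

section Sp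

theorem ε_eq_of_Λ_top (h : P.Λ = ⊤) : P.ε = -1 := by
  have := P.Λ_le 1 (h ▸ AddSubgroup.mem_top _)
  rw [map_one, mul_one] at this
  linear_combination this

theorem σ_eq_of_Λ_top (h : P.Λ = ⊤) (a : F) : P.σ a = a := by
  have := P.Λ_le a (h ▸ AddSubgroup.mem_top _)
  rw [ε_eq_of_Λ_top h] at this
  linear_combination -this

theorem sing_of_Λ_top (h : P.Λ = ⊤) (x : V) : P.Sing x := by
  rw [Sing, h]; trivial

theorem ev_of_Λ_top (h : P.Λ = ⊤) (x : V) (ν : F) : P.EV x 0 ν :=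
  EV.of_mem (sing_of_Λ_top h x) (h ▸ AddSubgroup.mem_top _)

omit [IsScalarTower F K V] in
theorem exists_tr_eq_one (X : Ext P P₁ tr) : ∃ ω, tr ω = 1 := by
  simpa using H27.exists_map_mul_eq X.tr_ne (one_ne_zero (α := K)) 1

theorem resHom_mem_isom (X : Ext P P₁ tr) (hΛ : P.Λ = ⊤) {g : V ≃ₗ[K] V} (hg : g ∈ P₁.isom) :
    resHom F g ∈ P.isom :=
  ⟨fun x y => by rw [X.f_tr, X.f_tr, resHom_apply, resHom_apply, isom_f hg],
    fun _ => hΛ ▸ AddSubgroup.mem_top _⟩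

variable [FiniteDimensional K V] [FiniteDimensional F V]

theorem sp_gen (X : Ext P P₁ tr) (hΛ : P.Λ = ⊤) (h2 : (2 : F) ≠ 0)
    (htr : ∀ k, tr (P₁.σ k) = -tr k) (hmax : ∀ x, P₁.f x x = 0 → P₁.Sing x)
    (h4 : 4 ≤ finrank K V) (hd : P.d + 2 ≤ finrank F V) (hE : P₁.E ≤ M.comap (resHom F))
    (hM : M ≤ P.isom) {e : V} (he : P₁.Sing e) (he0 : e ≠ 0) (h : ∀ ν, P.Ei M e 0 ν) :
    P.E ≤ M := by
  have h1 : ∀ e', P₁.Sing e' → e' ≠ 0 → ∀ ν, P.Ei M e' 0 ν := by
    intro e' he' he0'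
    refine trans_sing (by rw [X.d_eq]; omega) (p := fun e => ∀ ν, P.Ei M e 0 ν) ?_ he0 he0' he
      he' h
    intro a b μ hv w hw ν
    have := (hw ν).conj (g := resHom F hv.equiv) (hE hv.equiv_mem_E) (hM (hE hv.equiv_mem_E))
    rwa [map_zero] at this
  refine E_le_of_tv (hΛ ▸ top_ne_bot) hd fun v _ ν _ => ?_
  by_cases hv0 : v = 0
  · exact Ei.of_eq (ev_of_Λ_top hΛ _ _) M.one_mem fun x => by simp [hv0, eich_zero_apply]
  obtain ⟨w, -, hw, h3⟩ := exists_sing_f_eq_one (S := ⊥) (x := v) he (by rw [perp_bot]; trivial)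
    (by simpa using he0) (by simpa using hv0)
  obtain ⟨ω, hω⟩ := X.exists_tr_eq_one
  have h2' : (2 : K) ≠ 0 := by
    rw [← map_ofNat (algebraMap F K) 2]; exact (map_ne_zero _).2 h2
  have h5 : P₁.σ (P₁.f v v) = P₁.f v v := by rw [σ_f, X.ε_eq, one_mul]
  set β := 2⁻¹ * P₁.f v v + (ω - P₁.σ ω) with hβ
  have h6 : P₁.f v (P₁.σ β • w) = β := by rw [f_smul_right, P₁.σσ, h3, mul_one]
  have h7 := hw.smul (P₁.σ β)
  generalize P₁.σ β • w = w' at h6 h7
  have h8 : tr β = 2 := by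
    have h8 := htr (2⁻¹ * P₁.f v v)
    rw [map_mul, map_inv₀, map_ofNat, h5] at h8
    have h9 : tr (2⁻¹ * P₁.f v v) = 0 := mul_left_cancel₀ h2 (by linear_combination h8)
    rw [hβ, map_add, map_sub, htr, hω, h9]
    norm_num
  have h9 : P.f (v - w') w' = 2 := by rw [X.f_tr, f_sub_left, h6, h7.f_self, sub_zero, h8]
  have h10 : P₁.Sing (v - w') := hmax _ (by
    rw [f_sub_left, f_sub_right, f_sub_right, h7.f_self, P₁.herm v w', h6, X.ε_eq, hβ]
    simp only [map_add, map_mul, map_inv₀, map_ofNat, map_sub, h5, P₁.σσ]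
    field_simp
    ring)
  have h11 := (h1 w' h7 (by rintro rfl; rw [f_zero_right] at h9; exact h2 h9.symm) 2⁻¹).conj_ei
    (h1 _ h10 (fun h => by rw [h, f_zero_left] at h9; exact h2 h9.symm) ν)
  rwa [map_zero, eich_zero_apply, h9, inv_mul_cancel₀ h2, ε_eq_of_Λ_top hΛ, mul_one, neg_smul,
    one_smul, sub_neg_eq_add, sub_add_cancel] at h11

omit [FiniteDimensional F V] in
theorem sp_comm (X : Ext P P₁ tr) (hΛ : P.Λ = ⊤) (h2 : (2 : F) ≠ 0)
    (hE : P₁.E ≤ M.comap (resHom F)) (hM : M ≤ P.isom) {u z : V} (hu : P₁.Sing u)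
    (hz : P₁.f z u = 0) (hzu : z ∉ K ∙ u) {D : V ≃ₗ[F] V} (hD : D ∈ M)
    (h : ∀ x, ∃ k : K, D x = x + P.f x u • z + k • u) (ν : F) : P.Ei M u 0 ν := by
  have hε := ε_eq_of_Λ_top hΛ
  have hσ := σ_eq_of_Λ_top hΛ
  have h0 : ∀ (k : K) w, P₁.f w u = 0 → P.f w (k • u) = 0 := fun k w hw =>
    X.f_eq_zero (by rw [f_smul_right, hw, mul_zero])
  have h1 : ∀ w, P₁.f w u = 0 → D w = w + P.f w z • u := by
    intro w hw
    obtain ⟨k, hk⟩ := h w
    rw [X.f_eq_zero hw, zero_smul, add_zero] at hk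
    rw [hk, add_right_inj]
    refine eq_of_f_left (P := P) fun x => ?_
    obtain ⟨k', hk'⟩ := h x
    have h3 := isom_f (hM hD) w x
    rw [hk, hk', P.f_add_left, f_add_right, f_add_right, f_add_right, f_add_right, f_smul_right,
      f_smul_right, h0 k' w hw, f_symm_zero (h0 k z hz),
      h0 k' _ (by rw [P₁.f_smul_left, hu.f_self, mul_zero]), hσ] at h3
    rw [P.f_smul_left, P.herm x u, hσ, hε]
    linear_combination h3
  have h3 : ∀ k : K, D (k • u) = k • u := fun k => by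
    rw [h1 _ (by rw [P₁.f_smul_left, hu.f_self, mul_zero]), f_symm_zero (h0 k z hz), zero_smul,
      add_zero]
  obtain ⟨y, hy, h4⟩ := P₁.exists_perp_f_right hzu (algebraMap F K (2⁻¹ * ν))
  rw [mem_perp_span_singleton] at hy
  have hv := EV.of_h hu hy
  have h5 := hE hv.equiv_mem_E
  refine Ei.of_eq (ev_of_Λ_top hΛ _ _)
    (M.mul_mem (M.inv_mem h5) (M.mul_mem (M.mul_mem hD h5) (M.inv_mem hD))) fun v => ?_
  obtain ⟨x, rfl⟩ := D.surjective v
  apply (resHom F hv.equiv).injective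
  have h6 : P.f (D x) u = P.f x u := by rw [X.f_tr, X.f_tr, X.f_map_of_fix (hM hD) h3]
  have h7 : P₁.f (D x) y = P₁.f x y + P.f x u • algebraMap F K (2⁻¹ * ν) := by
    obtain ⟨k, hk⟩ := h x
    rw [hk, P₁.f_add_left, P₁.f_add_left, f_smul_F, P₁.f_smul_left, h4, hv.orth', mul_zero,
      add_zero]
  have h8 : P.f (P₁.f x u • y) z = 2⁻¹ * ν * P.f x u := by
    rw [X.f_tr, P₁.f_smul_left, P₁.herm z y, h4, X.σ_alg, X.ε_eq, one_mul, mul_comm,
      ← Algebra.smul_def, map_smul, X.f_tr, smul_eq_mul]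
  rw [mul_apply', apply_inv_apply, mul_apply', mul_apply', inv_apply_apply, eich_zero_apply, h6,
    map_sub, map_smul, resHom_apply, resHom_apply, resHom_apply, EV.equiv_apply, EV.equiv_apply,
    EV.equiv_apply, hv.eich_self, eich_apply, eich_apply, map_sub, map_add, h3,
    h1 (_ • y) (by rw [P₁.f_smul_left, hy, mul_zero]), X.f_map_of_fix (hM hD) h3, h7, h8, hε,
    X.ε_eq, ← algebraMap_smul K (2⁻¹ * ν * P.f x u) u, ← algebraMap_smul K (-1 * (ν * P.f x u)) u,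
    Algebra.smul_def]
  have h2' : (2 : K) ≠ 0 := by
    rw [← map_ofNat (algebraMap F K) 2]; exact (map_ne_zero _).2 h2
  simp only [map_mul, map_inv₀, map_ofNat, map_neg, map_one]
  match_scalars
  · rfl
  · rfl
  · field_simp
    ring

theorem sp_lin (X : Ext P P₁ tr) (hΛ : P.Λ = ⊤) (h2 : (2 : F) ≠ 0)
    (htr : ∀ k, tr (P₁.σ k) = -tr k) (hker : ∀ k, tr k = 0 → k ∈ Set.range (algebraMap F K))
    (hmax : ∀ x, P₁.f x x = 0 → P₁.Sing x)
    (h4 : 4 ≤ finrank K V) (hd : P.d + 2 ≤ finrank F V) (hE : P₁.E ≤ M.comap (resHom F))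
    (hM : M ≤ P.isom) (hn : ¬ P.E ≤ M) {τ : V ≃ₗ[F] V} (hτ : τ ∈ M) {u : V} (hu : P₁.Sing u)
    (hu0 : u ≠ 0) (h : ∀ a : K, τ (a • u) = a • u) {y : V} (hy : P₁.f y u = 0) (a : K) :
    τ (a • y) - a • τ y ∈ K ∙ u := by
  obtain ⟨ω, hω⟩ := X.exists_tr_eq_one
  have h1 : ∀ β : K, τ (β • y) = β • τ y + tr β • (τ (ω • y) - ω • τ y) := by
    intro β
    obtain ⟨c, hc⟩ := hker (β - tr β • ω) (by rw [map_sub, map_smul, hω]; simp)
    have h3 : β = algebraMap F K c + tr β • ω := by rw [hc, sub_add_cancel]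
    generalize tr β = t at h3
    rw [h3, add_smul, add_smul, algebraMap_smul, algebraMap_smul, smul_assoc, smul_assoc, map_add,
      map_smul, map_smul, smul_sub]
    abel
  have hf := X.f_map_of_fix (hM hτ) h
  rw [h1, add_sub_cancel_left]
  refine Submodule.smul_of_tower_mem _ _ ?_
  by_contra hz
  have hv₁ := EV.of_h hu hy
  have hv₂ := EV.of_h hu (y := τ y) (by rw [hf, hy])
  refine hn (X.sp_gen hΛ h2 htr hmax h4 hd hE hM hu hu0 (X.sp_comm hΛ h2 hE hM hu ?_ hz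
    (M.mul_mem (M.inv_mem (hE hv₂.equiv_mem_E))
      (M.mul_mem (M.mul_mem hτ (hE hv₁.equiv_mem_E)) (M.inv_mem hτ))) fun v => ?_))
  · rw [f_sub_left, hf, P₁.f_smul_left, P₁.f_smul_left, hf, sub_self]
  obtain ⟨x, rfl⟩ := τ.surjective v
  rw [mul_apply', mul_apply', mul_apply', inv_apply_apply, ← map_inv, resHom_apply, resHom_apply,
    EV.equiv_inv_apply, eich_apply, hf, EV.equiv_apply, hv₁.f_eich_left, X.f_tr, hf]
  generalize P₁.ε * (P₁.f _ (-τ y) + _) = k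
  rw [eich_apply, map_sub, map_add, h, h1]
  exact ⟨-(P₁.ε * (P₁.f x y + P₁.h y * P₁.f x u)) - k, by
    rw [sub_smul, neg_smul, smul_neg]; abel⟩

theorem sp_le_or [Finite K] (X : Ext P P₁ tr) (hΛ : P.Λ = ⊤) (h2 : (2 : F) ≠ 0)
    (htr : ∀ k, tr (P₁.σ k) = -tr k) (hker : ∀ k, tr k = 0 → k ∈ Set.range (algebraMap F K))
    (hmax : ∀ x, P₁.f x x = 0 → P₁.Sing x) (h6 : 6 ≤ finrank K V) (hd : P.d + 2 ≤ finrank F V)
    (hi : P.isom ≤ P.E) (h1 : semiN F K V ⊓ P.E ≤ M) (hME : M ≤ P.E) :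
    M ≤ semiN F K V ∨ P.E ≤ M := by
  by_cases hn : P.E ≤ M
  · exact Or.inr hn
  left
  have hE : P₁.E ≤ M.comap (resHom F) := fun g hg =>
    h1 ⟨resHom_mem_semiN g, hi (X.resHom_mem_isom hΛ (E_le_isom hg))⟩
  have hM := hME.trans E_le_isom
  have hd₁ := X.d_eq
  intro g hg
  refine mem_semiN_of_sing (P₁ := P₁) (by omega) (by omega) fun u hu a => ?_
  by_cases hu0 : u = 0
  · simp [hu0]
  obtain ⟨ω, hω⟩ := X.exists_tr_eq_one
  obtain ⟨ν, hν, hν0⟩ := exists_mem_Λ X.Λ_ne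
  have hv := EV.of_mem hu hν
  have hτ := M.mul_mem (M.mul_mem hg (hE hv.equiv_mem_E)) (M.inv_mem hg)
  have h3 : ∀ x, (g * resHom F hv.equiv * g⁻¹) x = x - g ((ν * P₁.f (g⁻¹ x) u) • u) := fun x => by
    rw [mul_apply', mul_apply', resHom_apply, EV.equiv_apply, eich_zero_apply, map_sub,
      apply_inv_apply, X.ε_eq, one_mul]
  generalize g * resHom F hv.equiv * g⁻¹ = τ at hτ h3
  set S : Submodule K V := (K ∙ g u) ⊔ K ∙ g (ω • u)
  have h4 : ∀ β : K, g (β • u) ∈ S := fun β => by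
    obtain ⟨c, hc⟩ := hker (β - tr β • ω) (by rw [map_sub, map_smul, hω]; simp)
    have h3 : β = algebraMap F K c + tr β • ω := by rw [hc, sub_add_cancel]
    rw [h3, add_smul, algebraMap_smul, smul_assoc, map_add, map_smul, map_smul]
    exact Submodule.add_mem_sup
      (Submodule.smul_of_tower_mem _ _ (Submodule.mem_span_singleton_self _))
      (Submodule.smul_of_tower_mem _ _ (Submodule.mem_span_singleton_self _))
  have h5 : ∀ x ∈ P₁.perp S, τ x = x := fun x hx => by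
    rw [h3, X.f_eq_zero_of fun b => by
      rw [← isom_f_right (hM hg)]; exact X.f_eq_zero (hx _ (h4 b))]
    simp
  obtain ⟨u', hu', hu'S, hs⟩ := P₁.exists_sing_perp_notMem S (by
    have : finrank K S ≤ _ := finrank_sup_span_le (K ∙ g u) (g (ω • u))
    have := finrank_span_singleton_le (F := K) (g u)
    omega)
  have h7 : ∀ y, P₁.f y u' = 0 → τ (a • y) = a • τ y := fun y hy => by
    obtain ⟨c, hc⟩ := Submodule.mem_span_singleton.1 (X.sp_lin hΛ h2 htr hker hmax (by omega) hd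
      hE hM hn hτ hs (by rintro rfl; exact hu'S (zero_mem _))
      (fun b => h5 _ (Submodule.smul_mem _ b hu')) hy a)
    have h8 : c • u' ∈ S := by
      rw [hc, h3, h3, smul_sub, sub_sub_sub_cancel_left]
      exact S.sub_mem (S.smul_mem _ (h4 _)) (h4 _)
    by_cases hc0 : c = 0
    · rw [hc0, zero_smul] at hc
      exact sub_eq_zero.1 hc.symm
    · exact absurd ((S.smul_mem_iff hc0).1 h8) hu'S
  have h8 : ∀ y, τ (a • y) = a • τ y := fun y => by
    obtain ⟨y', hy', h9⟩ := P₁.exists_perp_f_left hu'S (P₁.f y u')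
    have h10 := h7 (y - y') (by rw [f_sub_left, h9, sub_self])
    rw [smul_sub, map_sub, map_sub, h5 y' hy', h5 _ (Submodule.smul_mem _ a hy'), smul_sub] at h10
    exact sub_left_injective h10
  obtain ⟨x, hx⟩ := P₁.exists_f_left_eq hu0 ν⁻¹
  have h9 := h8 (g x)
  rw [h3, h3, inv_apply_apply, hx, mul_inv_cancel₀ hν0, one_smul, smul_sub, sub_right_inj] at h9
  rw [← h9, inv_apply_apply]
  exact Submodule.smul_mem _ _ (Submodule.mem_span_singleton_self u)

omit [FiniteDimensional F V] in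
theorem sp_not_le (X : Ext P P₁ tr) (hΛ : P.Λ = ⊤) (h2 : 2 ≤ finrank K V) :
    ¬ P.E ≤ semiN F K V := by
  intro h
  obtain ⟨e, -, he0, he⟩ := P₁.exists_sing ⊤ (by rw [finrank_top, X.d_eq]; omega)
  have hv := ev_of_Λ_top hΛ e 1
  obtain ⟨a, ha⟩ := X.ne
  obtain ⟨x, hx⟩ := P.exists_f_left_eq he0 1
  have h2 := smul_of_mem_semiN (h hv.equiv_mem_E) he0 (fun b => P.eich_apply_of_orth₂ _
    (X.f_eq_zero (by rw [P₁.f_smul_left, Sing.f_self he, mul_zero])) (P.f_zero_right _)) a x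
  rw [EV.equiv_apply, EV.equiv_apply, eich_zero_apply, eich_zero_apply, hx, ε_eq_of_Λ_top hΛ,
    smul_sub, sub_right_inj, mul_one, mul_one, neg_smul, one_smul, smul_neg, neg_one_mul, one_mul,
    neg_smul, neg_inj, ← algebraMap_smul K] at h2
  exact ha ⟨_, smul_left_injective K he0 h2⟩

end Sp

end Ext

end PForm

end Cfsg.Agent.H26
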