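import Cfsg.Agent.H26.PC3

/-!
Maximality of the unitary field extension subgroups of `Sp` and `Ω`.
-/

set_option autoImplicit false

namespace Cfsg.Agent.H26

open Module PForm QuadraticMap
open scoped Matrix

section Abstract

variable {F K : Type*} [Field F] [Field K] [Algebra F K] {V : Type*} [AddCommGroup V]
  [Module F V] [Module K V] [IsScalarTower F K V] {P : PForm F V}

theorem exists_adj [Finite K] [Nontrivial V] (hσ : ∀ c, P.σ c = c)
    (hac : ∀ k : K, ∃ k' : K, ∀ u v, P.f (k • u) v = P.f u (k' • v))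
    (hns : ¬ ∀ (k : K) u v, P.f (k • u) v = P.f u (k • v)) :
    ∃ σ : K ≃+* K, (∀ a, σ (σ a) = a) ∧ (∃ a, σ a ≠ a) ∧
      (∀ c, σ (algebraMap F K c) = algebraMap F K c) ∧
      ∀ k u v, P.f (k • u) v = P.f u (σ k • v) := by
  choose s hs using hac
  obtain ⟨v, hv⟩ := exists_ne (0 : V)
  have h1 : ∀ a b : K, (∀ u, P.f u (a • v) = P.f u (b • v)) → a = b := fun a b h =>
    smul_left_injective K hv (eq_of_f_right (P := P) h)
  let s' : K →+* K :=
    { toFun := s
      map_one' := h1 _ _ fun u => by rw [← hs, one_smul, one_smul]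
      map_mul' := fun a b => h1 _ _ fun u => by
        rw [← hs, mul_comm a b, mul_smul, hs, hs, mul_smul]
      map_zero' := h1 _ _ fun u => by rw [← hs, zero_smul, zero_smul, f_zero_left, f_zero_right]
      map_add' := fun a b => h1 _ _ fun u => by
        rw [← hs, add_smul, add_smul, P.f_add_left, f_add_right, hs, hs] }
  refine ⟨RingEquiv.ofBijective s' (Finite.injective_iff_bijective.1 s'.injective),
    fun a => h1 _ _ fun u => ?_, ?_, fun c => h1 _ _ fun u => ?_, hs⟩
  · change P.f u (s (s a) • v) = _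
    rw [← hs, P.herm, ← hs, ← P.herm]
  · by_contra hc
    push Not at hc
    exact hns fun k u v => by rw [hs]; exact congrArg (fun a => P.f u (a • v)) (hc k)
  · change P.f u (s _ • v) = _
    rw [← hs, algebraMap_smul, algebraMap_smul, P.f_smul_left, f_smul_right, hσ]

theorem mem_range_of_fixed (h2 : finrank F K = 2) {σ : K ≃+* K} (hne : ∃ a, σ a ≠ a)
    (hc : ∀ c, σ (algebraMap F K c) = algebraMap F K c) {k : K} (hk : σ k = k) :
    k ∈ Set.range (algebraMap F K) := by
  let L : Subalgebra F K :=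
    { carrier := {k | σ k = k}
      mul_mem' := fun ha hb => by rw [Set.mem_ofPred_eq, map_mul, ha, hb]
      add_mem' := fun ha hb => by rw [Set.mem_ofPred_eq, map_add, ha, hb]
      algebraMap_mem' := hc }
  rcases (Subalgebra.isSimpleOrder_of_finrank_prime F K
    (h2 ▸ Nat.prime_two)).eq_bot_or_eq_top L with h | h
  · exact Algebra.mem_bot.1 (h ▸ (hk : k ∈ L))
  · obtain ⟨a, ha⟩ := hne
    exact absurd (show a ∈ L from h ▸ Algebra.mem_top) ha

theorem exists_trace (h2 : finrank F K = 2) {σ : K ≃+* K} (hσ : ∀ a, σ (σ a) = a)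
    (hne : ∃ a, σ a ≠ a) (hc : ∀ c, σ (algebraMap F K c) = algebraMap F K c) :
    ∃ tr : K →ₗ[F] F, ∀ k, algebraMap F K (tr k) = k + σ k := by
  choose t ht using fun k : K => mem_range_of_fixed h2 hne hc (k := k + σ k)
    (by rw [map_add, hσ, add_comm])
  refine ⟨⟨⟨t, fun a b => (algebraMap F K).injective ?_⟩, fun c a => (algebraMap F K).injective ?_⟩,
    ht⟩
  · rw [map_add, ht, ht, ht, map_add]; ring
  · rw [RingHom.id_apply, smul_eq_mul, map_mul, ht, ht, Algebra.smul_def, map_mul, hc]; ring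

theorem exists_ext [Finite K] [FiniteDimensional F K] (hP : ∀ c, P.σ c = c) {σ : K ≃+* K}
    (hσ : ∀ a, σ (σ a) = a) (hne : ∃ a, σ a ≠ a)
    (hc : ∀ c, σ (algebraMap F K c) = algebraMap F K c)
    (hadj : ∀ k u v, P.f (k • u) v = P.f u (σ k • v)) {lam : K →ₗ[F] F} (hlam : lam ≠ 0)
    (hε : ∀ k, lam (σ k) = P.ε * lam k) :
    ∃ P₁ : PForm K V, Ext P P₁ lam ∧ P₁.σ = σ ∧ (∀ x, P₁.f x x = 0 → P₁.Sing x) := by
  choose B hB using fun u v : V => H27.exists_forall_map_mul_eq hlam
    ((P.fL v).comp ((LinearMap.toSpanSingleton K V u).restrictScalars F))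
  replace hB : ∀ (u v : V) (a : K), lam (a * B u v) = P.f (a • u) v := hB
  have hB' : ∀ u v, P.f u v = lam (B u v) := fun u v => by simpa using (hB u v 1).symm
  obtain ⟨l, hl⟩ := (⟨hσ, hne⟩ : H31.IsInvol (σ : K →+* K)).exists_trace_eq (map_one _)
  refine ⟨ofHerm σ hσ hne l hl B
    (fun x y z => H27.eq_of_forall_map_mul_eq hlam fun a => by
      rw [mul_add, map_add, hB, hB, hB, smul_add, P.f_add_left])
    (fun c x y => H27.eq_of_forall_map_mul_eq hlam fun a => by
      rw [← mul_assoc, hB, hB, smul_smul])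
    (fun x y => H27.eq_of_forall_map_mul_eq hlam fun a => ?_)
    (fun y hy => P.nondeg y fun x => by rw [hB', hy, map_zero]),
    ⟨hB', hlam, rfl, hc, fun h => ?_, rfl, ?_⟩, rfl, fun x hx => ?_⟩
  · rw [hB, hadj, P.herm, hP, ← hB, ← hε, map_mul, hσ]
  · obtain ⟨a, ha⟩ := hne
    exact ha (σ_eq_of_Λ h a)
  · obtain ⟨a, ha⟩ := hne
    exact ⟨a, fun ⟨c, h⟩ => ha (h ▸ hc c)⟩
  · change B x x = 0 at hx
    change l * B x x + σ (l * B x x) = 0
    simp [hx]

omit [IsScalarTower F K V] in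
theorem PForm.Ext.sing_iff {P₁ : PForm K V} {tr : K →ₗ[F] F} (X : Ext P P₁ tr) (hΛ : P.Λ = ⊥)
    (htr : ∀ k, algebraMap F K (tr k) = k + P₁.σ k) (hmax : ∀ x, P₁.f x x = 0 → P₁.Sing x)
    (hsc : ∀ k : K, ∃ c : F, ∀ v, P.h (k • v) = c * P.h v) (x : V) : P.Sing x ↔ P₁.Sing x := by
  choose c hc using hsc
  have h12 : ∀ (k : K) v, P.f v (k • v) = (c (1 + k) - 1 - c k) * P.h v := fun k v => by
    have := P.h_add v (k • v)
    rw [hΛ, AddSubgroup.mem_bot, show v + k • v = (1 + k) • v by rw [add_smul, one_smul], hc,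
      hc] at this
    linear_combination -this
  have h0 : ∀ x, P.Sing x ↔ P.h x = 0 := fun x => by rw [Sing, hΛ, AddSubgroup.mem_bot]
  refine ⟨fun hx => hmax x (X.f_eq_zero_of fun k => ?_), fun hx => ?_⟩
  · rw [h12, (h0 x).1 hx, mul_zero]
  by_contra h1
  have h13 : ∀ y, P₁.f y y = 0 := fun y => X.f_eq_zero_of fun k => by
    have := X.f_eq_zero (x := x) (y := k • x) (by rw [f_smul_right, hx.f_self, mul_zero])
    rw [h12, mul_eq_zero, ← h0, or_iff_left h1] at this
    rw [h12, this, zero_mul]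
  have h14 : x = 0 := P.nondeg x fun y => (algebraMap F K).injective (by
    have := h13 (y + x)
    rw [P₁.f_add_left, f_add_right, f_add_right, h13, h13, P₁.herm y x, X.ε_eq] at this
    rw [X.f_tr, htr, map_zero]
    linear_combination this)
  exact h1 (h14 ▸ P.sing_zero)

end Abstract

variable {ι : Type} [Fintype ι] [DecidableEq ι] {F : Type*} [Field F]

theorem mem_subalgebraNormalizer_iff {K : Type*} [Field K] [Algebra F K]
    (φ : K →ₐ[F] Matrix ι ι F) [Nonempty ι] (g : GL ι F) :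
    letI := H27.homModule φ
    g ∈ Geo.subalgebraNormalizer φ.range ↔ gl g ∈ semiN F K (ι → F) := by
  let _ := H27.homModule φ
  have hφ : Function.Injective φ := φ.toRingHom.injective
  have key : ∀ a b : K, (g : Matrix ι ι F) * φ a * ((g⁻¹ : GL ι F) : Matrix ι ι F) = φ b ↔
      ∀ v, gl g (a • v) = b • gl g v := by
    intro a b
    rw [Units.mul_inv_eq_iff_eq_mul, Matrix.ext_iff_mulVec]
    simp only [← Matrix.mulVec_mulVec, gl_apply, H27.homModule_smul]
  change (∀ k : Matrix ι ι F, k ∈ φ.range ↔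
    (g : Matrix ι ι F) * k * ((g⁻¹ : GL ι F) : Matrix ι ι F) ∈ φ.range) ↔ _
  constructor
  · intro hg
    choose σ hσ using fun a => (hg (φ a)).1 ⟨a, rfl⟩
    have hbij : Function.Bijective σ := by
      constructor
      · intro a a' h
        have h1 := (hσ a).symm.trans ((congrArg φ h).trans (hσ a'))
        exact hφ ((Units.mul_right_inj g).1 ((Units.mul_left_inj g⁻¹).1 h1))
      · intro b
        obtain ⟨a, ha⟩ := (hg (((g⁻¹ : GL ι F) : Matrix ι ι F) * φ b * g)).2
          ⟨b, by simp [mul_assoc]⟩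
        refine ⟨a, hφ ((hσ a).trans ?_)⟩
        change _ * φ.toRingHom a * _ = _
        rw [ha]
        simp [mul_assoc]
    exact ⟨Equiv.ofBijective σ hbij, fun a => (key a (σ a)).1 (hσ a).symm⟩
  · rintro ⟨σ, hσ⟩ k
    constructor
    · rintro ⟨a, rfl⟩
      exact ⟨σ a, ((key a _).2 (hσ a)).symm⟩
    · rintro ⟨b, hb⟩
      have h1 := (key _ _).2 (hσ (σ.symm b))
      rw [Equiv.apply_symm_apply] at h1
      exact ⟨σ.symm b, (Units.mul_right_inj g).1 ((Units.mul_left_inj g⁻¹).1 (h1.trans hb))⟩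

theorem sp_c3_unitary [Finite F] (h2 : (2 : F) ≠ 0) {f : (ι → F) → (ι → F) → F}
    (hf : Geo.IsSymplecticForm f) (h12 : 12 ≤ Fintype.card ι) {K : Subalgebra F (Matrix ι ι F)}
    (hK : Geo.IsFieldSubalgebra 2 K) (hac : Geo.IsAdjointClosedFor f K)
    (hns : ¬ Geo.IsSelfAdjointFor f K) :
    Geo.IsMaximalIn (preserving (glToMat ι F) f)
      (Geo.subalgebraNormalizer K ⊓ preserving (glToMat ι F) f) := by
  have : Nonempty ι := Fintype.card_pos_iff.1 (by omega)
  let _ : Field K := (H27.isField_of_isFieldSubalgebra hK).toField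
  let _ := H27.homModule K.val
  have := H27.homModule_isScalarTower K.val
  have : FiniteDimensional K (ι → F) := Module.Finite.of_restrictScalars_finite F K _
  have hdim := Module.finrank_mul_finrank F K (ι → F)
  rw [hK.finrank_eq, finrank_pi_card] at hdim
  obtain ⟨σ, h1, h3, h4, h5⟩ := exists_adj (K := K) (P := sympP hf) (fun _ => rfl)
    (fun k => (hac k k.2).elim fun k' h => ⟨⟨k', h.1⟩, h.2⟩) fun h => hns fun k hk => h ⟨k, hk⟩
  obtain ⟨tr, htr⟩ := exists_trace hK.finrank_eq h1 h3 h4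
  obtain ⟨a, ha⟩ := id h3
  have h6 : ∀ k, algebraMap F K ((tr ∘ₗ LinearMap.mulLeft F (a - σ a)) k) =
      (a - σ a) * (k - σ k) := fun k => by
    rw [LinearMap.comp_apply, LinearMap.mulLeft_apply, htr, map_mul, map_sub, h1]; ring
  generalize tr ∘ₗ LinearMap.mulLeft F (a - σ a) = lam at h6
  have h7 : a - σ a ≠ 0 := sub_ne_zero.2 ha.symm
  have h8 : ∀ k, lam (σ k) = -lam k := fun k => (algebraMap F K).injective (by
    rw [map_neg, h6, h6, h1]; ring)
  obtain ⟨P₁, X, h9, h10⟩ := exists_ext (P := sympP hf) (fun _ => rfl) h1 h3 h4 h5 (lam := lam)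
    (fun h => by
      have := h6 a
      rw [h, LinearMap.zero_apply, map_zero] at this
      exact mul_ne_zero h7 h7 this.symm)
    (fun k => by rw [h8]; exact (neg_one_mul _).symm)
  have h11 := mem_subalgebraNormalizer_iff K.val
  rw [Subalgebra.range_val] at h11
  refine isMaximalIn_of_E _ (mem_preserving_iff_sympP hf) _ h11 (X.sp_not_le rfl (by omega))
    fun M => X.sp_le_or rfl h2 (h9 ▸ h8) (fun k hk => mem_range_of_fixed hK.finrank_eq h3 h4 ?_)
      h10 (by omega) (by rw [finrank_pi_card]; change 1 + 2 ≤ _; omega) fun g hg => ?_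
  · have := h6 k
    rw [hk, map_zero, eq_comm, mul_eq_zero, or_iff_right h7, sub_eq_zero] at this
    exact this.symm
  · obtain ⟨g, rfl⟩ := gl.surjective g
    exact (mem_preserving_iff_sympP hf g).1 hg.1

theorem omega_c3_unitary [Finite F] {Q : (ι → F) → F} (hQ : Geo.IsNondegenerateQuadraticForm Q)
    (h10 : 10 ≤ Fintype.card ι) {K : Subalgebra F (Matrix ι ι F)}
    (hK : Geo.IsFieldSubalgebra 2 K) (hac : Geo.IsAdjointClosedFor (polar Q) K)
    (hns : ¬ Geo.IsSelfAdjointFor (polar Q) K)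
    (hsc : ∀ k ∈ K, ∃ c : F, ∀ v, Q (k *ᵥ v) = c * Q v) :
    Geo.IsMaximalIn (Geo.omegaGL Q) (Geo.subalgebraNormalizer K ⊓ Geo.omegaGL Q) := by
  have : Nonempty ι := Fintype.card_pos_iff.1 (by omega)
  let _ : Field K := (H27.isField_of_isFieldSubalgebra hK).toField
  let _ := H27.homModule K.val
  have := H27.homModule_isScalarTower K.val
  have : FiniteDimensional K (ι → F) := Module.Finite.of_restrictScalars_finite F K _
  have hdim := Module.finrank_mul_finrank F K (ι → F)
  rw [hK.finrank_eq, finrank_pi_card] at hdim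
  obtain ⟨σ, h1, h3, h4, h5⟩ := exists_adj (K := K) (P := quadP hQ) (fun _ => rfl)
    (fun k => (hac k k.2).elim fun k' h => ⟨⟨k', h.1⟩, h.2⟩) fun h => hns fun k hk => h ⟨k, hk⟩
  obtain ⟨tr, htr⟩ := exists_trace hK.finrank_eq h1 h3 h4
  obtain ⟨P₁, X, h9, h11⟩ := exists_ext (P := quadP hQ) (fun _ => rfl) h1 h3 h4 h5 (lam := tr)
    (fun h => by
      obtain ⟨l, hl⟩ := (⟨h1, h3⟩ : H31.IsInvol (σ : K →+* K)).exists_trace_eq (map_one _)
      have := htr l
      rw [h, LinearMap.zero_apply, map_zero] at this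
      exact zero_ne_one (this.trans hl))
    (fun k => (algebraMap F K).injective (by
      change _ = algebraMap F K (1 * tr k)
      rw [one_mul, htr, htr, h1, add_comm]))
  have hs := X.sing_iff rfl (h9 ▸ htr) h11 fun k => hsc k k.2
  have h13 := mem_subalgebraNormalizer_iff K.val
  rw [Subalgebra.range_val] at h13
  exact isMaximalIn_of_E _ (mem_omegaGL_iff hQ (by omega)) _ h13 (X.omega_not_le hs (by omega))
    fun M => X.omega_le_or rfl (h9 ▸ htr) hs (by omega)

end Cfsg.Agent.H26
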