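import Cfsg.Agent.H26.Extr
import Cfsg.Agent.H26.PC3Geo

/-!
Orthogonal field extension subgroups of orthogonal groups in odd characteristic: generation
lemmas.
-/

set_option autoImplicit false

namespace Cfsg.Agent.H26

open Module H27

namespace PForm

variable {F K : Type*} [Field F] [Field K] [Algebra F K] {V : Type*} [AddCommGroup V]
  [Module F V] [Module K V] [IsScalarTower F K V]

/-- The quadratic form `P` over `F` is the trace of the quadratic form `P₁` over `K`, and `M` is a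
group of isometries containing the Eichler transformations over `K`. -/
structure C3O (P : PForm F V) (P₁ : PForm K V) (lam : K →ₗ[F] F) (M : Subgroup (V ≃ₗ[F] V)) :
    Prop where
  f_tr : ∀ x y, P.f x y = lam (P₁.f x y)
  h_tr : ∀ x, P.h x = lam (P₁.h x)
  lam_ne : lam ≠ 0
  Λ₀ : P.Λ = ⊥
  Λ₁ : P₁.Λ = ⊥
  d₁ : P₁.d ≤ 3
  w2 : P₁.W2' ⊥
  two : (2 : K) ≠ 0
  prime : (finrank F K).Prime
  four : 4 ≤ finrank K V
  res : ∀ e y ν (h : P₁.EV e y ν), resHom F h.equiv ∈ M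
  isom : M ≤ P.isom

theorem f_smul_F' (P₁ : PForm K V) (x y : V) (c : F) : P₁.f (c • x) y = c • P₁.f x y := by
  rw [← algebraMap_smul K c x, P₁.f_smul_left, Algebra.smul_def]

namespace C3O

variable {P : PForm F V} {P₁ : PForm K V} {lam : K →ₗ[F] F} {M : Subgroup (V ≃ₗ[F] V)}
  (X : C3O P P₁ lam M)
include X

theorem f_zero {x y : V} (h : P₁.f x y = 0) : P.f x y = 0 := by
  rw [X.f_tr, h, map_zero]

theorem sing {x : V} (h : P₁.Sing x) : P.Sing x := by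
  rw [sing_iff_of_Λ X.Λ₀, X.h_tr, (sing_iff_of_Λ X.Λ₁).1 h, map_zero]

theorem f_smul (x y : V) (a : K) : P.f x (a • y) = lam (a * P₁.f x y) := by
  rw [X.f_tr, f_smul_right_Λ X.Λ₁]

theorem f_smul' (x y : V) (a : K) : P.f (a • x) y = lam (a * P₁.f x y) := by
  rw [X.f_tr, P₁.f_smul_left]

theorem f_smulF (x y : V) (c : F) : P₁.f x (c • y) = c • P₁.f x y := by
  rw [f_comm_of_Λ X.Λ₁, f_smul_F', f_comm_of_Λ X.Λ₁]

theorem exists_lam_eq {c : K} (hc : c ≠ 0) (η : F) : ∃ a, lam (a * c) = η :=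
  exists_map_mul_eq X.lam_ne hc η

theorem finite : FiniteDimensional F K := Module.finite_of_finrank_pos X.prime.pos

theorem exists_lam_zero : ∃ a : K, a ≠ 0 ∧ lam a = 0 := by
  have := X.finite
  have h1 := lam.finrank_range_add_finrank_ker
  have h2 := Submodule.finrank_le (LinearMap.range lam)
  have h3 := X.prime.two_le
  rw [finrank_self] at h2
  obtain ⟨a, ha, ha0⟩ := exists_notMem_of_finrank_lt (A := LinearMap.ker lam) (B := ⊥)
    (by rw [finrank_bot]; omega)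
  exact ⟨a, by simpa using ha0, ha⟩

theorem conj {a b : V} {μ : K} (hv : P₁.EV a b μ) {e y : V} {ν : F} (h : P.Ei M e y ν) :
    P.Ei M (P₁.eich a b μ e) (P₁.eich a b μ y) ν :=
  h.conj (X.res _ _ _ hv) (X.isom (X.res _ _ _ hv))

theorem mem_perp_kline {v z : V} : z ∈ P.perp (kline F K v) ↔ P₁.f z v = 0 := by
  constructor
  · intro h
    exact eq_of_forall_map_mul_eq X.lam_ne fun a => by
      rw [← X.f_smul, h _ (smul_mem_kline a v), mul_zero, map_zero]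
  · intro h w hw
    obtain ⟨a, rfl⟩ := mem_kline.1 hw
    rw [X.f_smul, h, mul_zero, map_zero]

omit X in
variable (P P₁ M) in
/-- `M` contains the Eichler transformations with data `x, y` for `y` orthogonal to `x` over
`K`. -/
def A (x : V) : Prop := ∀ y, P₁.f y x = 0 → ∃ ν, P.Ei M x y ν

theorem A_conj {a b : V} {μ : K} (hv : P₁.EV a b μ) {x : V} (h : A P P₁ M x) :
    A P P₁ M (P₁.eich a b μ x) := by
  intro y hy
  obtain ⟨ν, h1⟩ := h (hv.equiv⁻¹ y) (by rw [← isom_f_right hv.equiv_mem_isom]; exact hy)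
  have := X.conj hv h1
  rw [← hv.equiv_apply (hv.equiv⁻¹ y), apply_inv_apply] at this
  exact ⟨ν, this⟩

variable [FiniteDimensional K V]

theorem trans {p : V → Prop} (hp : ∀ e y ν, P₁.EV e y ν → ∀ x, p x → p (P₁.eich e y ν x))
    {x x' : V} (hx0 : x ≠ 0) (hx0' : x' ≠ 0) (hx : P₁.Sing x) (hx' : P₁.Sing x') (h : p x) :
    p x' :=
  X.w2.trans (fun e y ν hv _ _ => hp e y ν hv) (by rw [perp_bot]; trivial)
    (by rw [perp_bot]; trivial) (by simpa using hx0) (by simpa using hx0') hx hx' h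

theorem exists_sing_perp (x : V) : ∃ e, e ≠ 0 ∧ P₁.Sing e ∧ P₁.f e x = 0 := by
  have h1 := finrank_span_singleton_le (F := K) x
  have h2 := P₁.finrank_perp (K ∙ x)
  have := X.four
  have := X.d₁
  obtain ⟨e, he, he0, hs⟩ := P₁.exists_sing (P₁.perp (K ∙ x)) (by omega)
  exact ⟨e, he0, hs, mem_perp_span_singleton.1 he⟩

variable [FiniteDimensional F V]

theorem E_le_of_A_sing {δ : V} (hδ : P₁.Sing δ) (hδ0 : δ ≠ 0) (h : A P P₁ M δ) : P.E ≤ M := by
  have h1 : ∀ e, P₁.Sing e → e ≠ 0 → A P P₁ M e := fun e he he0 =>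
    X.trans (fun _ _ _ hv _ => X.A_conj hv) hδ0 he0 hδ he h
  have h2 : ∀ e, P₁.Sing e → e ≠ 0 → P.Full M e := by
    intro e he he0
    refine full_of_Λ X.Λ₀ (X.sing he) fun y hy => ?_
    by_cases hc : P₁.f y e = 0
    · exact h1 e he he0 y hc
    obtain ⟨e', he', h3⟩ := he.exists_partner' he0
    have h4 : P₁.f e e' ≠ 0 := f_symm_ne (by rw [h3]; exact one_ne_zero)
    obtain ⟨b, hb0, hb1, hb2⟩ := exists_perp_pair_ne_zero (P := P₁) (by have := X.four; omega) e e'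
    obtain ⟨a, ha⟩ := X.exists_lam_eq one_ne_zero (-1)
    obtain ⟨z, hz1, hz2, hz3⟩ := exists_perp_pair_f_eq he he' h4 hb0 hb1 hb2 (a * 1)
    have he0' : e' ≠ 0 := by rintro rfl; exact h4 (P₁.f_zero_right _)
    obtain ⟨_, k1⟩ := h1 e he he0 z hz1
    obtain ⟨_, k2⟩ := h1 _ (he'.smul (P₁.f y e)) (smul_ne_zero hc he0') b
      (by rw [f_smul_right, hb2, mul_zero])
    obtain ⟨_, k3⟩ := k1.diff k2
      (by rw [X.f_smul, f_comm_of_Λ X.Λ₁ e e', h3, mul_one, ← X.f_tr, hy])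
      (X.f_zero (f_symm_zero hb1))
    rw [X.f_smul, hz2, mul_zero, map_zero, X.f_tr z b, hz3, ha, ε_eq_one_of_Λ X.Λ₀] at k3
    have k4 := (Ygrp M (X.sing he)).add_mem
      (h1 e he he0 (y - P₁.f y e • e') (by rw [f_sub_left, P₁.f_smul_left, h3, mul_one, sub_self]))
      ⟨_, k3⟩
    convert k4 using 1
    module
  obtain ⟨e', he', h3⟩ := hδ.exists_partner' hδ0
  obtain ⟨a, ha⟩ := X.exists_lam_eq one_ne_zero 1
  have h4 : P.f (a • e') δ ≠ 0 := by rw [X.f_smul', h3, ha]; exact one_ne_zero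
  refine (h2 δ hδ hδ0).E_le (h2 _ (he'.smul a) ?_) h4
  intro h5
  rw [h5] at h4
  exact h4 (P.f_zero_left _)

omit [FiniteDimensional F V] in
theorem exists_pair_perp {x : V} (hx : P₁.h x ≠ 0) :
    ∃ e e', P₁.Sing e ∧ P₁.Sing e' ∧ P₁.f e x = 0 ∧ P₁.f e' x = 0 ∧ P₁.f e' e = 1 := by
  obtain ⟨e, he0, he, h1⟩ := X.exists_sing_perp x
  obtain ⟨e', h2, he', h3⟩ := he.exists_partner (S := K ∙ x) (mem_perp_span_singleton.2 h1)
    fun h => by
      obtain ⟨c, rfl⟩ := Submodule.mem_span_singleton.1 h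
      rw [sing_iff_of_Λ X.Λ₁, h_smul_of_Λ X.Λ₁, mul_eq_zero, or_iff_left hx, mul_self_eq_zero] at he
      exact he0 (by rw [he, zero_smul])
  exact ⟨e, e', he, he', h1, mem_perp_span_singleton.1 h2, h3⟩

omit [FiniteDimensional K V] [FiniteDimensional F V] in
theorem A_trans {x e e' : V} (hx : P₁.h x ≠ 0) (he : P₁.Sing e) (he' : P₁.Sing e')
    (h1 : P₁.f e x = 0) (h2 : P₁.f e' x = 0) (h3 : P₁.f e' e = 1) (h : A P P₁ M x) {x' : V}
    (h4 : P₁.f x' e = -1) (h5 : P₁.h x' = P₁.h x) : A P P₁ M x' := by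
  have k1 := X.A_conj (EV.of_h he' (y := (2 * P₁.h x)⁻¹ • x) (by rw [P₁.f_smul_left,
    f_symm_zero h2, mul_zero])) h
  rw [eich_apply_of_orth _ _ (f_symm_zero h2), ε_eq_one_of_Λ X.Λ₁, f_smul_right_Λ X.Λ₁,
    f_self_Λ X.Λ₁, inv_mul_cancel₀ (mul_ne_zero X.two hx), one_mul, one_smul] at k1
  have k2 : P₁.f (x - e') e = -1 := by rw [f_sub_left, f_symm_zero h1, h3, zero_sub]
  have k3 : P₁.h (x - e') = P₁.h x := by
    rw [h_sub_Λ X.Λ₁, (sing_iff_of_Λ X.Λ₁).1 he', f_symm_zero h2]; ring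
  generalize x - e' = u at k1 k2 k3
  have k4 := X.A_conj (EV.of_h he (y := u - x') (by rw [f_sub_left, k2, h4, sub_self])) k1
  rw [eich_apply_Λ X.Λ₁, k2, f_sub_right, f_self_Λ X.Λ₁, h_sub_Λ X.Λ₁, k3, h5] at k4
  convert k4 using 1
  module

omit [FiniteDimensional F V] in
theorem full_of_A {x : V} (hx : P₁.h x ≠ 0) (hs : P.Sing x) (h : A P P₁ M x) : P.Full M x := by
  obtain ⟨e, e', he, he', h1, h2, h3⟩ := X.exists_pair_perp hx
  refine full_of_Λ X.Λ₀ hs fun y hy => ?_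
  have h4 : 2 * P₁.h x ≠ 0 := mul_ne_zero X.two hx
  set c := P₁.f y x / (2 * P₁.h x) with hc
  have h5 : P₁.f (-e' - P₁.h x • e) x = 0 := by
    rw [f_sub_left, f_neg_left, P₁.f_smul_left, h1, h2]; ring
  have h6 : A P P₁ M (-e' - P₁.h x • e) := X.A_trans hx he he' h1 h2 h3 h
    (by rw [f_sub_left, f_neg_left, P₁.f_smul_left, h3, he.f_self]; ring)
    (by rw [h_sub_Λ X.Λ₁, h_neg_Λ X.Λ₁, h_smul_of_Λ X.Λ₁, (sing_iff_of_Λ X.Λ₁).1 he,
      (sing_iff_of_Λ X.Λ₁).1 he', f_neg_left, f_smul_right_Λ X.Λ₁, h3]; ring)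
  obtain ⟨a, ha⟩ := X.exists_lam_eq (neg_ne_zero.2 (one_ne_zero (α := K))) 1
  have h7 : P.f (a • e) (-e' - P₁.h x • e) = 1 := by
    rw [X.f_smul', f_sub_right, f_neg_right, f_smul_right, he.f_self, f_comm_of_Λ X.Λ₁ e e', h3,
      mul_zero, sub_zero, ha]
  generalize -e' - P₁.h x • e = x' at h5 h6 h7
  obtain ⟨_, k1⟩ := h (a • e) (by rw [P₁.f_smul_left, h1, mul_zero])
  obtain ⟨μ, k2⟩ := h6 (c • x) (by rw [P₁.f_smul_left, f_symm_zero h5, mul_zero])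
  obtain ⟨_, k3⟩ := k1.diff k2 (X.f_zero (f_symm_zero h5))
    (by rw [X.f_smul, f_self_Λ X.Λ₁, hc, div_mul_cancel₀ _ h4, ← X.f_tr, hy])
  rw [h7] at k3
  have k4 := (Ygrp M hs).add_mem ((Ygrp M hs).add_mem
    (h (y - c • x) (by rw [f_sub_left, P₁.f_smul_left, f_self_Λ X.Λ₁, hc, div_mul_cancel₀ _ h4,
      sub_self])) ⟨_, k3⟩)
    (h ((P.ε * (P.f (a • e) (c • x) + μ * 1)) • x') (by rw [f_smul_F', h5, smul_zero]))
  convert k4 using 1
  module

theorem E_le_of_A {x : V} (hx : P₁.h x ≠ 0) (hs : P.Sing x) (h : A P P₁ M x) : P.E ≤ M := by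
  obtain ⟨e, e', he, he', h1, h2, h3⟩ := X.exists_pair_perp hx
  obtain ⟨s, hs'⟩ := X.exists_lam_eq (mul_ne_zero X.two hx) 1
  have h4 : P₁.h (-e' + s • x + ((s * s - 1) * P₁.h x) • e) = P₁.h x := by
    simp only [h_add_of_Λ X.Λ₁, h_neg_Λ X.Λ₁, h_smul_of_Λ X.Λ₁, (sing_iff_of_Λ X.Λ₁).1 he,
      (sing_iff_of_Λ X.Λ₁).1 he', P₁.f_add_left, f_neg_left, f_smul_right_Λ X.Λ₁, P₁.f_smul_left,
      h2, h3, f_symm_zero h1]
    ring
  have h5 := X.A_trans hx he he' h1 h2 h3 h (x' := -e' + s • x + ((s * s - 1) * P₁.h x) • e)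
    (by simp only [P₁.f_add_left, f_neg_left, P₁.f_smul_left, h3, f_symm_zero h1, he.f_self]; ring)
    h4
  refine (X.full_of_A hx hs h).E_le (X.full_of_A (by rwa [h4]) ?_ h5) ?_
  · rw [sing_iff_of_Λ X.Λ₀, X.h_tr] at hs ⊢
    rwa [h4]
  · rw [X.f_tr]
    simp only [P₁.f_add_left, f_neg_left, P₁.f_smul_left, h1, h2, f_self_Λ X.Λ₁]
    rw [neg_zero, zero_add, mul_zero, add_zero, hs']
    exact one_ne_zero

theorem E_le_of_ei_ne {δ x : V} {ν : F} (hδ : P₁.Sing δ) (h : P.Ei M δ x ν) (h0 : P₁.f x δ ≠ 0) :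
    P.E ≤ M := by
  have hδ0 : δ ≠ 0 := by rintro rfl; exact h0 (P₁.f_zero_right _)
  obtain ⟨e', he', h3⟩ := hδ.exists_partner' hδ0
  have h4 : P₁.f δ e' ≠ 0 := f_symm_ne (by rw [h3]; exact one_ne_zero)
  obtain ⟨b, hb0, hb1, hb2⟩ := exists_perp_pair_ne_zero (P := P₁) (by have := X.four; omega) δ e'
  obtain ⟨z, hz1, -, hz3⟩ := exists_perp_pair_f_eq hδ he' h4 hb0 hb1 hb2 1
  have h5 : ∀ y, P₁.f y (P₁.σ (P₁.f x δ)⁻¹ • δ) = 0 ↔ P₁.f y δ = 0 := fun y => by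
    rw [f_smul_right, P₁.σσ, mul_eq_zero, or_iff_right (inv_ne_zero h0)]
  refine X.E_le_of_A_sing hδ hδ0 fun y hy => ?_
  refine (irr_aux (T := ⊤) (U := Ygrp M (X.sing hδ)) (hδ.smul _) (fun y μ hv _ => ?_) ⟨ν, h⟩
    (f_smul_inv h0) ⟨b, trivial, z, trivial, (h5 _).2 hb1, (h5 _).2 hz1, by
      rw [hz3]; exact one_ne_zero⟩).2 y trivial ((h5 _).2 hy)
  have := X.conj hv h
  rw [eich_apply_of_orth₂ _ _ ((h5 _).2 hδ.f_self) (f_symm_zero ((h5 _).1 hv.orth))] at this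
  exact ⟨ν, this⟩

theorem E_le_of_ei_ns {δ x : V} {ν : F} (hδ : P₁.Sing δ) (hδ0 : δ ≠ 0) (h : P.Ei M δ x ν)
    (h0 : P₁.f x δ = 0) (hs : P.Sing x) (hx : P₁.h x ≠ 0) : P.E ≤ M := by
  have hν : ν = 0 := by rw [h.ev.nu_eq X.Λ₀, (sing_iff_of_Λ X.Λ₀).1 hs]
  subst hν
  have h1 := h.swap hs
  rw [ε_eq_one_of_Λ X.Λ₀, neg_one_smul] at h1
  have h2 : δ ∉ K ∙ x := fun h => by
    obtain ⟨c, rfl⟩ := Submodule.mem_span_singleton.1 h
    rw [sing_iff_of_Λ X.Λ₁, h_smul_of_Λ X.Λ₁, mul_eq_zero, or_iff_left hx, mul_self_eq_zero] at hδ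
    exact hδ0 (by rw [hδ, zero_smul])
  have h3 : P₁.perp (K ∙ x) ⊓ K ∙ x = ⊥ := by
    rw [eq_bot_iff]
    rintro y ⟨hy1, hy2⟩
    obtain ⟨c, rfl⟩ := Submodule.mem_span_singleton.1 hy2
    have := mem_perp_span_singleton.1 hy1
    rw [P₁.f_smul_left, f_self_Λ X.Λ₁, mul_eq_zero, or_iff_left (mul_ne_zero X.two hx)] at this
    simp [this]
  refine X.E_le_of_A hx hs fun y hy => ?_
  refine irr_add (P := P₁) (S := K ∙ x) (U := Ygrp M hs) ?_
    ⟨δ, mem_perp_span_singleton.2 (f_symm_zero h0), h2, hδ⟩ ?_ ⟨0, h1⟩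
    (fun h => h2 ((Submodule.neg_mem_iff _).1 h)) y (mem_perp_span_singleton.2 hy)
  · rintro a b μ hv ha hb z ⟨ν, hz⟩
    have := X.conj hv hz
    rw [eich_apply_of_orth₂ _ _ (f_symm_zero (mem_perp_span_singleton.1 ha))
      (f_symm_zero (mem_perp_span_singleton.1 hb))] at this
    exact ⟨ν, this⟩
  · have h4 := finrank_span_singleton_le (F := K) x
    have h5 := P₁.finrank_perp (K ∙ x)
    have := X.four
    rw [h3, finrank_bot]
    omega

omit X in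
variable (P P₁ M) in
/-- `M` contains the long root elements supported on the singular `K`-lines. -/
def Star : Prop := ∀ v, P₁.Sing v → ∀ a b : K, P.Ei M (a • v) (b • v) 0

theorem E_le_of_star (hS : Star P P₁ M) {δ x : V} {ν : F} (hδ : P₁.Sing δ) (hδ0 : δ ≠ 0)
    (h : P.Ei M δ x ν) (hxδ : x ∉ K ∙ δ) (hs : P.Sing x) : P.E ≤ M := by
  by_cases h0 : P₁.f x δ = 0
  swap
  · exact X.E_le_of_ei_ne hδ h h0
  by_cases hx : P₁.h x = 0
  swap
  · exact X.E_le_of_ei_ns hδ hδ0 h h0 hs hx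
  have hx' := (sing_iff_of_Λ X.Λ₁).2 hx
  obtain ⟨y, h1, hy, h2⟩ := hx'.exists_partner (mem_perp_span_singleton.2 h0) hxδ
  rw [mem_perp_span_singleton] at h1
  rw [f_comm_of_Λ X.Λ₁] at h1 h2
  obtain ⟨a, ha⟩ := X.exists_lam_eq one_ne_zero 1
  obtain ⟨a', ha0, ha'⟩ := X.exists_lam_zero
  have h3 := (hS y hy a a').conj_ei h
  rw [eich_apply_of_orth₂ _ _ (by rw [X.f_smul, h1, mul_zero, map_zero])
    (by rw [X.f_smul, h1, mul_zero, map_zero]), eich_apply_Λ X.Λ₀, X.f_smul, X.f_smul, h2, ha,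
    mul_one, ha', one_smul, zero_mul, add_zero, zero_smul, sub_zero] at h3
  have h4 : P₁.h (x + a' • y) = a' := by
    rw [h_add_of_Λ X.Λ₁, h_smul_of_Λ X.Λ₁, hx, (sing_iff_of_Λ X.Λ₁).1 hy, f_smul_right_Λ X.Λ₁, h2]
    ring
  refine X.E_le_of_ei_ns hδ hδ0 h3 ?_ ?_ (by rwa [h4])
  · rw [P₁.f_add_left, P₁.f_smul_left, h0, f_symm_zero h1]; ring
  · rw [sing_iff_of_Λ X.Λ₀, X.h_tr, h4, ha']

omit [FiniteDimensional F V] in
/-- A rank one element in the unipotent radical of a singular `K`-line produces long root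
elements. -/
theorem star_of_rank_one {s : V ≃ₗ[F] V} (hs : s ∈ M) {v y₀ : V} (hv : P₁.Sing v) (hv0 : v ≠ 0)
    {d : K} (hd : d ≠ 0) (hy : P₁.f y₀ v = 0) (hyv : y₀ ∉ K ∙ v)
    (h : ∀ z, P₁.f z v = 0 → s z = z + P.f z y₀ • d • v) : Star P P₁ M := by
  have hsI := X.isom hs
  have h1 : ∀ a : K, s (a • v) = a • v := fun a => by
    rw [h _ (by rw [P₁.f_smul_left, hv.f_self, mul_zero]), X.f_smul', f_symm_zero hy, mul_zero,
      map_zero, zero_smul, add_zero]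
  have h2 : ∀ κ : K, P.Ei M (κ • v) (d • v) 0 := by
    intro κ
    obtain ⟨y, hy1, hy2⟩ := P₁.exists_perp_f_left hyv κ
    rw [mem_perp_span_singleton] at hy1
    have hn := EV.of_h hv hy1
    have h3 : ∀ x, (s * resHom F hn.equiv * s⁻¹) x =
        P₁.eich v y (P₁.h y) x + P.f x (κ • v) • d • v - P.f x (d • v) • κ • v := by
      intro x
      have k1 : P₁.f (s⁻¹ x) v = P₁.f x v := eq_of_forall_map_mul_eq X.lam_ne fun a => by
        rw [← X.f_smul, ← X.f_smul, ← isom_f_right hsI, h1]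
      have k2 : P₁.f (s⁻¹ x) y = P₁.f x y + P.f x (d • v) • κ :=
        eq_of_forall_map_mul_eq X.lam_ne fun a => by
          rw [← X.f_smul, ← isom_f_right hsI, h _ (by rw [P₁.f_smul_left, hy1, mul_zero]),
            f_add_right, f_smul_right_Λ X.Λ₀, X.f_smul, X.f_smul', hy2, mul_add, map_add,
            mul_smul_comm, map_smul, smul_eq_mul, mul_comm (lam _)]
      rw [mul_apply', mul_apply', resHom_apply, EV.equiv_apply, eich_apply_Λ X.Λ₁,
        eich_apply_Λ X.Λ₁, map_sub, map_add, apply_inv_apply, h1, k1, k2,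
        h _ (by rw [P₁.f_smul_left, hy1, mul_zero]), X.f_smul', hy2, X.f_smul x v κ, mul_comm κ,
        ← smul_assoc (P.f x (d • v)) κ v]
      module
    refine Ei.of_eq (EV.of_sing (X.sing (hv.smul κ)) (X.sing (hv.smul d)) (X.f_zero ?_))
      (M.mul_mem (M.mul_mem (M.mul_mem hs (X.res _ _ _ hn)) (M.inv_mem hs))
        (M.inv_mem (X.res _ _ _ hn))) fun x => ?_
    · rw [P₁.f_smul_left, f_smul_right, hv.f_self, mul_zero, mul_zero]
    · obtain ⟨x, rfl⟩ := (resHom F hn.equiv).surjective x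
      rw [mul_apply', inv_apply_apply, h3, eich_apply_Λ X.Λ₀, resHom_apply, EV.equiv_apply,
        X.f_smul, X.f_smul, X.f_smul, X.f_smul, hn.f_eich_left, zero_mul, add_zero]
  intro u hu a b
  by_cases hb : b • u = 0
  · rw [hb]
    exact Ei.zero (X.sing (hu.smul a))
  have h3 := X.trans (p := fun w => ∀ κ : K, P.Ei M (κ • w) w 0) (fun e y μ he w hw κ => by
      rw [← map_smul]
      exact X.conj he (hw κ)) (smul_ne_zero hd hv0) hb (hv.smul d) (hu.smul b)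
    (fun κ => by rw [smul_smul]; exact h2 _) (a / b)
  rwa [smul_smul, div_mul_cancel₀ _ (left_ne_zero_of_smul hb)] at h3

end C3O

end PForm

end Cfsg.Agent.H26
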