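import Cfsg.Agent.H26.PC3OMain

/-!
The orthogonal field extension subgroups of `Ω_n(q)`, `q` odd, in matrix form.
-/

set_option autoImplicit false

namespace Cfsg.Agent.H26

open Module PForm QuadraticMap
open scoped Matrix

section Abstract

variable {F K : Type*} [Field F] [Field K] [Algebra F K] {V : Type*} [AddCommGroup V]
  [Module F V] [Module K V] [IsScalarTower F K V]

theorem sq_mem_E [Finite F] [FiniteDimensional F V] {Q : QuadraticForm F V}
    (hQ : (polarBilin Q).Nondegenerate) (h5 : 5 ≤ finrank F V) {g : V ≃ₗ[F] V}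
    (hg : ∀ x, Q (g x) = Q x) : g * g ∈ (ofQuad Q hQ).E := by
  have h1 : (⟨g, hg⟩ * ⟨g, hg⟩ : H30.O Q) ∈ H30.eichGroup Q := by
    rw [H30.eichGroup_eq_kerDS hQ (H30.not_isExc_of_finrank (by omega)) (by omega), H30.mem_kerDS,
      map_mul, map_mul]
    exact ⟨Int.units_mul_self _, H30.sqCl_mul_self _⟩
  exact coe_mem_E_of_mem_eichGroup hQ h1

theorem exists_quad_ext [FiniteDimensional F K] (h2 : (2 : F) ≠ 0) {Q : QuadraticForm F V}
    (hQ : (polarBilin Q).Nondegenerate)
    (hsa : ∀ (k : K) u v, polar Q (k • u) v = polar Q u (k • v)) :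
    ∃ (lam : K →ₗ[F] F) (Q₁ : QuadraticForm K V), lam ≠ 0 ∧ (polarBilin Q₁).Nondegenerate ∧
      (∀ x y, polar Q x y = lam (polar Q₁ x y)) ∧ ∀ x, Q x = lam (Q₁ x) := by
  obtain ⟨lam, hlam⟩ : ∃ lam : K →ₗ[F] F, lam ≠ 0 := by
    by_contra! H
    exact one_ne_zero ((Module.forall_dual_apply_eq_zero_iff F (1 : K)).1 fun φ => by simp [H φ])
  choose B hB using fun u v : V => H27.exists_forall_map_mul_eq hlam
    (((polarBilin Q).flip v).comp ((LinearMap.toSpanSingleton K V u).restrictScalars F))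
  replace hB : ∀ (u v : V) (a : K), lam (a * B u v) = polar Q (a • u) v := hB
  let B' : LinearMap.BilinForm K V := LinearMap.mk₂ K B
    (fun u u' v => H27.eq_of_forall_map_mul_eq hlam fun a => by
      rw [mul_add, map_add, hB, hB, hB, smul_add, polar_add_left])
    (fun c u v => H27.eq_of_forall_map_mul_eq hlam fun a => by
      rw [smul_eq_mul, ← mul_assoc, hB, hB, smul_smul])
    (fun u v v' => H27.eq_of_forall_map_mul_eq hlam fun a => by
      rw [mul_add, map_add, hB, hB, hB, polar_add_right])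
    (fun c u v => H27.eq_of_forall_map_mul_eq hlam fun a => by
      rw [smul_eq_mul, ← mul_assoc, hB, hB, ← hsa, smul_smul, mul_comm])
  have hs : ∀ u v, B u v = B v u := fun u v => H27.eq_of_forall_map_mul_eq hlam fun a => by
    rw [hB, hB, hsa, polar_comm]
  have h2K : (2 : K) ≠ 0 := fun h => h2 ((algebraMap F K).injective (by
    rw [map_ofNat, h, map_zero]))
  have h3 : ∀ x y, polar (LinearMap.BilinMap.toQuadraticMap ((2⁻¹ : K) • B')) x y = B x y := by
    intro x y
    rw [LinearMap.BilinMap.polar_toQuadraticMap]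
    change 2⁻¹ * B x y + 2⁻¹ * B y x = _
    rw [hs y x]
    field_simp
    ring
  have h4 : ∀ x y, polar Q x y = lam (B x y) := fun x y => by simpa using (hB x y 1).symm
  refine ⟨lam, LinearMap.BilinMap.toQuadraticMap ((2⁻¹ : K) • B'), hlam,
    H30.nondegenerate_of_forall fun x hx => H30.eq_zero_of_polar hQ fun y => ?_,
    fun x y => by rw [h3, h4], fun x => mul_left_cancel₀ h2 ?_⟩
  · rw [h4, ← h3, hx, map_zero]
  · rw [← H30.polar_self', h4, ← h3, H30.polar_self', two_mul, two_mul, map_add]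

theorem c3o_of_le [Finite F] [Finite K] [FiniteDimensional F V] [FiniteDimensional K V]
    (h2 : (2 : F) ≠ 0) {Q : QuadraticForm F V} (hQ : (polarBilin Q).Nondegenerate)
    {Q₁ : QuadraticForm K V} (hQ₁ : (polarBilin Q₁).Nondegenerate) {lam : K →ₗ[F] F}
    (hlam : lam ≠ 0) (hf : ∀ x y, polar Q x y = lam (polar Q₁ x y)) (hh : ∀ x, Q x = lam (Q₁ x))
    (hr : (finrank F K).Prime) (h4 : 4 ≤ finrank K V) {M : Subgroup (V ≃ₗ[F] V)}
    (h1 : semiN F K V ⊓ (ofQuad Q hQ).E ≤ M) (h3 : M ≤ (ofQuad Q hQ).E) :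
    C3O (ofQuad Q hQ) (ofQuad Q₁ hQ₁) lam M := by
  have h2K : (2 : K) ≠ 0 := fun h => h2 ((algebraMap F K).injective (by
    rw [map_ofNat, h, map_zero]))
  have h5 := Module.finrank_mul_finrank F K V
  have h6 := hr.two_le
  refine ⟨hf, hh, hlam, rfl, rfl, le_rfl, quad_W2' hQ₁ (by simp) (by rwa [finrank_perp_bot']), h2K,
    hr, h4, fun e y ν h => h1 ⟨resHom_mem_semiN _, ?_⟩, h3.trans E_le_isom⟩
  have hΛ : (ofQuad Q₁ hQ₁).Λ = ⊥ := rfl
  have h7 := h.smul_right 2⁻¹
  have h8 : h.equiv = h7.equiv * h7.equiv := LinearEquiv.ext fun x => by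
    rw [mul_apply', EV.equiv_apply, EV.equiv_apply, EV.equiv_apply, h7.eich_eich h7, ← add_smul,
      f_self_Λ hΛ, h_smul_of_Λ hΛ, σ_eq_of_Λ hΛ, ← h.nu_eq hΛ]
    congr 2
    · rw [← two_mul, mul_inv_cancel₀ h2K, one_smul]
    · field_simp
      ring
  rw [h8, map_mul]
  refine sq_mem_E hQ (by nlinarith) fun x => ?_
  rw [hh, hh, resHom_apply]
  exact congrArg lam (sub_eq_zero.1 (isom_h h7.equiv_mem_isom x))

end Abstract

variable {ι : Type} [Fintype ι] [DecidableEq ι] {F : Type*} [Field F]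

/-- `O_m(q^r).r ∩ Ω` is maximal in `Ω_{mr}(q)` for `q` odd, `r` prime and `m ≥ 4`. -/
theorem omega_c3_orth [Finite F] (h2 : (2 : F) ≠ 0) {Q : (ι → F) → F}
    (hQ : Geo.IsNondegenerateQuadraticForm Q) {r : ℕ} (hr : r.Prime) (h4 : 3 * r < Fintype.card ι)
    {K : Subalgebra F (Matrix ι ι F)} (hK : Geo.IsFieldSubalgebra r K)
    (hsa : Geo.IsSelfAdjointFor (polar Q) K) :
    Geo.IsMaximalIn (Geo.omegaGL Q) (Geo.subalgebraNormalizer K ⊓ Geo.omegaGL Q) := by
  have h5 := hr.two_le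
  have : Nonempty ι := Fintype.card_pos_iff.1 (by omega)
  let _ : Field K := (H27.isField_of_isFieldSubalgebra hK).toField
  let _ := H27.homModule K.val
  have := H27.homModule_isScalarTower K.val
  have : FiniteDimensional K (ι → F) := Module.Finite.of_restrictScalars_finite F K _
  have hdim := Module.finrank_mul_finrank F K (ι → F)
  rw [hK.finrank_eq, finrank_pi_card] at hdim
  obtain ⟨lam, Q₁, h6, h7, h8, h9⟩ := exists_quad_ext (K := K) h2 (H30.ofGeo_nondegenerate hQ)
    fun k => hsa k k.2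
  have h10 : 4 ≤ finrank K (ι → F) := by
    by_contra h
    have := Nat.mul_le_mul_left r (show finrank K (ι → F) ≤ 3 by omega)
    omega
  have h13 := mem_subalgebraNormalizer_iff K.val
  rw [Subalgebra.range_val] at h13
  have h14 := fun M => c3o_of_le (M := M) h2 (H30.ofGeo_nondegenerate hQ) h7 h6 h8 h9
    (hK.finrank_eq ▸ hr) h10
  exact isMaximalIn_of_E _ (mem_omegaGL_iff hQ (by omega)) _ h13
    (h14 _ inf_le_right le_rfl).not_le fun M k1 k2 => (h14 M k1 k2).le_or

end Cfsg.Agent.H26
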