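import Cfsg.Agent.H26.PC3O

/-!
Maximality of the orthogonal field extension subgroups of orthogonal groups in odd characteristic
when the dimension over the extension field is at least four.
-/

set_option autoImplicit false

namespace Cfsg.Agent.H26

open Module H27

namespace PForm

variable {F K : Type*} [Field F] [Field K] [Algebra F K] {V : Type*} [AddCommGroup V]
  [Module F V] [Module K V] [IsScalarTower F K V]

/-- The images of the singular `K`-lines under `M`. -/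
def orb (P₁ : PForm K V) (M : Subgroup (V ≃ₗ[F] V)) : Set (Submodule F V) :=
  {U | ∃ g ∈ M, ∃ v, P₁.Sing v ∧ v ≠ 0 ∧ U = act g (kline F K v)}

section Orb

variable {P₁ : PForm K V} {M : Subgroup (V ≃ₗ[F] V)}

theorem kline_mem_orb {v : V} (hv : P₁.Sing v) (hv0 : v ≠ 0) : kline F K v ∈ orb P₁ M :=
  ⟨1, M.one_mem, v, hv, hv0, (act_one _).symm⟩

theorem act_mem_orb {U : Submodule F V} (hU : U ∈ orb P₁ M) {g : V ≃ₗ[F] V} (hg : g ∈ M) :
    act g U ∈ orb P₁ M := by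
  obtain ⟨k, hk, v, hv, hv0, rfl⟩ := hU
  exact ⟨g * k, M.mul_mem hg hk, v, hv, hv0, (act_mul _ _ _).symm⟩

theorem finrank_of_mem_orb {U : Submodule F V} (hU : U ∈ orb P₁ M) : finrank F U = finrank F K := by
  obtain ⟨g, -, v, -, hv, rfl⟩ := hU
  rw [finrank_act, finrank_kline hv]

theorem exists_std {U U' : Submodule F V} (h : Extr (orb P₁ M) U U') :
    ∃ g ∈ M, ∃ v W, P₁.Sing v ∧ v ≠ 0 ∧ Extr (orb P₁ M) (kline F K v) W ∧
      U = act g (kline F K v) ∧ U' = act g W := by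
  obtain ⟨g, hg, v, hv, hv0, hU⟩ := h.left
  have := h.map (act_mem_orb h.left (M.inv_mem hg)) (act_mem_orb h.right (M.inv_mem hg))
  rw [hU, act_inv_act] at this
  exact ⟨g, hg, v, _, hv, hv0, this, hU, (act_act_inv _ _).symm⟩

theorem exists_notMem_of_extr [FiniteDimensional F V] {U U' : Submodule F V}
    (h : Extr (orb P₁ M) U U') : ∃ x ∈ U', x ∉ U :=
  SetLike.not_le_iff_exists.1 fun h' => h.ne (Submodule.eq_of_le_of_finrank_eq h'
    ((finrank_of_mem_orb h.right).trans (finrank_of_mem_orb h.left).symm)).symm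

end Orb

namespace C3O

variable {P : PForm F V} {P₁ : PForm K V} {lam : K →ₗ[F] F} {M : Subgroup (V ≃ₗ[F] V)}
  (X : C3O P P₁ lam M)
include X

theorem sing_of_mem_orb {U : Submodule F V} (hU : U ∈ orb P₁ M) {u : V} (hu : u ∈ U) :
    P.Sing u := by
  obtain ⟨g, hg, v, hv, -, rfl⟩ := hU
  obtain ⟨a, ha⟩ := mem_kline.1 (mem_act.1 hu)
  have := (X.sing (hv.smul a)).map (X.isom hg)
  rwa [ha, apply_inv_apply] at this

theorem le_perp_of_mem_orb {U : Submodule F V} (hU : U ∈ orb P₁ M) : U ≤ P.perp U := by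
  obtain ⟨g, hg, v, hv, -, rfl⟩ := hU
  rw [act_perp (X.isom hg)]
  intro u hu
  rw [mem_act] at hu ⊢
  obtain ⟨a, ha⟩ := mem_kline.1 hu
  rw [X.mem_perp_kline, ← ha, P₁.f_smul_left, hv.f_self, mul_zero]

theorem ei_of_star (hS : Star P P₁ M) {U : Submodule F V} (hU : U ∈ orb P₁ M) {u u' : V}
    (hu : u ∈ U) (hu' : u' ∈ U) : P.Ei M u u' 0 := by
  obtain ⟨g, hg, v, hv, -, rfl⟩ := hU
  obtain ⟨a, ha⟩ := mem_kline.1 (mem_act.1 hu)
  obtain ⟨b, hb⟩ := mem_kline.1 (mem_act.1 hu')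
  have := (hS v hv a b).conj hg (X.isom hg)
  rwa [ha, hb, apply_inv_apply, apply_inv_apply] at this

omit X in
theorem eich_kline {v w : V} {μ : K} (hv : P₁.EV v w μ) {u : V} (hu : u ∈ kline F K v) :
    resHom F hv.equiv u = u := by
  obtain ⟨a, rfl⟩ := mem_kline.1 hu
  rw [resHom_apply, map_smul, EV.equiv_apply, hv.eich_self]

variable [FiniteDimensional K V]

theorem star_of_rank_one' {s : V ≃ₗ[F] V} (hs : s ∈ M) {W : Submodule F V} (hW : W ∈ orb P₁ M)
    {δ y₀ : V} (hδ : δ ∈ W) (hδ0 : δ ≠ 0) (hy : y₀ ∈ P.perp W) (hyW : y₀ ∉ W)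
    (h : ∀ z ∈ P.perp W, s z = z + P.f z y₀ • δ) : Star P P₁ M := by
  obtain ⟨g, hg, v, hv, hv0, rfl⟩ := hW
  rw [act_perp (X.isom hg)] at hy h
  rw [mem_act] at hδ hy hyW
  obtain ⟨d, hd⟩ := mem_kline.1 hδ
  refine X.star_of_rank_one (s := g⁻¹ * s * g)
    (M.mul_mem (M.mul_mem (M.inv_mem hg) hs) hg) hv hv0 (d := d) ?_ (X.mem_perp_kline.1 hy) hyW
    fun z hz => ?_
  · rintro rfl
    rw [zero_smul, eq_comm, LinearEquiv.map_eq_zero_iff] at hd
    exact hδ0 hd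
  · rw [mul_apply', mul_apply', h _ (apply_mem_act.2 (X.mem_perp_kline.2 hz)), map_add,
      inv_apply_apply, map_smul, hd, isom_f_left (X.isom hg)]

theorem exists_radical {W : Submodule F V} (hW : W ∈ orb P₁ M) {b u : V} (hb : b ∈ P.perp W)
    (hbW : b ∉ W) (hu : u ∈ W) :
    ∃ n ∈ M, (∀ z ∈ P.perp W, z - n z ∈ W) ∧ (∀ u ∈ W, n u = u) ∧ b - n b = u := by
  obtain ⟨g, hg, v, hv, hv0, rfl⟩ := hW
  rw [act_perp (X.isom hg)] at hb ⊢
  rw [mem_act] at hb hbW hu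
  obtain ⟨c, hc⟩ := mem_kline.1 hu
  obtain ⟨y, hy, h1⟩ := P₁.exists_perp_f_right (W := K ∙ v) hbW c
  have hn := EV.of_h hv (mem_perp_span_singleton.1 hy)
  have h2 : ∀ z, P₁.f (g⁻¹ z) v = 0 →
      z - (g * resHom F hn.equiv * g⁻¹) z = g (P₁.f (g⁻¹ z) y • v) := fun z hz => by
    rw [mul_apply', mul_apply', resHom_apply, EV.equiv_apply, eich_apply_of_orth _ _ hz, map_sub,
      apply_inv_apply, ε_eq_one_of_Λ X.Λ₁, one_mul, sub_sub_cancel]
  refine ⟨_, M.mul_mem (M.mul_mem hg (X.res _ _ _ hn)) (M.inv_mem hg), fun z hz => ?_,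
    fun u hu => ?_, ?_⟩
  · rw [h2 z (X.mem_perp_kline.1 (mem_act.1 hz))]
    exact apply_mem_act.2 (smul_mem_kline _ _)
  · rw [mul_apply', mul_apply', eich_kline hn (mem_act.1 hu), apply_inv_apply]
  · rw [h2 b (X.mem_perp_kline.1 hb), h1, hc, apply_inv_apply]

variable [FiniteDimensional F V]

theorem E_le_of_star' (hS : Star P P₁ M) {U U' : Submodule F V} (hE : Extr (orb P₁ M) U U')
    (h0 : U ⊓ U' ≠ ⊥) : P.E ≤ M := by
  obtain ⟨g, -, v, W, hv, -, hE', rfl, rfl⟩ := exists_std hE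
  obtain ⟨δ, hδ, hδ0⟩ := Submodule.exists_mem_ne_zero_of_ne_bot
    (show kline F K v ⊓ W ≠ ⊥ from fun h => h0 (by rw [← act_inf, h]; exact Submodule.map_bot _))
  obtain ⟨x, hx, hxv⟩ := exists_notMem_of_extr hE'
  obtain ⟨a, rfl⟩ := mem_kline.1 hδ.1
  refine X.E_le_of_star hS (hv.smul a) hδ0 (X.ei_of_star hS hE'.right hδ.2 hx) (fun h => hxv ?_)
    (X.sing_of_mem_orb hE'.right hx)
  obtain ⟨c, rfl⟩ := Submodule.mem_span_singleton.1 h
  rw [smul_smul]
  exact smul_mem_kline _ _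

theorem eich_mem_of_extr {v w : V} {μ : K} (hv : P₁.EV v w μ) {W : Submodule F V}
    (hE : Extr (orb P₁ M) (kline F K v) W) {x : V} (hx : x ∈ W) (hxv : x ∉ kline F K v)
    (h : P₁.eich v w μ x ∈ W) : ∀ y ∈ W, P₁.eich v w μ y ∈ W := by
  have h1 := hE.act_eq (act_mem_orb hE.right (X.res _ _ _ hv)) (fun u hu _ => eich_kline hv hu) hx h
    fun h' => hxv (by
      have h2 := eich_kline hv.neg h'
      rw [resHom_apply, resHom_apply, EV.equiv_apply, EV.equiv_apply, hv.eich_neg_eich] at h2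
      rw [h2]
      exact h')
  intro y hy
  rw [← h1]
  exact apply_mem_act.2 hy

/-- The shape of an orthogonal extremal pair. -/
theorem orth_shape {v : V} (hv : P₁.Sing v) {W : Submodule F V}
    (hE : Extr (orb P₁ M) (kline F K v) W) (h0 : kline F K v ⊓ W ≠ ⊥)
    (ho : ∀ x ∈ W, P₁.f x v = 0) {x : V} (hx : x ∈ W) (hxv : x ∉ kline F K v) :
    W ≤ (kline F K v ⊓ W) ⊔ F ∙ x := by
  let D : Submodule F K := W.comap ((LinearMap.toSpanSingleton K V v).restrictScalars F)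
  have hD : ∀ a, a ∈ D ↔ a • v ∈ W := fun a => Iff.rfl
  obtain ⟨δ, ⟨hδ1, hδ2⟩, hδ0⟩ := Submodule.exists_mem_ne_zero_of_ne_bot h0
  obtain ⟨a₀, rfl⟩ := mem_kline.1 hδ1
  obtain ⟨v₀, hv₀, hv₀'⟩ := exists_notMem_of_extr hE.symm
  obtain ⟨c₀, rfl⟩ := mem_kline.1 hv₀
  have key : ∀ w, P₁.f w v = 0 → P₁.f x w ∈ D → ∀ y ∈ W, P₁.f y w ∈ D := by
    intro w hw h y hy
    have := X.eich_mem_of_extr (EV.of_h hv hw) hE hx hxv (by
      rw [eich_apply_of_orth _ _ (ho x hx), ε_eq_one_of_Λ X.Λ₁, one_mul]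
      exact W.sub_mem hx h) y hy
    rw [eich_apply_of_orth _ _ (ho y hy), ε_eq_one_of_Λ X.Λ₁, one_mul] at this
    rw [hD]
    simpa using W.sub_mem hy this
  intro y hy
  obtain ⟨s, hs, e, rfl⟩ : ∃ s ∈ K ∙ v, ∃ e : K, y = s + e • x := by
    rw [← mem_sup_span]
    by_contra h
    obtain ⟨w, hw, h1⟩ := P₁.exists_perp_f_right h c₀
    rw [mem_perp_sup_span, mem_perp_span_singleton] at hw
    have := key w hw.1 (by rw [f_symm_zero hw.2]; exact D.zero_mem) y hy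
    rw [h1] at this
    exact hv₀' this
  obtain ⟨η, rfl⟩ := exists_algebraMap_of_stabilizes X.prime ((hD a₀).2 hδ2)
    (left_ne_zero_of_smul hδ0) (fun h => hv₀' ((hD c₀).1 (h ▸ Submodule.mem_top))) (e := e)
    fun a ha => by
      obtain ⟨w, hw, h1⟩ := P₁.exists_perp_f_right (W := K ∙ v) hxv a
      have := key w (mem_perp_span_singleton.1 hw) (h1 ▸ ha) _ hy
      rwa [P₁.f_add_left, P₁.f_smul_left, h1, f_of_mem_perp' hw hs, zero_add] at this
  rw [algebraMap_smul] at hy ⊢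
  refine mem_sup_span.2 ⟨s, ⟨hs, ?_⟩, η, rfl⟩
  simpa using W.sub_mem hy (W.smul_mem η hx)

theorem orth_data {v : V} (hv : P₁.Sing v) (hv0 : v ≠ 0) {W : Submodule F V}
    (hE : Extr (orb P₁ M) (kline F K v) W) (h0 : kline F K v ⊓ W ≠ ⊥)
    (ho : ∀ x ∈ W, P₁.f x v = 0) :
    ∃ v' x, P₁.Sing v' ∧ v' ≠ 0 ∧ x ∈ W ∧ P₁.f x v' = 0 ∧ x ∉ K ∙ v' ∧
      (∀ c : K, c • v' ∈ W ↔ lam c = 0) ∧
      ∀ u ∈ W, ∃ (c : K) (μ : F), lam c = 0 ∧ u = c • v' + μ • x := by
  obtain ⟨x, hx, hxv⟩ := exists_notMem_of_extr hE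
  have h1 := X.orth_shape hv hE h0 ho hx hxv
  obtain ⟨v₀, hv₀, hv₀'⟩ := exists_notMem_of_extr hE.symm
  have h2 : (kline F K v ⊓ W) ⊔ F ∙ v₀ = kline F K v := by
    refine Submodule.eq_of_le_of_finrank_le
      (sup_le inf_le_left ((Submodule.span_singleton_le_iff_mem _ _).2 hv₀)) ?_
    rw [finrank_sup_span_of_notMem (S := kline F K v ⊓ W) fun h => hv₀' h.2, finrank_of_mem_orb hE.left,
      ← finrank_of_mem_orb hE.right]
    exact (Submodule.finrank_mono h1).trans (finrank_sup_span_le _ _)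
  obtain ⟨z, hz, h3⟩ := P.exists_perp_f_right (W := kline F K v ⊓ W) (fun h => hv₀' h.2) 1
  have h4 : ∀ c : K, c • v ∈ W ↔ lam (c * P₁.f v z) = 0 := fun c => by
    rw [← X.f_smul']
    refine ⟨fun h => f_of_mem_perp' hz ⟨smul_mem_kline _ _, h⟩, fun h => ?_⟩
    obtain ⟨s, hs, μ, h5⟩ := mem_sup_span.1 (h2.ge (smul_mem_kline c v))
    rw [h5, P.f_add_left, P.f_smul_left, h3, f_of_mem_perp' hz hs, zero_add, mul_one] at h
    rw [h5, h, zero_smul, add_zero]
    exact hs.2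
  have h5 : P₁.f v z ≠ 0 := fun h => by
    obtain ⟨c, rfl⟩ := mem_kline.1 hv₀
    exact hv₀' ((h4 c).2 (by rw [h, mul_zero, map_zero]))
  have h6 : ∀ c : K, c • (P₁.f v z)⁻¹ • v ∈ W ↔ lam c = 0 := fun c => by
    rw [smul_smul, h4, inv_mul_cancel_right₀ h5]
  refine ⟨_, x, hv.smul _, smul_ne_zero (inv_ne_zero h5) hv0, hx,
    by rw [f_smul_right, ho x hx, mul_zero], fun h => hxv ?_, h6, fun u hu => ?_⟩
  · rwa [Submodule.span_singleton_smul_eq (IsUnit.mk0 _ (inv_ne_zero h5))] at h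
  · obtain ⟨s, hs, μ, rfl⟩ := mem_sup_span.1 (h1 hu)
    obtain ⟨c, rfl⟩ := mem_kline.1 hs.1
    have h7 : c • v = (c * P₁.f v z) • (P₁.f v z)⁻¹ • v := by
      rw [smul_smul, mul_inv_cancel_right₀ h5]
    exact ⟨c * P₁.f v z, μ, (h4 c).1 hs.2, by rw [← h7]⟩

theorem star_of_orth_data {v x : V} {W : Submodule F V} (hW : W ∈ orb P₁ M) (hv : P₁.Sing v)
    (hv0 : v ≠ 0) (hx : x ∈ W) (hxv : P₁.f x v = 0) (hxv' : x ∉ K ∙ v)
    (hD : ∀ c : K, c • v ∈ W ↔ lam c = 0)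
    (hW' : ∀ u ∈ W, ∃ (c : K) (μ : F), lam c = 0 ∧ u = c • v + μ • x) : Star P P₁ M := by
  obtain ⟨a₀, ha₀⟩ := X.exists_lam_eq one_ne_zero 1
  rw [mul_one] at ha₀
  obtain ⟨e, he, hxe⟩ := P.exists_perp_f_right (W := kline F K v) hxv' 1
  rw [X.mem_perp_kline] at he
  have hWp := X.le_perp_of_mem_orb hW
  have h1 : ∀ c : K, c • v - lam c • a₀ • v ∈ W := fun c => by
    rw [← smul_assoc, ← sub_smul, hD, map_sub, map_smul, ha₀, smul_eq_mul, mul_one, sub_self]
  have h2 : ∀ z ∈ P.perp W, P₁.f z v = algebraMap F K (P.f z (a₀ • v)) := fun z hz =>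
    eq_of_forall_map_mul_eq X.lam_ne fun c => by
      have := hz _ (h1 c)
      rw [f_sub_right, f_smul_right_Λ X.Λ₀, X.f_smul, sub_eq_zero] at this
      rw [this, mul_comm c, ← Algebra.smul_def, map_smul, smul_eq_mul, mul_comm]
  have h3 : ∀ b, P₁.f b v = 0 → ∀ μ, ∀ u ∈ W,
      P₁.eich v b μ u = u - P.f u e • P₁.f x b • v := fun b hb μ u hu => by
    obtain ⟨c, μ', -, rfl⟩ := hW' u hu
    rw [eich_apply_of_orth _ _ (by rw [P₁.f_add_left, P₁.f_smul_left, f_smul_F', hv.f_self, hxv,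
      mul_zero, smul_zero, add_zero]), ε_eq_one_of_Λ X.Λ₁, one_mul, P₁.f_add_left, P₁.f_smul_left,
      f_smul_F', f_symm_zero hb, P.f_add_left, X.f_smul', f_symm_zero he, P.f_smul_left, hxe]
    simp
  have h4 : ∀ b, ∀ z ∈ P.perp W, P₁.eich v b (P₁.h b) z - (z + P.f z (a₀ • v) • b -
      (P.f z b + P.h b * P.f z (a₀ • v)) • a₀ • v) ∈ W := fun b z hz => by
    have := W.neg_mem (h1 (P₁.f z b + P₁.h b * P₁.f z v))
    rw [map_add, ← X.f_tr, h2 z hz, mul_comm, ← Algebra.smul_def, map_smul, ← X.h_tr, smul_eq_mul,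
      mul_comm] at this
    rw [eich_apply_Λ X.Λ₁, h2 z hz, algebraMap_smul, mul_comm, ← Algebra.smul_def]
    convert this using 1
    abel
  have h5 : ∀ b, P₁.f b v = 0 → lam (P₁.f x b) = 0 → b ∈ P.perp W := fun b hb h =>
    mem_perp'.2 fun u hu => by
      obtain ⟨c, μ', -, rfl⟩ := hW' u hu
      rw [P.f_add_left, X.f_smul', f_symm_zero hb, P.f_smul_left, X.f_tr, h]
      simp
  have h6 : a₀ • v ∈ P.perp W :=
    h5 _ (by rw [P₁.f_smul_left, hv.f_self, mul_zero]) (by rw [f_smul_right, hxv, mul_zero, map_zero])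
  have h7 : a₀ • v ∉ W := by rw [hD, ha₀]; exact one_ne_zero
  have h8 : ∀ b (hb : P₁.f b v = 0) z, (resHom F (EV.of_h hv hb).equiv)⁻¹ z =
      P₁.eich v (-b) (P₁.h (-b)) z := fun b hb z => by
    rw [← map_inv, resHom_apply, EV.equiv_inv_apply, ε_eq_one_of_Λ X.Λ₁, σ_eq_of_Λ X.Λ₁, one_mul,
      h_neg_Λ X.Λ₁]
  have h9 : ∀ b (hb : P₁.f b v = 0), lam (P₁.f x b) = 0 → ∀ u ∈ W,
      (resHom F (EV.of_h hv hb).equiv)⁻¹ u ∈ W := fun b hb h u hu => by
    rw [h8 b hb, h3 _ (by rw [f_neg_left, hb, neg_zero]) _ u hu]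
    exact W.sub_mem hu (W.smul_mem _ ((hD _).2 (by rw [f_neg_right, map_neg, h, neg_zero])))
  have h10 : ∀ n ∈ M, ∀ z, P.f (z - n z) e = P.f z (e - n⁻¹ e) := fun n hn z => by
    rw [f_sub_left, f_sub_right, isom_f_left (X.isom hn)]
  have hsx := (sing_iff_of_Λ X.Λ₀).1 (X.sing_of_mem_orb hW hx)
  by_cases hx0 : P₁.h x = 0
  · obtain ⟨y, k1, hy, k2⟩ := ((sing_iff_of_Λ X.Λ₁).2 hx0).exists_partner
      (mem_perp_span_singleton.2 hxv) hxv'
    obtain ⟨d, hd0, hd⟩ := X.exists_lam_zero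
    have k3 : P₁.f (d • y) v = 0 := by rw [P₁.f_smul_left, mem_perp_span_singleton.1 k1, mul_zero]
    have k4 : P₁.f x (d • y) = d := by
      rw [f_smul_right_Λ X.Λ₁, f_comm_of_Λ X.Λ₁, k2, mul_one]
    have k5 : P.h (d • y) = 0 := (sing_iff_of_Λ X.Λ₀).1 (X.sing (hy.smul d))
    generalize d • y = b at k3 k4 k5
    have k3' : P₁.f (-b) v = 0 := by rw [f_neg_left, k3, neg_zero]
    have k6 := h5 b k3 (by rwa [k4])
    have k7 : ∀ u ∈ W, P₁.f x u = 0 := fun u hu => by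
      obtain ⟨c, μ', -, rfl⟩ := hW' u hu
      rw [f_add_right, f_smul_right, X.f_smulF, hxv, f_self_Λ X.Λ₁, hx0]
      simp
    obtain ⟨n, hn, n1, n2, n3⟩ := X.exists_radical hW k6 (fun h => hd0 (k4 ▸ k7 b h)) hx
    have k8 : ∀ b (hb : P₁.f b v = 0), lam (P₁.f x b) = 0 → P.h b = 0 → ∀ z ∈ P.perp W,
        (resHom F (EV.of_h hv hb).equiv * n * (resHom F (EV.of_h hv hb).equiv)⁻¹ * n⁻¹) z =
          z + (P.f z (a₀ • v) • (b - n b) - P.f z b • (a₀ • v - n (a₀ • v))) +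
            (P.f (z - n z) e - P.f z (a₀ • v) * P.f (b - n b) e +
              P.f z b * P.f (a₀ • v - n (a₀ • v)) e) • P₁.f x b • v := by
      intro b hb hb' hb'' z hz
      have j1 := h4 (-b) z hz
      rw [← h8 b hb, h_neg_Λ X.Λ₀, hb'', zero_mul, add_zero] at j1
      have j2 := (P.perp W).sub_mem ((P.perp W).add_mem hz ((P.perp W).smul_mem
        (P.f z (a₀ • v)) ((P.perp W).neg_mem (h5 b hb hb')))) ((P.perp W).smul_mem (P.f z (-b)) h6)
      rw [comm_apply_of_flag n1 n2 (h9 b hb hb') hz j1, resHom_apply, EV.equiv_apply,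
        h3 b hb _ _ (n1 _ j2)]
      simp only [map_sub, map_add, map_smul, map_neg, f_sub_left, P.f_add_left, P.f_smul_left,
        f_neg_left, f_neg_right]
      module
    have k9 := k8 b k3 (by rwa [k4]) k5
    have k10 := k8 (-b) k3' (by rw [f_neg_right, map_neg, k4, hd, neg_zero])
      (by rwa [h_neg_Λ X.Λ₀])
    have k11 : (2 : F) ≠ 0 := fun h => X.two (by
      rw [← map_ofNat (algebraMap F K) 2, h, map_zero])
    refine X.star_of_rank_one' (M.mul_mem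
      (M.mul_mem (M.mul_mem (M.mul_mem (X.res _ _ _ (EV.of_h hv k3)) hn)
        (M.inv_mem (X.res _ _ _ (EV.of_h hv k3)))) (M.inv_mem hn))
      (M.mul_mem (M.mul_mem (M.mul_mem (X.res _ _ _ (EV.of_h hv k3')) hn)
        (M.inv_mem (X.res _ _ _ (EV.of_h hv k3')))) (M.inv_mem hn))) hW ((hD d).2 hd)
      (smul_ne_zero hd0 hv0)
      (y₀ := (2 : F) • (P.f (a₀ • v - n (a₀ • v)) e • b - a₀ • v))
      ((P.perp W).smul_mem _ ((P.perp W).sub_mem ((P.perp W).smul_mem _ k6) h6)) (fun h => ?_)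
      fun z hz => ?_
    · rw [W.smul_mem_iff k11] at h
      have j1 := k7 _ h
      rw [f_sub_right, X.f_smulF, k4, f_smul_right, hxv, mul_zero, sub_zero, smul_eq_zero,
        or_iff_left hd0] at j1
      rw [j1, zero_smul, zero_sub, W.neg_mem_iff] at h
      exact h7 h
    · have j1 : ∀ u ∈ W, (resHom F (EV.of_h hv k3).equiv * n * (resHom F (EV.of_h hv k3).equiv)⁻¹ *
          n⁻¹) u = u := fun u hu => by
        rw [k9 u (hWp hu), n2 u hu, f_of_mem_perp' h6 hu, f_of_mem_perp' k6 hu, sub_self,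
          f_zero_left]
        simp
      rw [mul_apply', k10 z hz, map_add, map_add, k9 z hz, j1 _ (W.sub_mem (W.smul_mem _
        (n1 _ ((P.perp W).neg_mem k6))) (W.smul_mem _ (n1 _ h6))), j1 _ (W.smul_mem _
          ((hD _).2 (by rw [f_neg_right, map_neg, k4, hd, neg_zero]))), map_neg, neg_sub_neg,
          ← neg_sub b, n3]
      simp only [f_neg_right, f_neg_left, k4, hxe, f_smul_right_Λ X.Λ₀, f_sub_right, neg_smul]
      generalize d • v = δ
      generalize a₀ • v = v₀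
      module
  · have k1 : lam (P₁.f x x) = 0 := by rw [← X.f_tr, f_self_Λ X.Λ₀, hsx, mul_zero]
    obtain ⟨n, hn, n1, n2, n3⟩ := X.exists_radical hW h6 h7 hx
    refine X.star_of_rank_one' (M.mul_mem (M.mul_mem (M.mul_mem (X.res _ _ _ (EV.of_h hv hxv)) hn)
      (M.inv_mem (X.res _ _ _ (EV.of_h hv hxv)))) (M.inv_mem hn)) hW ((hD _).2 k1)
      (smul_ne_zero (by rw [f_self_Λ X.Λ₁]; exact mul_ne_zero X.two hx0) hv0) (y₀ := e - n⁻¹ e)
      (mem_perp'.2 fun u hu => by rw [← h10 n hn, n2 u hu, sub_self, f_zero_left]) (fun h => ?_)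
      fun z hz => ?_
    · have j1 := h6 _ h
      rw [← h10 n hn, n3, hxe] at j1
      exact one_ne_zero j1
    · have j1 := h4 (-x) z hz
      rw [← h8 x hxv, h_neg_Λ X.Λ₀, hsx, f_neg_right, hz x hx, neg_zero, zero_mul, add_zero,
        zero_smul, sub_zero] at j1
      have j2 : (resHom F (EV.of_h hv hxv).equiv)⁻¹ z - z ∈ W := by
        convert W.add_mem j1 (W.smul_mem (P.f z (a₀ • v)) (W.neg_mem hx)) using 1
        abel
      rw [comm_apply_of_flag n1 n2 (h9 x hxv k1) hz j2, resHom_apply, EV.equiv_apply,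
        h3 x hxv _ _ (n1 z hz), h10 n hn]
      abel

theorem mem_kline_of_nonorth {v x : V} (hv : P₁.Sing v) {W : Submodule F V}
    (hE : Extr (orb P₁ M) (kline F K v) W) (h0 : kline F K v ⊓ W ≠ ⊥) (hx : x ∈ W)
    (hxv : P₁.f x v ≠ 0) {y : V} (hy : y ∈ W) (hyv : P₁.f y v = 0) : y ∈ kline F K v := by
  by_contra hy'
  have h1 : (P₁.perp ((K ∙ v) ⊔ K ∙ y)).restrictScalars F ≤ kline F K v ⊔ W := by
    intro w hw
    rw [Submodule.restrictScalars_mem, mem_perp_sup_span, mem_perp_span_singleton] at hw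
    have h2 : P₁.f ((P₁.f x v)⁻¹ • w) v = 0 := by rw [P₁.f_smul_left, hw.1, mul_zero]
    have := X.eich_mem_of_extr (EV.of_h hv h2) hE hy hy' (by
      rwa [eich_apply_of_orth₂ _ _ hyv (by rw [f_smul_right, f_symm_zero hw.2, mul_zero])]) x hx
    rw [eich_apply, smul_smul, mul_inv_cancel₀ hxv, one_smul] at this
    have h3 := Submodule.add_mem_sup (smul_mem_kline (F := F) (P₁.ε * (P₁.f x ((P₁.f x v)⁻¹ • w) +
      P₁.h ((P₁.f x v)⁻¹ • w) * P₁.f x v)) v) (W.sub_mem this hx)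
    convert h3 using 1
    abel
  have h2 := Submodule.finrank_mono h1
  have h3 := Submodule.finrank_sup_add_finrank_inf_eq (kline F K v) W
  have h4 : 0 < finrank F ↥(kline F K v ⊓ W) :=
    Nat.pos_of_ne_zero fun h => h0 (Submodule.finrank_eq_zero.1 h)
  have h5 := finrank_sup_span_le (K ∙ v) y
  have h6 := finrank_span_singleton_le (F := K) v
  have h7 := P₁.finrank_perp ((K ∙ v) ⊔ K ∙ y)
  have h8 := X.four
  have h9 : finrank F ((P₁.perp ((K ∙ v) ⊔ K ∙ y)).restrictScalars F) =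
      finrank F K * finrank K (P₁.perp ((K ∙ v) ⊔ K ∙ y)) :=
    (Module.finrank_mul_finrank F K (P₁.perp ((K ∙ v) ⊔ K ∙ y))).symm
  rw [finrank_of_mem_orb hE.left, finrank_of_mem_orb hE.right] at h3
  have h10 := Nat.mul_le_mul_left (finrank F K)
    (show 2 ≤ finrank K (P₁.perp ((K ∙ v) ⊔ K ∙ y)) by omega)
  omega

theorem exists_orth [Finite F] {v x : V} (hv : P₁.Sing v) {W : Submodule F V}
    (hE : Extr (orb P₁ M) (kline F K v) W) (h0 : kline F K v ⊓ W ≠ ⊥) (hx : x ∈ W)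
    (hxv : P₁.f x v ≠ 0) : ∃ v' W', P₁.Sing v' ∧ v' ≠ 0 ∧ Extr (orb P₁ M) (kline F K v') W' ∧
      kline F K v' ⊓ W' ≠ ⊥ ∧ ∀ y ∈ W', P₁.f y v' = 0 := by
  obtain ⟨δ, hδ, hδ0⟩ := Submodule.exists_mem_ne_zero_of_ne_bot h0
  obtain ⟨z, hz⟩ := P.exists_f_right_eq hδ0 1
  let T := W ⊓ P.perp (F ∙ z)
  have hT : finrank F T < finrank F K := by
    rw [← finrank_of_mem_orb hE.right]
    refine Submodule.finrank_lt_finrank_of_lt (SetLike.lt_iff_le_and_exists.2
      ⟨inf_le_left, δ, hδ.2, fun h => ?_⟩)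
    exact one_ne_zero (hz.symm.trans (mem_perp_span_singleton.1 h.2))
  let S := (P₁.perp ((K ∙ v) ⊔ K ∙ x)).restrictScalars F
  have hS : 2 * finrank F K ≤ finrank F S := by
    have h5 := finrank_sup_span_le (K ∙ v) x
    have h6 := finrank_span_singleton_le (F := K) v
    have h7 := P₁.finrank_perp ((K ∙ v) ⊔ K ∙ x)
    have h8 := X.four
    have h9 : finrank F S = finrank F K * finrank K (P₁.perp ((K ∙ v) ⊔ K ∙ x)) :=
      (Module.finrank_mul_finrank F K (P₁.perp ((K ∙ v) ⊔ K ∙ x))).symm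
    rw [h9, mul_comm]
    exact Nat.mul_le_mul_left _ (by omega)
  let b := Module.finBasis F T
  obtain ⟨⟨w, hw⟩, hw0, h1⟩ := exists_common_zero_quad (V := S)
    (fun i => (P.fL (P₁.f x v • (b i : V))).comp S.subtype)
    (fun i => LinearMap.mk₂ F
      (fun w w' : S => P.f w ((-(2⁻¹ * P₁.f x v * P₁.f v (b i))) • (w' : V)))
      (fun _ _ _ => P.f_add_left _ _ _) (fun _ _ _ => P.f_smul_left _ _ _)
      (fun _ _ _ => by rw [Submodule.coe_add, smul_add, f_add_right])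
      (fun _ _ _ => by rw [Submodule.coe_smul, smul_comm, f_smul_right_Λ X.Λ₀, smul_eq_mul]))
    (by rw [Fintype.card_fin]; omega)
  have hw' := hw
  rw [Submodule.restrictScalars_mem, mem_perp_sup_span, mem_perp_span_singleton] at hw'
  have hn := EV.of_h hv hw'.1
  have hWp := X.le_perp_of_mem_orb hE.right
  have h2 : P₁.eich v w (P₁.h w) x ∈ P.perp W := by
    have k1 : (P.perp (F ∙ P₁.eich v w (P₁.h w) x)).comap T.subtype = ⊤ := by
      rw [eq_top_iff, ← b.span_eq, Submodule.span_le]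
      rintro _ ⟨i, rfl⟩
      refine mem_perp_span_singleton.2 (f_symm_zero ?_)
      have := h1 i
      simp only [LinearMap.comp_apply, Submodule.subtype_apply, fL_apply, LinearMap.mk₂_apply,
        X.f_smul, f_self_Λ X.Λ₁] at this
      rw [Submodule.subtype_apply, eich_apply_Λ X.Λ₁, f_sub_left, P.f_add_left, hWp hx _ (b i).2.1,
        f_symm_zero hw'.2, X.f_smul', X.f_smul', zero_add, zero_add, ← this, sub_eq_add_neg,
        ← map_neg]
      congr 2
      field_simp [X.two]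
    have k2 : P.f δ (P₁.eich v w (P₁.h w) x) = 0 := by
      have := isom_f (X.isom (X.res _ _ _ hn)) δ x
      rw [eich_kline hn hδ.1, hWp hδ.2 x hx] at this
      exact this
    refine mem_perp'.2 fun u hu => ?_
    have k3 := mem_perp_span_singleton.1 (Submodule.eq_top_iff'.1 k1 ⟨u - P.f u z • δ, W.sub_mem hu
      (W.smul_mem _ hδ.2), mem_perp_span_singleton.2 (by
        rw [f_sub_left, P.f_smul_left, hz, mul_one, sub_self])⟩)
    rwa [Submodule.subtype_apply, f_sub_left, P.f_smul_left, k2, mul_zero, sub_zero] at k3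
  have h3 : P₁.eich v w (P₁.h w) x ∉ W := fun h => by
    have k1 := W.sub_mem h hx
    rw [eich_apply, add_sub_assoc, add_sub_cancel_left] at k1
    obtain ⟨a, ha⟩ := mem_kline.1 (X.mem_kline_of_nonorth hv hE h0 hx hxv k1 (by
      rw [f_sub_left, P₁.f_smul_left, P₁.f_smul_left, hw'.1, hv.f_self, mul_zero, mul_zero,
        sub_self]))
    rw [eq_sub_iff_add_eq, ← add_smul] at ha
    have k2 := congrArg (P₁.f x) ha
    rw [f_smul_right, f_smul_right, f_symm_zero hw'.2, mul_zero, mul_eq_zero, or_iff_left hxv,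
      σ_eq_zero] at k2
    rw [f_symm_zero hw'.2, k2, zero_smul, eq_comm, smul_eq_zero, or_iff_right hxv] at ha
    exact hw0 (Subtype.ext ha)
  have h4 : P₁.eich v w (P₁.h w) x ∈ act (resHom F hn.equiv) W := apply_mem_act.2 hx
  have h5 : kline F K v ⊓ W ≤ W ⊓ act (resHom F hn.equiv) W := fun u hu =>
    ⟨hu.2, by rw [← eich_kline hn hu.1]; exact apply_mem_act.2 hu.2⟩
  have h6 := hE.of_le hE.right (act_mem_orb hE.right (X.res _ _ _ hn)) (fun h => h3 (h ▸ h4)) h5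
  obtain ⟨g, hg, v', W', hv', hv0', hE', h7, h8⟩ := exists_std h6
  have h9 : kline F K v' ⊓ W' ≠ ⊥ := fun h => h0 (by
    rw [h8, h7, ← act_inf, h] at h5
    rw [← h7] at h5
    exact eq_bot_iff.2 (h5.trans (Submodule.map_bot _).le))
  refine ⟨v', W', hv', hv0', hE', h9, fun y hy => ?_⟩
  by_contra h10
  rw [h8, mem_act] at h4
  rw [h7, act_perp (X.isom hg), mem_act, X.mem_perp_kline] at h2
  rw [h7, mem_act] at h3
  exact h3 (X.mem_kline_of_nonorth hv' hE' h9 hy h10 h4 h2)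

theorem E_le_of_extr [Finite F] {U U' : Submodule F V} (hE : Extr (orb P₁ M) U U')
    (h0 : U ⊓ U' ≠ ⊥) : P.E ≤ M := by
  refine X.E_le_of_star' ?_ hE h0
  obtain ⟨v, W, hv, hv0, hE', h1, h2⟩ : ∃ v W, P₁.Sing v ∧ v ≠ 0 ∧
      Extr (orb P₁ M) (kline F K v) W ∧ kline F K v ⊓ W ≠ ⊥ ∧ ∀ y ∈ W, P₁.f y v = 0 := by
    obtain ⟨g, -, v, W, hv, hv0, hE', rfl, rfl⟩ := exists_std hE
    have h1 : kline F K v ⊓ W ≠ ⊥ := fun h => h0 (by rw [← act_inf, h]; exact Submodule.map_bot _)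
    by_cases h2 : ∀ y ∈ W, P₁.f y v = 0
    · exact ⟨v, W, hv, hv0, hE', h1, h2⟩
    · push Not at h2
      obtain ⟨x, hx, hxv⟩ := h2
      exact X.exists_orth hv hE' h1 hx hxv
  obtain ⟨v', x, k1, k2, k3, k4, k5, k6, k7⟩ := X.orth_data hv hv0 hE' h1 h2
  exact X.star_of_orth_data hE'.right k1 k2 k3 k4 k5 k6 k7

omit [FiniteDimensional F V] in
theorem exists_scalar (A : V →+ V) (hA : ∀ u, P₁.Sing u → A u ∈ K ∙ u) :
    ∃ c : K, ∀ x, A x = c • x := by
  obtain ⟨e, he0, he, -⟩ := X.exists_sing_perp 0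
  obtain ⟨e', he', h1⟩ := he.exists_partner' he0
  have h2 : P₁.f e e' = 1 := by rw [f_comm_of_Λ X.Λ₁, h1]
  have h2' : P₁.f e e' ≠ 0 := by rw [h2]; exact one_ne_zero
  have h3 : ∀ w, w ≠ 0 → P₁.f w e = 0 → P₁.f w e' = 0 → ∃ μ : K, A w = μ • w ∧
      ∀ s : K, s ≠ 0 → A (s • e) = μ • s • e ∧
        A ((P₁.h w / s) • e') = μ • (P₁.h w / s) • e' := by
    intro w hw0 hw hw'
    obtain ⟨z, hz, hz', hzw⟩ := exists_perp_pair_f_eq he he' h2' hw0 hw hw' 1
    have k1 : ∀ s : K, s ≠ 0 → ∃ μ : K, A w = μ • w ∧ A (s • e) = μ • s • e ∧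
        A ((P₁.h w / s) • e') = μ • (P₁.h w / s) • e' := by
      intro s hs
      have j1 : ∀ s : K, s ≠ 0 → P₁.Sing (s • e + w - (P₁.h w / s) • e') := fun s hs => by
        rw [sing_iff_of_Λ X.Λ₁, h_sub_Λ X.Λ₁, h_add_of_Λ X.Λ₁, h_smul_of_Λ X.Λ₁,
          h_smul_of_Λ X.Λ₁, (sing_iff_of_Λ X.Λ₁).1 he, (sing_iff_of_Λ X.Λ₁).1 he', P₁.f_smul_left,
          f_symm_zero hw, f_smul_right_Λ X.Λ₁, P₁.f_add_left, P₁.f_smul_left, h2, hw']
        field_simp
        ring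
      obtain ⟨a, ha⟩ := Submodule.mem_span_singleton.1 (hA _ (j1 s hs))
      obtain ⟨b, hb⟩ := Submodule.mem_span_singleton.1 (hA _ (j1 (-s) (neg_ne_zero.2 hs)))
      obtain ⟨c, hc⟩ := Submodule.mem_span_singleton.1 (hA _ (he.smul s))
      obtain ⟨d, hd⟩ := Submodule.mem_span_singleton.1 (hA _ (he'.smul (P₁.h w / s)))
      rw [div_neg, neg_smul, neg_smul, map_sub, map_add, map_neg, map_neg, ← hc, ← hd] at hb
      rw [map_sub, map_add, ← hc, ← hd] at ha
      have j2 : (a - b) • w = ((2 * c - a - b) * s) • e - ((2 * d - a - b) * (P₁.h w / s)) • e' := by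
        linear_combination (norm := module) ha - hb
      have j3 := congrArg (P₁.f z) j2
      have j4 := congrArg (P₁.f e') j2
      have j5 := congrArg (P₁.f e) j2
      simp only [f_sub_right, f_smul_right_Λ X.Λ₁, hz, hz', hzw, h1, h2, he.f_self, he'.f_self,
        f_symm_zero hw, f_symm_zero hw'] at j3 j4 j5
      have j6 : b = a := by linear_combination -j3
      subst j6
      have j7 : c * s = b * s := mul_left_cancel₀ X.two (by linear_combination -j4)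
      have j8 : d * (P₁.h w / s) = b * (P₁.h w / s) :=
        mul_left_cancel₀ X.two (by linear_combination j5)
      rw [smul_smul, j7, ← smul_smul] at hc
      rw [smul_smul, j8, ← smul_smul] at hd
      refine ⟨b, smul_right_injective V X.two ?_, hc.symm, hd.symm⟩
      linear_combination (norm := module) -ha - hb
    obtain ⟨μ, k2, -⟩ := k1 1 one_ne_zero
    refine ⟨μ, k2, fun s hs => ?_⟩
    obtain ⟨μ', k3, k4⟩ := k1 s hs
    rwa [smul_left_injective K hw0 (k2.symm.trans k3)]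
  obtain ⟨w, hw, hw', hw''⟩ : ∃ w, P₁.f w e = 0 ∧ P₁.f w e' = 0 ∧ P₁.h w ≠ 0 := by
    obtain ⟨b, hb0, hb1, hb2⟩ := exists_perp_pair_ne_zero (P := P₁) (by have := X.four; omega) e e'
    obtain ⟨z, hz, hz', hzb⟩ := exists_perp_pair_f_eq he he' h2' hb0 hb1 hb2 1
    by_contra hc
    push Not at hc
    have := hc (z + b) (by rw [P₁.f_add_left, hz, hb1, add_zero])
      (by rw [P₁.f_add_left, hz', hb2, add_zero])
    rw [h_add_of_Λ X.Λ₁, hc z hz hz', hc b hb1 hb2, hzb] at this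
    simp at this
  obtain ⟨c, -, hc⟩ := h3 w (by rintro rfl; exact hw'' ((sing_iff_of_Λ X.Λ₁).1 P₁.sing_zero)) hw hw'
  have h4 : ∀ s : K, A (s • e) = c • s • e := fun s => by
    by_cases hs : s = 0
    · simp [hs]
    · exact (hc s hs).1
  have h5 : ∀ s : K, A (s • e') = c • s • e' := fun s => by
    by_cases hs : s = 0
    · simp [hs]
    · have := (hc (P₁.h w / s) (div_ne_zero hw'' hs)).2
      rwa [div_div_cancel₀ hw''] at this
  have h6 : ∀ y, P₁.f y e = 0 → P₁.f y e' = 0 → A y = c • y := fun y hy hy' => by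
    by_cases hy0 : y = 0
    · simp [hy0]
    obtain ⟨μ, k1, k2⟩ := h3 y hy0 hy hy'
    have k3 := (k2 1 one_ne_zero).1
    rw [h4, one_smul] at k3
    rw [k1, smul_left_injective K he0 k3]
  refine ⟨c, fun x => ?_⟩
  have := h6 (x - P₁.f x e' • e - P₁.f x e • e')
    (by simp only [f_sub_left, P₁.f_smul_left, he.f_self, h1]; ring)
    (by simp only [f_sub_left, P₁.f_smul_left, he'.f_self, h2]; ring)
  rw [map_sub, map_sub, h4, h5] at this
  linear_combination (norm := module) this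

theorem eq_kline_of_disjoint (h : ∀ U ∈ orb P₁ M, ∀ U' ∈ orb P₁ M, U ≠ U' → U ⊓ U' = ⊥)
    {U : Submodule F V} (hU : U ∈ orb P₁ M) {u : V} (hu : u ∈ U) (hu0 : u ≠ 0) :
    U = kline F K u := by
  have h1 : ∀ U' ∈ orb P₁ M, u ∈ U' → U = U' := fun U' hU' hu' => by
    by_contra hne
    exact hu0 ((Submodule.mem_bot F).1 (h U hU U' hU' hne ▸ ⟨hu, hu'⟩))
  by_cases hs : P₁.h u = 0
  · exact h1 _ (kline_mem_orb ((sing_iff_of_Λ X.Λ₁).2 hs) hu0) (self_mem_kline u)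
  refine Submodule.eq_of_le_of_finrank_eq (fun x hx => ?_)
    ((finrank_of_mem_orb hU).trans (finrank_kline hu0).symm)
  by_contra hxu
  obtain ⟨e, e', he, he', k1, k2, k3⟩ := X.exists_pair_perp hs
  have h3 : P₁.perp (K ∙ u) ⊓ K ∙ u = ⊥ := by
    rw [eq_bot_iff]
    rintro y ⟨hy1, hy2⟩
    obtain ⟨c, rfl⟩ := Submodule.mem_span_singleton.1 hy2
    have := mem_perp_span_singleton.1 hy1
    rw [P₁.f_smul_left, f_self_Λ X.Λ₁, mul_eq_zero, or_iff_left (mul_ne_zero X.two hs)] at this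
    simp [this]
  have h4 := irr_add (P := P₁) (S := K ∙ u) (U := U.toAddSubgroup) (fun a b μ hv ha hb z hz => by
      have j1 : u ∈ act (resHom F hv.equiv) U := by
        have : resHom F hv.equiv u = u :=
          P₁.eich_apply_of_orth₂ _ (f_symm_zero (mem_perp_span_singleton.1 ha))
            (f_symm_zero (mem_perp_span_singleton.1 hb))
        rw [← this]
        exact apply_mem_act.2 hu
      rw [Submodule.mem_toAddSubgroup, h1 _ (act_mem_orb hU (X.res _ _ _ hv)) j1]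
      exact apply_mem_act.2 hz)
    ⟨e, mem_perp_span_singleton.2 k1, fun h => by
      have j1 : e ∈ P₁.perp (K ∙ u) ⊓ K ∙ u := ⟨mem_perp_span_singleton.2 k1, h⟩
      rw [h3, Submodule.mem_bot] at j1
      rw [j1, f_zero_right] at k3
      exact zero_ne_one k3, he⟩
    (by
      have h4 := finrank_span_singleton_le (F := K) u
      have h5 := P₁.finrank_perp (K ∙ u)
      have := X.four
      rw [h3, finrank_bot]
      omega) hx hxu
  obtain ⟨a, ha⟩ := X.exists_lam_eq one_ne_zero 1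
  have h5 := X.le_perp_of_mem_orb hU (h4 (a • e') (mem_perp_span_singleton.2 (by
    rw [P₁.f_smul_left, k2, mul_zero]))) e (h4 e (mem_perp_span_singleton.2 k1))
  rw [X.f_smul', k3, ha] at h5
  exact one_ne_zero h5

theorem le_or [Finite F] [Finite K] : M ≤ semiN F K V ∨ P.E ≤ M := by
  by_cases h : ∀ U ∈ orb P₁ M, ∀ U' ∈ orb P₁ M, U ≠ U' → U ⊓ U' = ⊥
  swap
  · push Not at h
    obtain ⟨U, hU, U', hU', hne, h0⟩ := h
    obtain ⟨W, W', hE⟩ := exists_extr hU hU' hne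
    exact Or.inr (X.E_le_of_extr hE (hE.ne_bot hU hU' hne h0))
  refine Or.inl fun g hg => ?_
  have : Nontrivial V := Module.nontrivial_of_finrank_pos (R := K) (by have := X.four; omega)
  refine (inv_mem_iff (x := g)).1 (mem_semiN_of fun a => ?_)
  obtain ⟨c, hc⟩ := X.exists_scalar
    ((g⁻¹ : V ≃ₗ[F] V).toLinearMap.toAddMonoidHom.comp ((DistribSMul.toAddMonoidHom V a).comp
      g.toLinearMap.toAddMonoidHom)) fun u hu => by
    by_cases hu0 : u = 0
    · simp [hu0]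
    have h1 := X.eq_kline_of_disjoint h (act_mem_orb (kline_mem_orb hu hu0) hg)
      (apply_mem_act.2 (self_mem_kline u)) (g.map_ne_zero_iff.2 hu0)
    exact mem_act.1 (h1.ge (smul_mem_kline a _))
  refine ⟨c, fun v => ?_⟩
  have := hc (g⁻¹ v)
  change g⁻¹ (a • g (g⁻¹ v)) = _ at this
  rwa [apply_inv_apply] at this

omit [FiniteDimensional F V] in
theorem not_le : ¬ P.E ≤ semiN F K V := fun h => by
  obtain ⟨e, he0, he, -⟩ := X.exists_sing_perp 0
  obtain ⟨e', he', h1⟩ := he.exists_partner' he0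
  rw [f_comm_of_Λ X.Λ₁] at h1
  obtain ⟨b, hb0, hb1, hb2⟩ := exists_perp_pair_ne_zero (P := P₁) (by have := X.four; omega) e e'
  obtain ⟨z, hz, hz', hzb⟩ := exists_perp_pair_f_eq he he' (by rw [h1]; exact one_ne_zero) hb0 hb1
    hb2 1
  obtain ⟨c, hc0, hc⟩ := X.exists_lam_zero
  obtain ⟨a, ha⟩ := X.exists_lam_eq hc0 1
  have hv := EV.of_h (X.sing (he'.smul c)) (y := b) (by rw [X.f_smul, hb2, mul_zero, map_zero])
  obtain ⟨σ, hσ⟩ := h hv.equiv_mem_E
  have h2 := hσ a e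
  rw [EV.equiv_apply, EV.equiv_apply, eich_apply_of_orth₂ _ _ (x := e)
    (by rw [X.f_smul, h1, mul_one, hc]) (X.f_zero (f_symm_zero hb1)), eich_apply, X.f_smul',
    f_smul_right_Λ X.Λ₁, h1, mul_one, ha, one_smul] at h2
  have h3 := congrArg (P₁.f z) h2
  rw [f_sub_right, f_add_right, X.f_smulF, f_smul_right, f_smul_right, f_smul_right, hz, hz', hzb]
    at h3
  simp at h3

end C3O

end PForm

end Cfsg.Agent.H26
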