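import Cfsg.Agent.H26.PC2
import Cfsg.Agent.H26.PC8
import Cfsg.Agent.H26.SL5

/-!
Rational structures on forms with a form parameter; Eichler transformations in overgroups of
subfield subgroups.
-/

set_option autoImplicit false

namespace Cfsg.Agent.H26

open Module

namespace PForm

section General

variable {F : Type*} [Field F] {V : Type*} [AddCommGroup V] [Module F V] {P : PForm F V}
  {M : Subgroup (V ≃ₗ[F] V)}

theorem Ei.diff {e y a b : V} {ν μ : F} (h : P.Ei M e y ν) (h' : P.Ei M a b μ)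
    (h1 : P.f e a = 0) (h2 : P.f e b = 0) :
    ∃ ν', P.Ei M e (P.f y a • b - (P.ε * (P.f y b + μ * P.f y a)) • a) ν' := by
  have h3 := (h'.conj_ei h)
  rw [eich_apply_of_orth₂ _ _ h1 h2] at h3
  have h4 := h3.sub h
  rw [eich_apply] at h4
  exact ⟨_, by convert h4 using 1; abel⟩

theorem Ei.diff₂ {e y a b b' : V} {ν μ μ' : F} (h : P.Ei M e y ν) (h' : P.Ei M a b μ)
    (h'' : P.Ei M a b' μ') (h1 : P.f e a = 0) (h2 : P.f e b = 0) (h3 : P.f e b' = 0) :
    ∃ ν', P.Ei M e ((P.ε * (P.f y a * P.f b b')) • a) ν' := by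
  obtain ⟨_, h4⟩ := h.diff h' h1 h2
  obtain ⟨_, h5⟩ := h4.diff h'' h1 h3
  refine ⟨_, by
    convert h5.neg using 1
    simp only [f_sub_left, P.f_smul_left, h'.ev.orth, h'.ev.sing.f_self, h''.ev.orth']
    module⟩

variable [FiniteDimensional F V]

theorem exists_f_eq_of_lt {S : Submodule F V} (h : 2 * finrank F S < finrank F V) (c : F) :
    ∃ y ∈ P.perp S, ∃ z ∈ P.perp S, P.f z y = c := by
  obtain ⟨y, hy, z, hz, h1⟩ := exists_f_ne_zero_of_lt (P := P) h
  exact ⟨y, hy, (c / P.f z y) • z, Submodule.smul_mem _ _ hz, by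
    rw [P.f_smul_left, div_mul_cancel₀ _ h1]⟩

theorem exists_f_eq_pair (h : 5 ≤ finrank F V) (e a : V) (c : F) :
    ∃ y z, P.f y e = 0 ∧ P.f y a = 0 ∧ P.f z e = 0 ∧ P.f z a = 0 ∧ P.f z y = c := by
  obtain ⟨y, hy, z, hz, h1⟩ := exists_f_eq_of_lt (P := P) (S := (F ∙ e) ⊔ F ∙ a) (by
    have := finrank_sup_span_le (F ∙ e) a
    have := finrank_span_singleton_le (F := F) e
    omega) c
  rw [mem_perp_sup_span, mem_perp_span_singleton] at hy hz
  exact ⟨y, z, hy.1, hy.2, hz.1, hz.2, h1⟩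

theorem exists_sing_orth (hd : P.d + 2 ≤ finrank F V) (e : V) :
    ∃ a, P.Sing a ∧ P.f a e = 0 ∧ a ∉ F ∙ e := by
  obtain ⟨a, h1, h2, h3⟩ := P.exists_sing_perp_notMem (F ∙ e) (by
    have := finrank_span_singleton_le (F := F) e
    omega)
  exact ⟨a, h3, mem_perp_span_singleton.1 h1, h2⟩

theorem trans_sing (hd : P.d + 2 ≤ finrank F V) {p : V → Prop}
    (hp : ∀ e y ν, P.EV e y ν → ∀ x, p x → p (P.eich e y ν x)) {x x' : V} (hx0 : x ≠ 0)
    (hx0' : x' ≠ 0) (hx : P.Sing x) (hx' : P.Sing x') (h : p x) : p x' :=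
  (W2.of_finrank (S := ⊥) (by rw [finrank_perp_bot, finrank_perp_bot']; omega)).trans
    (fun e y ν hv _ _ => hp e y ν hv) (by rw [perp_bot]; trivial) (by rw [perp_bot]; trivial)
    (by simpa using hx0) (by simpa using hx0') hx hx' h

omit [FiniteDimensional F V] in
theorem notMem_span_symm {x y : V} (hx : x ≠ 0) (h : y ∉ F ∙ x) : x ∉ F ∙ y := by
  simpa using notMem_sup_span_exchange (S := ⊥) (x := x) (e := y) (by simpa using hx)
    (by simpa using h)

/-- A subspace containing all singular vectors orthogonal to `e` contains `e^⊥`. -/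
theorem mem_of_sing_perp (hd : P.d + 2 ≤ finrank F V) {U : Submodule F V} {e : V}
    (h : ∀ a, P.Sing a → P.f a e = 0 → a ∈ U) {x : V} (hx : P.f x e = 0) : x ∈ U := by
  obtain ⟨a, h1, h2, h3⟩ := exists_sing_orth hd e
  refine mem_of_forall_perp (P := P) fun z hz => ?_
  have h4 : z ∈ F ∙ e := mem_of_orth_sing h1 (mem_perp_span_singleton.2 h2) h3
    fun w hw hs => hz w (h w hs (mem_perp_span_singleton.1 hw))
  exact mem_perp_span_singleton.2 hx z h4

end General

variable {K F : Type*} [Field K] [Field F] [Algebra K F] {V₀ V : Type*} [AddCommGroup V₀]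
  [Module K V₀] [AddCommGroup V] [Module F V] [Module K V] [IsScalarTower K F V]

/-- `j : V₀ → V` is a rational structure compatible with the forms. -/
structure Rat (P₀ : PForm K V₀) (P : PForm F V) (j : V₀ →ₗ[K] V) : Prop where
  σ_alg : ∀ c, P.σ (algebraMap K F c) = algebraMap K F (P₀.σ c)
  ε_alg : P.ε = algebraMap K F P₀.ε
  f_alg : ∀ x y, P.f (j x) (j y) = algebraMap K F (P₀.f x y)
  h_alg : ∀ x, P.h (j x) - algebraMap K F (P₀.h x) ∈ P.Λ
  Λ_alg : ∀ a, algebraMap K F a ∈ P.Λ ↔ a ∈ P₀.Λ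
  span : Submodule.span F (Set.range j) = ⊤

variable (F) in
/-- The subfield group of a rational structure. -/
def ratNorm (j : V₀ →ₗ[K] V) : Subgroup (V ≃ₗ[F] V) :=
  H31.baerNorm F (LinearMap.range j).toAddSubgroup

theorem j_smul (j : V₀ →ₗ[K] V) (c : K) (x : V₀) : j (c • x) = algebraMap K F c • j x := by
  rw [map_smul, algebraMap_smul]

theorem mem_ratNorm_of [Finite V] {j : V₀ →ₗ[K] V} {g : V ≃ₗ[F] V} {c : F} (hc : c ≠ 0)
    (h : ∀ x, ∃ y, j y = c • g (j x)) : g ∈ ratNorm F j :=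
  H31.mem_baerNorm_of_le hc (by rintro _ ⟨x, rfl⟩; exact h x)

theorem exists_of_mem_ratNorm {j : V₀ →ₗ[K] V} {g : V ≃ₗ[F] V} (h : g ∈ ratNorm F j) :
    ∃ c : F, c ≠ 0 ∧ ∀ x, ∃ y, j y = c • g (j x) := by
  obtain ⟨c, hc, h⟩ := h
  exact ⟨c, hc, fun x => (h (j x)).1 ⟨x, rfl⟩⟩

namespace Rat

variable {P₀ : PForm K V₀} {P : PForm F V} {j : V₀ →ₗ[K] V}

theorem f_eq_zero (R : Rat P₀ P j) {x y : V₀} : P.f (j x) (j y) = 0 ↔ P₀.f x y = 0 := by
  rw [R.f_alg, map_eq_zero]

theorem j_eq_zero (R : Rat P₀ P j) {x : V₀} : j x = 0 ↔ x = 0 :=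
  ⟨fun h => P₀.nondeg x fun y => R.f_eq_zero.1 (by rw [h, f_zero_right]),
    fun h => by rw [h, map_zero]⟩

theorem sing_iff (R : Rat P₀ P j) {x : V₀} : P.Sing (j x) ↔ P₀.Sing x := by
  rw [Sing, Sing, ← R.Λ_alg]
  exact ⟨fun h => by simpa using P.Λ.sub_mem h (R.h_alg x),
    fun h => by simpa using P.Λ.add_mem (R.h_alg x) h⟩

theorem ev (R : Rat P₀ P j) {e y : V₀} {ν : K} (h : P₀.EV e y ν) :
    P.EV (j e) (j y) (algebraMap K F ν) := by
  refine ⟨R.sing_iff.2 h.sing, R.f_eq_zero.2 h.orth, ?_⟩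
  have := P.Λ.sub_mem ((R.Λ_alg _).2 h.nu) (R.h_alg y)
  rw [map_sub] at this
  convert this using 1
  ring

theorem eich_j (R : Rat P₀ P j) (e y : V₀) (ν : K) (x : V₀) :
    P.eich (j e) (j y) (algebraMap K F ν) (j x) = j (P₀.eich e y ν x) := by
  simp only [eich_apply, map_sub, map_add, j_smul (F := F), R.f_alg, R.ε_alg, map_mul]

theorem eq_zero_of_f (R : Rat P₀ P j) {x : V} (h : ∀ y, P.f (j y) x = 0) : x = 0 := by
  have : x ∈ P.perp (Submodule.span F (Set.range j)) :=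
    mem_perp_span.2 (by rintro _ ⟨y, rfl⟩; exact f_symm_zero (h y))
  rwa [R.span, perp_top, Submodule.mem_bot] at this

theorem exists_f_ne_zero (R : Rat P₀ P j) {x : V} (h : x ≠ 0) : ∃ y, P.f (j y) x ≠ 0 := by
  by_contra hc
  push Not at hc
  exact h (R.eq_zero_of_f hc)

theorem σ_mem (R : Rat P₀ P j) {c : F} (h : c ∈ Set.range (algebraMap K F)) :
    P.σ c ∈ Set.range (algebraMap K F) := by
  obtain ⟨c, rfl⟩ := h
  exact ⟨_, (R.σ_alg c).symm⟩

variable [FiniteDimensional K V₀]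

theorem dual (R : Rat P₀ P j) {x : V} (h : ∀ y, P.f (j y) x ∈ Set.range (algebraMap K F)) :
    ∃ y, j y = x := by
  choose φ hφ using h
  let φ' : V₀ →ₗ[K] K :=
    { toFun := φ
      map_add' := fun y z => (algebraMap K F).injective (by
        rw [map_add, hφ, hφ, hφ, map_add, P.f_add_left])
      map_smul' := fun c y => (algebraMap K F).injective (by
        rw [RingHom.id_apply, smul_eq_mul, map_mul, hφ, hφ, j_smul (F := F), P.f_smul_left]) }
  obtain ⟨y, hy⟩ := P₀.exists_rep φ'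
  refine ⟨y, sub_eq_zero.1 (R.eq_zero_of_f fun z => ?_)⟩
  rw [f_sub_right, R.f_alg, hy, ← hφ]
  exact sub_self _

theorem dual' (R : Rat P₀ P j) {x : V} (h : ∀ y, P.f x (j y) ∈ Set.range (algebraMap K F)) :
    ∃ y, j y = x := by
  refine R.dual fun y => ?_
  obtain ⟨c, hc⟩ := R.σ_mem (h y)
  exact ⟨P₀.ε * c, by rw [map_mul, hc, ← R.ε_alg, ← P.herm]⟩

theorem notMem_span (R : Rat P₀ P j) {s : Set V₀} {x : V₀} (h : x ∉ Submodule.span K s) :
    j x ∉ Submodule.span F (j '' s) := by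
  obtain ⟨y, hy, h1⟩ := P₀.exists_perp_f_right h 1
  intro h2
  have h3 : j y ∈ P.perp (Submodule.span F (j '' s)) := mem_perp_span.2 (by
    rintro _ ⟨z, hz, rfl⟩
    exact R.f_eq_zero.2 (hy z (Submodule.subset_span hz)))
  have h4 := R.f_eq_zero.1 (f_of_mem_perp' h3 h2)
  rw [h1] at h4
  exact one_ne_zero h4

theorem notMem_span_singleton (R : Rat P₀ P j) {x y : V₀} (h : x ∉ K ∙ y) : j x ∉ F ∙ j y := by
  simpa using R.notMem_span h

theorem linearIndependent (R : Rat P₀ P j) {κ : Type*} {v : κ → V₀} (h : LinearIndependent K v) :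
    LinearIndependent F (j ∘ v) := by
  rw [linearIndependent_iff_notMem_span] at h ⊢
  intro i
  rw [Set.image_comp]
  exact R.notMem_span (h i)

/-- The basis of `V` obtained from a basis of `V₀`. -/
noncomputable def basis (R : Rat P₀ P j) : Basis (Fin (finrank K V₀)) F V :=
  Basis.mk (R.linearIndependent (Module.finBasis K V₀).linearIndependent) (by
    rw [← R.span, Submodule.span_le]
    rintro _ ⟨x, rfl⟩
    rw [← (Module.finBasis K V₀).sum_repr x, map_sum]
    exact Submodule.sum_mem _ fun i _ => by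
      rw [j_smul (F := F)]
      exact Submodule.smul_mem _ _ (Submodule.subset_span ⟨i, rfl⟩))

theorem basis_apply (R : Rat P₀ P j) (i : Fin (finrank K V₀)) :
    R.basis i = j (Module.finBasis K V₀ i) := Basis.mk_apply _ _ _

theorem finiteDimensional (R : Rat P₀ P j) : FiniteDimensional F V :=
  Module.Finite.of_basis R.basis

theorem finrank_eq (R : Rat P₀ P j) : finrank F V = finrank K V₀ := by
  rw [Module.finrank_eq_card_basis R.basis, Fintype.card_fin]

theorem finrank_le (R : Rat P₀ P j) {W : Submodule K V₀} {I : Submodule F V}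
    (h : ∀ x ∈ W, j x ∈ I) : finrank K W ≤ finrank F I := by
  have := R.finiteDimensional
  have h1 := R.linearIndependent
    ((Module.finBasis K W).linearIndependent.map' W.subtype W.ker_subtype)
  have h2 : LinearIndependent F (fun i => (⟨_, h _ (Module.finBasis K W i).2⟩ : I)) :=
    LinearIndependent.of_comp I.subtype h1
  simpa using h2.fintype_card_le_finrank

/-- A rational endomorphism of small rank kills a rational singular vector. -/
theorem exists_sing_ker (R : Rat P₀ P j) (A : V →ₗ[F] V) (hA : ∀ x, ∃ y, j y = A (j x))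
    {I : Submodule F V} (hI : ∀ x, A x ∈ I) (hd : finrank F I + P₀.d ≤ finrank K V₀) :
    ∃ u, u ≠ 0 ∧ P₀.Sing u ∧ A (j u) = 0 := by
  choose A₀ hA₀ using hA
  have hj : Function.Injective j := (injective_iff_map_eq_zero j).2 fun _ => R.j_eq_zero.1
  let B : V₀ →ₗ[K] V₀ :=
    { toFun := A₀
      map_add' := fun x y => hj (by rw [map_add, hA₀, hA₀, hA₀, map_add, map_add])
      map_smul' := fun c x => hj (by
        rw [RingHom.id_apply, hA₀, j_smul (F := F) j c x, j_smul (F := F) j c, map_smul, hA₀]) }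
  have h1 := R.finrank_le (W := LinearMap.range B) (I := I) (by
    rintro _ ⟨x, rfl⟩
    exact (hA₀ x).symm ▸ hI _)
  have h2 := B.finrank_range_add_finrank_ker
  obtain ⟨u, hu, hu0, hs⟩ := P₀.exists_sing (LinearMap.ker B) (by omega)
  exact ⟨u, hu0, hs, by rw [← hA₀]; exact R.j_eq_zero.2 hu⟩

theorem exists_semilinear (R : Rat P₀ P j) (θ : F ≃ₐ[K] F) :
    ∃ Θ : V →+ V, (∀ (c : F) x, Θ (c • x) = θ c • Θ x) ∧ ∀ x, Θ (j x) = j x := by
  let Θ : V →+ V :=
    { toFun := fun x => ∑ i, θ (R.basis.repr x i) • R.basis i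
      map_zero' := by simp
      map_add' := fun x y => by simp [add_smul, Finset.sum_add_distrib] }
  have h1 : ∀ (c : F) x, Θ (c • x) = θ c • Θ x := fun c x => by
    simp [Θ, Finset.smul_sum, mul_smul]
  have h2 : ∀ i, Θ (R.basis i) = R.basis i := fun i => by
    simp [Θ, Finsupp.single_apply, apply_ite θ, ite_smul]
  refine ⟨Θ, h1, fun x => ?_⟩
  rw [← (Module.finBasis K V₀).sum_repr x, map_sum, map_sum]
  refine Finset.sum_congr rfl fun i _ => ?_
  rw [j_smul (F := F), h1, θ.commutes, ← R.basis_apply, h2]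

/-- An element of the subfield group with a large fixed space is rational. -/
theorem rat_of_rank [Finite F] (R : Rat P₀ P j) {g : V ≃ₗ[F] V} (hg : g ∈ ratNorm F j)
    {I : Submodule F V} (hI : ∀ x, g x - x ∈ I) (hd : 2 * finrank F I < finrank K V₀) (x : V₀) :
    ∃ y, j y = g (j x) := by
  have := R.finiteDimensional
  obtain ⟨c, hc0, hc⟩ := exists_of_mem_ratNorm hg
  by_cases h : c ∈ Set.range (algebraMap K F)
  · obtain ⟨c, rfl⟩ := h
    obtain ⟨y, hy⟩ := hc x
    exact ⟨c⁻¹ • y, by rw [j_smul (F := F), hy, map_inv₀, smul_smul, inv_mul_cancel₀ hc0, one_smul]⟩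
  exfalso
  obtain ⟨θ, hθ⟩ := exists_algEquiv_ne h
  obtain ⟨Θ, h1, h2⟩ := R.exists_semilinear θ
  let b := Module.finBasis F I
  let I' := Submodule.span F (Set.range fun i => Θ (b i))
  have h3 : finrank F I' ≤ finrank F I := by
    simpa [Set.finrank] using finrank_range_le_card (R := F) fun i => Θ (b i)
  have h4 : ∀ x ∈ I, Θ x ∈ I' := by
    intro x hx
    have := congrArg (fun y : I => Θ y) (b.sum_repr ⟨x, hx⟩)
    simp only [Submodule.coe_sum, Submodule.coe_smul, map_sum, h1] at this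
    rw [← this]
    exact Submodule.sum_mem _ fun i _ => Submodule.smul_mem _ _ (Submodule.subset_span ⟨i, rfl⟩)
  have h5 : I ⊔ I' = ⊤ := by
    rw [eq_top_iff, ← R.span, Submodule.span_le]
    rintro _ ⟨x, rfl⟩
    obtain ⟨y, hy⟩ := hc x
    have h6 : j y - c • j x ∈ I := by rw [hy, ← smul_sub]; exact I.smul_mem _ (hI _)
    have h7 := h4 _ h6
    rw [map_sub, h1, h2, h2] at h7
    have h8 := (I ⊔ I').sub_mem (Submodule.mem_sup_left h6) (Submodule.mem_sup_right h7)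
    rw [sub_sub_sub_cancel_left, ← sub_smul] at h8
    exact ((I ⊔ I').smul_mem_iff (sub_ne_zero.2 hθ)).1 h8
  have h6 := Submodule.finrank_add_le_finrank_add_finrank I I'
  rw [h5, finrank_top, R.finrank_eq] at h6
  omega

theorem rat_eich [Finite F] (R : Rat P₀ P j) (h5 : 5 ≤ finrank K V₀) {e y : V} {ν : F}
    (h : P.EV e y ν) (hg : h.equiv ∈ ratNorm F j) (x : V₀) : ∃ z, j z = P.eich e y ν (j x) := by
  have := R.finiteDimensional
  refine R.rat_of_rank hg (I := (F ∙ e) ⊔ F ∙ y) (fun x => ?_) (by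
    have := finrank_sup_span_le (F ∙ e) y
    have := finrank_span_singleton_le (F := F) e
    omega) x
  rw [EV.equiv_apply, eich_apply]
  refine mem_sup_span.2 ⟨-(P.ε * (P.f x y + ν * P.f x e)) • e,
    Submodule.smul_mem _ _ (Submodule.mem_span_singleton_self e), P.f x e, by module⟩

variable [Finite V] {M : Subgroup (V ≃ₗ[F] V)}

omit [FiniteDimensional K V₀] in
theorem equiv_mem (R : Rat P₀ P j) {e y : V₀} {ν : K} (h : P₀.EV e y ν) :
    (R.ev h).equiv ∈ ratNorm F j ⊓ P.E :=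
  ⟨mem_ratNorm_of one_ne_zero fun x => ⟨_, by rw [one_smul, EV.equiv_apply, R.eich_j]⟩,
    EV.equiv_mem_E _⟩

omit [FiniteDimensional K V₀] in
theorem ei (R : Rat P₀ P j) (hH : ratNorm F j ⊓ P.E ≤ M) {e y : V₀} {ν : K} (h : P₀.EV e y ν) :
    P.Ei M (j e) (j y) (algebraMap K F ν) := ⟨R.ev h, hH (R.equiv_mem h)⟩

theorem Y_irr (R : Rat P₀ P j) (hH : ratNorm F j ⊓ P.E ≤ M) (h5 : 5 ≤ finrank K V₀)
    (hd : P₀.d + 2 ≤ finrank K V₀) {e a : V₀} (he : P₀.Sing e) (ha : a ∉ K ∙ e) {c ν : F}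
    (h : P.Ei M (j e) (c • j a) ν) {x : V₀} (hx : P₀.f x e = 0) :
    ∃ ν, P.Ei M (j e) (c • j x) ν := by
  let U : AddSubgroup V₀ :=
    { carrier := {x | ∃ ν, P.Ei M (j e) (c • j x) ν}
      add_mem' := by
        rintro x y ⟨_, hx⟩ ⟨_, hy⟩
        exact ⟨_, by rw [map_add, smul_add]; exact hx.add hy⟩
      zero_mem' := ⟨0, by rw [map_zero, smul_zero]; exact Ei.zero h.ev.sing⟩
      neg_mem' := by
        rintro x ⟨_, hx⟩
        exact ⟨_, by rw [map_neg, smul_neg]; exact hx.neg⟩ }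
  have h1 := finrank_span_singleton_le (F := K) e
  have h2 := P₀.finrank_perp (K ∙ e)
  have h3 : finrank K ↥(P₀.perp (K ∙ e) ⊓ K ∙ e) ≤ finrank K (K ∙ e) :=
    Submodule.finrank_mono inf_le_right
  refine irr_add (P := P₀) (S := K ∙ e) (U := U) ?_ (P₀.exists_sing_perp_notMem _ (by omega))
    (by omega) ⟨ν, h⟩ ha x (mem_perp_span_singleton.2 hx)
  rintro a b μ hv ha hb x ⟨ν, hx⟩
  have := (R.ei hH hv).conj_ei hx
  rw [map_smul, R.eich_j, R.eich_j, eich_apply_of_orth₂ _ _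
    (f_symm_zero (mem_perp_span_singleton.1 ha)) (f_symm_zero (mem_perp_span_singleton.1 hb))]
    at this
  exact ⟨ν, this⟩

theorem Y_all (R : Rat P₀ P j) (hH : ratNorm F j ⊓ P.E ≤ M) (h5 : 5 ≤ finrank K V₀)
    (hd : P₀.d + 2 ≤ finrank K V₀) {e a : V₀} (he : P₀.Sing e) (he0 : e ≠ 0) (ha : a ∉ K ∙ e)
    {c ν : F} (h : P.Ei M (j e) (c • j a) ν) {e' : V₀} (he' : P₀.Sing e') (he0' : e' ≠ 0) :
    ∀ x, P₀.f x e' = 0 → ∃ ν, P.Ei M (j e') (c • j x) ν := by
  refine trans_sing hd (p := fun z => ∀ x, P₀.f x z = 0 → ∃ ν, P.Ei M (j z) (c • j x) ν) ?_ he0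
    he0' he he' fun x hx => R.Y_irr hH h5 hd he ha h hx
  intro a b μ hv z hz x hx
  obtain ⟨ν, h1⟩ := hz (hv.equiv⁻¹ x) (by rw [← isom_f_right hv.equiv_mem_isom]; exact hx)
  have := (R.ei hH hv).conj_ei h1
  rw [map_smul, R.eich_j, R.eich_j, ← hv.equiv_apply (hv.equiv⁻¹ x), apply_inv_apply] at this
  exact ⟨ν, this⟩

theorem full_of_Y (R : Rat P₀ P j) (hH : ratNorm F j ⊓ P.E ≤ M) (hM : M ≤ P.isom)
    (h5 : 5 ≤ finrank K V₀) (hd : P₀.d + 2 ≤ finrank K V₀)
    (hΛ : ∀ ν ∈ P.Λ, ∃ a c, ∃ ν₀ ∈ P₀.Λ, ν = a - P.ε * P.σ a + c * P.σ c * algebraMap K F ν₀)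
    (h : ∀ (c : F) e, P₀.Sing e → e ≠ 0 → ∀ x, P₀.f x e = 0 → ∃ ν, P.Ei M (j e) (c • j x) ν)
    {e : V₀} (he : P₀.Sing e) (he0 : e ≠ 0) : P.Full M (j e) := by
  have := R.finiteDimensional
  have hY : ∀ e, P₀.Sing e → e ≠ 0 → ∀ y, P.f y (j e) = 0 → ∃ ν, P.Ei M (j e) y ν := by
    intro e he he0 y hy
    obtain ⟨e', -, h1⟩ := he.exists_partner' he0
    have h2 : ∀ z ∈ Submodule.span F (Set.range j), ∀ c : F,
        ∃ ν, P.Ei M (j e) (c • (z - P.f z (j e) • j e')) ν := by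
      intro z hz
      induction hz using Submodule.span_induction with
      | mem z hz =>
        obtain ⟨x, rfl⟩ := hz
        intro c
        have := h c e he he0 (x - P₀.f x e • e')
          (by rw [f_sub_left, P₀.f_smul_left, h1, mul_one, sub_self])
        rwa [map_sub, j_smul (F := F), ← R.f_alg] at this
      | zero => exact fun c => ⟨0, by simpa [f_zero_left] using Ei.zero (R.sing_iff.2 he)⟩
      | add x y _ _ hx hy =>
        intro c
        obtain ⟨_, hx⟩ := hx c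
        obtain ⟨_, hy⟩ := hy c
        exact ⟨_, by convert hx.add hy using 1; rw [P.f_add_left]; module⟩
      | smul a x _ hx =>
        intro c
        obtain ⟨_, hx⟩ := hx (c * a)
        exact ⟨_, by convert hx using 1; rw [P.f_smul_left]; module⟩
    simpa [hy] using h2 y (by rw [R.span]; trivial) 1
  have move : ∀ a, P₀.Sing a → a ≠ 0 → ∀ z, P.f z (j a) = 0 → z ∉ F ∙ j a → ∀ k : F,
      ∃ g ∈ M, g z = z + k • j a := by
    intro a ha ha0 z hz hza k
    obtain ⟨y, hy, h1⟩ := P.exists_perp_f_right hza (-(P.ε * k))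
    obtain ⟨ν, h2⟩ := hY a ha ha0 y (mem_perp_span_singleton.1 hy)
    refine ⟨_, h2.mem, ?_⟩
    rw [EV.equiv_apply, eich_apply_of_orth _ _ hz, h1, mul_neg, ε_mul_ε_mul, neg_smul,
      sub_neg_eq_add]
  have hs := R.sing_iff.2 he
  have hZ : ∀ ν ∈ P.Λ, P.Ei M (j e) 0 ν := by
    intro ν hν
    obtain ⟨a, c, ν₀, hν₀, rfl⟩ := hΛ ν hν
    obtain ⟨y, hy, z, hz, h1⟩ := exists_f_eq_of_lt (P := P) (S := F ∙ j e) (by
      have := finrank_span_singleton_le (F := F) (j e)
      rw [R.finrank_eq]; omega) a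
    obtain ⟨_, h2⟩ := hY e he he0 y (mem_perp_span_singleton.1 hy)
    obtain ⟨_, h3⟩ := hY e he he0 z (mem_perp_span_singleton.1 hz)
    have h4 := h3.comm h2
    rw [P.herm z y, h1] at h4
    refine h4.add_zero ?_
    by_cases hc : c = 0
    · simpa [hc] using Ei.zero hs
    obtain ⟨b, hb, hbe, hb'⟩ := exists_sing_orth hd e
    have hb0 : b ≠ 0 := by rintro rfl; exact hb' (zero_mem _)
    have k1 := R.notMem_span_singleton hb'
    have k2 := R.notMem_span_singleton (notMem_span_symm he0 hb')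
    have k3 := R.f_eq_zero.2 hbe
    obtain ⟨g₁, hg₁, e1⟩ := move b hb hb0 (j e) (f_symm_zero k3) k2 1
    obtain ⟨g₂, hg₂, e2⟩ := move e he he0 (j e + (1 : F) • j b)
      (by rw [P.f_add_left, P.f_smul_left, k3, hs.f_self]; simp)
      (fun h => k1 (by simpa using sub_mem h (Submodule.mem_span_singleton_self _))) (c - 1)
    obtain ⟨g₃, hg₃, e3⟩ := move b hb hb0 (c • j e + j b)
      (by rw [P.f_add_left, P.f_smul_left, f_symm_zero k3, (R.sing_iff.2 hb).f_self]; simp)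
      (fun h => k2 ((Submodule.smul_mem_iff _ hc).1
        (by simpa using sub_mem h (Submodule.mem_span_singleton_self _)))) (-1)
    have k4 : (g₃ * (g₂ * g₁)) (j e) = c • j e := by
      rw [mul_apply', mul_apply', e1, e2, show j e + (1 : F) • j b + (c - 1) • j e = c • j e + j b
        by module, e3]
      module
    have k5 := M.mul_mem hg₃ (M.mul_mem hg₂ hg₁)
    have k6 := (R.ei hH (EV.of_mem he hν₀)).conj k5 (hM k5)
    rw [k4, map_zero, map_zero] at k6
    simpa using k6.smul_left c hs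
  refine ⟨hs, fun y ν hv => ?_⟩
  obtain ⟨ν', h1⟩ := hY e he he0 y hv.orth
  simpa using h1.add_zero (hZ _ (hv.sub_mem h1.ev))

end Rat

/-- The standing hypotheses on an overgroup `M` of a subfield subgroup. -/
structure C5 (P₀ : PForm K V₀) (P : PForm F V) (j : V₀ →ₗ[K] V) (M : Subgroup (V ≃ₗ[F] V)) :
    Prop extends Rat P₀ P j where
  le : ratNorm F j ⊓ P.E ≤ M
  le_E : M ≤ P.E
  not_le : ¬ P.E ≤ M
  five : 5 ≤ finrank K V₀
  d_le : P₀.d + 2 ≤ finrank K V₀
  simple : ∀ L : Subalgebra K F, L = ⊥ ∨ L = ⊤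
  hΛ : ∀ ν ∈ P.Λ, ∃ a c, ∃ ν₀ ∈ P₀.Λ, ν = a - P.ε * P.σ a + c * P.σ c * algebraMap K F ν₀

namespace C5

variable {P₀ : PForm K V₀} {P : PForm F V} {j : V₀ →ₗ[K] V} {M : Subgroup (V ≃ₗ[F] V)}
  [FiniteDimensional K V₀] [Finite V]

omit [FiniteDimensional K V₀] [Finite V] in
theorem le_isom (C : C5 P₀ P j M) : M ≤ P.isom := C.le_E.trans E_le_isom

theorem mem_of_Y (C : C5 P₀ P j M) {e a : V₀} (he : P₀.Sing e) (he0 : e ≠ 0) (ha : a ∉ K ∙ e)
    {c ν : F} (h : P.Ei M (j e) (c • j a) ν) : c ∈ Set.range (algebraMap K F) := by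
  have R := C.toRat
  have := R.finiteDimensional
  let L : Subalgebra K F :=
    { carrier := {c | ∀ e, P₀.Sing e → e ≠ 0 → ∀ x, P₀.f x e = 0 → ∃ ν, P.Ei M (j e) (c • j x) ν}
      add_mem' := by
        intro a b ha hb e he he0 x hx
        obtain ⟨_, h1⟩ := ha e he he0 x hx
        obtain ⟨_, h2⟩ := hb e he he0 x hx
        exact ⟨_, by rw [add_smul]; exact h1.add h2⟩
      algebraMap_mem' := fun c e he _ x hx => ⟨_, by
        rw [← j_smul]
        exact R.ei C.le (EV.of_h he (by rw [P₀.f_smul_left, hx, mul_zero]))⟩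
      mul_mem' := by
        intro c c' hc hc' e he he0
        obtain ⟨a, ha, hae, ha'⟩ := exists_sing_orth C.d_le e
        have ha0 : a ≠ 0 := by rintro rfl; exact ha' (zero_mem _)
        obtain ⟨b', b, h1, h2, h3, h4, h5⟩ := exists_f_eq_pair (P := P₀) C.five e a 1
        obtain ⟨x, hx, h6⟩ := P₀.exists_perp_f_left ha' P₀.ε
        obtain ⟨_, k1⟩ := hc e he he0 x (mem_perp_span_singleton.1 hx)
        obtain ⟨_, k2⟩ := hc' a ha ha0 b h4
        obtain ⟨ν, k3⟩ := k1.diff₂ k2 (R.ei C.le (EV.of_h ha h2))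
          (R.f_eq_zero.2 (f_symm_zero hae))
          (by rw [f_smul_right, R.f_eq_zero.2 (f_symm_zero h3), mul_zero])
          (R.f_eq_zero.2 (f_symm_zero h1))
        rw [P.f_smul_left, P.f_smul_left, R.f_alg, R.f_alg, h5, h6, ← R.ε_alg, map_one,
          show P.ε * (c * P.ε * (c' * 1)) = c * c' by linear_combination c * c' * P.ε_sq] at k3
        exact R.Y_all C.le C.five C.d_le he he0 ha' k3 he he0 }
  rcases C.simple L with h1 | h1
  · have : c ∈ L := fun e' he' he0' => R.Y_all C.le C.five C.d_le he he0 ha h he' he0'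
    rwa [h1] at this
  · exfalso
    have h2 : ∀ c : F, c ∈ L := fun c => h1 ▸ Algebra.mem_top
    obtain ⟨e', he', h3⟩ := he.exists_partner' he0
    refine C.not_le ((R.full_of_Y C.le C.le_isom C.five C.d_le C.hΛ h2 he he0).E_le
      (R.full_of_Y C.le C.le_isom C.five C.d_le C.hΛ h2 he' ?_) ?_)
    · rintro rfl
      rw [f_zero_left] at h3
      exact zero_ne_one h3
    · rw [R.f_alg, h3, map_one]
      exact one_ne_zero

theorem exists_eq_of_ei (C : C5 P₀ P j M) {e : V₀} (he0 : e ≠ 0) {y : V} {ν : F}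
    (h : P.Ei M (j e) y ν) : ∃ (x : V₀) (k : F), y = j x + k • j e := by
  have R := C.toRat
  have he := R.sing_iff.1 h.ev.sing
  let U : Submodule K V₀ :=
    { carrier := {x | P.f y (j x) ∈ (algebraMap K F).range}
      add_mem' := fun hx hy => by
        rw [Set.mem_ofPred_eq, map_add, f_add_right]; exact add_mem hx hy
      zero_mem' := by rw [Set.mem_ofPred_eq, map_zero, f_zero_right]; exact zero_mem _
      smul_mem' := fun c x hx => by
        rw [Set.mem_ofPred_eq, j_smul (F := F), f_smul_right, R.σ_alg]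
        exact mul_mem ⟨_, rfl⟩ hx }
  have h1 : ∀ x, P₀.f x e = 0 → x ∈ U := fun x hx => by
    refine mem_of_sing_perp C.d_le (fun a ha hae => ?_) hx
    by_cases h1 : a ∈ K ∙ e
    · obtain ⟨c, rfl⟩ := Submodule.mem_span_singleton.1 h1
      refine U.smul_mem _ ?_
      change P.f y (j e) ∈ (algebraMap K F).range
      rw [h.ev.orth]
      exact zero_mem _
    obtain ⟨b', b, h2, h3, h4, h5, h6⟩ := exists_f_eq_pair (P := P₀) C.five e a P₀.ε
    obtain ⟨ν, k3⟩ := h.diff₂ (R.ei C.le (EV.of_h ha h5)) (R.ei C.le (EV.of_h ha h3))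
      (R.f_eq_zero.2 (f_symm_zero hae)) (R.f_eq_zero.2 (f_symm_zero h4))
      (R.f_eq_zero.2 (f_symm_zero h2))
    rw [R.f_alg, h6, ← R.ε_alg, mul_comm _ P.ε, ε_mul_ε_mul] at k3
    exact C.mem_of_Y he he0 h1 k3
  obtain ⟨e', h2⟩ := P₀.exists_f_right_eq he0 1
  obtain ⟨x, hx⟩ := R.dual' (x := y - P.f y (j e') • j e) fun x => by
    have h3 : P₀.f (x - (P₀.ε * P₀.f x e) • e') e = 0 := by
      rw [f_sub_left, P₀.f_smul_left, f_symm_one h2]
      linear_combination (-P₀.f x e) * P₀.ε_sq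
    have h4 : P.f y (j (x - (P₀.ε * P₀.f x e) • e')) ∈ (algebraMap K F).range := h1 _ h3
    obtain ⟨c, hc⟩ := h4
    refine ⟨c, hc.trans ?_⟩
    rw [map_sub, j_smul (F := F), f_sub_left, f_sub_right, P.f_smul_left, f_smul_right, R.σ_alg,
      R.f_alg, P₀.herm x e, map_mul P₀.σ, σ_ε, mul_comm]
  exact ⟨x, P.f y (j e'), by rw [hx, sub_add_cancel]⟩

theorem mem_of_ei_zero (C : C5 P₀ P j M) {e : V₀} (he0 : e ≠ 0) {ν : F}
    (h : P.Ei M (j e) 0 ν) : ν ∈ Set.range (algebraMap K F) := by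
  have R := C.toRat
  have he := R.sing_iff.1 h.ev.sing
  have h1 : ∀ e', P₀.Sing e' → e' ≠ 0 → P.Ei M (j e') 0 ν := by
    intro e' he' he0'
    refine trans_sing C.d_le (p := fun z => P.Ei M (j z) 0 ν) ?_ he0 he0' he he' h
    intro a b μ hv z hz
    have := (R.ei C.le hv).conj_ei hz
    rwa [map_zero, R.eich_j] at this
  obtain ⟨a, ha, hae, ha'⟩ := exists_sing_orth C.d_le e
  have h2 := h1 (e + a) (he.add ha (f_symm_zero hae)) fun h => ha' (by
    rw [eq_neg_of_add_eq_zero_right h]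
    exact neg_mem (Submodule.mem_span_singleton_self e))
  rw [map_add] at h2
  obtain ⟨c, hc⟩ := C.mem_of_Y he he0 ha' (h.of_tv_add (h1 a ha (by
    rintro rfl; exact ha' (zero_mem _))) h2 (R.f_eq_zero.2 hae))
  exact ⟨-(P₀.ε * c), by rw [map_neg, map_mul, hc, ← R.ε_alg, mul_neg, neg_neg, ε_mul_ε_mul]⟩

/-- Eichler transformations in `M` based at a rational point are rational. -/
theorem rat_of_ei (C : C5 P₀ P j M) {e : V₀} (he0 : e ≠ 0) {y : V} {ν : F}
    (h : P.Ei M (j e) y ν) (x : V₀) : ∃ z, j z = P.eich (j e) y ν (j x) := by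
  have R := C.toRat
  have he := R.sing_iff.1 h.ev.sing
  obtain ⟨y, k, rfl⟩ := C.exists_eq_of_ei he0 h
  have h1 := h.of_add_smul_self
  obtain ⟨c, hc⟩ := C.mem_of_ei_zero he0
    (h1.sub_same (R.ei C.le (EV.of_h he (R.f_eq_zero.1 h1.ev.orth))))
  rw [eich_add_smul_self, show ν - P.ε * k + P.σ k = algebraMap K F (c + P₀.h y) by
    rw [map_add, hc, sub_add_cancel], R.eich_j]
  exact ⟨_, rfl⟩

/-- An element of `M` mapping a rational singular point to a rational point lies in the subfield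
group. -/
theorem mem_of_map (C : C5 P₀ P j M) {g : V ≃ₗ[F] V} (hg : g ∈ M) {e e₂ : V₀} (he : P₀.Sing e)
    (he0 : e ≠ 0) {c : F} (h : g (j e) = c • j e₂) : g ∈ ratNorm F j := by
  have R := C.toRat
  have hgi := C.le_isom hg
  have h0 : c • j e₂ ≠ 0 := by
    rw [← h]
    exact fun h0 => he0 (R.j_eq_zero.1 (g.map_eq_zero_iff.1 h0))
  have hc : c ≠ 0 := left_ne_zero_of_smul h0
  have he₂0 : e₂ ≠ 0 := fun h1 => right_ne_zero_of_smul h0 (R.j_eq_zero.2 h1)
  have hs₂ : P.Sing (j e₂) := Sing.of_smul hc (h ▸ (R.sing_iff.2 he).map hgi)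
  have h1 : ∀ y, P₀.f y e = 0 → ∃ (x : V₀) (k : F), P.f (j x) (j e₂) = 0 ∧
      P.σ c • g (j y) = j x + k • j e₂ := by
    intro y hy
    have h2 := (R.ei C.le (EV.of_h he hy)).conj hg hgi
    rw [h] at h2
    have h3 := h2.smul_left c hs₂
    obtain ⟨x, k, h4⟩ := C.exists_eq_of_ei he₂0 h3
    refine ⟨x, k, ?_, h4⟩
    simpa [h4, P.f_add_left, P.f_smul_left, hs₂.f_self] using h3.ev.orth
  obtain ⟨N, hN⟩ : P.σ c * c ∈ Set.range (algebraMap K F) := by
    obtain ⟨y, z, h2, -, h3, -, h4⟩ := exists_f_eq_pair (P := P₀) C.five e e 1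
    obtain ⟨x, k, h5, h6⟩ := h1 y h2
    obtain ⟨x', k', h7, h8⟩ := h1 z h3
    have h9 : P.f (P.σ c • g (j z)) (P.σ c • g (j y)) = P.σ c * c := by
      rw [P.f_smul_left, f_smul_right, isom_f hgi, R.f_alg, h4, map_one, mul_one, P.σσ]
    rw [h6, h8] at h9
    refine ⟨P₀.f x' x, ?_⟩
    rw [← h9, ← R.f_alg]
    simp [P.f_add_left, f_add_right, P.f_smul_left, f_smul_right, h7, f_symm_zero h5, hs₂.f_self]
  obtain ⟨e', he', h2⟩ := he.exists_partner' he0
  obtain ⟨e₃, he₃, h3⟩ := (R.sing_iff.1 hs₂).exists_partner' he₂0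
  have h4 : P.f (j e₃) (j e₂) = 1 := by rw [R.f_alg, h3, map_one]
  obtain ⟨hv, h5⟩ := exists_eich_map hs₂ (((R.sing_iff.2 he').map hgi).smul (P.σ c))
    (R.sing_iff.2 he₃) (by rw [P.f_smul_left, ← f_smul_right, ← h, isom_f hgi, R.f_alg, h2,
      map_one]) h4
  rw [← hv.equiv_apply] at h5
  have h6 : hv.equiv * g ∈ ratNorm F j := by
    refine mem_ratNorm_of (P.σ_ne_zero hc) fun x => ?_
    obtain ⟨y, k, h6, h7⟩ := h1 (x - P₀.f x e • e')
      (by rw [f_sub_left, P₀.f_smul_left, h2, mul_one, sub_self])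
    obtain ⟨k', h8⟩ : ∃ k' : F, hv.equiv (P.σ c • g (j (x - P₀.f x e • e'))) = j y + k' • j e₂ := by
      rw [h7, map_add, map_smul, EV.equiv_apply, EV.equiv_apply, hv.eich_self,
        eich_apply_of_orth _ _ h6, sub_eq_add_neg, ← neg_smul, add_assoc, ← add_smul]
      exact ⟨_, rfl⟩
    have h9 := isom_f hv.equiv_mem_isom (P.σ c • g (j (x - P₀.f x e • e'))) (P.σ c • g (j e'))
    rw [h8, h5, P.f_add_left, P.f_smul_left, P.f_smul_left, f_smul_right, isom_f hgi, P.σσ,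
      ← mul_assoc, ← hN, f_symm_one h4, R.f_alg, R.f_alg, R.ε_alg] at h9
    have h10 : k' = algebraMap K F (P₀.ε * (N * P₀.f (x - P₀.f x e • e') e' - P₀.f y e₃)) := by
      have := congrArg (algebraMap K F) P₀.ε_sq
      rw [map_mul, map_one] at this
      rw [map_mul, map_sub, map_mul]
      linear_combination algebraMap K F P₀.ε * h9 - k' * this
    rw [h10, ← j_smul, ← map_add] at h8
    generalize y + (P₀.ε * (N * P₀.f (x - P₀.f x e • e') e' - P₀.f y e₃)) • e₂ = w at h8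
    refine ⟨w + P₀.f x e • e₃, ?_⟩
    generalize hv.equiv = t at h5 h8
    rw [map_add, ← h8, j_smul (F := F), ← h5, mul_apply', map_sub, j_smul (F := F)]
    simp only [map_smul, map_sub]
    module
  have h7 : P.Ei M _ _ _ := ⟨hv, (M.mul_mem_cancel_right hg).1
    (C.le ⟨h6, P.E.mul_mem hv.equiv_mem_E (C.le_E hg)⟩)⟩
  refine ((ratNorm F j).mul_mem_cancel_left (mem_ratNorm_of one_ne_zero fun x => ?_)).1 h6
  rw [one_smul]
  exact C.rat_of_ei he₂0 h7 x

end C5

end PForm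

end Cfsg.Agent.H26
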