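import Cfsg.Agent.H26.PC5

/-!
Maximality of subfield subgroups in the Eichler group of a form with a form parameter.
-/

set_option autoImplicit false

namespace Cfsg.Agent.H26

open Module

namespace PForm

section General

variable {F : Type*} [Field F] {V : Type*} [AddCommGroup V] [Module F V] {P : PForm F V}

theorem EV.sub_mem_sup {e y : V} {ν : F} (h : P.EV e y ν) (x : V) :
    h.equiv x - x ∈ (F ∙ e) ⊔ F ∙ y := by
  rw [EV.equiv_apply, eich_apply]
  exact mem_sup_span.2 ⟨-(P.ε * (P.f x y + ν * P.f x e)) • e,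
    Submodule.smul_mem _ _ (Submodule.mem_span_singleton_self e), P.f x e, by module⟩

theorem inv_mul_sub_mem {I : Submodule F V} {d t : V ≃ₗ[F] V} (hd : ∀ x, d x - x ∈ I)
    (ht : ∀ x, t x - x ∈ I) (x : V) : (t⁻¹ * d) x - x ∈ I := by
  have := I.sub_mem (hd x) (ht (t⁻¹ (d x)))
  rw [apply_inv_apply] at this
  rw [mul_apply']
  convert this using 1
  abel

theorem Sing.comb {a b : V} (ha : P.Sing a) (hb : P.Sing b) (h : P.f b a = 0) {z : V}
    (hz : z ∈ (F ∙ a) ⊔ F ∙ b) : P.Sing z := by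
  obtain ⟨_, hx, β, rfl⟩ := mem_sup_span.1 hz
  obtain ⟨α, rfl⟩ := Submodule.mem_span_singleton.1 hx
  exact (ha.smul α).add (hb.smul β) (by rw [P.f_smul_left, f_smul_right, f_symm_zero h]; simp)

theorem f_eq_zero_of_mem_sup {a b x z : V} (ha : P.f a x = 0) (hb : P.f b x = 0)
    (hz : z ∈ (F ∙ a) ⊔ F ∙ b) : P.f z x = 0 :=
  f_of_mem_perp' (mem_perp_sup_span.2 ⟨mem_perp_span_singleton.2 (f_symm_zero ha),
    f_symm_zero hb⟩) hz

theorem exists_eich_eq (hΛ : P.Λ = ⊥) {a b z : V} (ha : P.Sing a) (hb : P.Sing b)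
    (h : P.f b a = 0) (hz : z ∈ (F ∙ a) ⊔ F ∙ b) (hz0 : z ≠ 0) :
    ∃ c, P.Sing c ∧ P.f c z = 0 ∧ ∀ x, P.eich a b 0 x = P.eich z c 0 x := by
  obtain ⟨_, hx, β, rfl⟩ := mem_sup_span.1 hz
  obtain ⟨α, rfl⟩ := Submodule.mem_span_singleton.1 hx
  by_cases hα : α = 0
  · have hβ : β ≠ 0 := by rintro rfl; simp [hα] at hz0
    refine ⟨(-β⁻¹) • a, ha.smul _, ?_, fun x => ?_⟩
    · simp [P.f_smul_left, f_add_right, f_smul_right, f_neg_left, ha.f_self, f_symm_zero h]
    · simp only [eich_apply, f_add_right, f_smul_right, σ_eq_of_Λ hΛ, ε_eq_one_of_Λ hΛ, hα]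
      match_scalars <;> field_simp <;> ring
  · refine ⟨α⁻¹ • b, hb.smul _, ?_, fun x => ?_⟩
    · simp [P.f_smul_left, f_add_right, f_smul_right, hb.f_self, h]
    · simp only [eich_apply, f_add_right, f_smul_right, σ_eq_of_Λ hΛ, ε_eq_one_of_Λ hΛ]
      match_scalars <;> field_simp <;> ring

end General

variable {K F : Type*} [Field K] [Field F] [Algebra K F] {V₀ V : Type*} [AddCommGroup V₀]
  [Module K V₀] [AddCommGroup V] [Module F V] [Module K V] [IsScalarTower K F V]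
  {P₀ : PForm K V₀} {P : PForm F V} {j : V₀ →ₗ[K] V} {M : Subgroup (V ≃ₗ[F] V)}

theorem Rat.exists_apply_ne (R : Rat P₀ P j) {d t : V ≃ₗ[F] V} (h : d ≠ t) :
    ∃ x, (t⁻¹ * d) (j x) - j x ≠ 0 := by
  by_contra hc
  push Not at hc
  refine h (inv_mul_eq_one.1 (LinearEquiv.toLinearMap_injective
    (LinearMap.ext_on_range R.span fun x => ?_))).symm
  exact sub_eq_zero.1 (hc x)

variable [FiniteDimensional K V₀] [Finite V]

theorem Rat.exists_map (R : Rat P₀ P j) (hd : P₀.d + 2 ≤ finrank K V₀) {e e' : V₀}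
    (he : P₀.Sing e) (he0 : e ≠ 0) (he' : P₀.Sing e') (he0' : e' ≠ 0) :
    ∃ g ∈ ratNorm F j ⊓ P.E, g (j e) = j e' := by
  refine trans_sing hd (p := fun z => ∃ g ∈ ratNorm F j ⊓ P.E, g (j e) = j z) ?_ he0 he0' he he'
    ⟨1, one_mem _, rfl⟩
  rintro a b μ hv z ⟨g, hg, h⟩
  exact ⟨_, mul_mem (R.equiv_mem hv) hg, by rw [mul_apply', h, EV.equiv_apply, R.eich_j]⟩

omit [Finite V] in
theorem Rat.not_E_le [Finite F] (R : Rat P₀ P j) (h5 : 5 ≤ finrank K V₀)
    (hd : P₀.d + 2 ≤ finrank K V₀) (hne : ∃ c : F, c ∉ Set.range (algebraMap K F)) :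
    ¬ P.E ≤ ratNorm F j := by
  intro h
  obtain ⟨c, hc⟩ := hne
  obtain ⟨e, -, he0, he⟩ := P₀.exists_sing ⊤ (by rw [finrank_top]; omega)
  obtain ⟨y, -, hye, hy⟩ := exists_sing_orth hd e
  have hv := EV.of_h (R.sing_iff.2 he) (y := c • j y)
    (by rw [P.f_smul_left, R.f_eq_zero.2 hye, mul_zero])
  obtain ⟨x, hx⟩ := P₀.exists_f_left_eq he0 1
  obtain ⟨z, hz, h1⟩ := P₀.exists_perp_f_right hy 1
  obtain ⟨w, hw⟩ := R.rat_eich h5 hv (h hv.equiv_mem_E) x
  have h2 := congrArg (P.f · (j z)) hw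
  simp only [eich_apply, f_sub_left, P.f_add_left, P.f_smul_left, R.f_alg, hx, h1,
    f_symm_zero (mem_perp_span_singleton.1 hz), map_one, map_zero] at h2
  exact hc ⟨P₀.f w z - P₀.f x z, by rw [map_sub]; linear_combination h2⟩

omit [FiniteDimensional K V₀] [Finite V] in
theorem Rat.rat_of_sq (R : Rat P₀ P j) (hΛ : P.Λ = ⊥)
    (hodd : ∀ c : F, c * c ∈ Set.range (algebraMap K F) → c ∈ Set.range (algebraMap K F))
    {g : V ≃ₗ[F] V} (hg : g ∈ ratNorm F j) (hgi : g ∈ P.isom) (x : V₀) : ∃ y, j y = g (j x) := by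
  obtain ⟨c, hc0, hc⟩ := exists_of_mem_ratNorm hg
  by_cases hx : x = 0
  · exact ⟨0, by simp [hx]⟩
  obtain ⟨x', hx'⟩ := P₀.exists_f_right_eq hx 1
  obtain ⟨y, hy⟩ := hc x
  obtain ⟨y', hy'⟩ := hc x'
  obtain ⟨c, rfl⟩ := hodd c ⟨P₀.f y y', by
    rw [← R.f_alg, hy, hy', P.f_smul_left, f_smul_right, isom_f hgi, R.f_alg, hx', map_one,
      mul_one, σ_eq_of_Λ hΛ]⟩
  exact ⟨c⁻¹ • y, by rw [j_smul (F := F), hy, map_inv₀, smul_smul, inv_mul_cancel₀ hc0, one_smul]⟩

namespace C5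

theorem mem_of_smul (C : C5 P₀ P j M) {g : V ≃ₗ[F] V} (hg : g ∈ M) {e w : V₀} (he : P₀.Sing e)
    (he0 : e ≠ 0) {c : F} (hc : c ≠ 0) (h : j w = c • g (j e)) : g ∈ ratNorm F j :=
  C.mem_of_map hg he he0 (c := c⁻¹) (e₂ := w)
    (by rw [h, smul_smul, inv_mul_cancel₀ hc, one_smul])

theorem mem_of_fix (C : C5 P₀ P j M) {g : V ≃ₗ[F] V} (hg : g ∈ M) {e : V₀} (he : P₀.Sing e)
    (he0 : e ≠ 0) (h : g (j e) = j e) : g ∈ ratNorm F j :=
  C.mem_of_map hg he he0 (c := 1) (e₂ := e) (by rw [h, one_smul])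

variable [Finite F]

theorem le_of_tv (C : C5 P₀ P j M) (hΛ : P₀.Λ ≠ ⊥) : M ≤ ratNorm F j := by
  have R := C.toRat
  have := R.finiteDimensional
  have : Finite (V ≃ₗ[F] V) := DFunLike.finite _
  have h5 := C.five
  have hd := C.d_le
  obtain ⟨e, -, he0, he⟩ := P₀.exists_sing ⊤ (by rw [finrank_top]; omega)
  obtain ⟨ν₀, hν₀, hν₀'⟩ := exists_mem_Λ hΛ
  have hs := R.ei le_rfl (EV.of_mem he hν₀)
  rw [map_zero] at hs
  have hν : algebraMap K F ν₀ ≠ 0 := by simpa using hν₀'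
  generalize algebraMap K F ν₀ = ν at hs hν
  have hje : j e ≠ 0 := fun h => he0 (R.j_eq_zero.1 h)
  have hc : ∀ g ∈ M, ∀ x, (g * hs.ev.equiv * g⁻¹) x =
      x - (P.ε * (ν * P.f x (g (j e)))) • g (j e) := fun g hg x => by
    rw [hs.ev.conj_equiv (C.le_isom hg), EV.equiv_apply, map_zero, eich_zero_apply]
  refine (le_of_counting _ M C.le hs.ev.equiv hs.mem ?_ ?_ ?_).trans inf_le_left
  · intro g hg h
    refine ⟨?_, C.le_E hg⟩
    obtain ⟨x, hx⟩ := R.exists_f_ne_zero (g.map_ne_zero_iff.2 hje)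
    obtain ⟨z, hz⟩ := R.rat_of_rank h.1 (I := F ∙ g (j e)) (fun x => by
      rw [hc g hg, sub_sub_cancel_left]
      exact neg_mem (Submodule.smul_mem _ _ (Submodule.mem_span_singleton_self _))) (by
        have := finrank_span_singleton_le (F := F) (g (j e))
        omega) x
    exact C.mem_of_smul hg he he0 (mul_ne_zero P.ε_ne_zero (mul_ne_zero hν hx)) (w := x - z)
      (by rw [map_sub, hz, hc g hg, sub_sub_cancel])
  · intro g hg k hk hgk h
    have hdM := M.mul_mem (M.mul_mem hg (C.le hs.mem)) (M.inv_mem hg)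
    refine ⟨?_, C.le_E hdM⟩
    have hdH : g ∈ ratNorm F j → g * hs.ev.equiv * g⁻¹ ∈ ratNorm F j :=
      fun h => mul_mem (mul_mem h hs.mem.1) (inv_mem h)
    have h1 := hc g hg
    have h2 := hc k hk
    generalize g * hs.ev.equiv * g⁻¹ = d at *
    generalize k * hs.ev.equiv * k⁻¹ = t at *
    have h3 : ∀ I : Submodule F V, g (j e) ∈ I → k (j e) ∈ I → ∀ x, (t⁻¹ * d) x - x ∈ I :=
      fun I ha hb => inv_mul_sub_mem
        (fun x => by rw [h1, sub_sub_cancel_left]; exact neg_mem (I.smul_mem _ ha))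
        (fun x => by rw [h2, sub_sub_cancel_left]; exact neg_mem (I.smul_mem _ hb))
    have h4 := h3 ((F ∙ g (j e)) ⊔ F ∙ k (j e))
      (Submodule.mem_sup_left (Submodule.mem_span_singleton_self _))
      (Submodule.mem_sup_right (Submodule.mem_span_singleton_self _))
    have h6 := finrank_sup_span_le (F ∙ g (j e)) (k (j e))
    have h7 := finrank_span_singleton_le (F := F) (g (j e))
    have h8 : ∀ x, ∃ y, j y = (t⁻¹ * d) (j x) - j x := fun x => by
      obtain ⟨y, hy⟩ := R.rat_of_rank h.1 h4 (by omega) x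
      exact ⟨y - x, by rw [map_sub, hy]⟩
    obtain ⟨u, hu0, hu, h9⟩ := R.exists_sing_ker ((t⁻¹ * d).toLinearMap - LinearMap.id) h8 h4
      (by omega)
    have h10 : d (j u) = t (j u) := by
      rw [← apply_inv_apply t (d (j u))]
      exact congrArg t (sub_eq_zero.1 h9)
    by_cases h11 : P.f (j u) (g (j e)) = 0
    · exact C.mem_of_fix hdM hu hu0 (by rw [h1, h11]; simp)
    rw [h1, h2, sub_right_inj] at h10
    have h12 : P.ε * (ν * P.f (j u) (k (j e))) ≠ 0 := fun h => by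
      rw [h, zero_smul, smul_eq_zero] at h10
      exact h10.elim (mul_ne_zero P.ε_ne_zero (mul_ne_zero hν h11)) (g.map_ne_zero_iff.2 hje)
    obtain ⟨x, hx⟩ := R.exists_apply_ne hgk
    obtain ⟨w, hw⟩ := h8 x
    obtain ⟨c, hc⟩ := Submodule.mem_span_singleton.1 (h3 (F ∙ g (j e))
      (Submodule.mem_span_singleton_self _) ((Submodule.smul_mem_iff _ h12).1
        (h10 ▸ Submodule.smul_mem _ _ (Submodule.mem_span_singleton_self _))) (j x))
    exact hdH (C.mem_of_smul hg he he0 (c := c) (by rintro rfl; exact hx (by simpa using hc.symm))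
      (hw.trans hc.symm))
  · obtain ⟨e', he', h1⟩ := Sing.exists_partner' he he0
    obtain ⟨h, hh, h2⟩ := R.exists_map hd he he0 he' (by
      rintro rfl; rw [f_zero_left] at h1; exact zero_ne_one h1)
    refine ⟨h, hh, fun h3 => ?_⟩
    have h4 := congrArg (fun g : V ≃ₗ[F] V => g (j e)) h3
    simp only [mul_apply', EV.equiv_apply, hs.ev.eich_self, h2, eich_zero_apply, R.f_alg, h1,
      map_one] at h4
    rw [eq_comm, sub_eq_self] at h4
    simp [P.ε_ne_zero, hν, hje] at h4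

theorem mem_of_siegel (C : C5 P₀ P j M) {e y : V₀} (he0 : e ≠ 0) (hy : P₀.Sing y)
    (hye : y ∉ K ∙ e) (hs : P.EV (j e) (j y) 0) {g : V ≃ₗ[F] V} (hg : g ∈ M)
    (h : g * hs.equiv * g⁻¹ ∈ ratNorm F j) : g ∈ ratNorm F j := by
  have R := C.toRat
  have hgi := C.le_isom hg
  have he := R.sing_iff.1 hs.sing
  rw [hs.conj_equiv hgi] at h
  obtain ⟨x, hx⟩ := R.exists_f_ne_zero (g.map_ne_zero_iff.2 fun h => he0 (R.j_eq_zero.1 h))
  obtain ⟨z, hz⟩ := R.rat_eich C.five _ h x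
  have h1 : j (z - x) ∈ (F ∙ g (j e)) ⊔ F ∙ g (j y) := by
    rw [map_sub, hz]; exact (hs.map hgi).sub_mem_sup _
  have h2 : z - x ≠ 0 := fun h2 => by
    have h3 : P.f (j x) (g (j e)) • j y = (P.ε * P.f (j x) (g (j y))) • j e := by
      apply g.injective
      rw [sub_eq_zero.1 h2, eich_apply] at hz
      rw [map_smul, map_smul]
      linear_combination (norm := module) -hz
    exact R.notMem_span_singleton hye ((Submodule.smul_mem_iff _ hx).1
      (h3 ▸ Submodule.smul_mem _ _ (Submodule.mem_span_singleton_self _)))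
  have h3 := R.sing_iff.1 ((hs.sing.map hgi).comb ((R.sing_iff.2 hy).map hgi) (hs.map hgi).orth h1)
  have h4 : ∀ w (hw : P₀.f w e = 0), P₀.f w y = 0 → ∀ x, ∃ z, j z =
      P.eich (g (j e)) (g (j w)) (algebraMap K F (P₀.h w)) (j x) := by
    intro w hw hw'
    have h5 := (R.ei C.le (EV.of_h he hw)).conj hg hgi
    refine R.rat_eich C.five _ (C.mem_of_fix h5.mem h3 h2 ?_)
    rw [EV.equiv_apply, eich_apply_of_orth₂]
    · exact f_eq_zero_of_mem_sup h5.ev.sing.f_self (hs.map hgi).orth h1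
    · exact f_eq_zero_of_mem_sup h5.ev.orth'
        (by rw [isom_f hgi]; exact R.f_eq_zero.2 (f_symm_zero hw')) h1
  obtain ⟨w', w, k1, k2, k3, k4, k5⟩ := exists_f_eq_pair (P := P₀) C.five e y 1
  obtain ⟨z₁, hz₁⟩ := h4 w k3 k4 x
  obtain ⟨z₂, hz₂⟩ := h4 w' k1 k2 (z₁ - x)
  refine C.mem_of_smul hg he he0 (mul_ne_zero P.ε_ne_zero hx) (w := z₁ - x - z₂) ?_
  rw [map_sub, hz₂, map_sub, hz₁]
  simp only [eich_apply, add_sub_right_comm _ _ (j x), sub_right_comm _ _ (j x), sub_self,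
    zero_add, f_sub_left, P.f_smul_left, isom_f hgi, R.f_alg, k3, k5, he.f_self, f_symm_zero k1,
    map_zero, map_one]
  module

theorem exists_siegel (C : C5 P₀ P j M) : ∃ e y : V₀, e ≠ 0 ∧ P₀.Sing y ∧ y ∉ K ∙ e ∧
    P.Ei (ratNorm F j ⊓ P.E) (j e) (j y) 0 := by
  have hd := C.d_le
  obtain ⟨e, -, he0, he⟩ := P₀.exists_sing ⊤ (by rw [finrank_top]; omega)
  obtain ⟨y, hy, hye, hy'⟩ := exists_sing_orth hd e
  exact ⟨e, y, he0, hy, hy', by simpa using C.toRat.ei le_rfl (EV.of_sing he hy hye)⟩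

theorem le_of_two (C : C5 P₀ P j M) (h2 : finrank K F = 2) (hd : P₀.d + 4 ≤ finrank K V₀) :
    M ≤ ratNorm F j := by
  have R := C.toRat
  have : FiniteDimensional K F := Module.finite_of_finrank_pos (by omega)
  obtain ⟨e, y, he0, hy, hye, hs⟩ := C.exists_siegel
  intro g hg
  have hgi := C.le_isom hg
  refine C.mem_of_siegel he0 hy hye hs.ev hg ?_
  let T : V₀ →ₗ[K] F × F := ((P.fL (g (j e))).prod (P.fL (g (j y)))).restrictScalars K ∘ₗ j
  have h1 := T.finrank_range_add_finrank_ker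
  have h3 := Submodule.finrank_le (LinearMap.range T)
  rw [Module.finrank_prod, h2] at h3
  obtain ⟨u, hu, hu0, hus⟩ := P₀.exists_sing (LinearMap.ker T) (by omega)
  refine C.mem_of_fix (M.mul_mem (M.mul_mem hg (C.le hs.mem)) (M.inv_mem hg)) hus hu0 ?_
  rw [hs.ev.conj_equiv hgi, EV.equiv_apply]
  exact P.eich_apply_of_orth₂ _ (congrArg Prod.fst hu) (congrArg Prod.snd hu)

theorem le_of_odd (C : C5 P₀ P j M) (hΛ : P.Λ = ⊥)
    (hodd : ∀ c : F, c * c ∈ Set.range (algebraMap K F) → c ∈ Set.range (algebraMap K F))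
    (hd : P₀.d + 4 ≤ finrank K V₀) : M ≤ ratNorm F j := by
  have R := C.toRat
  have := R.finiteDimensional
  have : Finite (V ≃ₗ[F] V) := DFunLike.finite _
  obtain ⟨e, y, he0, hy, hye, hs⟩ := C.exists_siegel
  have he := R.sing_iff.1 hs.ev.sing
  refine (le_of_counting _ M C.le hs.ev.equiv hs.mem ?_ ?_ ?_).trans inf_le_left
  · exact fun g hg h => ⟨C.mem_of_siegel he0 hy hye hs.ev hg h.1, C.le_E hg⟩
  · intro g hg k hk hgk h
    have hdM := M.mul_mem (M.mul_mem hg (C.le hs.mem)) (M.inv_mem hg)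
    refine ⟨?_, C.le_E hdM⟩
    have hgi := C.le_isom hg
    have hki := C.le_isom hk
    rw [hs.ev.conj_equiv hgi] at *
    rw [hs.ev.conj_equiv hki] at *
    have hd := hs.ev.map hgi
    have ht := hs.ev.map hki
    have hb := (R.sing_iff.2 hy).map hgi
    have hb' := (R.sing_iff.2 hy).map hki
    have h8 : ∀ x, ∃ y, j y = (ht.equiv⁻¹ * hd.equiv) (j x) - j x := fun x => by
      obtain ⟨y, hy⟩ := R.rat_of_sq hΛ hodd h.1 (E_le_isom h.2) x
      exact ⟨y - x, by rw [map_sub, hy]⟩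
    obtain ⟨u, hu0, hu, h9⟩ := R.exists_sing_ker ((ht.equiv⁻¹ * hd.equiv).toLinearMap - LinearMap.id)
      h8 (I := ((F ∙ g (j e)) ⊔ F ∙ g (j y)) ⊔ ((F ∙ k (j e)) ⊔ F ∙ k (j y)))
      (inv_mul_sub_mem (fun x => Submodule.mem_sup_left (hd.sub_mem_sup x))
        (fun x => Submodule.mem_sup_right (ht.sub_mem_sup x))) (by
        have := Submodule.finrank_add_le_finrank_add_finrank ((F ∙ g (j e)) ⊔ F ∙ g (j y))
          ((F ∙ k (j e)) ⊔ F ∙ k (j y))
        have := finrank_sup_span_le (F ∙ g (j e)) (g (j y))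
        have := finrank_sup_span_le (F ∙ k (j e)) (k (j y))
        have := finrank_span_singleton_le (F := F) (g (j e))
        have := finrank_span_singleton_le (F := F) (k (j e))
        omega)
    have h10 : hd.equiv (j u) = ht.equiv (j u) := by
      rw [← apply_inv_apply ht.equiv (hd.equiv (j u))]
      exact congrArg ht.equiv (sub_eq_zero.1 h9)
    by_cases h11 : hd.equiv (j u) - j u = 0
    · exact C.mem_of_fix hdM hu hu0 (sub_eq_zero.1 h11)
    have hz := hd.sing.comb hb hd.orth (hd.sub_mem_sup (j u))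
    obtain ⟨c, hc, hcz, h1⟩ := exists_eich_eq hΛ hd.sing hb hd.orth (hd.sub_mem_sup (j u)) h11
    obtain ⟨c', hc', hcz', h2⟩ := exists_eich_eq hΛ ht.sing hb' ht.orth
      (h10 ▸ ht.sub_mem_sup (j u)) h11
    generalize hd.equiv (j u) - j u = z at *
    have h3 := EV.of_sing hz hc hcz
    have h4 := EV.of_sing hz hc' hcz'
    have h5 : ∀ x, (ht.equiv⁻¹ * hd.equiv) x - x = P.f x z • (c - c') +
        (-(P.ε * (P.f x (c - c') - P.f c c' * P.f x z))) • z := by
      intro x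
      rw [show ht.equiv = h4.equiv from LinearEquiv.ext h2, mul_apply', EV.equiv_apply, h1,
        EV.equiv_inv_apply, h4.neg.eich_eich h3, eich_apply, neg_add_eq_sub, f_neg_right, map_zero]
      module
    have h6 : P.f (c - c') z = 0 := by rw [f_sub_left, hcz, hcz', sub_zero]
    by_cases h7 : P.f c c' = 0
    · obtain ⟨x, hx⟩ := R.exists_apply_ne hgk
      obtain ⟨w, hw⟩ := h8 x
      have h12 : j w ∈ (F ∙ (c - c')) ⊔ F ∙ z := by
        rw [hw, h5]
        exact mem_sup_span.2 ⟨_, Submodule.smul_mem _ _ (Submodule.mem_span_singleton_self _), _,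
          rfl⟩
      refine C.mem_of_fix hdM (R.sing_iff.1 ((hc.sub hc' h7).comb hz (f_symm_zero h6) h12))
        (fun h => hx (by rw [← hw, h, map_zero])) ?_
      rw [EV.equiv_apply, h1, eich_apply_of_orth₂]
      · exact f_eq_zero_of_mem_sup h6 hz.f_self h12
      · exact f_eq_zero_of_mem_sup (by rw [f_sub_left, hc.f_self, f_symm_zero h7, sub_zero])
          (f_symm_zero hcz) h12
    have h12 : P.h (c - c') ≠ 0 := fun h => h7 (by
      have h13 : P.Sing (c - c') := by rw [Sing, h]; exact zero_mem _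
      have h14 := f_mem_Λ_of_sing h13 hc' (by rwa [sub_add_cancel])
      rwa [hΛ, AddSubgroup.mem_bot, f_sub_left, hc'.f_self, sub_zero] at h14)
    have h13 : ∀ x, P.f (j x) z * P.f (j x) z * P.h (c - c') ∈ (algebraMap K F).fieldRange := by
      intro x
      obtain ⟨w, hw⟩ := h8 x
      have k1 := R.h_alg w
      have k2 := h_add_smul_sing hz (P.f (j x) z • (c - c'))
        (-(P.ε * (P.f (j x) (c - c') - P.f c c' * P.f (j x) z)))
      have k3 := P.h_smul (P.f (j x) z) (c - c')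
      rw [← h5, ← hw, P.f_smul_left, h6] at k2
      rw [hΛ, AddSubgroup.mem_bot] at k1 k2 k3
      rw [σ_eq_of_Λ hΛ] at k3
      exact ⟨P₀.h w, by linear_combination k2 + k3 - k1⟩
    obtain ⟨x₂, hx₂⟩ := R.exists_f_ne_zero h11
    obtain ⟨u', hu'⟩ := R.dual (x := (P.f (j x₂) z)⁻¹ • z) fun x => hodd _ (by
      obtain ⟨a, ha⟩ := div_mem (h13 x) (h13 x₂)
      refine ⟨a, ha.trans ?_⟩
      rw [f_smul_right, σ_eq_of_Λ hΛ]
      field_simp)
    refine C.mem_of_fix hdM (R.sing_iff.1 (hu' ▸ hz.smul _)) (fun h => h11 ?_) ?_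
    · rw [h, map_zero, eq_comm, smul_eq_zero] at hu'
      exact hu'.resolve_left (inv_ne_zero hx₂)
    · rw [hu', map_smul, EV.equiv_apply, h1, h3.eich_self]
  · obtain ⟨e', he', h1⟩ := he.exists_partner' he0
    obtain ⟨h, hh, h2⟩ := R.exists_map C.d_le he he0 he' (by
      rintro rfl; rw [f_zero_left] at h1; exact zero_ne_one h1)
    refine ⟨h, hh, fun h3 => R.notMem_span_singleton hye ?_⟩
    have h4 := congrArg (fun g : V ≃ₗ[F] V => g (j e)) h3
    simp only [mul_apply', EV.equiv_apply, hs.ev.eich_self, h2] at h4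
    rw [eich_apply, R.f_alg, h1, map_one] at h4
    exact Submodule.mem_span_singleton.2 ⟨P.ε * P.f (j e') (j y),
      by linear_combination (norm := module) h4⟩

end C5

/-- Maximality of subfield subgroups. -/
theorem Rat.le_or_le [Finite F] (R : Rat P₀ P j) (h5 : 5 ≤ finrank K V₀)
    (hd : P₀.d + 2 ≤ finrank K V₀) (hL : ∀ L : Subalgebra K F, L = ⊥ ∨ L = ⊤)
    (hΛ : ∀ ν ∈ P.Λ, ∃ a c, ∃ ν₀ ∈ P₀.Λ, ν = a - P.ε * P.σ a + c * P.σ c * algebraMap K F ν₀)
    (hc : P₀.Λ ≠ ⊥ ∨ (P₀.d + 4 ≤ finrank K V₀ ∧ (finrank K F = 2 ∨ (P.Λ = ⊥ ∧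
      ∀ c : F, c * c ∈ Set.range (algebraMap K F) → c ∈ Set.range (algebraMap K F)))))
    (h1 : ratNorm F j ⊓ P.E ≤ M) (h2 : M ≤ P.E) : M ≤ ratNorm F j ∨ P.E ≤ M := by
  by_cases h : P.E ≤ M
  · exact Or.inr h
  have C : C5 P₀ P j M := ⟨R, h1, h2, h, h5, hd, hL, hΛ⟩
  rcases hc with hc | ⟨h4, hc | hc⟩
  · exact Or.inl (C.le_of_tv hc)
  · exact Or.inl (C.le_of_two hc h4)
  · exact Or.inl (C.le_of_odd hc.1 hc.2 h4)

end PForm

end Cfsg.Agent.H26
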