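import Cfsg.Agent.H26.PC5Geo

/-!
Maximality of orthogonal subfield subgroups of `SU_n(q)` for `n ≥ 5`.
-/

set_option autoImplicit false

namespace Cfsg.Agent.H26

open Module

namespace PForm

variable {K F : Type*} [Field K] [Field F] [Algebra K F] {V₀ V : Type*} [AddCommGroup V₀]
  [Module K V₀] [AddCommGroup V] [Module F V] [Module K V] [IsScalarTower K F V]
  {P₀ : PForm K V₀} {P : PForm F V} {j : V₀ →ₗ[K] V} {M : Subgroup (V ≃ₗ[F] V)}
  [FiniteDimensional K V₀] [Finite V] [Finite F]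

theorem C5.le_of_two' (C : C5 P₀ P j M) (h2 : finrank K F = 2)
    (hy : ∀ y, P₀.f y y = 0 → P₀.Sing y) : M ≤ ratNorm F j := by
  have R := C.toRat
  have : FiniteDimensional K F := Module.finite_of_finrank_pos (by omega)
  have h5 := C.five
  have hd := C.d_le
  intro g hg
  have hgi := C.le_isom hg
  obtain ⟨u, -, hu0, hu⟩ := P₀.exists_sing ⊤ (by rw [finrank_top]; omega)
  let T : V₀ →ₗ[K] F := (P.fL (g⁻¹ (j u))).restrictScalars K ∘ₗ j
  have h1 := T.finrank_range_add_finrank_ker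
  have h3 := Submodule.finrank_le (LinearMap.range T)
  obtain ⟨a, ha, ha0, has⟩ := P₀.exists_sing (LinearMap.ker T) (by omega)
  have h4 := finrank_le_inf_perp (P := P₀) (LinearMap.ker T) a
  obtain ⟨y, ⟨hyT, hya⟩, hn⟩ := exists_mem_notMem_of_finrank_lt
    (A := LinearMap.ker T ⊓ P₀.perp (K ∙ a)) (S := K ∙ a)
    (by have := finrank_span_singleton_le (F := K) a; omega)
  replace hya : P₀.f y a = 0 := mem_perp_span_singleton.1 hya
  have key : ∀ {ν : K} (hv : P₀.EV a y ν), g * (R.ev hv).equiv * g⁻¹ ∈ ratNorm F j :=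
    fun {ν} hv => C.mem_of_fix (M.mul_mem (M.mul_mem hg (C.le (R.equiv_mem hv))) (M.inv_mem hg))
      hu hu0 (by
        rw [mul_apply', mul_apply', EV.equiv_apply,
          P.eich_apply_of_orth₂ _ (f_symm_zero ha) (f_symm_zero hyT), apply_inv_apply])
  by_cases hs : P₀.f y y = 0
  · have h6 := key (EV.of_sing has (hy y hs) hya)
    exact C.mem_of_siegel ha0 (hy y hs) hn (by simpa using R.ev (EV.of_sing has (hy y hs) hya)) hg
      (by simpa using h6)
  have hv := (R.ev (EV.of_h has hya)).map hgi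
  have h6 := key (EV.of_h has hya)
  rw [EV.conj_equiv hgi] at h6
  obtain ⟨x, hx⟩ := R.exists_f_ne_zero (g.map_ne_zero_iff.2 fun h => ha0 (R.j_eq_zero.1 h))
  obtain ⟨z₁, hz₁⟩ := R.rat_eich h5 _ h6 x
  obtain ⟨z₂, hz₂⟩ := R.rat_eich h5 _ h6 (z₁ - x)
  refine C.mem_of_smul hg has ha0 (mul_ne_zero P.ε_ne_zero (mul_ne_zero hx
    (show algebraMap K F (P₀.f y y) ≠ 0 by simpa using hs))) (w := z₁ - x - z₂) ?_
  rw [map_sub, hz₂, map_sub, hz₁]
  simp only [eich_apply, add_sub_right_comm _ _ (j x), sub_right_comm _ _ (j x), sub_self,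
    zero_add, f_sub_left, P.f_smul_left, isom_f hgi, R.f_alg, hya, Sing.f_self has,
    f_symm_zero hya, map_zero]
  module

end PForm

open PForm QuadraticMap

variable {ι : Type} [Fintype ι] [DecidableEq ι] {F : Type*} [Field F] {F₀ : Subfield F}

theorem isMaximalIn_rat_two [Fintype F] (hcard : Fintype.card F = Nat.card F₀ ^ 2)
    {P₀ : PForm F₀ (ι → F₀)} {Pf : PForm F (ι → F)}
    {P : GL ι F} (R : Rat P₀ Pf (jmap F₀ P)) {G : Subgroup (GL ι F)}
    (hG : ∀ g, g ∈ G ↔ gl g ∈ Pf.E) (h5 : 5 ≤ Fintype.card ι) (hd : P₀.d + 2 ≤ Fintype.card ι)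
    (hΛ : ∀ ν ∈ Pf.Λ, ∃ a c, ∃ ν₀ ∈ P₀.Λ,
      ν = a - Pf.ε * Pf.σ a + c * Pf.σ c * algebraMap F₀ F ν₀)
    (hy : ∀ y, P₀.f y y = 0 → P₀.Sing y) :
    Geo.IsMaximalIn G (Geo.subfieldSubgroup F₀ P ⊓ G) := by
  rw [← finrank_pi_card (F := F₀)] at h5 hd
  refine isMaximalIn_of_E Pf hG _ (mem_subfieldSubgroup_iff P) (R.not_E_le h5 hd ?_)
    fun M h1 h2 => or_iff_not_imp_right.2 fun h => C5.le_of_two'
      ⟨R, h1, h2, h, h5, hd, subalgebra_eq_bot_or_top Nat.prime_two hcard, hΛ⟩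
      (finrank_subfield_of_card hcard) hy
  obtain ⟨c, hc⟩ := exists_notMem_subfield Nat.prime_two hcard
  exact ⟨c, fun ⟨x, hx⟩ => hc (hx ▸ x.2)⟩

theorem su_c5_o_five [Fintype F] (h2 : (2 : F) ≠ 0) (hcard : Fintype.card F = Nat.card F₀ ^ 2)
    {σ : F ≃+* F} {f : (ι → F) → (ι → F) → F}
    (hf : Geo.IsUnitaryForm σ f) (h5 : 5 ≤ Fintype.card ι) {P : GL ι F}
    (hP : Geo.IsFormRationalStructure f F₀ 1 P) :
    Geo.IsMaximalIn (preserving (glToMat ι F) f ⊓ Geo.specialLinear ι F)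
      (Geo.subfieldSubgroup F₀ P ⊓ (preserving (glToMat ι F) f ⊓ Geo.specialLinear ι F)) := by
  have hP' : ∀ u v, f (jmap F₀ P u) (jmap F₀ P v) ∈ F₀ := fun u v => by
    simpa only [one_mul, jmap_apply] using hP (up u) (up v) (fun i => (u i).2) fun i => (v i).2
  have hσ : ∀ x ∈ F₀, σ x = x := fun x hx => by
    rwa [H25.eq_fixedSub_of_card hf.ne_refl hf.involutive hcard] at hx
  have hl : (2 : F)⁻¹ + σ 2⁻¹ = 1 := by
    rw [map_inv₀, map_ofNat]; field_simp; ring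
  set Pf := unitP hf _ hl
  have h2' : (2 : F₀) ≠ 0 := fun h => h2 (congrArg Subtype.val h)
  set f₀ := restF Pf hP'
  have hb : Geo.IsBilinearForm f₀ := restF_bilin Pf hP' hσ
  have hs : ∀ x y, f₀ y x = f₀ x y := fun x y =>
    Subtype.ext ((hf.herm _ _).trans (hσ _ (hP' x y)))
  have hp : polar (fun x => 2⁻¹ * f₀ x x) = f₀ := by
    funext x y
    rw [polar, hb.add_left, hb.add_right, hb.add_right, hs x y]
    field_simp
    ring
  have hQ₀ : Geo.IsNondegenerateQuadraticForm fun x => 2⁻¹ * f₀ x x :=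
    ⟨fun c v => by rw [hb.smul_left, hb.smul_right]; ring, hp.symm ▸ hb,
      hp.symm ▸ restF_nondeg Pf hP'⟩
  refine isMaximalIn_rat_two hcard (P₀ := quadP hQ₀) (Pf := Pf)
    ⟨fun c => hσ c c.2, (map_one _).symm, fun x y => ?_, fun x => ?_, fun a => ?_, jmap_span P⟩
    (mem_SU_iff_unitP hf _ hl (Or.inl (by omega))) h5 (by change 3 + 2 ≤ _; omega)
    (fun ν hν => ?_) fun y hy => ?_
  · exact congrArg Subtype.val (congrFun (congrFun hp x) y).symm
  · exact Eq.mpr (congrArg (· ∈ _) (sub_self _)) (zero_mem _)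
  · change (a : F) + σ a = 0 ↔ a = 0
    rw [hσ a a.2, ← two_mul, mul_eq_zero, or_iff_right h2, ZeroMemClass.coe_eq_zero]
  · obtain ⟨a, ha⟩ := unitP_Λ_min hf _ hl ν hν
    exact ⟨a, 0, 0, zero_mem _, by simpa using ha⟩
  · change polar (fun x => 2⁻¹ * f₀ x x) y y = 0 at hy
    change 2⁻¹ * f₀ y y = 0
    rw [hp] at hy
    rw [hy, mul_zero]

end Cfsg.Agent.H26
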