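import Cfsg.Agent.H27.QTFat

/-!
# The three orthogonal families are fat
-/

set_option autoImplicit false

namespace Cfsg.Agent.H26

open Subgroup H81.QT

section Abstract

variable {O O' : Type*} [Group O] [Group O']

/-- An elementary abelian group of odd exponent and rank at least three in `O`, with two elements
of the derived subgroup of `O` acting without common fixed points. -/
def QDat (O : Type*) [Group O] : Prop :=
  ∃ p : ℕ, p.Prime ∧ p ≠ 2 ∧ ∃ (A : Type) (_ : CommGroup A) (_ : Finite A) (u : A →* O),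
    Function.Injective u ∧ (∀ a : A, a ^ p = 1) ∧ p ^ 3 ≤ Nat.card A ∧
    ∃ (h₁ h₂ : O) (σ₁ σ₂ : A → A), h₁ ∈ commutator O ∧ h₂ ∈ commutator O ∧
      (∀ a, h₁ * u a = u (σ₁ a) * h₁) ∧ (∀ a, h₂ * u a = u (σ₂ a) * h₂) ∧
      (∀ a, σ₁ a = a → σ₂ a = a → a = 1) ∧
      ∀ B : Subgroup A, (∀ a, σ₁ a / a ∈ B) → (∀ a, σ₂ a / a ∈ B) → ∀ a, a ∈ B

theorem qdat_map_comm (f : O →* O') {h : O} (hh : h ∈ commutator O) : f h ∈ commutator O' := by
  have : (commutator O).map f ≤ commutator O' := by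
    rw [commutator_def, map_commutator]
    exact commutator_mono le_top le_top
  exact this ⟨h, hh, rfl⟩

theorem QDat.map (h : QDat O) (f : O →* O') (hf : Function.Injective f) : QDat O' := by
  obtain ⟨p, hp, h2, A, _, _, u, hu, hA, hc, h₁, h₂, σ₁, σ₂, k₁, k₂, c₁, c₂, hfix, hgen⟩ := h
  refine ⟨p, hp, h2, A, inferInstance, inferInstance, f.comp u, hf.comp hu, hA, hc, f h₁, f h₂,
    σ₁, σ₂, qdat_map_comm f k₁, qdat_map_comm f k₂, fun a => ?_, fun a => ?_, hfix, hgen⟩
  · simp only [MonoidHom.comp_apply, ← map_mul, c₁]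
  · simp only [MonoidHom.comp_apply, ← map_mul, c₂]

theorem QDat.big (h : QDat O) : H27.Big 3 True (commutator O ⧸ center (commutator O)) := by
  obtain ⟨p, hp, h2, A, _, _, u, hu, hA, hc, h₁, h₂, σ₁, σ₂, k₁, k₂, c₁, c₂, hfix, hgen⟩ := h
  have key : ∀ (h : O) (σ : A → A), (∀ a, h * u a = u (σ a) * h) → ∀ a,
      σ a / a ∈ (commutator O).comap u := fun h σ c a => by
    rw [mem_comap, map_div, div_eq_mul_inv, ← mul_inv_cancel_right (u (σ a)) h, ← c]
    exact commutator_mem_commutator (mem_top h) (mem_top (u a))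
  have hmem : ∀ a, u a ∈ commutator O := hgen _ (key h₁ σ₁ c₁) (key h₂ σ₂ c₂)
  refine H27.big_of_hom hp h2 ((QuotientGroup.mk' _).comp (u.codRestrict _ hmem))
    (fun a ha => ?_) hA hc fun _ B hB => hgen B (hB (QuotientGroup.mk ⟨h₁, k₁⟩) σ₁ fun a => ?_)
      (hB (QuotientGroup.mk ⟨h₂, k₂⟩) σ₂ fun a => ?_)
  · have hz := mem_center_iff.1 ((QuotientGroup.eq_one_iff _).1 ha)
    have : ∀ (h : O) (σ : A → A), h ∈ commutator O → (∀ a, h * u a = u (σ a) * h) → σ a = a :=
      fun h σ k c => hu (mul_right_cancel (b := h) (by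
        rw [← c]; exact congrArg Subtype.val (hz ⟨h, k⟩)))
    exact hfix a (this h₁ σ₁ k₁ c₁) (this h₂ σ₂ k₂ c₂)
  · change QuotientGroup.mk _ * QuotientGroup.mk _ = QuotientGroup.mk _ * QuotientGroup.mk _
    rw [← QuotientGroup.mk_mul, ← QuotientGroup.mk_mul]
    exact congrArg _ (Subtype.ext (c₁ a))
  · change QuotientGroup.mk _ * QuotientGroup.mk _ = QuotientGroup.mk _ * QuotientGroup.mk _
    rw [← QuotientGroup.mk_mul, ← QuotientGroup.mk_mul]
    exact congrArg _ (Subtype.ext (c₂ a))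

theorem qdat_mem_comm {s t : O} (hs : s * s = 1) (ht : t * t = 1) :
    s * (t * s * t) ∈ commutator O := by
  have := commutator_mem_commutator (mem_top s) (mem_top t)
  rw [commutatorElement_def, inv_eq_of_mul_eq_one_right hs, inv_eq_of_mul_eq_one_right ht] at this
  rw [commutator_def]
  simpa only [mul_assoc] using this

theorem qdat_sq {A : Type*} [CommGroup A] {p : ℕ} (hp : p.Prime) (h2 : p ≠ 2)
    (hA : ∀ a : A, a ^ p = 1) (a : A) : ∃ b : A, b⁻¹ / b = a := by
  obtain ⟨k, hk⟩ := hp.odd_of_ne_two h2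
  refine ⟨a ^ k, ?_⟩
  have := hA a
  rw [hk, pow_succ, two_mul, pow_add] at this
  rw [div_eq_mul_inv, ← mul_inv, inv_eq_of_mul_eq_one_right this]

theorem qdat_inv {A : Type*} [CommGroup A] {p : ℕ} (hp : p.Prime) (h2 : p ≠ 2)
    (hA : ∀ a : A, a ^ p = 1) {a : A} (h : a⁻¹ = a) : a = 1 := by
  obtain ⟨k, hk⟩ := hp.odd_of_ne_two h2
  have := hA a
  rwa [hk, pow_succ, pow_mul, pow_two, mul_eq_one_iff_inv_eq.2 h, one_pow, one_mul] at this

end Abstract

section Lin

variable {F : Type} [Field F] {V U P : Type} [AddCommGroup V] [Module F V] [AddCommGroup U]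
  [Module F U] [AddCommGroup P] [Module F P]

/-- The invertible linear maps preserving the function `Q`. -/
def isoE (Q : V → F) : Subgroup (Module.End F V)ˣ where
  carrier := {g | ∀ v, Q ((g : Module.End F V) v) = Q v}
  mul_mem' {a b} ha hb v := by
    rw [Units.val_mul, Module.End.mul_apply, ha, hb]
  one_mem' v := rfl
  inv_mem' {a} ha v := by
    rw [← ha, ← Module.End.mul_apply, Units.mul_inv, Module.End.one_apply]

/-- A homomorphism into `isoE Q`. -/
def isoEOf {G : Type*} [Group G] {Q : V → F} (φ : G →* Module.End F V)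
    (hφ : ∀ g v, Q (φ g v) = Q v) : G →* isoE Q :=
  φ.toHomUnits.codRestrict _ hφ

theorem isoEOf_apply {G : Type*} [Group G] {Q : V → F} (φ : G →* Module.End F V)
    (hφ : ∀ g v, Q (φ g v) = Q v) (g : G) (v : V) :
    ((isoEOf φ hφ g : (Module.End F V)ˣ) : Module.End F V) v = φ g v := rfl

/-- An involution in `isoE Q`. -/
def isoEInv {Q : V → F} (s : Module.End F V) (hs : ∀ v, s (s v) = v) (hQ : ∀ v, Q (s v) = Q v) :
    isoE Q :=
  ⟨⟨s, s, LinearMap.ext hs, LinearMap.ext hs⟩, hQ⟩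

theorem isoEInv_apply {Q : V → F} (s : Module.End F V) (hs : ∀ v, s (s v) = v)
    (hQ : ∀ v, Q (s v) = Q v) (v : V) :
    ((isoEInv s hs hQ : (Module.End F V)ˣ) : Module.End F V) v = s v := rfl

theorem isoE_ext {Q : V → F} {g h : isoE Q}
    (e : ∀ v, ((g : (Module.End F V)ˣ) : Module.End F V) v =
      ((h : (Module.End F V)ˣ) : Module.End F V) v) : g = h :=
  Subtype.ext (Units.ext (LinearMap.ext e))

theorem isoE_mul_apply {Q : V → F} (g h : isoE Q) (v : V) :
    ((↑(g * h) : (Module.End F V)ˣ) : Module.End F V) v =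
      ((g : (Module.End F V)ˣ) : Module.End F V) (((h : (Module.End F V)ˣ) : Module.End F V) v) :=
  rfl

theorem isoEInv_mul_self {Q : V → F} (s : Module.End F V) (hs : ∀ v, s (s v) = v)
    (hQ : ∀ v, Q (s v) = Q v) : isoEInv s hs hQ * isoEInv s hs hQ = 1 :=
  isoE_ext hs

theorem QDat.embed {QU : U → F} {Q : V → F} (h : QDat (isoE QU)) (j : U → V) (r : V → U)
    (hj : IsLinearMap F j) (hr : IsLinearMap F r) (hrj : ∀ u, r (j u) = u)
    (hQ : ∀ v u, Q (v + j u) + QU (r v) = Q v + QU (r v + u)) : QDat (isoE Q) := by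
  let φ : isoE QU →* Module.End F V :=
    { toFun := fun g => 1 + (hj.mk' j) ∘ₗ ((g : (Module.End F U)ˣ) - 1 : Module.End F U) ∘ₗ hr.mk' r
      map_one' := by ext v; simp [hj.map_zero]
      map_mul' := fun g g' => by
        ext v
        simp [hr.map_add, hrj, hj.map_sub, hr.map_sub]
        abel }
  have hφ : ∀ g v, φ g v = v + j (((g : (Module.End F U)ˣ) : Module.End F U) (r v) - r v) :=
    fun g v => rfl
  refine h.map (isoEOf φ fun g v => ?_) ((injective_iff_map_eq_one _).2 fun g hg => ?_)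
  · have := hQ v (((g : (Module.End F U)ˣ) : Module.End F U) (r v) - r v)
    rw [add_sub_cancel, g.2] at this
    rw [hφ]
    exact add_right_cancel this
  · refine isoE_ext fun u => ?_
    have h1 : φ g (j u) = j u := congrArg
      (fun x : isoE Q => ((x : (Module.End F V)ˣ) : Module.End F V) (j u)) hg
    have := congrArg r h1
    rw [hφ, hr.map_add, hrj, hrj, add_sub_cancel] at this
    exact this

theorem QDat.pomega {ι : Type} [Fintype ι] [DecidableEq ι] {Q : (ι → F) → F} (h : QDat (isoE Q))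
    {S : Type*} [Group S] (e : S ≃* POmega F Q) : Fat S := by
  let ψ : isoE Q →* isometryGroup F Q :=
    ((Units.map (LinearMap.toMatrixAlgEquiv' (R := F) (n := ι)).toMulEquiv.toMonoidHom).comp
      (isoE Q).subtype).codRestrict _ fun g u _ => by
        change Q (Matrix.mulVec (LinearMap.toMatrix' _) u) = Q u
        rw [LinearMap.toMatrix'_mulVec]
        exact g.2 u
  have hψ : Function.Injective ψ := fun g g' hg => Subtype.ext (Units.ext
    ((LinearMap.toMatrixAlgEquiv' (R := F) (n := ι)).injective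
      (congrArg (fun x : isometryGroup F Q => ((x : GL ι F) : Matrix ι ι F)) hg)))
  exact ((h.map ψ hψ).big.congr e).fat3

/-- Three copies of a plane with a dihedral group of isometries. -/
theorem qdat_of_plane {N : P → F} {p : ℕ} (hp : p.Prime) (h2 : p ≠ 2) {C : Type} [CommGroup C]
    [Finite C] (c : C →* isoE N) (hc : Function.Injective c) (hC : ∀ t : C, t ^ p = 1)
    (hpc : p ≤ Nat.card C) (s : isoE N) (hs : s * s = 1) (hsc : ∀ t, s * c t = c t⁻¹ * s) :
    QDat (isoE fun v : Fin 3 → P => ∑ i, N (v i)) := by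
  let φ : (Fin 3 → isoE N) →* Module.End F (Fin 3 → P) :=
    { toFun := fun g => LinearMap.pi fun i =>
        ((g i : (Module.End F P)ˣ) : Module.End F P) ∘ₗ LinearMap.proj i
      map_one' := rfl
      map_mul' := fun _ _ => rfl }
  have hφ : ∀ g v i, φ g v i = ((g i : (Module.End F P)ˣ) : Module.End F P) (v i) :=
    fun _ _ _ => rfl
  let Φ : (Fin 3 → isoE N) →* isoE fun v : Fin 3 → P => ∑ i, N (v i) :=
    isoEOf φ fun g v => Finset.sum_congr rfl fun i _ => (g i).2 (v i)
  have hΦ : Function.Injective Φ := fun g g' hg => funext fun i => isoE_ext fun x =>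
    congrArg (fun y : isoE fun v : Fin 3 → P => ∑ i, N (v i) =>
      ((y : (Module.End F (Fin 3 → P))ˣ) : Module.End F (Fin 3 → P)) (fun _ => x) i) hg
  let π : Fin 3 → isoE fun v : Fin 3 → P => ∑ i, N (v i) := fun k =>
    isoEInv (LinearMap.funLeft F P (Equiv.swap 0 k)) (fun v => by ext i; simp) fun v =>
      Equiv.sum_comp (Equiv.swap 0 k) fun i => N (v i)
  have hπ : ∀ k g, π k * Φ g * π k = Φ (g ∘ Equiv.swap 0 k) := fun k g => isoE_ext fun v => by
    ext i
    change φ g (fun i => v (Equiv.swap 0 k i)) (Equiv.swap 0 k i) = φ _ v i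
    simp [hφ]
  have hm : ∀ k, Φ (![s, 1, 1] * ![s, 1, 1] ∘ Equiv.swap 0 k) ∈
      commutator (isoE fun v : Fin 3 → P => ∑ i, N (v i)) := fun k => by
    rw [map_mul, ← hπ]
    refine qdat_mem_comm ?_ (isoEInv_mul_self _ _ _)
    rw [← map_mul, ← map_one Φ]
    congr 1
    ext1 i
    fin_cases i <;> simp [hs]
  refine ⟨p, hp, h2, Fin 3 → C, inferInstance, inferInstance, Φ.comp (c.compLeft (Fin 3)),
    hΦ.comp (hc.comp_left), fun a => funext fun i => hC _, ?_, _, _,
    fun a => ![(a 0)⁻¹, (a 1)⁻¹, a 2], fun a => ![(a 0)⁻¹, a 1, (a 2)⁻¹], hm 1, hm 2,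
    fun a => ?_, fun a => ?_, fun a k₁ k₂ => ?_, fun B k₁ k₂ a => ?_⟩
  · rw [Nat.card_fun, Nat.card_eq_fintype_card (α := Fin 3), Fintype.card_fin]
    exact Nat.pow_le_pow_left hpc 3
  · simp only [MonoidHom.comp_apply, ← map_mul]
    congr 1
    ext1 i
    fin_cases i <;> simp [hsc, Equiv.swap_apply_def]
  · simp only [MonoidHom.comp_apply, ← map_mul]
    congr 1
    ext1 i
    fin_cases i <;> simp [hsc, Equiv.swap_apply_def]
  · ext i
    fin_cases i
    · exact qdat_inv hp h2 hC (congrFun k₁ 0)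
    · exact qdat_inv hp h2 hC (congrFun k₁ 1)
    · exact qdat_inv hp h2 hC (congrFun k₂ 2)
  · obtain ⟨b₀, h₀⟩ := qdat_sq hp h2 hC (a 0)
    obtain ⟨b₁, h₁⟩ := qdat_sq hp h2 hC (a 1)
    obtain ⟨b₂, h₂⟩ := qdat_sq hp h2 hC (a 2)
    convert B.mul_mem (k₁ ![b₀, b₁, 1]) (k₂ ![1, 1, b₂]) using 1
    ext i
    fin_cases i <;> simp [h₀, h₁, h₂]

/-- The sum of three hyperbolic planes. -/
abbrev qH3 (F : Type) [Field F] : (Fin 3 → F × F) → F := fun v => ∑ i, (v i).1 * (v i).2

/-- The sum of three planes with the form `x ^ 2 + x y + y ^ 2`. -/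
abbrev qA3 (F : Type) [Field F] : (Fin 3 → F × F) → F :=
  fun v => ∑ i, ((v i).1 ^ 2 + (v i).1 * (v i).2 + (v i).2 ^ 2)

theorem qdat_A3 : QDat (isoE (qA3 F)) := by
  let N : F × F → F := fun x => x.1 ^ 2 + x.1 * x.2 + x.2 ^ 2
  let s : isoE N := isoEInv (LinearEquiv.prodComm F F F).toLinearMap (fun _ => rfl) fun v => by
    simp only [N, LinearEquiv.coe_coe, LinearEquiv.prodComm_apply, Prod.fst_swap, Prod.snd_swap]
    ring
  let t : isoE N := isoEInv ((-LinearMap.fst F F F - LinearMap.snd F F F).prod (LinearMap.snd F F F))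
    (fun v => by ext <;> simp) fun v => by simp [N]; ring
  have hs : s * s = 1 := isoEInv_mul_self _ _ _
  have ht : t * t = 1 := isoEInv_mul_self _ _ _
  have hs' : ∀ v, ((s : (Module.End F (F × F))ˣ) : Module.End F (F × F)) v = (v.2, v.1) :=
    fun _ => rfl
  have ht' : ∀ v, ((t : (Module.End F (F × F))ˣ) : Module.End F (F × F)) v = (-v.1 - v.2, v.2) :=
    fun _ => rfl
  have h3 : (t * s) ^ 3 = 1 := isoE_ext fun v => by
    rw [pow_succ, pow_two]
    simp only [isoE_mul_apply, hs', ht']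
    ext <;> simp <;> ring
  have hne : t * s ≠ 1 := fun h => by
    have := congrArg (fun y : isoE N =>
      (((y : (Module.End F (F × F))ˣ) : Module.End F (F × F)) (1, 0)).2) h
    simp only [isoE_mul_apply, hs', ht'] at this
    simp at this
  have ho : orderOf (t * s) = 3 := orderOf_eq_prime h3 hne
  have hf : IsOfFinOrder (t * s) := orderOf_pos_iff.1 (by omega)
  have : Finite (zpowers (t * s)) := finite_zpowers.2 hf
  let _ : CommGroup (zpowers (t * s)) := IsCyclic.commGroup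
  refine qdat_of_plane (N := N) Nat.prime_three (by norm_num) (zpowers (t * s)).subtype
    Subtype.val_injective ?_ (by rw [Nat.card_zpowers, ho]) s hs ?_
  · rintro ⟨_, k, rfl⟩
    refine Subtype.ext ?_
    change ((t * s) ^ k) ^ 3 = 1
    rw [← zpow_natCast, ← zpow_mul, mul_comm, zpow_mul, zpow_natCast, h3, one_zpow]
  · rintro ⟨_, k, rfl⟩
    change s * (t * s) ^ k = ((t * s) ^ k)⁻¹ * s
    have : SemiconjBy s (t * s) (t * s)⁻¹ := by
      rw [SemiconjBy, mul_inv_rev, inv_eq_of_mul_eq_one_right hs, inv_eq_of_mul_eq_one_right ht,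
        mul_assoc]
    rw [← inv_zpow]
    exact this.zpow_right k

theorem qdat_H3_even [Fintype F] (h2 : (2 : F) = 0) (hq : Fintype.card F ≠ 2) :
    QDat (isoE (qH3 F)) := by
  classical
  let N : F × F → F := fun x => x.1 * x.2
  let s : isoE N := isoEInv (LinearEquiv.prodComm F F F).toLinearMap (fun _ => rfl) fun v =>
    mul_comm _ _
  have h1 : Fintype.card Fˣ ≠ 1 := by
    rw [Fintype.card_units]
    omega
  obtain ⟨p, hp, hd⟩ := Nat.exists_prime_and_dvd h1
  have : Fact p.Prime := ⟨hp⟩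
  obtain ⟨x, hx⟩ := exists_prime_orderOf_dvd_card p hd
  have hp2 : p ≠ 2 := by
    rintro rfl
    have h := pow_orderOf_eq_one x
    rw [hx] at h
    have h' : (x : F) ^ 2 = 1 := by simpa using congrArg Units.val h
    have : x = 1 := Units.ext (by
      have : ((x : F) - 1) ^ 2 = 0 := by linear_combination h' + (1 - (x : F)) * h2
      exact sub_eq_zero.1 (pow_eq_zero_iff two_ne_zero |>.1 this))
    rw [this, orderOf_one] at hx
    omega
  let φ : zpowers x →* Module.End F (F × F) :=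
    { toFun := fun t => (((t : Fˣ) : F) • LinearMap.id).prodMap ((((t : Fˣ)⁻¹ : Fˣ) : F) • LinearMap.id)
      map_one' := by ext <;> simp
      map_mul' := fun a b => by ext <;> simp [mul_comm] }
  have hφ : ∀ t v, φ t v = (((t : Fˣ) : F) * v.1, (((t : Fˣ)⁻¹ : Fˣ) : F) * v.2) := fun _ _ => rfl
  refine qdat_of_plane (N := N) hp hp2 (isoEOf φ fun t v => ?_)
    ((injective_iff_map_eq_one _).2 fun t ht => ?_) (fun t => ?_) (by rw [Nat.card_zpowers, hx]) s
    (isoEInv_mul_self _ _ _) fun t => isoE_ext fun v => ?_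
  · simp only [N, hφ]
    rw [mul_mul_mul_comm, Units.mul_inv, one_mul]
  · have := congrArg (fun y : isoE N =>
      (((y : (Module.End F (F × F))ˣ) : Module.End F (F × F)) (1, 0)).1) ht
    simp only [isoEOf_apply, hφ] at this
    exact Subtype.ext (Units.ext (by simpa using this))
  · rw [← hx, ← Nat.card_zpowers]
    exact pow_card_eq_one'
  · have hs' : ∀ v, ((s : (Module.End F (F × F))ˣ) : Module.End F (F × F)) v = (v.2, v.1) :=
      fun _ => rfl
    simp only [isoE_mul_apply, hs', isoEOf_apply, hφ]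
    simp

theorem qdat_H3_odd [Fintype F] (h2 : (2 : F) ≠ 0) : QDat (isoE (qH3 F)) := by
  obtain ⟨p, hp⟩ := CharP.exists F
  obtain ⟨n, hp', hn⟩ := FiniteField.card F p
  have hp2 : p ≠ 2 := by
    rintro rfl
    exact h2 (CharP.cast_eq_zero F 2)
  let E : (Fin 3 → F) → (Fin 3 → F × F) → Fin 3 → F × F := fun a v =>
    ![((v 0).1 - (a 0 * (v 1).2 + a 1 * (v 1).1 + a 2 * (v 2).2) - a 0 * a 1 * (v 0).2, (v 0).2),
      ((v 1).1 + a 0 * (v 0).2, (v 1).2 + a 1 * (v 0).2), ((v 2).1 + a 2 * (v 0).2, (v 2).2)]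
  have hE : ∀ a, IsLinearMap F (E a) := fun a =>
    ⟨fun v w => by ext i <;> fin_cases i <;> simp [E] <;> ring,
      fun c v => by ext i <;> fin_cases i <;> simp [E] <;> ring⟩
  let φ : Multiplicative (Fin 3 → F) →* Module.End F (Fin 3 → F × F) :=
    { toFun := fun a => (hE a.toAdd).mk' _
      map_one' := LinearMap.ext fun v => by ext i <;> fin_cases i <;> simp [E]
      map_mul' := fun a b => LinearMap.ext fun v => by
        ext i <;> fin_cases i <;> simp [E] <;> ring }
  have hφ : ∀ a v, φ a v = E a.toAdd v := fun _ _ => rfl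
  let D : (Fin 3 → F × F) → Fin 3 → F × F := fun v => ![v 0, -v 1, v 2]
  have hD : IsLinearMap F D :=
    ⟨fun v w => by ext i <;> fin_cases i <;> simp [D, add_comm],
      fun c v => by ext i <;> fin_cases i <;> simp [D]⟩
  let s : isoE (qH3 F) := isoEInv (hD.mk' D) (fun v => by ext i <;> fin_cases i <;> simp [D])
    fun v => by simp [D, Fin.sum_univ_three]
  let t : isoE (qH3 F) := isoEInv (LinearMap.funLeft F (F × F) (Equiv.swap 1 2))
    (fun v => by ext1 i; simp) fun v => Equiv.sum_comp (Equiv.swap 1 2) fun i => (v i).1 * (v i).2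
  have hm : s * (t * s * t) ∈ commutator (isoE (qH3 F)) :=
    qdat_mem_comm (isoEInv_mul_self _ _ _) (isoEInv_mul_self _ _ _)
  have hA : ∀ a : Multiplicative (Fin 3 → F), a ^ p = 1 := fun a => by
    change p • a.toAdd = 0
    ext i
    simp
  let u : Multiplicative (Fin 3 → F) →* isoE (qH3 F) := isoEOf φ fun a v => by
    simp [hφ, E, Fin.sum_univ_three]
    ring
  have hc : ∀ a, s * (t * s * t) * u a = u a⁻¹ * (s * (t * s * t)) := fun a => isoE_ext fun v => by
    change D (fun i => D (fun i => E a.toAdd v (Equiv.swap 1 2 i)) (Equiv.swap 1 2 i)) =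
      E (-a.toAdd) (D fun i => D (fun i => v (Equiv.swap 1 2 i)) (Equiv.swap 1 2 i))
    ext i <;> fin_cases i <;> simp [D, E, Equiv.swap_apply_def] <;> ring
  refine ⟨p, hp', hp2, Multiplicative (Fin 3 → F), inferInstance, inferInstance, u,
    (injective_iff_map_eq_one _).2 fun a ha => ?_, hA, ?_, _, _, fun a => a⁻¹, fun a => a⁻¹, hm, hm,
    hc, hc, fun a h _ => qdat_inv hp' hp2 hA h, fun B h _ a => ?_⟩
  · have : E a.toAdd (fun _ => (0, 1)) = fun _ => (0, 1) := congrArg (fun y : isoE (qH3 F) =>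
      ((y : (Module.End F (Fin 3 → F × F))ˣ) : Module.End F (Fin 3 → F × F)) fun _ => (0, 1)) ha
    have h₁ := congrFun this 1
    have h₂ := congrFun this 2
    change a.toAdd = 0
    ext i
    fin_cases i <;> simp_all [E]
  · rw [Nat.card_eq_fintype_card, Fintype.card_multiplicative, Fintype.card_fun, Fintype.card_fin,
      hn]
    exact Nat.pow_le_pow_left (Nat.le_self_pow n.ne_zero p) 3
  · obtain ⟨b, hb⟩ := qdat_sq hp' hp2 hA a
    exact hb ▸ h b

theorem QDat.plus_add {n : ℕ} (h : QDat (isoE (quadFormPlus n F))) (k : ℕ) :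
    QDat (isoE (quadFormPlus (n + k) F)) := by
  refine h.embed
    (fun u => Sum.elim (Fin.append (fun i => u (.inl i)) 0) (Fin.append (fun i => u (.inr i)) 0))
    (fun v => v ∘ Sum.map (Fin.castAdd k) (Fin.castAdd k)) ⟨fun u u' => ?_, fun c u => ?_⟩
    ⟨fun _ _ => rfl, fun _ _ => rfl⟩ (fun u => ?_) fun v u => ?_
  · ext (i | i) <;> induction i using Fin.addCases <;> simp
  · ext (i | i) <;> induction i using Fin.addCases <;> simp
  · ext (i | i) <;> simp
  · simp [quadFormPlus, Fin.sum_univ_add]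
    ring

theorem QDat.minus_add {n : ℕ} {a b : F} (h : QDat (isoE (quadFormMinus n F a b))) (k : ℕ) :
    QDat (isoE (quadFormMinus (n + k) F a b)) := by
  refine h.embed
    (fun u => Sum.elim (Sum.elim (Fin.append (fun i => u (.inl (.inl i))) 0)
      (Fin.append (fun i => u (.inl (.inr i))) 0)) fun i => u (.inr i))
    (fun v => v ∘ Sum.map (Sum.map (Fin.castAdd k) (Fin.castAdd k)) id)
    ⟨fun u u' => ?_, fun c u => ?_⟩ ⟨fun _ _ => rfl, fun _ _ => rfl⟩ (fun u => ?_) fun v u => ?_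
  · ext ((i | i) | i)
    · induction i using Fin.addCases <;> simp
    · induction i using Fin.addCases <;> simp
    · simp
  · ext ((i | i) | i)
    · induction i using Fin.addCases <;> simp
    · induction i using Fin.addCases <;> simp
    · simp
  · ext ((i | i) | i) <;> simp
  · simp [quadFormMinus, Fin.sum_univ_add]
    ring

theorem QDat.plus_odd {n : ℕ} (h : QDat (isoE (quadFormPlus n F))) :
    QDat (isoE (quadFormOdd n F)) := by
  refine h.embed (fun u => Sum.elim 0 u) (fun v => v ∘ Sum.inr) ⟨fun u u' => ?_, fun c u => ?_⟩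
    ⟨fun _ _ => rfl, fun _ _ => rfl⟩ (fun u => rfl) fun v u => ?_
  · ext (i | i) <;> simp
  · ext (i | i) <;> simp
  · simp [quadFormPlus, quadFormOdd]
    ring

theorem QDat.plus_minus {n : ℕ} (h : QDat (isoE (quadFormPlus n F))) (a b : F) :
    QDat (isoE (quadFormMinus n F a b)) := by
  refine h.embed (fun u => Sum.elim u 0) (fun v => v ∘ Sum.inl) ⟨fun u u' => ?_, fun c u => ?_⟩
    ⟨fun _ _ => rfl, fun _ _ => rfl⟩ (fun u => rfl) fun v u => ?_
  · ext (i | i) <;> simp
  · ext (i | i) <;> simp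
  · simp [quadFormPlus, quadFormMinus]
    ring

theorem QDat.H3_plus (h : QDat (isoE (qH3 F))) {m : ℕ} (hm : 3 ≤ m) :
    QDat (isoE (quadFormPlus m F)) := by
  obtain ⟨k, rfl⟩ := Nat.exists_eq_add_of_le hm
  refine QDat.plus_add (h.embed (fun u => Sum.elim (fun i => (u i).1) fun i => (u i).2)
    (fun v i => (v (.inl i), v (.inr i))) ⟨fun u u' => ?_, fun c u => ?_⟩
    ⟨fun _ _ => rfl, fun _ _ => rfl⟩ (fun u => rfl) fun v u => ?_) k
  · ext (i | i) <;> simp
  · ext (i | i) <;> simp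
  · simp [quadFormPlus, qH3, add_comm]

theorem qdat_minus_two (h2 : (2 : F) = 0) : QDat (isoE (quadFormMinus 2 F 1 1)) := by
  refine qdat_A3.embed
    (fun u => Sum.elim (Sum.elim ![(u 0).1 + (u 0).2 + (u 1).2, (u 0).2 + (u 1).1 + (u 1).2]
      ![(u 0).1 + (u 1).2, (u 0).2 + (u 1).1]) ![(u 2).1, (u 2).2])
    (fun v => ![(v (.inl (.inr 0)) + v (.inl (.inl 1)) + v (.inl (.inr 1)),
        v (.inl (.inl 0)) + v (.inl (.inr 0))),
      (v (.inl (.inr 1)) + v (.inl (.inl 0)) + v (.inl (.inr 0)),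
        v (.inl (.inl 1)) + v (.inl (.inr 1))), (v (.inr 0), v (.inr 1))])
    ⟨fun u u' => ?_, fun c u => ?_⟩ ⟨fun u u' => ?_, fun c u => ?_⟩ (fun u => ?_) fun v u => ?_
  · ext ((i | i) | i) <;> fin_cases i <;> simp <;> ring
  · ext ((i | i) | i) <;> fin_cases i <;> simp <;> ring
  · ext i <;> fin_cases i <;> simp <;> ring
  · ext i <;> fin_cases i <;> simp <;> ring
  · ext i <;> fin_cases i <;> simp <;> grind
  · simp [quadFormMinus, Fin.sum_univ_three, Matrix.vecHead, Matrix.vecTail]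
    grind

theorem QDat.minus_plus (h2 : (2 : F) = 0) (h : QDat (isoE (quadFormMinus 2 F 1 1))) :
    QDat (isoE (quadFormPlus 4 F)) := by
  refine h.embed
    (fun u => Sum.elim
      ![u (.inl (.inl 0)), u (.inl (.inl 1)), u (.inr 0) + u (.inr 1), u (.inr 1)]
      ![u (.inl (.inr 0)), u (.inl (.inr 1)), u (.inr 0), u (.inr 1)])
    (fun v => Sum.elim (Sum.elim ![v (.inl 0), v (.inl 1)] ![v (.inr 0), v (.inr 1)])
      ![v (.inr 2) + v (.inl 3) + v (.inr 3), v (.inl 2) + v (.inr 2)])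
    ⟨fun u u' => ?_, fun c u => ?_⟩ ⟨fun u u' => ?_, fun c u => ?_⟩ (fun u => ?_) fun v u => ?_
  · ext (i | i) <;> fin_cases i <;> simp <;> ring
  · ext (i | i) <;> fin_cases i <;> simp <;> ring
  · ext ((i | i) | i) <;> fin_cases i <;> simp <;> ring
  · ext ((i | i) | i) <;> fin_cases i <;> simp <;> ring
  · ext ((i | i) | i) <;> fin_cases i <;> simp <;> grind
  · simp [quadFormMinus, quadFormPlus, Fin.sum_univ_four, Matrix.vecHead, Matrix.vecTail]
    grind

theorem qdat_plus [Fintype F] {m : ℕ} (hm : 4 ≤ m) : QDat (isoE (quadFormPlus m F)) := by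
  by_cases h2 : (2 : F) = 0
  · obtain ⟨k, rfl⟩ := Nat.exists_eq_add_of_le hm
    exact ((qdat_minus_two h2).minus_plus h2).plus_add k
  · exact (qdat_H3_odd h2).H3_plus (by omega)

theorem qdat_odd [Fintype F] {m : ℕ} (hm : 3 ≤ m) (hq : Odd (Fintype.card F)) :
    QDat (isoE (quadFormOdd m F)) := by
  refine ((qdat_H3_odd fun h2 => ?_).H3_plus hm).plus_odd
  have : CharP F 2 := CharTwo.of_one_ne_zero_of_two_eq_zero one_ne_zero h2
  have := FiniteField.even_card_of_char_two (ringChar.eq F 2)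
  obtain ⟨k, hk⟩ := hq
  omega

theorem qdat_minus [Fintype F] {m : ℕ} (hm : 3 ≤ m) {a b : F}
    (hab : ∀ z₁ z₂ : F, z₁ ^ 2 + a * z₁ * z₂ + b * z₂ ^ 2 = 0 → z₁ = 0 ∧ z₂ = 0) :
    QDat (isoE (quadFormMinus m F a b)) := by
  by_cases h2 : (2 : F) = 0
  · by_cases hq : Fintype.card F = 2
    · have h01 : ∀ x : F, x ≠ 0 → x = 1 := fun x hx => by
        simpa [hq] using FiniteField.pow_card_sub_one_eq_one x hx
      obtain rfl : b = 1 := h01 b fun h => one_ne_zero (hab 0 1 (by simp [h])).2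
      obtain rfl : a = 1 := h01 a fun h => one_ne_zero (hab 1 1 (by
        rw [h]; linear_combination h2)).2
      obtain ⟨k, rfl⟩ := Nat.exists_eq_add_of_le (show 2 ≤ m by omega)
      exact (qdat_minus_two h2).minus_add k
    · exact ((qdat_H3_even h2 hq).H3_plus hm).plus_minus a b
  · exact ((qdat_H3_odd h2).H3_plus hm).plus_minus a b

end Lin

theorem fat_of_pomegaOdd {S : Type*} [Group S] (h : IsPOmegaOdd S) : Fat S := by
  obtain ⟨F, _, _, m, hm, hq, ⟨e⟩⟩ := h
  exact (qdat_odd hm hq).pomega e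

theorem fat_of_pomegaPlus {S : Type*} [Group S] (h : IsPOmegaPlus S) : Fat S := by
  obtain ⟨F, _, _, m, hm, ⟨e⟩⟩ := h
  exact (qdat_plus hm).pomega e

theorem fat_of_pomegaMinus {S : Type*} [Group S] (h : IsPOmegaMinus S) : Fat S := by
  obtain ⟨F, _, _, m, a, b, hm, hab, ⟨e⟩⟩ := h
  exact (qdat_minus (by omega) hab).pomega e

universe u

theorem listFor_pomegaOdd : ListFor.{u} (fun S _ => IsPOmegaOdd S) :=
  fun _ _ _ _ _ h => Or.inr (fat_of_pomegaOdd h)

theorem listFor_pomegaPlus : ListFor.{u} (fun S _ => IsPOmegaPlus S) :=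
  fun _ _ _ _ _ h => Or.inr (fat_of_pomegaPlus h)

theorem listFor_pomegaMinus : ListFor.{u} (fun S _ => IsPOmegaMinus S) :=
  fun _ _ _ _ _ h => Or.inr (fat_of_pomegaMinus h)

end Cfsg.Agent.H26
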