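import Cfsg.Agent.H26.RfFgA
import Cfsg.Agent.H18.RfSc
import Cfsg.Agent.H42.Local

/-! Project RF, piece FG1. -/

set_option autoImplicit false
set_option maxRecDepth 100000

namespace Cfsg.Agent.H26.RfFg

open Cfsg Subgroup Cfsg.Agent.H18.MaxOff Cfsg.Agent.H18.Rf MulAction
open Cfsg.Agent.H48 (IsWord)
open Cfsg.Agent.H49 (XS)
open Cfsg.Agent.H49.Rk
open Cfsg.Agent.H42
open scoped symmDiff Pointwise

universe u

/-- the configuration -/
structure Cf (O : Finset GolayPt) (A : Subgroup M24) (T : Finset (Finset GolayPt)) : Prop where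
  sq : ∀ a ∈ A, a * a = 1
  fx : ∀ a ∈ A, a • O = O
  oc : ∀ c ∈ T, c ∈ octads ∧ c ≠ O ∧ (c ∆ O).card ≠ 12
  act : ∀ a ∈ A, ∀ c ∈ T, a • c = c ∨ a • c = c ∆ O ∨ a • c = (c ∆ O)ᶜ
  mv : ∀ c ∈ T, ∃ a ∈ A, a • c ≠ c
  big : 16 ≤ Nat.card A
  cnt : 512 ≤ Nat.card A * (T.card + 2)
  fa : Nat.card A ≤ 16 → ∀ a ∈ A, (∀ c ∈ T, a • c = c) → a = 1

theorem msd (g : M24) (s t : Finset GolayPt) : g • (s ∆ t) = (g • s) ∆ (g • t) :=
  H42.smul_symmDiff g s t

theorem Cf.conj {O : Finset GolayPt} {A : Subgroup M24} {T : Finset (Finset GolayPt)}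
    (h : Cf O A T) (g : M24) : Cf (g • O) (cj g A) (T.image (g • ·)) := by
  classical
  refine ⟨fun a ha => ?_, fun a ha => ?_, ?_, ?_, ?_, by rw [card_cj]; exact h.big, ?_, ?_⟩
  · have := h.sq _ (mem_cj.1 ha)
    calc a * a = g * (g⁻¹ * a * g * (g⁻¹ * a * g)) * g⁻¹ := by group
      _ = 1 := by rw [this]; group
  · have := h.fx _ (mem_cj.1 ha)
    rwa [mul_smul, mul_smul, inv_smul_eq_iff] at this
  · intro c hc
    obtain ⟨d, hd, rfl⟩ := Finset.mem_image.1 hc
    obtain ⟨h1, h2, h3⟩ := h.oc d hd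
    refine ⟨(msmul_mem_octads_iff g).2 h1, fun e => h2 (smul_left_cancel g e), ?_⟩
    rwa [← msd, Finset.card_smul_finset]
  · intro a ha c hc
    obtain ⟨d, hd, rfl⟩ := Finset.mem_image.1 hc
    have := h.act _ (mem_cj.1 ha) d hd
    simp only [mul_smul, inv_smul_eq_iff] at this
    rwa [← msd, ← msmul_compl]
  · intro c hc
    obtain ⟨d, hd, rfl⟩ := Finset.mem_image.1 hc
    obtain ⟨a, ha, hne⟩ := h.mv d hd
    refine ⟨g * a * g⁻¹, mem_cj.2 (by simpa [mul_assoc] using ha), fun e => hne ?_⟩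
    rw [mul_smul, inv_smul_smul, mul_smul] at e
    exact smul_left_cancel g e
  · rw [card_cj, Finset.card_image_of_injective _ (MulAction.injective g)]
    exact h.cnt
  · intro h1 a ha h2
    rw [card_cj] at h1
    have := h.fa h1 _ (mem_cj.1 ha) fun c hc => by
      rw [mul_smul, mul_smul, inv_smul_eq_iff]
      exact h2 _ (Finset.mem_image_of_mem _ hc)
    calc a = g * (g⁻¹ * a * g) * g⁻¹ := by group
      _ = 1 := by rw [this]; group

theorem core0 {A : Subgroup M24} {T : Finset (Finset GolayPt)} (h : Cf (toSet oct0) A T)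
    (hP : A ≤ P24) : (∀ a ∈ A, ∀ p ∈ toSet oct0, a • p = p) ∧
      ∀ c ∈ octads, Disjoint c (toSet oct0) → c ∈ T := by
  classical
  have h0 := chkM0
  simp only [Bool.and_eq_true, beq_iff] at h0
  obtain ⟨⟨⟨⟨⟨⟨-, -⟩, k2⟩, -⟩, -⟩, k5⟩, k6⟩ := h0
  have tab := tab_of k5 k2 chkM1
  have hin : ∀ i ≤ 191, inM (fld 120 ipM i) = true := fun i hi => inM_of_injF k5 hi
  have hA : ∀ a ∈ A, ∃ i ≤ 191, toM (fld 120 ipM i) = a := by
    intro a ha
    obtain ⟨y, hy, e, p⟩ := forall_gen inM_gensP24 k6 (P24_eq ▸ hP ha)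
    have e1 : pmul y y = pid := toM_inj (inM_pmul hy hy) inM_pid (by
      rw [toM_pmul hy hy, e, toM_pid]; exact h.sq _ ha)
    have e2 : img y 0 = 0 := (toM_mem_stabilizer_toSet hy (by norm_num)).1 (by
      rw [toSet_zero]; exact Finset.smul_finset_empty _)
    rw [covF, e1, e2, Nat.beq_refl, Nat.beq_refl] at p
    obtain ⟨i, hi, x⟩ := anyB_iff.1 ((Bool.false_or _).symm.trans p)
    exact ⟨i, Nat.le_of_lt_succ hi, by rw [beq_iff.1 x]; exact e⟩
  obtain ⟨gs, Hl, ok, l1, l2, hc⟩ := dfs2_root tab h.sq hA (ok := okG) rfl chkS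
  have hT : ∀ c ∈ T, ∃ k < 310, toSet (fld 24 cT k) = c := by
    intro c hc
    obtain ⟨h1, h2, h3⟩ := h.oc c hc
    obtain ⟨m, hm, rfl⟩ := (mem_codeSets_iff_enc c).1 h1.1
    have hl := isCode_lt (isCode_enc hm)
    have := of_allB chkC hm
    rw [force_eq, (toSet_mem_octads_iff' (isCode_enc hm)).1 h1] at this
    simp only [Bool.or_eq_true, beq_iff, Nat.beq_refl, Bool.not_true, Bool.false_eq_true,
      false_or] at this
    rcases this with e | e | e
    · exact absurd (by rw [e]) h2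
    · rw [← toSet_xor] at h3
      exact absurd ((card_toSet (Nat.xor_lt_two_pow hl oct0_lt)).trans e) h3
    · obtain ⟨k, hk, e⟩ := anyB_iff.1 e
      exact ⟨k, hk, by rw [beq_iff.1 e]⟩
  have htab : ∀ i ≤ 191, ∀ k < 310,
      ((fld 310 fT i).testBit k = true → toM (fld 120 ipM i) • toSet (fld 24 cT k) =
        toSet (fld 24 cT k)) ∧
      (toM (fld 120 ipM i) ∈ A → toSet (fld 24 cT k) ∈ T → (fld 310 dT i).testBit k = true) := by
    intro i hi k hk
    have := of_allB chkT (Nat.lt_succ_of_le hi)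
    rw [tabF, force_eq, force_eq, force_eq] at this
    have := of_allB this hk
    rw [force_eq, force_eq, tb_eq, tb_eq] at this
    simp only [Bool.and_eq_true, Bool.or_eq_true, Bool.not_eq_true', Bool.or_eq_false_iff,
      beq_iff, beq_false_iff] at this
    obtain ⟨t1, t2⟩ := this
    have hl := fld_lt 24 cT k
    have hy := img_lt (inM_isPerm (hin i hi)) (fld 24 cT k)
    refine ⟨fun e => ?_, fun ha hc => ?_⟩
    · rw [toM_smul_toSet (hin i hi), t1.resolve_left (by simp [e])]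
    · refine t2.resolve_right fun ⟨n1, n2, n3⟩ => ?_
      have := h.act _ ha _ hc
      rw [toM_smul_toSet (hin i hi), ← toSet_xor, ← toSet_compl] at this
      have hx := Nat.xor_lt_two_pow hl oct0_lt
      rcases this with e | e | e
      · exact n1 (toSet_inj hy hl e)
      · exact n2 (toSet_inj hy hx e)
      · exact n3 (toSet_inj hy (Nat.xor_lt_two_pow hx (by norm_num)) e)
  have hd : ∀ k < 310, toSet (fld 24 cT k) ∈ T → (meet dT Hl).testBit k = true := fun k hk hc =>
    (testBit_meet _ _ hk).2 fun a ha => (htab a (l1 a ha) k hk).2 ((l2 a (l1 a ha)).2 ha) hc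
  have hf : ∀ k < 310, toSet (fld 24 cT k) ∈ T → (meet fT Hl).testBit k = false := by
    intro k hk hc
    by_contra e
    rw [Bool.not_eq_false, testBit_meet _ _ hk] at e
    obtain ⟨a, ha, hne⟩ := h.mv _ hc
    obtain ⟨i, hi, rfl⟩ := hA a ha
    exact hne ((htab i hi k hk).1 (e i ((l2 i hi).1 ha)))
  have hb := h.big
  have hn := h.cnt
  rw [okG, force_eq, force_eq, force_eq] at ok
  simp only [Bool.or_eq_true, Bool.and_eq_true, ble_iff, beq_iff] at ok
  rcases ok with e | e | ⟨e, ok⟩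
  · have := Nat.pow_le_pow_right (n := 2) (by norm_num) e
    omega
  · exfalso
    have h1 : T ⊆ ((Finset.range 310).filter fun k =>
        Bool.and (tb (meet dT Hl) k) (Bool.not (tb (meet fT Hl) k)) = true).image
        fun k => toSet (fld 24 cT k) := by
      intro c hc
      obtain ⟨k, hk, rfl⟩ := hT c hc
      refine Finset.mem_image.2 ⟨k, Finset.mem_filter.2 ⟨Finset.mem_range.2 hk, ?_⟩, rfl⟩
      rw [tb_eq, tb_eq, hd k hk hc, hf k hk hc]
      rfl
    have h2 := (Finset.card_le_card h1).trans Finset.card_image_le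
    rw [← cnt_eq_card] at h2
    have h3 := Nat.mul_le_mul_left (2 ^ gs.length) (Nat.add_le_add_right h2 2)
    rw [hc] at hn
    exact absurd (hn.trans (h3.trans e)) (by norm_num)
  rw [e] at hc
  rw [hc] at hn
  rcases ok with ok | ⟨o1, o2⟩
  · exfalso
    obtain ⟨j, hj, o⟩ := anyL_iff.1 ok
    rw [Bool.and_eq_true, ble_iff, beq_iff] at o
    have := h.fa (by rw [hc]; norm_num) _ ((l2 j (l1 j hj)).2 hj) fun c hc => by
      obtain ⟨k, hk, rfl⟩ := hT c hc
      have h1 := hd k hk hc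
      rw [← o.2] at h1
      exact (htab j (l1 j hj) k hk).1
        (Bool.and_eq_true_iff.1 ((Nat.testBit_and _ _ k).symm.trans h1)).2
    have := tab.inj j (l1 j hj) 191 le_rfl (this.trans tab.one.symm)
    omega
  refine ⟨fun a ha p hp => ?_, fun c hc hdj => ?_⟩
  · obtain ⟨i, hi, rfl⟩ := hA a ha
    have := allL_iff.1 o1 i ((l2 i hi).1 ha)
    rw [fixO, force_eq] at this
    have := of_allB this (idx_lt p)
    rw [tb_eq, mem_toSet.1 hp, Bool.not_true, Bool.false_or, beq_iff] at this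
    conv_lhs => rw [← pt_idx p]
    rw [toM_smul_pt (hin i hi) (idx_lt p), this, pt_idx]
  · have h1 : T ⊆ (Finset.range 30).image fun k => toSet (fld 24 cT k) := by
      intro c hc
      obtain ⟨k, hk, rfl⟩ := hT c hc
      refine Finset.mem_image.2 ⟨k, Finset.mem_range.2 ?_, rfl⟩
      by_contra k30
      have h2 : meet dT Hl < 2 ^ k :=
        lt_of_lt_of_le (by omega) (Nat.pow_le_pow_right (n := 2) (by norm_num) (not_lt.1 k30))
      have := hd k hk hc
      rw [Nat.testBit_lt_two_pow h2] at this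
      exact Bool.false_ne_true this
    have h2 : ((Finset.range 30).image fun k => toSet (fld 24 cT k)).card ≤ T.card := by
      refine Finset.card_image_le.trans ?_
      rw [Finset.card_range]
      omega
    rw [Finset.eq_of_subset_of_card_le h1 h2]
    obtain ⟨m, hm, rfl⟩ := (mem_codeSets_iff_enc c).1 hc.1
    have hl := isCode_lt (isCode_enc hm)
    have := of_allB chkD hm
    have h3 : Nat.land (enc m) oct0 = 0 := by
      apply toSet_inj (land_lt _ hl) (by norm_num)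
      rw [toSet_land, toSet_zero]
      exact Finset.disjoint_iff_inter_eq_empty.1 hdj
    rw [force_eq, (toSet_mem_octads_iff' (isCode_enc hm)).1 hc, h3] at this
    obtain ⟨k, hk, e⟩ := anyB_iff.1 (by simpa using this)
    exact Finset.mem_image.2 ⟨k, Finset.mem_range.2 hk, by rw [beq_iff.1 e]⟩

theorem core {O : Finset GolayPt} (hO : O ∈ octads) {A : Subgroup M24}
    {T : Finset (Finset GolayPt)} (h : Cf O A T) :
    (∀ a ∈ A, ∀ p ∈ O, a • p = p) ∧ ∀ c ∈ octads, Disjoint c O → c ∈ T := by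
  classical
  have : Fact (Nat.Prime 2) := ⟨Nat.prime_two⟩
  obtain ⟨g, rfl⟩ := exists_smul_oct0 hO
  have h1 := h.conj g⁻¹
  rw [inv_smul_smul] at h1
  obtain ⟨k, hk, hk'⟩ := exists_conj_le_of_isPGroup (p := 2) (a := 10)
    (stabilizer M24 (toSet oct0)) P24 (cj g⁻¹ A) (fun _ h => h.1.1.1.2) (by rw [card_P24]; norm_num)
    (by rw [card_stab_octad oct0_mem]; norm_num) h1.fx (isPGroup_of_sq h1.sq)
  have h2 := h1.conj k
  rw [show k • toSet oct0 = toSet oct0 from hk] at h2
  obtain ⟨c1, c2⟩ := core0 h2 fun x hx => by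
    have := hk' _ (mem_cj.1 hx)
    simpa [mul_assoc] using this
  have hm : ∀ p, p ∈ g • toSet oct0 ↔ k • g⁻¹ • p ∈ toSet oct0 := fun p => by
    conv_rhs => rw [← show k • toSet oct0 = toSet oct0 from hk]
    rw [Finset.smul_mem_smul_finset_iff, Finset.inv_smul_mem_iff]
  refine ⟨fun a ha p hp => ?_, fun c hc hd => ?_⟩
  · have := c1 (k * (g⁻¹ * a * g) * k⁻¹) (mem_cj.2 (mem_cj.2 (by simpa [mul_assoc] using ha))) _
      ((hm p).1 hp)
    simp only [mul_smul, inv_smul_smul, smul_inv_smul] at this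
    exact smul_left_cancel _ (smul_left_cancel _ this)
  · have := c2 (k • g⁻¹ • c) ((msmul_mem_octads_iff _).2 ((msmul_mem_octads_iff _).2 hc)) (by
      rw [Finset.disjoint_left] at hd ⊢
      intro p hp hq
      refine hd (a := g • k⁻¹ • p) ?_ ((hm _).2 (by simpa using hq))
      rwa [← Finset.inv_smul_mem_iff, ← Finset.inv_smul_mem_iff, inv_inv] at hp)
    obtain ⟨d, hd, e⟩ := Finset.mem_image.1 this
    obtain ⟨d', hd', rfl⟩ := Finset.mem_image.1 hd
    rwa [← smul_left_cancel _ (smul_left_cancel _ e)]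

theorem fg1 : Fg1Stmt.{u} := by
  intro G _ _ V ρ ψ hS hG O hO Q hX hc hQ hD
  classical
  have hcomp : ∀ c, IsWord c → ψ cᶜ = ψ c := fun c hc => by
    have := hG.add c Finset.univ hc H48.isWord_univ
    rw [(hG.ker _ H48.isWord_univ).2 (Or.inr rfl), mul_one] at this
    rw [← this]
    congr 1
    ext p
    simp [Finset.mem_symmDiff]
  have hinj : ∀ c d, IsWord c → IsWord d → ψ c = ψ d → c = d ∨ c = dᶜ := fun c d hc hd e => by
    have h7 := hG.add _ _ hc hd
    rw [e, hS.el _ (hG.mem d hd), hG.ker _ (hc.symmDiff hd)] at h7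
    rcases h7 with e | e
    · exact Or.inl (symmDiff_eq_bot.1 e)
    · right
      rw [← symmDiff_symmDiff_cancel_right d c, e]
      ext p
      simp [Finset.mem_symmDiff]
  have hinj8 : ∀ c ∈ octads, ∀ d ∈ octads, ψ c = ψ d → c = d := fun c hc d hd e => by
    refine (hinj c d hc.1 hd.1 e).resolve_right fun e' => ?_
    have := congrArg Finset.card e'
    rw [Finset.card_compl, card_pt, hc.2, hd.2] at this
    omega
  let f : Q →* M24 := ρ.comp (inclusion hQ)
  have hact : ∀ (x : Q) c, IsWord c → x * ψ c * (x : G)⁻¹ = ψ (f x • c) := fun x c hc =>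
    hG.act ⟨x, hQ x.2⟩ c hc
  have hker : ∀ x : Q, f x = 1 ↔ (x : G) ∈ V := fun x => hS.ker ⟨x, hQ x.2⟩
  have zV : ψ O ∈ V := hG.mem O hO.1
  let T := Finset.univ.filter fun c => c ∈ octads ∧ ψ c ∈ Q ∧ c ≠ O
  have hT : ∀ c, c ∈ T ↔ c ∈ octads ∧ ψ c ∈ Q ∧ c ≠ O := fun c => by simp [T]
  have hB : ∀ b ∈ Q ⊓ V, b = 1 ∨ b = ψ O ∨ ∃ c ∈ T, ψ c = b := by
    rintro b ⟨b1, b2⟩
    obtain ⟨c, hc, rfl⟩ := hG.sur b b2
    have key : ∀ d ∈ octads, ψ d = ψ c → ψ c = 1 ∨ ψ c = ψ O ∨ ∃ c' ∈ T, ψ c' = ψ c :=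
      fun d hd e => by
        by_cases e' : d = O
        · exact Or.inr (Or.inl (by rw [← e, e']))
        · exact Or.inr (Or.inr ⟨d, (hT d).2 ⟨hd, e ▸ b1, e'⟩, e⟩)
    rcases hc.card_cases with h | h | h | h | h
    · exact Or.inl ((hG.ker c hc).2 (Or.inl (Finset.card_eq_zero.1 h)))
    · exact key c ⟨hc, h⟩ rfl
    · exact absurd b1 (hD c ⟨hc, h⟩)
    · exact key cᶜ ⟨hc.compl, by rw [Finset.card_compl, card_pt, h]⟩ (hcomp c hc)
    · exact Or.inl ((hG.ker c hc).2 (Or.inr (Finset.eq_univ_of_card c (h.trans card_pt.symm))))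
  have c1 : Nat.card ↥(Q ⊓ V) ≤ T.card + 2 := by
    have h1 : ((Q ⊓ V : Subgroup G) : Set G) ⊆ (insert 1 (insert (ψ O) (T.image ψ)) : Finset G) := by
      intro b hb
      simpa using hB b hb
    have h2 := Set.ncard_le_ncard h1 (Set.toFinite _)
    rw [Set.ncard_coe_finset] at h2
    have h3 := Finset.card_insert_le (1 : G) (insert (ψ O) (T.image ψ))
    have h4 := Finset.card_insert_le (ψ O) (T.image ψ)
    have h5 := Finset.card_image_le (s := T) (f := ψ)
    have h6 := Nat.card_coe_set_eq ((Q ⊓ V : Subgroup G) : Set G)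
    rw [SetLike.coe_sort_coe] at h6
    omega
  have c2 : Nat.card ↥(Q ⊓ V) * Nat.card f.range = 512 := by
    have h5 := f.ker.card_mul_index
    rw [index_ker, hc] at h5
    have : f.ker = (Q ⊓ V).subgroupOf Q := by
      ext x
      rw [MonoidHom.mem_ker, hker, mem_subgroupOf]
      exact ⟨fun h => ⟨x.2, h⟩, fun h => h.2⟩
    rw [this, Nat.card_congr (subgroupOfEquivOfLe inf_le_left).toEquiv] at h5
    exact h5
  have c3 := hX.card_mul_card_centralizer_of_mem (U := Q ⊓ V) inf_le_left ⟨hX.mem, zV⟩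
  rw [hc] at c3
  have hle : Q ⊓ V ≤ Q ⊓ centralizer ((Q ⊓ V : Subgroup G) : Set G) := fun x hx =>
    ⟨hx.1, fun y hy => (hS.cen.symm ▸ hx.2 : x ∈ CC V) y hy.2⟩
  have c4 := card_le_of_le hle
  have cf : Cf O f.range T := by
    refine ⟨?_, ?_, fun c hc => ?_, ?_, fun c hc => ?_, ?_, ?_, ?_⟩
    · rintro _ ⟨x, rfl⟩
      rw [← map_mul, hker]
      rcases hX.sq x.2 with e | e
      · exact (show (x : G) * x ∈ V from e ▸ one_mem V)
      · exact (show (x : G) * x ∈ V from e ▸ zV)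
    · rintro _ ⟨x, rfl⟩
      refine hinj8 _ ((msmul_mem_octads_iff _).2 hO) _ hO ?_
      rw [← hact x O hO.1, hX.cen x x.2, mul_inv_cancel_right]
    · obtain ⟨h1, h2, h3⟩ := (hT c).1 hc
      refine ⟨h1, h3, fun e => hD (c ∆ O) ⟨IsWord.symmDiff h1.1 hO.1, e⟩ ?_⟩
      rw [hG.add c O h1.1 hO.1]
      exact mul_mem h2 hX.mem
    · rintro _ ⟨x, rfl⟩ c hc
      obtain ⟨h1, h2, -⟩ := (hT c).1 hc
      have h4 := (msmul_mem_octads_iff (f x)).2 h1
      rcases hX.conj x.2 h2 with e | e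
      · exact Or.inl (hinj8 _ h4 _ h1 ((hact x c h1.1).symm.trans e))
      · exact Or.inr (hinj _ _ h4.1 (IsWord.symmDiff h1.1 hO.1)
          ((hact x c h1.1).symm.trans (e.trans (hG.add c O h1.1 hO.1).symm)))
    · obtain ⟨h1, h2, h3⟩ := (hT c).1 hc
      obtain ⟨y, hy, e⟩ := hX.exists_conj_eq_mul_z h2 (fun e => by
        rcases (hG.ker c h1.1).1 e with e | e
        · have := h1.2
          rw [e] at this
          exact absurd this (by simp)
        · have := h1.2
          rw [e, Finset.card_univ, card_pt] at this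
          omega) fun e => h3 (hinj8 _ h1 _ hO e)
      refine ⟨f ⟨y, hy⟩, ⟨_, rfl⟩, fun e' => hX.mul_z_ne (ψ c) ?_⟩
      have := hact ⟨y, hy⟩ c h1.1
      rw [e'] at this
      exact e.symm.trans this
    · by_contra h
      have h1 : 33 ≤ Nat.card ↥(Q ⊓ V) := by
        by_contra h2
        have := Nat.mul_le_mul (show Nat.card ↥(Q ⊓ V) ≤ 32 by omega)
          (show Nat.card f.range ≤ 15 by omega)
        omega
      have := Nat.mul_le_mul h1 (h1.trans c4)
      omega
    · rw [← c2, mul_comm]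
      exact Nat.mul_le_mul_left _ c1
    · rintro h _ ⟨x, rfl⟩ hx
      have h1 : 32 ≤ Nat.card ↥(Q ⊓ V) := by
        by_contra h2
        have := Nat.mul_le_mul (show Nat.card ↥(Q ⊓ V) ≤ 31 by omega) h
        omega
      have h2 : Nat.card ↥(Q ⊓ centralizer ((Q ⊓ V : Subgroup G) : Set G)) ≤ 32 := by
        by_contra h2
        have := Nat.mul_le_mul h1 (not_le.1 h2)
        omega
      have h3 := eq_of_le_of_card_ge hle (h2.trans h1)
      rw [hker]
      refine (h3.ge (show (x : G) ∈ _ from ⟨x.2, fun b hb => ?_⟩)).2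
      rcases hB b hb with rfl | rfl | ⟨c, hc, rfl⟩
      · simp
      · exact (hX.cen x x.2).symm
      · have := hact x c ((hT c).1 hc).1.1
        rw [hx c hc, mul_inv_eq_iff_eq_mul] at this
        exact this.symm
  obtain ⟨k1, k2⟩ := core hO cf
  refine ⟨fun n hn p hp => k1 _ ⟨⟨n, hn⟩, rfl⟩ p hp, fun c hc hd => ?_⟩
  have h1 := Finset.card_union_of_disjoint hd
  have h2 := Finset.card_le_univ (c ∪ O)
  rw [card_pt] at h2
  have h3 := hO.2
  rcases hc.card_cases with h | h | h | h | h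
  · rw [(hG.ker c hc).2 (Or.inl (Finset.card_eq_zero.1 h))]
    exact one_mem _
  · exact ((hT c).1 (k2 c ⟨hc, h⟩ hd)).2.1
  · have := (IsWord.symmDiff hc hO.1).card_cases
    rw [Disjoint.symmDiff_eq_sup hd, Finset.sup_eq_union] at this
    omega
  · have : O = cᶜ := Finset.eq_of_subset_of_card_le
      (Finset.subset_compl_iff_disjoint_left.2 hd) (by rw [Finset.card_compl, card_pt]; omega)
    rw [← hcomp c hc, ← this]
    exact hX.mem
  · omega

end Cfsg.Agent.H26.RfFg
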