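import Mathlib
import Cfsg.Agent.H41.S6Kit2

/-!
# `C(t) = 2 × Sp₆(2)`: common lemmas for the case `η = β = true`
-/

set_option autoImplicit false
set_option maxRecDepth 100000
set_option linter.unusedSectionVars false

namespace Cfsg.Agent.H26.S6X

open Cfsg Subgroup
open Cfsg.Agent.H44 Cfsg.Agent.H55.Sp6 Cfsg.Agent.H2.L3E Cfsg.Agent.H41.S6

universe u

theorem A_gen {S : Subgroup Sp} (h1 : g 1 ∈ S) (h2 : g 2 ∈ S) (h4 : g 4 ∈ S) (h8 : a12 ∈ S)
    (h16 : a13 ∈ S) (h32 : a23 ∈ S) : A ≤ S := by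
  intro a ha
  obtain ⟨c, -, rfl⟩ := A_par.mp ha
  have f : ∀ (p : Prop) [Decidable p] (l : List ℕ), ev g l ∈ S →
      ev g (if p then l else []) ∈ S := fun p _ l hl => by
    split_ifs
    · exact hl
    · exact one_mem _
  rw [g_eq] at h1 h2 h4
  rw [ac, aw, ev_append, ev_append, ev_append, ev_append, ev_append]
  exact mul_mem (f _ _ h1) (mul_mem (f _ _ h2) (mul_mem (f _ _ h4) (mul_mem (f _ _ h8)
    (mul_mem (f _ _ h16) (f _ _ h32)))))

/-- the code of `σ(u, v)` -/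
def sc (u v : ℕ) : ℕ := bc u ^^^ (bc v ^^^ bc (u ^^^ v))

theorem sc_facts : ∀ u < 8, ∀ v < 8, u ^^^ v < 8 ∧ sc u v < 64 ∧ sc u v % 8 = 0 ∧ bf u v = 0 := by
  decide +kernel

theorem sg_ac {u v : ℕ} (hu : u < 8) (hv : v < 8) : sg u v = ac (sc u v) := by
  have h3 := (sc_facts u hu v hv).1
  have := (ev_lt8 (l := [u, v, u ^^^ v]) (by simp [hu, hv, h3])).2
  simpa [sc, sg] using this

theorem sg_mem_A {u v : ℕ} (hu : u < 8) (hv : v < 8) : sg u v ∈ A :=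
  sg_ac hu hv ▸ ac_mem (sc_facts u hu v hv).2.1

theorem exists_P3 {u : ℕ} (hu : u < 8) (h0 : u ≠ 0) : ∃ p ∈ P3, act p 1 = u := by
  have key : ∀ u < 8, u ≠ 0 → ∃ v < 8, ∃ w < 8, Ind u v w := by decide +kernel
  obtain ⟨v, -, w, -, hi⟩ := key u hu h0
  obtain ⟨p, hp, e, -⟩ := gl hi
  exact ⟨p, hp, e⟩

section G

variable {G : Type u} [Group G]

/-- `y` normalises `S` -/
def Nz (y : G) (S : Subgroup G) : Prop := ∀ x ∈ S, y * x * y⁻¹ ∈ S

theorem Nz.inv [Finite G] {y : G} {S : Subgroup G} (h : Nz y S) : Nz y⁻¹ S := fun x hx =>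
  (mem_normalizer_iff.mp (inv_mem (mem_normalizer_fintype (S := (S : Set G)) h)) x).mp hx

theorem Nz.mul {x y : G} {S : Subgroup G} (hx : Nz x S) (hy : Nz y S) : Nz (x * y) S :=
  fun s hs => by
    have := hx _ (hy s hs)
    rwa [show x * (y * s * y⁻¹) * x⁻¹ = x * y * s * (x * y)⁻¹ by group] at this

theorem Nz.of_mem {x : G} {S : Subgroup G} (hx : x ∈ S) : Nz x S :=
  fun _ hs => mul_mem (mul_mem hx hs) (inv_mem hx)

variable (ι : Sp →* G) (t : G)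

/-- the elements centralising `A` and moving `t` inside `t A` -/
def NH : Subgroup G where
  carrier := {n | (∀ a ∈ A, n * ι a = ι a * n) ∧ ∃ a ∈ A, n * t * n⁻¹ = t * ι a}
  one_mem' := ⟨by simp, 1, one_mem _, by simp⟩
  mul_mem' := by
    rintro n m ⟨hn, a, ha, ea⟩ ⟨hm, b, hb, eb⟩
    refine ⟨fun c hc => by rw [mul_assoc, hm c hc, ← mul_assoc, hn c hc, mul_assoc], a * b,
      mul_mem ha hb, ?_⟩
    calc n * m * t * (n * m)⁻¹ = n * (m * t * m⁻¹) * n⁻¹ := by group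
      _ = n * t * n⁻¹ * (n * ι b * n⁻¹) := by rw [eb]; group
      _ = t * ι (a * b) := by rw [ea, hn b hb, map_mul]; group
  inv_mem' := by
    rintro n ⟨hn, a, ha, ea⟩
    refine ⟨fun c hc => ?_, a⁻¹, inv_mem ha, ?_⟩
    · have := hn c hc
      calc n⁻¹ * ι c = n⁻¹ * (ι c * n) * n⁻¹ := by group
        _ = ι c * n⁻¹ := by rw [← this]; group
    · have := hn a ha
      calc n⁻¹ * t * n⁻¹⁻¹ = n⁻¹ * (t * ι a) * n * (n⁻¹ * (ι a)⁻¹ * n) := by group
        _ = t * (n⁻¹ * (n * ι a * n⁻¹)⁻¹ * n) := by rw [← ea, this]; group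
        _ = t * ι a⁻¹ := by rw [map_inv]; group

/-- the subgroup generated by `A` and an involution `z` centralising it -/
def EZ (z : G) (hz : z * z = 1) (hc : ∀ a ∈ A, z * ι a = ι a * z) : Subgroup G where
  carrier := {x | ∃ a ∈ A, x = ι a ∨ x = z * ι a}
  one_mem' := ⟨1, one_mem _, Or.inl (map_one ι).symm⟩
  mul_mem' := by
    rintro _ _ ⟨a, ha, rfl | rfl⟩ ⟨b, hb, rfl | rfl⟩ <;> refine ⟨a * b, mul_mem ha hb, ?_⟩
    · exact Or.inl (map_mul ι a b).symm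
    · right; rw [← mul_assoc, ← hc a ha, map_mul, mul_assoc]
    · right; rw [map_mul, mul_assoc]
    · left
      rw [mul_assoc, ← mul_assoc (ι a), ← hc a ha, mul_assoc, ← mul_assoc, hz, one_mul, map_mul]
  inv_mem' := by
    rintro _ ⟨a, ha, rfl | rfl⟩ <;> refine ⟨a⁻¹, inv_mem ha, ?_⟩
    · exact Or.inl (map_inv ι a).symm
    · right; rw [mul_inv_rev, inv_eq_of_mul_eq_one_right hz, hc _ (inv_mem ha), map_inv]

variable {ι t}

theorem card_EZ (hi : Function.Injective ι) {z : G} (hz : z * z = 1)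
    (hc : ∀ a ∈ A, z * ι a = ι a * z) (hn : ∀ a ∈ A, ι a ≠ z) : Nat.card (EZ ι z hz hc) = 128 := by
  have ne : ∀ a ∈ A, ∀ b ∈ A, ι a ≠ z * ι b := fun a ha b hb e =>
    hn (a * b⁻¹) (mul_mem ha (inv_mem hb)) (by rw [map_mul, map_inv, e, mul_inv_cancel_right])
  have e : Function.Bijective (fun p : Bool × A => (⟨if p.1 then z * ι p.2 else ι p.2, by
      refine ⟨p.2, p.2.2, ?_⟩
      split_ifs
      · exact Or.inr rfl
      · exact Or.inl rfl⟩ : EZ ι z hz hc)) := by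
    constructor
    · rintro ⟨_ | _, a⟩ ⟨_ | _, b⟩ e <;> have e' := congrArg Subtype.val e <;>
        simp only [Bool.false_eq_true, if_false, if_true] at e'
      · rw [Subtype.ext (hi e')]
      · exact absurd e' (ne _ a.2 _ b.2)
      · exact absurd e'.symm (ne _ b.2 _ a.2)
      · rw [Subtype.ext (hi (mul_left_cancel e'))]
    · rintro ⟨x, a, ha, rfl | rfl⟩
      · exact ⟨(false, ⟨a, ha⟩), rfl⟩
      · exact ⟨(true, ⟨a, ha⟩), rfl⟩
  rw [← Nat.card_eq_of_bijective _ e, Nat.card_prod, card_A]; simp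

theorem EZ_sq {z : G} (hz : z * z = 1) (hc : ∀ a ∈ A, z * ι a = ι a * z) {x : G}
    (hx : x ∈ EZ ι z hz hc) : x * x = 1 ∧ x * z = z * x := by
  obtain ⟨a, ha, rfl | rfl⟩ := hx
  · exact ⟨by rw [← map_mul, A_sq ha, map_one], (hc a ha).symm⟩
  · refine ⟨?_, by rw [mul_assoc, ← hc a ha]⟩
    rw [mul_assoc, ← mul_assoc (ι a), ← hc a ha, mul_assoc, ← mul_assoc, hz, one_mul, ← map_mul,
      A_sq ha, map_one]

/-- the conjugate of a subgroup -/
def cj (y : G) (S : Subgroup G) : Subgroup G := S.map (MulAut.conj y).toMonoidHom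

theorem mem_cj {y x : G} {S : Subgroup G} : x ∈ cj y S ↔ y⁻¹ * x * y ∈ S := by
  constructor
  · rintro ⟨s, hs, rfl⟩
    simpa [mul_assoc] using hs
  · intro h
    exact ⟨_, h, by simp [mul_assoc]⟩

theorem card_cj (y : G) (S : Subgroup G) : Nat.card (cj y S) = Nat.card S :=
  (Nat.card_congr (S.equivMapOfInjective _ (MulAut.conj y).injective).toEquiv).symm

variable {w : ℕ → G} {M0 : Subgroup G}

theorem w_mem {u : ℕ} (hu : u < 8) : w u ∈ MW ι w :=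
  mem_sup_right (Subgroup.subset_closure ⟨u, hu, rfl⟩)

theorem A_MW {a : Sp} (ha : a ∈ A) : ι a ∈ MW ι w := mem_sup_left (mem_map_of_mem ι ha)

theorem P3_MW {η β : Bool} (hw : Wv ι t w η β) {p : Sp} (hp : p ∈ P3) : Nz (ι p) (MW ι w) := by
  have : MW ι w ≤ (MW ι w).comap (MulAut.conj (ι p)).toMonoidHom := by
    refine sup_le ?_ ((Subgroup.closure_le _).mpr ?_)
    · rintro _ ⟨a, ha, rfl⟩
      show ι p * ι a * (ι p)⁻¹ ∈ MW ι w
      rw [← map_inv, ← map_mul, ← map_mul]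
      exact A_MW (P3_conj_A hp ha)
    · rintro _ ⟨u, hu, rfl⟩
      show ι p * w u * (ι p)⁻¹ ∈ MW ι w
      rw [hw.eqv p u (by omega)]
      exact w_mem (P3_lt hp hu)
  exact fun x hx => this hx

theorem P3_mapA {p : Sp} (hp : p ∈ P3) : Nz (ι p) (A.map ι) := by
  rintro _ ⟨a, ha, rfl⟩
  rw [← map_inv, ← map_mul, ← map_mul]
  exact mem_map_of_mem ι (P3_conj_A hp ha)

theorem MW_NH {η β : Bool} (hw : Wv ι t w η β) : MW ι w ≤ NH ι t := fun m hm => hw.mtr m hm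

theorem t_NH (h : Hy ι t) : t ∈ NH ι t := ⟨fun a _ => h.ct a, 1, one_mem _, by simp⟩

/-- `t m t = γ m` -/
theorem t_conj (h : Hy ι t) {m : G} {a : Sp} (e : m * t * m⁻¹ = t * ι a) :
    t * m * t⁻¹ = ι a * m := by
  rw [h.tinv]
  calc t * m * t = t * (m * t * m⁻¹) * m := by group
    _ = ι a * m := by rw [e, h.ttx]

theorem t_MW (h : Hy ι t) {η β : Bool} (hw : Wv ι t w η β) : Nz t (MW ι w) := fun m hm => by
  obtain ⟨a, ha, e⟩ := (hw.mtr m hm).2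
  rw [t_conj h e]
  exact mul_mem (A_MW ha) hm

theorem t_MV (h : Hy ι t) {Γ : Subgroup Sp} (hΓ : Γ ≤ A) (hM : MV ι t Γ M0) : Nz t M0 :=
  fun m hm => by
    obtain ⟨a, ha, e⟩ := hM.tr m hm
    rw [t_conj h e]
    exact mul_mem (hM.le (mem_map_of_mem ι (hΓ ha))) hm

variable (ι t w M0) in
/-- the hypotheses of the case `η = β = true` -/
structure Cx : Prop where
  h : Hy ι t
  ea : EaC ι t
  hw : Wv ι t w true true
  hM : MV ι t Lam M0
  hK : K11 ι t w M0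

namespace Cx

variable [Finite G] (c : Cx ι t w M0)
include c

theorem card_M0 : Nat.card M0 = 512 := by rw [c.h.MV_card Lam_le_A c.hM, card_Lam]

theorem comm0 {x y : G} (hx : x ∈ M0) (hy : y ∈ M0) : x * y = y * x := c.h.MV_comm c.hM hx hy

theorem A_M0 {a : Sp} (ha : a ∈ A) : ι a ∈ M0 := c.hM.le (mem_map_of_mem ι ha)

theorem wA {u : ℕ} (hu : u < 8) {a : Sp} (ha : a ∈ A) : w u * ι a = ι a * w u :=
  (c.hw.mtr _ (w_mem hu)).1 a ha

theorem w_sq {u : ℕ} (hu : u < 64) : w u * w u = ι (g u) := by simpa using c.hw.sq u hu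

theorem w_cm {u v : ℕ} (hu : u < 8) (hv : v < 8) : w u * w v = ι (sg u v) * (w v * w u) := by
  simpa using c.hw.cm u (by omega) v (by omega) (sc_facts u hu v hv).2.2.2

/-- no conjugate of `t` centralises `M0` -/
theorem not_cen {d : G} (hd : IsConj t d) : ¬ ∀ m ∈ M0, m * d = d * m := by
  intro hc
  obtain ⟨y, rfl⟩ := isConj_iff.mp hd
  have := (c.ea (cj y⁻¹ M0) (fun x hx => by
      have := c.hM.ea _ (mem_cj.mp hx)
      calc x * x = y⁻¹ * (y⁻¹⁻¹ * x * y⁻¹ * (y⁻¹⁻¹ * x * y⁻¹)) * y := by group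
        _ = 1 := by rw [this]; group) (fun x hx => by
      have := hc _ (mem_cj.mp hx)
      calc x * t = y⁻¹ * (y⁻¹⁻¹ * x * y⁻¹ * (y * t * y⁻¹)) * y := by group
        _ = t * x := by rw [this]; group)).1
  rw [card_cj, c.card_M0] at this
  omega

theorem M0_notD {m : G} (hm : m ∈ M0) : ¬ IsConj t m := fun hd =>
  c.not_cen hd fun _ hn => c.comm0 hn hm

theorem MW_notD {m : G} (hm : m ∈ MW ι w) : ¬ IsConj t m := fun hd =>
  c.not_cen hd fun n hn => (c.hK.cen m hm n hn).symm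

theorem tw_sq {u : ℕ} (hu : u < 64) : t * w u * (t * w u) = 1 := by
  have e := t_conj c.h (c.hw.tr u hu)
  rw [c.h.tinv] at e
  rw [← mul_assoc, e, mul_assoc, c.w_sq hu, ← map_mul, g_sq u hu, map_one]

theorem wn_sq {u : ℕ} (hu : u < 8) {n : G} (hn : n ∈ M0) : w u * n * (w u * n) = ι (g u) := by
  rw [mul_assoc, ← mul_assoc n, ← c.hK.cen _ (w_mem hu) n hn, mul_assoc, c.hM.ea n hn, mul_one,
    c.w_sq (by omega)]

theorem tw_conj (hz : IsConj t (t * w 1)) {u : ℕ} (hu : u < 8) : IsConj t (t * w u) := by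
  by_cases h0 : u = 0
  · rw [h0, c.hw.w0, mul_one]
  obtain ⟨p, -, e⟩ := exists_P3 hu h0
  refine hz.trans (isConj_iff.mpr ⟨ι p, ?_⟩)
  rw [← e, ← c.hw.eqv p 1 (by omega), ← conj_mul, c.h.conj_t]

theorem invD (hz : IsConj t (t * w 1)) {m : G} (hm : m ∈ MW ι w) (e : t * m * (t * m) = 1) :
    IsConj t (t * m) := by
  obtain ⟨u, hu, a, ha, rfl⟩ := c.hK.inv m hm e
  obtain ⟨n, -, e⟩ := c.hK.zc u hu a ha
  exact (c.tw_conj hz hu).trans (isConj_iff.mpr ⟨n, by rw [e, mul_assoc]⟩)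

theorem nh' {n : G} (hn : n ∈ NH ι t) : n ∈ MW ι w ∨ ∃ m ∈ MW ι w, n = t * m :=
  (c.hK.nh n hn.1 hn.2).imp_right fun h => ⟨_, h, (c.h.ttx n).symm⟩

theorem mem_M0_iff (hz : IsConj t (t * w 1)) {n : G} :
    n ∈ M0 ↔ n ∈ NH ι t ∧ n * n = 1 ∧ ¬ IsConj t n := by
  refine ⟨fun hn => ⟨MW_NH c.hw (c.hK.le hn), c.hM.ea n hn, c.M0_notD hn⟩, fun ⟨h1, h2, h3⟩ => ?_⟩
  rcases c.nh' h1 with hm | ⟨m, hm, rfl⟩
  · exact c.hK.om n hm h2
  · exact absurd (c.invD hz hm h2) h3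

theorem mem_MW_iff {n : G} : n ∈ MW ι w ↔ n ∈ NH ι t ∧ ∀ m ∈ M0, n * m = m * n := by
  refine ⟨fun hn => ⟨MW_NH c.hw hn, c.hK.cen n hn⟩, fun ⟨h1, h2⟩ => ?_⟩
  rcases c.nh' h1 with hm | ⟨m, hm, rfl⟩
  · exact hm
  · refine absurd (fun x hx => ?_) (c.not_cen (IsConj.refl t))
    have e := h2 x hx
    rw [mul_assoc, c.hK.cen m hm x hx, ← mul_assoc, ← mul_assoc] at e
    exact (mul_right_cancel e).symm

theorem MW_z {u : ℕ} (hu : u < 8) {m : G} (hm : m ∈ MW ι w) :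
    ∃ a ∈ A, m * (t * w u) * m⁻¹ = t * w u * ι a := by
  obtain ⟨a, ha, ea⟩ := (c.hw.mtr m hm).2
  obtain ⟨v, hv, n, hn, rfl⟩ := c.hK.nf m hm
  refine ⟨a * sg v u, mul_mem ha (sg_mem_A hv hu), ?_⟩
  have e1 : n * w u * n⁻¹ = w u := by
    rw [← c.hK.cen _ (w_mem hu) n hn, mul_inv_cancel_right]
  calc w v * n * (t * w u) * (w v * n)⁻¹
      = w v * n * t * (w v * n)⁻¹ * (w v * (n * w u * n⁻¹) * (w v)⁻¹) := by group
    _ = t * (ι a * ι (sg v u) * w u) := by rw [ea, e1, c.w_cm hv hu]; group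
    _ = t * w u * ι (a * sg v u) := by
      rw [← map_mul, ← c.wA hu (mul_mem ha (sg_mem_A hv hu)), mul_assoc]

theorem NH_z {u : ℕ} (hu : u < 8) {n : G} (hn : n ∈ NH ι t) :
    ∃ a ∈ A, n * (t * w u) * n⁻¹ = t * w u * ι a := by
  rcases c.nh' hn with hm | ⟨m, hm, rfl⟩
  · exact c.MW_z hu hm
  · obtain ⟨a, ha, e⟩ := c.MW_z hu hm
    refine ⟨g u * a, mul_mem (g_mem_A hu) ha, ?_⟩
    have e1 := t_conj c.h (c.hw.tr u (by omega))
    calc t * m * (t * w u) * (t * m)⁻¹ = t * (m * (t * w u) * m⁻¹) * t⁻¹ := by group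
      _ = t * (t * w u * t⁻¹) * (t * ι a * t⁻¹) := by rw [e]; group
      _ = t * (ι (g u) * w u) * ι a := by rw [e1, c.h.ct a, mul_inv_cancel_right]
      _ = _ := by rw [← c.wA hu (g_mem_A hu), map_mul]; group

end Cx

end G

end Cfsg.Agent.H26.S6X
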