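import Mathlib
import Cfsg.Agent.H26.S6Cx

/-!
# `C(t) = 2 × Sp₆(2)`: the piece `C3X`
-/

set_option autoImplicit false
set_option maxRecDepth 100000
set_option linter.unusedSectionVars false
set_option synthInstance.maxSize 100000
set_option synthInstance.maxHeartbeats 1000000

namespace Cfsg.Agent.H26.S6X

open Cfsg Subgroup
open Cfsg.Agent.H44 Cfsg.Agent.H55.Sp6 Cfsg.Agent.H2.L3E Cfsg.Agent.H41.S6

universe u

variable {G : Type u} [Group G] {ι : Sp →* G} {t : G} {w : ℕ → G} {M0 : Subgroup G}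

variable (ι t w M0) in
/-- an element moving `t` to `t w u`, centralising `A` and normalising `M0`, `MW` -/
structure Gu (x : G) (u : ℕ) : Prop where
  n0 : Nz x M0
  nM : Nz x (MW ι w)
  tz : x * t * x⁻¹ = t * w u
  cA : ∀ a ∈ A, x * ι a = ι a * x

variable (ι t M0) in
/-- the action of `x` on the elements of `M0` with translation `ac l` -/
def Ph (x : G) (l f : ℕ) : Prop :=
  ∀ m ∈ M0, m * t * m⁻¹ = t * ι (ac l) → x * m * x⁻¹ = m * ι (ac f)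

theorem key_vals : ∀ i1 < 2, ∀ i2 < 2, ∀ i3 < 2, ∀ a < 64,
    (cjc (wd [1, 16, 17]) a = a ^^^ i1 * 8 ∧ cjc (wd [2, 32, 34]) a = a ^^^ i2 * 8) → ∀ b < 64,
    (cjc (wd [1, 16, 17]) b = b ^^^ i1 * 16 ∧ cjc (wd [4, 16, 20]) b = b ^^^ i3 * 16 ∧
      cjc (wd [2, 32, 34]) b = (a ^^^ b) ^^^ i2 * 24 ∧
      cjc (wd [4, 16, 20]) a = (a ^^^ b) ^^^ i3 * 24) → ∀ d < 64,
    (cjc (wd [2, 32, 34]) d = d ^^^ i2 * 32 ∧ cjc (wd [4, 16, 20]) d = d ^^^ i3 * 32 ∧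
      cjc (wd [1, 16, 17]) d = (b ^^^ d) ^^^ i1 * 48) →
    ∃ i < 2, ∃ θ < 2, a = i * 8 ∧ b = i * 16 ∧ d = θ ^^^ i * 32 := by decide +kernel

namespace Cx

variable [Finite G] (c : Cx ι t w M0)
include c

/-- the conjugating element can be chosen in the normalizer of `A` -/
theorem step_A (nl : NL ι t) (c3 : CIII ι t) (hz : IsConj t (t * w 1)) :
    ∃ y : G, y * t * y⁻¹ = t * w 1 ∧ Nz y⁻¹ (A.map ι) := by
  obtain ⟨y, hy⟩ := isConj_iff.mp hz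
  have zz := c.tw_sq (u := 1) (by omega)
  have zc : ∀ a ∈ A, t * w 1 * ι a = ι a * (t * w 1) := fun a ha => by
    rw [mul_assoc, c.wA (by omega) ha, ← mul_assoc, c.h.ct, mul_assoc]
  have hc := card_EZ c.h.inj zz zc fun a _ e => nl a (e ▸ hz)
  obtain ⟨l, hl⟩ := (c.ea (cj y⁻¹ (EZ ι _ zz zc)) (fun x hx => by
      have := (EZ_sq zz zc (mem_cj.mp hx)).1
      calc x * x = y⁻¹ * (y⁻¹⁻¹ * x * y⁻¹ * (y⁻¹⁻¹ * x * y⁻¹)) * y := by group
        _ = 1 := by rw [this]; group) (fun x hx => by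
      have := (EZ_sq zz zc (mem_cj.mp hx)).2
      rw [← hy] at this
      calc x * t = y⁻¹ * (y⁻¹⁻¹ * x * y⁻¹ * (y * t * y⁻¹)) * y := by group
        _ = t * x := by rw [this]; group)).2 (by rw [card_cj, hc])
  refine ⟨y * (ι l)⁻¹, ?_, ?_⟩
  · have := c.h.conj_t l⁻¹
    rw [map_inv] at this
    calc y * (ι l)⁻¹ * t * (y * (ι l)⁻¹)⁻¹ = y * ((ι l)⁻¹ * t * (ι l)⁻¹⁻¹) * y⁻¹ := by group
      _ = _ := by rw [this, hy]
  · rintro _ ⟨a, ha, rfl⟩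
    have := hl (y⁻¹ * ι a * y) (mem_cj.mpr ⟨a, ha, Or.inl (by group)⟩)
    rw [show ι l * (y⁻¹ * ι a * y) * (ι l)⁻¹ = (y * (ι l)⁻¹)⁻¹ * ι a * (y * (ι l)⁻¹)⁻¹⁻¹ by group]
      at this
    obtain ⟨b, hb, e | e⟩ := c.h.mem_E3.mp this
    · rw [e]; exact mem_map_of_mem ι hb
    · exact absurd (((c3 b hb).trans (e ▸ (isConj_iff.mpr ⟨_, rfl⟩ : IsConj (ι a) _).symm))) (nl a)

theorem step_B {y : G} (hy : y * t * y⁻¹ = t * w 1) (hA : Nz y⁻¹ (A.map ι)) :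
    Nz y⁻¹ (NH ι t) := by
  have hA' : Nz y (A.map ι) := by simpa using hA.inv
  intro n hn
  refine ⟨fun a ha => ?_, ?_⟩
  · obtain ⟨b, hb, e⟩ := hA' _ (mem_map_of_mem ι ha)
    have := hn.1 b hb
    rw [e] at this
    calc y⁻¹ * n * y⁻¹⁻¹ * ι a = y⁻¹ * (n * (y * ι a * y⁻¹)) * y := by group
      _ = _ := by rw [this]; group
  · obtain ⟨a, ha, e⟩ := c.NH_z (u := 1) (by omega) hn
    obtain ⟨b, hb, e'⟩ := hA _ (mem_map_of_mem ι ha)
    refine ⟨b, hb, ?_⟩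
    rw [e']
    calc y⁻¹ * n * y⁻¹⁻¹ * t * (y⁻¹ * n * y⁻¹⁻¹)⁻¹ = y⁻¹ * (n * (y * t * y⁻¹) * n⁻¹) * y := by
          group
      _ = y⁻¹ * (y * t * y⁻¹ * ι a) * y := by rw [hy, e]
      _ = _ := by group

theorem step_C (hz : IsConj t (t * w 1)) {y : G} (hN : Nz y (NH ι t)) :
    Nz y M0 ∧ Nz y (MW ι w) := by
  have f : ∀ {y : G}, Nz y (NH ι t) → Nz y M0 := fun {y} hN m hm => by
    obtain ⟨h1, h2, h3⟩ := (c.mem_M0_iff hz).mp hm
    refine (c.mem_M0_iff hz).mpr ⟨hN m h1, by rw [conj_mul, h2]; group, fun hd => h3 ?_⟩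
    exact hd.trans (isConj_iff.mpr ⟨y, rfl⟩ : IsConj m _).symm
  refine ⟨f hN, fun m hm => ?_⟩
  obtain ⟨h1, h2⟩ := c.mem_MW_iff.mp hm
  refine c.mem_MW_iff.mpr ⟨hN m h1, fun n hn => ?_⟩
  have := h2 _ (f hN.inv n hn)
  calc y * m * y⁻¹ * n = y * (m * (y⁻¹ * n * y⁻¹⁻¹)) * y⁻¹ := by group
    _ = _ := by rw [this]; group

/-- translations on `t w u` and on `t` agree for elements of `M0` -/
theorem tr_z {u : ℕ} (hu : u < 8) {m : G} (hm : m ∈ M0) :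
    m * (t * w u) * m⁻¹ = m * t * m⁻¹ * w u := by
  have e1 : m * w u * m⁻¹ = w u := by
    rw [← c.hK.cen _ (w_mem hu) m hm, mul_inv_cancel_right]
  rw [← conj_mul, e1]

theorem step_D {y : G} (hy : y * t * y⁻¹ = t * w 1) (h0 : Nz y M0) : Nz y (Lam.map ι) := by
  rintro _ ⟨a, ha, rfl⟩
  obtain ⟨m, hm, e⟩ := c.hM.sur a ha
  obtain ⟨b, hb, e'⟩ := c.hM.tr _ (h0 m hm)
  refine ⟨b, hb, ?_⟩
  have e1 := c.tr_z (u := 1) (by omega) (h0 m hm)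
  rw [e', mul_assoc t, ← c.wA (by omega) (Lam_le_A hb), ← mul_assoc t, ← hy] at e1
  have e2 : y * m * y⁻¹ * (y * t * y⁻¹) * (y * m * y⁻¹)⁻¹ = y * t * y⁻¹ * (y * ι a * y⁻¹) := by
    rw [conj_mul, conj_mul, ← e]; group
  exact mul_left_cancel (e1.symm.trans e2)

theorem step_L {y : G} (hL : Nz y⁻¹ (Lam.map ι)) :
    ∃ p ∈ P3, y * ι p * ι a12 = ι a12 * (y * ι p) ∧ y * ι p * ι a13 = ι a13 * (y * ι p) ∧
      y * ι p * ι a23 = ι a23 * (y * ι p) := by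
  have f : ∀ k < 8, ∃ j < 8, y⁻¹ * ι (ac (8 * k)) * y⁻¹⁻¹ = ι (ac (8 * j)) := fun k hk => by
    obtain ⟨b, hb, e⟩ := hL _ (mem_map_of_mem ι (Lam_par.mpr ⟨k, hk, rfl⟩))
    obtain ⟨j, hj, rfl⟩ := Lam_par.mp hb
    exact ⟨j, hj, e.symm⟩
  have inj : ∀ k < 64, ∀ k' < 64, ∀ j j', y⁻¹ * ι (ac k) * y⁻¹⁻¹ = ι (ac j) →
      y⁻¹ * ι (ac k') * y⁻¹⁻¹ = ι (ac j') → j = j' → k = k' := by
    rintro k hk k' hk' j _ e e' rfl
    exact ac_inj hk hk' (c.h.inj (mul_left_cancel (mul_right_cancel (e.trans e'.symm))))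
  obtain ⟨x1, h1, e1⟩ := f 1 (by omega)
  obtain ⟨x2, h2, e2⟩ := f 2 (by omega)
  obtain ⟨x4, h4, e4⟩ := f 4 (by omega)
  have e0 : y⁻¹ * ι (ac 0) * y⁻¹⁻¹ = ι (ac (8 * 0)) := by simp [ac_zero]
  have e3 : y⁻¹ * ι (ac 24) * y⁻¹⁻¹ = ι (ac (8 * (x1 ^^^ x2))) := by
    have key : ∀ c < 8, ∀ d < 8, 8 * c ^^^ 8 * d = 8 * (c ^^^ d) := by decide
    rw [← key x1 h1 x2 h2, ← ac_mul (by omega) (by omega), map_mul, ← e1, ← e2, conj_mul,
      ← map_mul, ac_mul (by omega) (by omega)]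
    rfl
  have hi : Ind x1 x2 x4 := by
    refine ⟨h1, h2, h4, fun e => ?_, fun e => ?_, fun e => ?_, fun e => ?_, fun e => ?_,
      fun e => ?_, fun e => ?_⟩
    · exact absurd (inj _ (by omega) _ (by omega) _ _ e1 e0 (by rw [e])) (by omega)
    · exact absurd (inj _ (by omega) _ (by omega) _ _ e2 e0 (by rw [e])) (by omega)
    · exact absurd (inj _ (by omega) _ (by omega) _ _ e2 e1 (by rw [e])) (by omega)
    · exact absurd (inj _ (by omega) _ (by omega) _ _ e4 e0 (by rw [e])) (by omega)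
    · exact absurd (inj _ (by omega) _ (by omega) _ _ e4 e1 (by rw [e])) (by omega)
    · exact absurd (inj _ (by omega) _ (by omega) _ _ e4 e2 (by rw [e])) (by omega)
    · exact absurd (inj _ (by omega) _ (by omega) _ _ e4 e3 (by rw [e])) (by omega)
  obtain ⟨p, hp, p1, p2, p4⟩ := glL hi
  have fin : ∀ a b : Sp, p * a * p⁻¹ = b → y⁻¹ * ι a * y⁻¹⁻¹ = ι b →
      y * ι p * ι a = ι a * (y * ι p) := fun a b e e' => by
    rw [← e, map_mul, map_mul, map_inv] at e'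
    calc y * ι p * ι a = y * (ι p * ι a * (ι p)⁻¹) * ι p := by group
      _ = _ := by rw [← e']; group
  exact ⟨p, hp, fin _ _ p1 e1, fin _ _ p2 e2, fin _ _ p4 e4⟩

theorem w_img {x : G} (nM : Nz x (MW ι w)) {v : ℕ} (hv : v < 8) :
    ∃ v' < 8, ∃ n ∈ M0, x * w v * x⁻¹ = w v' * n ∧ x * ι (g v) * x⁻¹ = ι (g v') := by
  obtain ⟨v', hv', n, hn, e⟩ := c.hK.nf _ (nM _ (w_mem hv))
  exact ⟨v', hv', n, hn, e, by rw [← c.w_sq (by omega), ← conj_mul, e, c.wn_sq hv' hn]⟩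

theorem step_E {x : G} (nM : Nz x (MW ι w)) (h8 : x * ι a12 = ι a12 * x)
    (h16 : x * ι a13 = ι a13 * x) (h32 : x * ι a23 = ι a23 * x) :
    ∀ a ∈ A, x * ι a = ι a * x := by
  have f : ∀ u < 8, ∀ v < 8, ∀ u' < 8, ∀ v' < 8, ∀ n ∈ M0, ∀ n' ∈ M0, x * w u * x⁻¹ = w u' * n →
      x * w v * x⁻¹ = w v' * n' → x * ι (sg u v) = ι (sg u v) * x → sc u v = sc u' v' := by
    intro u hu v hv u' hu' v' hv' n hn n' hn' e e' hx
    have e1 : x * (w u * w v) * x⁻¹ = x * (ι (sg u v) * (w v * w u)) * x⁻¹ := by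
      rw [c.w_cm hu hv]
    have r : ∀ a < 8, ∀ b < 8, ∀ m ∈ M0, ∀ m' ∈ M0, w a * m * (w b * m') = w a * w b * (m * m') :=
      fun a _ b hb m hm m' _ => by
        rw [mul_assoc, ← mul_assoc m, ← c.hK.cen _ (w_mem hb) m hm]; group
    rw [← conj_mul, ← conj_mul, ← conj_mul, e, e', hx, mul_inv_cancel_right, r _ hu' _ hv' _ hn _ hn',
      r _ hv' _ hu' _ hn' _ hn, c.comm0 hn' hn, ← mul_assoc (ι _), c.w_cm hu' hv'] at e1
    have := c.h.inj (mul_right_cancel (mul_right_cancel e1))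
    rw [sg_ac hu hv, sg_ac hu' hv'] at this
    exact (ac_inj (sc_facts _ hu' _ hv').2.1 (sc_facts _ hu _ hv).2.1 this).symm
  obtain ⟨v1, h1, n1, hn1, e1, g1⟩ := c.w_img nM (v := 1) (by omega)
  obtain ⟨v2, h2, n2, hn2, e2, g2⟩ := c.w_img nM (v := 2) (by omega)
  obtain ⟨v4, h4, n4, hn4, e4, g4⟩ := c.w_img nM (v := 4) (by omega)
  have key : ∀ a < 8, ∀ b < 8, ∀ d < 8, sc 1 2 = sc a b → sc 1 4 = sc a d → sc 2 4 = sc b d →
      a = 1 ∧ b = 2 ∧ d = 4 := by decide +kernel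
  obtain ⟨rfl, rfl, rfl⟩ := key _ h1 _ h2 _ h4
    (f _ (by omega) _ (by omega) _ h1 _ h2 _ hn1 _ hn2 e1 e2 h8)
    (f _ (by omega) _ (by omega) _ h1 _ h4 _ hn1 _ hn4 e1 e4 h16)
    (f _ (by omega) _ (by omega) _ h2 _ h4 _ hn2 _ hn4 e2 e4 h32)
  have : A ≤ (centralizer ({x} : Set G)).comap ι := by
    refine A_gen ?_ ?_ ?_ ?_ ?_ ?_ <;> rw [mem_comap, mem_centralizer_singleton_iff]
    · exact (mul_inv_eq_iff_eq_mul.mp g1).symm
    · exact (mul_inv_eq_iff_eq_mul.mp g2).symm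
    · exact (mul_inv_eq_iff_eq_mul.mp g4).symm
    · exact h8.symm
    · exact h16.symm
    · exact h32.symm
  exact fun a ha => (mem_centralizer_singleton_iff.mp (this ha)).symm

theorem exists_Gu (nl : NL ι t) (c3 : CIII ι t) (hz : IsConj t (t * w 1)) :
    ∃ x, Gu ι t w M0 x 1 := by
  obtain ⟨y, hy, hA⟩ := c.step_A nl c3 hz
  have hN : Nz y (NH ι t) := by simpa using (c.step_B hy hA).inv
  obtain ⟨h0, hM⟩ := c.step_C hz hN
  obtain ⟨p, hp, e1, e2, e3⟩ := c.step_L (c.step_D hy h0).inv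
  have nM : Nz (y * ι p) (MW ι w) := hM.mul (P3_MW c.hw hp)
  refine ⟨y * ι p, h0.mul (c.hM.nP p hp), nM, ?_, c.step_E nM e1 e2 e3⟩
  calc y * ι p * t * (y * ι p)⁻¹ = y * (ι p * t * (ι p)⁻¹) * y⁻¹ := by group
    _ = _ := by rw [c.h.conj_t, hy]

theorem Gu_conj {x : G} {u : ℕ} (hu : u < 8) (hx : Gu ι t w M0 x u) {p : Sp} (hp : p ∈ P3) :
    Gu ι t w M0 (ι p * x * (ι p)⁻¹) (act p u) := by
  have n0 : Nz (ι p) M0 := c.hM.nP p hp
  have nM : Nz (ι p) (MW ι w) := P3_MW c.hw hp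
  refine ⟨(n0.mul hx.n0).mul n0.inv, (nM.mul hx.nM).mul nM.inv, ?_, fun a ha => ?_⟩
  · have e := c.h.conj_t p⁻¹
    rw [map_inv] at e
    calc ι p * x * (ι p)⁻¹ * t * (ι p * x * (ι p)⁻¹)⁻¹
        = ι p * (x * ((ι p)⁻¹ * t * (ι p)⁻¹⁻¹) * x⁻¹) * (ι p)⁻¹ := by group
      _ = _ := by rw [e, hx.tz, ← conj_mul, c.h.conj_t, c.hw.eqv p u (by omega)]
  · have := hx.cA _ (P3_conj_A (inv_mem hp) ha)
    simp only [map_mul, map_inv, inv_inv] at this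
    calc ι p * x * (ι p)⁻¹ * ι a = ι p * (x * ((ι p)⁻¹ * ι a * ι p)) * (ι p)⁻¹ := by group
      _ = _ := by rw [this]; group

theorem Gu_t {x : G} {u : ℕ} (hx : Gu ι t w M0 x u) : Gu ι t w M0 (x * t) u := by
  refine ⟨hx.n0.mul (t_MV c.h Lam_le_A c.hM), hx.nM.mul (t_MW c.h c.hw), ?_, fun a ha => ?_⟩
  · rw [← hx.tz]; group
  · rw [mul_assoc, c.h.ct, ← mul_assoc, hx.cA a ha, mul_assoc]

theorem Gu_w {x : G} {u : ℕ} (hx : Gu ι t w M0 x u) {v : ℕ} (hv : v < 8) :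
    ∃ n ∈ M0, x * w v * x⁻¹ = w v * n := by
  obtain ⟨v', hv', n, hn, e, e'⟩ := c.w_img hx.nM hv
  rw [hx.cA _ (g_mem_A hv), mul_inv_cancel_right] at e'
  obtain rfl := g_inj (by omega) (by omega) (c.h.inj e')
  exact ⟨n, hn, e⟩

/-- elements of `M0` with the same translation are congruent modulo `A` -/
theorem same_tr {m n : G} (hm : m ∈ M0) (hn : n ∈ M0) (e : m * t * m⁻¹ = n * t * n⁻¹) :
    ∃ a ∈ A, n = m * ι a := by
  obtain ⟨a, ha, e'⟩ := c.hM.ker (m⁻¹ * n) (mul_mem (inv_mem hm) hn) (by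
    calc m⁻¹ * n * t = m⁻¹ * (n * t * n⁻¹) * n := by group
      _ = _ := by rw [← e]; group)
  exact ⟨a, ha, by rw [e']; group⟩

theorem Ph_of {x m : G} (cA : ∀ a ∈ A, x * ι a = ι a * x) {l f : ℕ} (hf : f < 64) (hm : m ∈ M0)
    (e : m * t * m⁻¹ = t * ι (ac l)) (e' : x * m * x⁻¹ = m * ι (ac f)) : Ph ι t M0 x l f := by
  intro n hn en
  obtain ⟨a, ha, rfl⟩ := c.same_tr hm hn (e.trans en.symm)
  rw [← conj_mul, e', cA a ha, mul_inv_cancel_right, mul_assoc, mul_assoc, ← map_mul, ← map_mul,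
    A_comm ha (ac_mem hf)]

theorem ex_tr {l : ℕ} (hl : l < 64) (h8 : l % 8 = 0) : ∃ m ∈ M0, m * t * m⁻¹ = t * ι (ac l) :=
  c.hM.sur _ ((ac_mem_Lam hl).mpr h8)

theorem Ph_ex {x : G} {u : ℕ} (hu : u < 8) (hx : Gu ι t w M0 x u) {l : ℕ} (hl : l < 64)
    (h8 : l % 8 = 0) : ∃ f < 64, Ph ι t M0 x l f := by
  obtain ⟨m, hm, e⟩ := c.ex_tr hl h8
  have hm' := hx.n0 m hm
  have e1 := c.tr_z hu hm'
  have e2 : x * m * x⁻¹ * (t * w u) * (x * m * x⁻¹)⁻¹ = t * ι (ac l) * w u := by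
    calc x * m * x⁻¹ * (t * w u) * (x * m * x⁻¹)⁻¹ = x * (m * t * m⁻¹) * x⁻¹ := by
          rw [← hx.tz]; group
      _ = _ := by
        rw [e, ← conj_mul, hx.tz, hx.cA _ (ac_mem hl), mul_inv_cancel_right, mul_assoc,
          c.wA hu (ac_mem hl), mul_assoc]
  obtain ⟨a, ha, e3⟩ := c.same_tr hm hm' (e.trans (mul_right_cancel (e2.symm.trans e1)))
  obtain ⟨f, hf, rfl⟩ := A_par.mp ha
  exact ⟨f, hf, c.Ph_of hx.cA hf hm e e3⟩

theorem Ph_uniq {x : G} {l f f' : ℕ} (hl : l < 64) (h8 : l % 8 = 0) (hf : f < 64) (hf' : f' < 64)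
    (h : Ph ι t M0 x l f) (h' : Ph ι t M0 x l f') : f = f' := by
  obtain ⟨m, hm, e⟩ := c.ex_tr hl h8
  exact ac_inj hf hf' (c.h.inj (mul_left_cancel ((h m hm e).symm.trans (h' m hm e))))

theorem Ph_add {x : G} (cA : ∀ a ∈ A, x * ι a = ι a * x) {l l' f f' : ℕ} (hl : l < 64)
    (h8 : l % 8 = 0) (hl' : l' < 64) (h8' : l' % 8 = 0) (hf : f < 64) (hf' : f' < 64)
    (h : Ph ι t M0 x l f) (h' : Ph ι t M0 x l' f') : Ph ι t M0 x (l ^^^ l') (f ^^^ f') := by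
  obtain ⟨m, hm, e⟩ := c.ex_tr hl h8
  obtain ⟨n, hn, e'⟩ := c.ex_tr hl' h8'
  refine c.Ph_of cA (xor_lt hf hf') (mul_mem hm hn) ?_ ?_
  · calc m * n * t * (m * n)⁻¹ = m * (n * t * n⁻¹) * m⁻¹ := by group
      _ = _ := by
        rw [e', ← conj_mul, e, c.comm0 hm (c.A_M0 (ac_mem hl')), mul_inv_cancel_right, mul_assoc,
          ← map_mul, ac_mul hl hl']
  · rw [← conj_mul, h m hm e, h' n hn e', ← ac_mul hf hf', map_mul, mul_assoc, ← mul_assoc (ι _),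
      ← c.comm0 hn (c.A_M0 (ac_mem hf))]
    group

theorem Ph_mul {x y : G} (cA : ∀ a ∈ A, x * ι a = ι a * x) {l f f' : ℕ} (hf : f < 64)
    (hf' : f' < 64) (h : Ph ι t M0 x l f) (h' : Ph ι t M0 y l f') :
    Ph ι t M0 (x * y) l (f ^^^ f') := fun m hm e => by
  calc x * y * m * (x * y)⁻¹ = x * (y * m * y⁻¹) * x⁻¹ := by group
    _ = _ := by
      rw [h' m hm e, ← conj_mul, h m hm e, cA _ (ac_mem hf'), mul_inv_cancel_right, mul_assoc,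
        ← map_mul, ac_mul hf hf']

theorem Ph_conj {x : G} {l f l' f' : ℕ} {p : Sp} (hp : p ∈ P3) (el : p * ac l * p⁻¹ = ac l')
    (ef : p * ac f * p⁻¹ = ac f') (h : Ph ι t M0 x l f) :
    Ph ι t M0 (ι p * x * (ι p)⁻¹) l' f' := fun m hm e => by
  have hm' := c.hM.nP _ (inv_mem hp) m hm
  have := h _ hm' (by
    have e1 := c.h.conj_tl p⁻¹ (ac l')
    have e2 := c.h.conj_t p
    rw [← el, show p⁻¹ * (p * ac l * p⁻¹) * p⁻¹⁻¹ = ac l by group, el, ← e, map_inv] at e1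
    rw [← e1, map_inv]
    calc (ι p)⁻¹ * m * (ι p)⁻¹⁻¹ * t * ((ι p)⁻¹ * m * (ι p)⁻¹⁻¹)⁻¹
        = (ι p)⁻¹ * (m * (ι p * t * (ι p)⁻¹) * m⁻¹) * (ι p)⁻¹⁻¹ := by group
      _ = _ := by rw [e2])
  rw [map_inv] at this
  rw [← ef, map_mul, map_mul, map_inv]
  calc ι p * x * (ι p)⁻¹ * m * (ι p * x * (ι p)⁻¹)⁻¹
      = ι p * (x * ((ι p)⁻¹ * m * (ι p)⁻¹⁻¹) * x⁻¹) * (ι p)⁻¹ := by group
    _ = _ := by rw [this]; group

theorem Ph_MW {n : G} (hn : n ∈ MW ι w) (l : ℕ) : Ph ι t M0 n l 0 := fun m hm _ => by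
  rw [c.hK.cen n hn m hm, ac_zero, map_one]; group

theorem Ph_t {l : ℕ} (hl : l < 64) : Ph ι t M0 t l l := fun m hm e => by
  rw [t_conj c.h e, c.comm0 hm (c.A_M0 (ac_mem hl))]

theorem Ph_NH {n : G} (hn : n ∈ NH ι t) : ∃ i < 2, ∀ l < 64, Ph ι t M0 n l (i * l) := by
  rcases c.nh' hn with hm | ⟨m, hm, rfl⟩
  · exact ⟨0, by omega, fun l _ => by rw [zero_mul]; exact c.Ph_MW hm l⟩
  · refine ⟨1, by omega, fun l hl => ?_⟩
    have := c.Ph_mul (fun a _ => c.h.ct a) hl (by omega) (c.Ph_t hl) (c.Ph_MW hm l)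
    simpa using this

/-- equivariance under a word of `P3` fixing `e₁` -/
theorem Ph_eqv {x : G} (hx : Gu ι t w M0 x 1) {p : List ℕ}
    (hp : (p.all (· < 64) && (wd p 1 < 8 && (wd p 2 < 8 && wd p 4 < 8))) = true)
    (h1 : (p.all (· < 64) && wd p 1 == 1) = true) :
    ∃ i < 2, ∀ l < 64, ∀ l', cjc (wd p) l = l' → l' % 8 = 0 → ∀ f < 64, ∀ f' < 64,
      Ph ι t M0 x l f → Ph ι t M0 x l' f' → cjc (wd p) f = f' ^^^ i * l' := by
  have pP := ev_mem_P3 hp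
  have hx' := c.Gu_conj (by omega) hx pP
  rw [mem_P1.mp (ev_mem_P1 h1)] at hx'
  set x' := ι (ev g p) * x * (ι (ev g p))⁻¹ with hx'd
  have hn : x⁻¹ * x' ∈ NH ι t := by
    refine ⟨fun a ha => ?_, 1, one_mem _, ?_⟩
    · calc x⁻¹ * x' * ι a = x⁻¹ * (ι a * x) * x⁻¹ * x' := by rw [mul_assoc, hx'.cA a ha]; group
        _ = _ := by rw [← hx.cA a ha]; group
    · calc x⁻¹ * x' * t * (x⁻¹ * x')⁻¹ = x⁻¹ * (x' * t * x'⁻¹) * x := by group
        _ = _ := by rw [hx'.tz, ← hx.tz, map_one]; group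
  obtain ⟨i, hi, hP⟩ := c.Ph_NH hn
  refine ⟨i, hi, fun l hl l' el h8 f hf f' hf' h h' => ?_⟩
  obtain ⟨l1, l2⟩ := conj_ac_wd hp hl
  obtain ⟨f1, f2⟩ := conj_ac_wd hp hf
  rw [el] at l1 l2
  have hil : i * l' < 64 := by interval_cases i <;> omega
  have a1 := c.Ph_conj pP l2 f2 h
  have a2 := c.Ph_mul hx.cA hf' hil h' (hP l' l1)
  rw [mul_inv_cancel_left] at a2
  exact c.Ph_uniq l1 h8 f1 (xor_lt hf' hil) a1 a2

theorem Ph_vals {x : G} (hx : Gu ι t w M0 x 1) : ∃ i < 2, ∃ θ < 2, Ph ι t M0 x 8 (i * 8) ∧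
    Ph ι t M0 x 16 (i * 16) ∧ Ph ι t M0 x 32 (θ ^^^ i * 32) := by
  obtain ⟨a, ha, pa⟩ := c.Ph_ex (by omega) hx (l := 8) (by omega) (by omega)
  obtain ⟨b, hb, pb⟩ := c.Ph_ex (by omega) hx (l := 16) (by omega) (by omega)
  obtain ⟨d, hd, pd⟩ := c.Ph_ex (by omega) hx (l := 32) (by omega) (by omega)
  have pab := c.Ph_add hx.cA (by omega) (by omega) (by omega) (by omega) ha hb pa pb
  have pbd := c.Ph_add hx.cA (by omega) (by omega) (by omega) (by omega) hb hd pb pd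
  rw [show 8 ^^^ 16 = 24 by decide] at pab
  rw [show 16 ^^^ 32 = 48 by decide] at pbd
  obtain ⟨i1, h1, e1⟩ := c.Ph_eqv hx (p := [1, 16, 17]) (by decide +kernel) (by decide +kernel)
  obtain ⟨i2, h2, e2⟩ := c.Ph_eqv hx (p := [2, 32, 34]) (by decide +kernel) (by decide +kernel)
  obtain ⟨i3, h3, e3⟩ := c.Ph_eqv hx (p := [4, 16, 20]) (by decide +kernel) (by decide +kernel)
  obtain ⟨i, hi, θ, hθ, rfl, rfl, rfl⟩ := key_vals i1 h1 i2 h2 i3 h3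
    a ha ⟨e1 8 (by omega) 8 (by decide +kernel) (by omega) _ ha _ ha pa pa,
      e2 8 (by omega) 8 (by decide +kernel) (by omega) _ ha _ ha pa pa⟩
    b hb ⟨e1 16 (by omega) 16 (by decide +kernel) (by omega) _ hb _ hb pb pb,
      e3 16 (by omega) 16 (by decide +kernel) (by omega) _ hb _ hb pb pb,
      e2 16 (by omega) 24 (by decide +kernel) (by omega) _ hb _ (xor_lt ha hb) pb pab,
      e3 8 (by omega) 24 (by decide +kernel) (by omega) _ ha _ (xor_lt ha hb) pa pab⟩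
    d hd ⟨e2 32 (by omega) 32 (by decide +kernel) (by omega) _ hd _ hd pd pd,
      e3 32 (by omega) 32 (by decide +kernel) (by omega) _ hd _ hd pd pd,
      e1 32 (by omega) 48 (by decide +kernel) (by omega) _ hd _ (xor_lt hb hd) pd pbd⟩
  exact ⟨i, hi, θ, hθ, pa, pb, pd⟩

theorem Ph_vals0 {x : G} (hx : Gu ι t w M0 x 1) : ∃ x, Gu ι t w M0 x 1 ∧ ∃ θ < 2,
    Ph ι t M0 x 8 0 ∧ Ph ι t M0 x 16 0 ∧ Ph ι t M0 x 32 θ := by
  obtain ⟨i, hi, θ, hθ, pa, pb, pd⟩ := c.Ph_vals hx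
  interval_cases i
  · exact ⟨x, hx, θ, hθ, by simpa using pa, by simpa using pb, by simpa using pd⟩
  · refine ⟨x * t, c.Gu_t hx, θ, hθ, ?_, ?_, ?_⟩
    · simpa using c.Ph_mul hx.cA (by omega) (by omega) pa (c.Ph_t (by omega))
    · simpa using c.Ph_mul hx.cA (by omega) (by omega) pb (c.Ph_t (by omega))
    · have := c.Ph_mul hx.cA (xor_lt (by omega) (by omega)) (by omega) pd (c.Ph_t (by omega))
      rwa [one_mul, Nat.xor_assoc, Nat.xor_self, Nat.xor_zero] at this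

theorem not_theta {x : G} (hx : Gu ι t w M0 x 1) (pb : Ph ι t M0 x 16 0) :
    ¬ Ph ι t M0 x 32 1 := by
  intro pd
  have q2 : ([1, 16, 17, 2, 8, 10, 1, 16, 17].all (· < 64) &&
    (wd [1, 16, 17, 2, 8, 10, 1, 16, 17] 1 < 8 && (wd [1, 16, 17, 2, 8, 10, 1, 16, 17] 2 < 8 &&
      wd [1, 16, 17, 2, 8, 10, 1, 16, 17] 4 < 8))) = true := by decide +kernel
  have q3 : ([2, 8, 10].all (· < 64) &&
    (wd [2, 8, 10] 1 < 8 && (wd [2, 8, 10] 2 < 8 && wd [2, 8, 10] 4 < 8))) = true := by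
    decide +kernel
  have h2 := c.Gu_conj (by omega) hx (ev_mem_P3 q2)
  have h3 := c.Gu_conj (by omega) hx (ev_mem_P3 q3)
  rw [act_wd (by decide) (by omega), show wd [1, 16, 17, 2, 8, 10, 1, 16, 17] 1 = 2 by
    decide +kernel] at h2
  rw [act_wd (by decide) (by omega), show wd [2, 8, 10] 1 = 3 by decide +kernel] at h3
  have p2 := c.Ph_conj (ev_mem_P3 q2) (conj_ac_wd q2 (c := 16) (by omega)).2
    (conj_ac_wd q2 (c := 0) (by omega)).2 pb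
  have p3 := c.Ph_conj (ev_mem_P3 q3) (conj_ac_wd q3 (c := 32) (by omega)).2
    (conj_ac_wd q3 (c := 1) (by omega)).2 pd
  rw [show cjc (wd [1, 16, 17, 2, 8, 10, 1, 16, 17]) 16 = 32 by decide +kernel,
    show cjc (wd [1, 16, 17, 2, 8, 10, 1, 16, 17]) 0 = 0 by decide +kernel] at p2
  rw [show cjc (wd [2, 8, 10]) 32 = 32 by decide +kernel,
    show cjc (wd [2, 8, 10]) 1 = 11 by decide +kernel] at p3
  generalize ι (ev g [1, 16, 17, 2, 8, 10, 1, 16, 17]) * x *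
    (ι (ev g [1, 16, 17, 2, 8, 10, 1, 16, 17]))⁻¹ = x2 at h2 p2
  generalize ι (ev g [2, 8, 10]) * x * (ι (ev g [2, 8, 10]))⁻¹ = x3 at h3 p3
  obtain ⟨n0, hn0, e0⟩ := c.Gu_w hx (v := 2) (by omega)
  obtain ⟨v, hv, n1, hn1, e1⟩ := c.hK.nf _
    (mul_mem (w_mem (ι := ι) (w := w) (u := 1) (by omega)) (w_mem (u := 2) (by omega)))
  obtain rfl : v = 3 := by
    have s1 := c.wn_sq hv hn1
    rw [← e1, mul_assoc, ← mul_assoc (w 2), c.w_cm (u := 2) (v := 1) (by omega) (by omega),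
      mul_assoc, mul_assoc, c.w_sq (by omega), ← mul_assoc,
      c.wA (by omega) (sg_mem_A (by omega) (by omega)), mul_assoc, ← mul_assoc (w 1),
      c.w_sq (by omega), ← map_mul, ← map_mul] at s1
    refine g_inj (by omega) (by omega) ((c.h.inj s1).symm.trans ?_)
    rw [sg, g_eq 1, g_eq 2, g_eq 3, ← ev_append, ← ev_append]
    exact weq (by decide +kernel)
  have hn2 : x3⁻¹ * (n1 * n0) * x3⁻¹⁻¹ ∈ M0 := h3.n0.inv _ (mul_mem hn1 hn0)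
  have e2 : x3⁻¹ * (x * x2) * t * (x3⁻¹ * (x * x2))⁻¹ = t * (x3⁻¹ * (n1 * n0) * x3⁻¹⁻¹) := by
    calc x3⁻¹ * (x * x2) * t * (x3⁻¹ * (x * x2))⁻¹
        = x3⁻¹ * (x * (x2 * t * x2⁻¹) * x⁻¹) * x3 := by group
      _ = x3⁻¹ * (t * (w 1 * w 2) * n0) * x3 := by rw [h2.tz, ← conj_mul, hx.tz, e0]; group
      _ = x3⁻¹ * (x3 * t * x3⁻¹ * (n1 * n0)) * x3 := by rw [e1, h3.tz]; group
      _ = _ := by group
  generalize x3⁻¹ * (n1 * n0) * x3⁻¹⁻¹ = n2 at hn2 e2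
  have hn : x3⁻¹ * (x * x2) ∈ NH ι t := by
    refine ⟨fun a ha => ?_, ?_⟩
    · calc x3⁻¹ * (x * x2) * ι a = x3⁻¹ * (ι a * x3) * x3⁻¹ * (x * x2) := by
            rw [mul_assoc, mul_assoc, h2.cA a ha, ← mul_assoc x, hx.cA a ha]; group
        _ = _ := by rw [← h3.cA a ha]; group
    · have s : t * n2 * (t * n2) = 1 := by rw [← e2, conj_mul, c.h.tt]; group
      obtain ⟨a, ha, e⟩ := c.hM.ker n2 hn2 (by
        calc n2 * t = t * (t * n2 * (t * n2)) * (n2 * n2)⁻¹ * n2 := by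
              rw [mul_assoc t n2, c.h.ttx]; group
          _ = t * n2 := by rw [s, c.hM.ea n2 hn2]; group)
      exact ⟨a, ha, by rw [e2, e]⟩
  obtain ⟨i, hi, hP⟩ := c.Ph_NH hn
  have hi' : i * 32 < 64 := by omega
  have a1 := c.Ph_mul hx.cA (by omega) (by omega) pd p2
  have a2 := c.Ph_mul h3.cA (by omega) hi' p3 (hP 32 (by omega))
  rw [mul_inv_cancel_left] at a2
  have := c.Ph_uniq (by omega) (by omega) (by decide) (xor_lt (by omega) hi') a1 a2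
  interval_cases i <;> exact absurd this (by decide)

theorem c3x' (nl : NL ι t) (c3 : CIII ι t) (hz : IsConj t (t * w 1)) :
    ∃ x, Gu ι t w M0 x 1 ∧ ∀ m ∈ M0, x * m = m * x := by
  obtain ⟨x0, hx0⟩ := c.exists_Gu nl c3 hz
  obtain ⟨x, hx, θ, hθ, pa, pb, pd⟩ := c.Ph_vals0 hx0
  obtain rfl : θ = 0 := by
    by_contra h
    obtain rfl : θ = 1 := by omega
    exact c.not_theta hx pb pd
  have add : ∀ {l l' k : ℕ}, Ph ι t M0 x l 0 → Ph ι t M0 x l' 0 →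
      (l < 64 ∧ l % 8 = 0 ∧ l' < 64 ∧ l' % 8 = 0 ∧ l ^^^ l' = k) → Ph ι t M0 x k 0 :=
    fun p q ⟨h1, h2, h3, h4, e⟩ => by
      have := c.Ph_add hx.cA h1 h2 h3 h4 (by omega) (by omega) p q
      rwa [e, Nat.xor_self] at this
  have p24 : Ph ι t M0 x 24 0 := add pa pb (by decide)
  have all : ∀ k < 8, Ph ι t M0 x (8 * k) 0 := fun k hk => by
    interval_cases k
    · exact add pa pa (by decide)
    · exact add pb p24 (by decide)
    · exact add pa p24 (by decide)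
    · exact add pa pb (by decide)
    · exact add (add pa pa (k := 0) (by decide)) pd (by decide)
    · exact add pa pd (by decide)
    · exact add pb pd (by decide)
    · exact add p24 pd (by decide)
  refine ⟨x, hx, fun m hm => ?_⟩
  obtain ⟨a, ha, e⟩ := c.hM.tr m hm
  obtain ⟨k, hk, rfl⟩ := Lam_par.mp ha
  have := all k hk m hm e
  rw [ac_zero, map_one, mul_one] at this
  exact mul_inv_eq_iff_eq_mul.mp this

end Cx

theorem c3x : C3XStmt.{u} := by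
  intro _ G _ _ ι t h ea nl c3 w M0 hw hM hK hz
  obtain ⟨x, hx, hc⟩ := (⟨h, ea, hw, hM, hK⟩ : Cx ι t w M0).c3x' nl c3 hz
  exact ⟨x, hc, hx.nM, hx.tz⟩

end Cfsg.Agent.H26.S6X
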