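import Cfsg.Agent.H26.UFrTwo
import Cfsg.Agent.H31.HermGeo

/-!
Maximality of the stabilisers of orthogonal decompositions in the special unitary group.
-/

set_option autoImplicit false

namespace Cfsg.Agent.H26

open H31 Module

variable {F : Type*} [Field F] {σ : F →+* F} {V : Type*} [AddCommGroup V] [Module F V]
  {B : V →ₛₗ[σ] V →ₗ[F] F} {τ κ : Type*} {M : Subgroup (V ≃ₗ[F] V)} {b : τ × κ → V}

/-- The maps permuting a family of subspaces. -/
def stabD (D : τ → Submodule F V) : Subgroup (V ≃ₗ[F] V) where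
  carrier := {g | ∃ π : Equiv.Perm τ, ∀ i, (D i).map (g : V →ₗ[F] V) = D (π i)}
  mul_mem' := by
    rintro g k ⟨π, hπ⟩ ⟨ρ, hρ⟩
    exact ⟨π * ρ, fun i => by
      rw [LinearEquiv.mul_eq_trans, LinearEquiv.coe_trans, Submodule.map_comp, hρ, hπ]; rfl⟩
  one_mem' := ⟨1, fun i => Submodule.map_id _⟩
  inv_mem' := by
    rintro g ⟨π, hπ⟩
    refine ⟨π⁻¹, fun i => ?_⟩
    have := hπ (π⁻¹ i)
    rw [show π (π⁻¹ i) = i by simp] at this
    rw [← this, ← Submodule.map_comp,
      show (g⁻¹ : V ≃ₗ[F] V).toLinearMap ∘ₗ g.toLinearMap = LinearMap.id by ext x; simp,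
      Submodule.map_id]

/-- The block with index `i`. -/
abbrev blk (B : V →ₛₗ[σ] V →ₗ[F] F) (b : τ × κ → V) (i : τ) : Submodule F V :=
  subW B b fun x => x.1 = i

variable [Fintype τ] [DecidableEq τ] [Fintype κ] [DecidableEq κ]

namespace Fr

variable (h : Fr B b)
include h

theorem b_mem_blk (i : τ) (a : κ) : b (i, a) ∈ blk B b i := h.b_mem_subW rfl

theorem finrank_blk (i : τ) : finrank F (blk B b i) = Fintype.card κ := by
  rw [(h.sub _).finrank_eq]
  exact Fintype.card_congr ⟨fun x => x.1.2, fun a => ⟨(i, a), rfl⟩,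
    fun x => Subtype.ext (Prod.ext x.2.symm rfl), fun a => rfl⟩

theorem mem_perp_blk {i : τ} {x : V} : x ∈ perp B (blk B b i) ↔ ∀ a, B (b (i, a)) x = 0 := by
  refine ⟨fun H a => H _ (h.b_mem_blk i a), fun H y hy => ?_⟩
  rw [h.form]
  refine Finset.sum_eq_zero fun m _ => ?_
  by_cases hm : m.1 = i
  · rw [show m = (i, m.2) from Prod.ext hm rfl, H, mul_zero]
  · rw [hy m hm, map_zero, zero_mul]

theorem blk_le_perp {i j : τ} (hij : i ≠ j) : blk B b i ≤ perp B (blk B b j) :=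
  fun _ hx => h.mem_perp_blk.2 fun _ => hx _ hij.symm

theorem eq_of_mem_blk {i j : τ} {x : V} (hi : x ∈ blk B b i) (hj : x ∈ blk B b j) (hx : x ≠ 0) :
    i = j := by
  obtain ⟨m, hm⟩ := h.exists_coord hx
  exact (by_contra fun h0 => hm (hi m h0) : m.1 = i).symm.trans (by_contra fun h0 => hm (hj m h0))

theorem mem_stabD [Nonempty κ] {g : V ≃ₗ[F] V}
    (H : ∀ i, ∃ j, ∀ x ∈ blk B b i, g x ∈ blk B b j) : g ∈ stabD (blk B b) := by
  have := h.finiteDimensional
  choose π hπ using H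
  have h1 : ∀ i, (blk B b i).map (g : V →ₗ[F] V) = blk B b (π i) := fun i =>
    Submodule.eq_of_le_of_finrank_eq (by rintro _ ⟨x, hx, rfl⟩; exact hπ i x hx)
      (by rw [LinearEquiv.finrank_map_eq, h.finrank_blk, h.finrank_blk])
  obtain ⟨a⟩ := ‹Nonempty κ›
  have h2 : Function.Injective π := fun i j hij => by
    have h3 := hπ i _ (h.b_mem_blk i a)
    rw [hij, ← h1] at h3
    obtain ⟨x, hx, hx'⟩ := h3
    rw [g.injective hx'] at hx
    exact h.eq_of_mem_blk (h.b_mem_blk i a) hx (h.b_ne_zero _)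
  exact ⟨Equiv.ofBijective π (Finite.injective_iff_bijective.1 h2), h1⟩

theorem map_mem_blk {g : V ≃ₗ[F] V} {i j : τ} (H : ∀ a, g (b (i, a)) ∈ blk B b j) {x : V}
    (hx : x ∈ blk B b i) : g x ∈ blk B b j := by
  rw [← h.sum_eq x, map_sum]
  refine Submodule.sum_mem _ fun m _ => ?_
  by_cases hm : m.1 = i
  · rw [map_smul, show m = (i, m.2) from Prod.ext hm rfl]
    exact Submodule.smul_mem _ _ (H _)
  · simp [hx m hm]

theorem exists_perm_blk [Nonempty κ] (π : Equiv.Perm τ) : ∃ g ∈ stabD (blk B b) ⊓ sisom B,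
    ∀ i, ∀ x ∈ blk B b i, g x ∈ blk B b (π i) := by
  rcases isEmpty_or_nonempty τ with hτ | ⟨⟨i₀⟩⟩
  · exact ⟨1, Subgroup.one_mem _, fun i => isEmptyElim i⟩
  obtain ⟨a₀⟩ := ‹Nonempty κ›
  obtain ⟨g, hg, H, c, hc⟩ := h.exists_mono_det (Equiv.prodCongr π 1) (t := fun _ => 1)
    (fun _ => mu_one) (i₀, a₀)
  have key : ∀ i, ∀ x ∈ blk B b i, g x ∈ blk B b (π i) := fun i x => h.map_mem_blk fun a => by
    by_cases h1 : (i, a) = (i₀, a₀)
    · rw [h1, hc, show i = i₀ from congrArg Prod.fst h1]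
      exact Submodule.smul_mem _ _ (h.b_mem_blk _ _)
    · rw [H _ h1]
      exact Submodule.smul_mem _ _ (h.b_mem_blk _ _)
  exact ⟨g, ⟨h.mem_stabD fun i => ⟨_, key i⟩, hg.2⟩, key⟩

theorem suOn_blk_le [Nonempty κ] (i : τ) : suOn B (blk B b i) ≤ stabD (blk B b) ⊓ sisom B := by
  have := h.finiteDimensional
  refine fun g hg => ⟨h.mem_stabD fun j => ⟨j, fun x hx => ?_⟩, hg.1⟩
  by_cases hj : j = i
  · subst hj
    exact (h.herm.suOn_le_stab _ hg x).1 hx
  · rwa [hg.2 x (h.blk_le_perp hj hx)]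

theorem stabD_lt [Finite F] [Nonempty κ] (h2 : 2 ≤ Fintype.card τ)
    (h3 : 3 ≤ Fintype.card (τ × κ)) : stabD (blk B b) ⊓ sisom B < sisom B := by
  have := h.finiteDimensional
  refine lt_of_le_of_ne inf_le_right fun H => ?_
  obtain ⟨i, -, -⟩ := Fintype.exists_pair_of_one_lt_card (α := τ) (by omega)
  obtain ⟨a⟩ := ‹Nonempty κ›
  obtain ⟨z, hz, hz0, hzz⟩ := h.herm.exists_isotropic
    (h.herm.nondegOn_perp (h.nondegOn_subW fun x => x.1 = i)) (by
      rw [h.herm.finrank_perp, h.finrank_blk, h.finrank_eq]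
      rw [Fintype.card_prod] at h3 ⊢
      have : 0 < Fintype.card κ := Fintype.card_pos_iff.2 ⟨a⟩
      have : 2 * Fintype.card κ ≤ Fintype.card τ * Fintype.card κ := Nat.mul_le_mul_right _ h2
      omega)
  have h1 := h.mem_perp_blk.1 hz a
  have h4 : B (b (i, a)) (b (i, a) + z) = 1 := by rw [map_add, h.self, h1, add_zero]
  obtain ⟨g, hg, hg'⟩ := h.herm.exists_suOn_map h.herm.nondegOn_top (x := b (i, a))
    (y := b (i, a) + z) trivial trivial (h.b_ne_zero _) (by rintro h0; simp [h0] at h4)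
    (by rw [h.herm.norm_add_of_perp h1, hzz, add_zero])
    (Or.inl (by rwa [finrank_top, h.finrank_eq]))
  obtain ⟨π, hπ⟩ := (H.ge hg.1).1
  have h5 : b (i, a) + z ∈ blk B b (π i) := by
    rw [← hπ, ← hg']
    exact Submodule.mem_map_of_mem (h.b_mem_blk i a)
  have h6 : i = π i := by_contra fun h0 => one_ne_zero (h4.symm.trans (h5 (i, a) h0))
  rw [← h6, Submodule.add_mem_iff_right _ (h.b_mem_blk i a)] at h5
  exact hz0 (h.nondegOn_subW _ z h5 fun y hy => h.herm.flip_zero (hz y hy))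

variable [Finite F] (h2 : 2 ≤ Fintype.card κ) (hM : M ≤ sisom B)
  (hH : stabD (blk B b) ⊓ sisom B ≤ M)
include h2 hM hH

omit [Finite F] hM in
theorem hasTv_blk {i : τ} {u : V} (hu : u ∈ blk B b i) : HasTv B M u := by
  have := h.finiteDimensional
  have : Nonempty κ := Fintype.card_pos_iff.1 (by omega)
  exact hasTv_of_suOn h.herm.toIsHermSymm ((h.suOn_blk_le i).trans hH) hu

theorem le_stabD (H : ∀ i w, B w w = 0 → HasTv B M w → w ∈ blk B b i ∨ w ∈ perp B (blk B b i)) :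
    M ≤ stabD (blk B b) := by
  have := h.finiteDimensional
  have : Nonempty κ := Fintype.card_pos_iff.1 (by omega)
  refine fun g hg => h.mem_stabD fun i => ?_
  have hgi := (hM hg).1
  obtain ⟨a⟩ := ‹Nonempty κ›
  obtain ⟨m, hm⟩ := h.exists_coord (x := g (b (i, a))) (g.map_ne_zero_iff.2 (h.b_ne_zero _))
  refine ⟨m.1, ?_⟩
  rcases h.herm.le_or_le_of_isotropic (h.nondegOn_subW fun x => x.1 = i)
    (by rwa [h.finrank_blk]) (A := (blk B b m.1).comap (g : V →ₗ[F] V))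
    (C := (perp B (blk B b m.1)).comap (g : V →ₗ[F] V))
    (fun x hx y hy => by rw [← hgi]; exact hx _ hy)
    (fun u hu huu => H _ _ (isotropic_map hgi huu) ((h.hasTv_blk h2 hH hu).map hgi hg)) with h1 | h1
  · exact h1
  · exact absurd (h.mem_perp_blk.1 (h1 (h.b_mem_blk i a)) m.2) hm

theorem grow_cases {E : Submodule F V} (hE : NondegOn B E) (h3 : 3 ≤ finrank F E)
    (hEM : suOn B E ≤ M) : sisom B ≤ M ∨ ∃ i, E ≤ blk B b i ∧
      ∀ w, B w w = 0 → HasTv B M w → w ∈ blk B b i ∨ w ∈ perp B (blk B b i) := by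
  have := h.finiteDimensional
  have : Nonempty κ := Fintype.card_pos_iff.1 (by omega)
  obtain ⟨a⟩ := ‹Nonempty κ›
  obtain ⟨E', h1, h4, h5, h6, h7⟩ := h.herm.exists_grow (hM.trans sisom_le_isom) (fun r hr => by
    obtain ⟨m, hm⟩ := h.exists_coord hr
    by_contra H
    push Not at H
    exact h.herm.flip_ne_zero hm (h.herm.le_of_isotropic_mem (S := LinearMap.ker (B r))
      (h.nondegOn_subW fun x => x.1 = m.1) (by rwa [h.finrank_blk])
      (fun u hu huu => H u huu (h.hasTv_blk h2 hH hu)) (h.b_mem_blk m.1 m.2))) hE h3 hEM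
  have h8 : ∀ i, blk B b i ≤ E' ∨ blk B b i ≤ perp B E' := fun i =>
    h.herm.le_or_le_of_isotropic (h.nondegOn_subW fun x => x.1 = i) (by rwa [h.finrank_blk]) le_rfl
      fun u hu huu => h6 u huu (h.hasTv_blk h2 hH hu)
  have h9 : ∀ i, blk B b i ≤ E' → ¬ blk B b i ≤ perp B E' := fun i h1 h3 =>
    h.herm.notMem_perp_of_nondegOn h4 (h1 (h.b_mem_blk i a)) (h.b_ne_zero _) (h3 (h.b_mem_blk i a))
  obtain ⟨x, hx, hx0⟩ := Submodule.exists_mem_ne_zero_of_ne_bot (p := E)
    (fun h5 => by rw [h5, finrank_bot] at h3; omega)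
  obtain ⟨⟨i, a'⟩, hm⟩ := h.exists_coord hx0
  have hi : blk B b i ≤ E' := (h8 i).resolve_right fun h0 =>
    hm (h.herm.flip_zero (h0 (h.b_mem_blk i a') x (h1 hx)))
  by_cases hj : ∃ j, j ≠ i ∧ blk B b j ≤ E'
  · left
    obtain ⟨j, hji, hj⟩ := hj
    have : E' = ⊤ := by
      rw [eq_top_iff]
      intro y _
      rw [← h.sum_eq y]
      refine E'.sum_mem fun m _ => E'.smul_mem _ ?_
      by_cases hm : m.1 = i
      · exact hi (h.b_mem_subW hm)
      obtain ⟨g, hg, H⟩ := h.exists_perm_blk (Equiv.swap j m.1)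
      have e1 := H i _ (h.b_mem_blk i a)
      rw [Equiv.swap_apply_of_ne_of_ne hji.symm (Ne.symm hm)] at e1
      have e2 := (h7 g (hH hg)).resolve_right fun h0 => h.herm.notMem_perp_of_nondegOn h4 (hi e1)
        (g.map_ne_zero_iff.2 (h.b_ne_zero _)) (h0 _ (hi (h.b_mem_blk i a)))
      have e3 := H j _ (h.b_mem_blk j a)
      rw [Equiv.swap_apply_left] at e3
      exact (h8 m.1).resolve_right (fun h0 => h.herm.notMem_perp_of_nondegOn h4
        ((e2 _).1 (hj (h.b_mem_blk j a))) (g.map_ne_zero_iff.2 (h.b_ne_zero _)) (h0 e3))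
        (h.b_mem_subW rfl)
    rwa [this, h.herm.suOn_top] at h5
  · push Not at hj
    have : E' = blk B b i := le_antisymm (fun y hy m hm =>
      h.herm.flip_zero ((h8 m.1).resolve_left (hj _ hm) (h.b_mem_subW rfl) y hy)) hi
    exact Or.inr ⟨i, this ▸ h1, this ▸ h6⟩

theorem dec_cases_three (h3 : 3 ≤ Fintype.card κ) : M ≤ stabD (blk B b) ∨ sisom B ≤ M := by
  have := h.finiteDimensional
  have : Nonempty κ := Fintype.card_pos_iff.1 (by omega)
  rcases isEmpty_or_nonempty τ with hτ | ⟨⟨i₀⟩⟩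
  · exact Or.inl fun g _ => ⟨1, fun i => isEmptyElim i⟩
  rcases h.grow_cases h2 hM hH (h.nondegOn_subW fun x => x.1 = i₀) (by rwa [h.finrank_blk])
    ((h.suOn_blk_le i₀).trans hH) with H | ⟨i, -, H⟩
  · exact Or.inr H
  refine Or.inl (h.le_stabD h2 hM hH fun j w hw hw' => ?_)
  obtain ⟨g, hg, Hg⟩ := h.exists_perm_blk (Equiv.swap i j)
  have e1 := Hg i
  have e2 := Hg j
  rw [Equiv.swap_apply_left] at e1
  rw [Equiv.swap_apply_right] at e2
  have hgi := (isom B).inv_mem hg.2.1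
  rcases H _ (isotropic_map hgi hw) (hw'.map hgi (M.inv_mem (hH hg))) with h1 | h1
  · exact Or.inl (by simpa using e1 _ h1)
  · refine Or.inr fun y hy => ?_
    obtain ⟨π, hπ⟩ := hg.1
    obtain ⟨a⟩ := ‹Nonempty κ›
    have e3 : π i = j := h.eq_of_mem_blk (hπ i ▸ Submodule.mem_map_of_mem (h.b_mem_blk i a))
      (e1 _ (h.b_mem_blk i a)) (g.map_ne_zero_iff.2 (h.b_ne_zero _))
    rw [← e3, ← hπ] at hy
    obtain ⟨x, hx, rfl⟩ := hy
    rw [LinearEquiv.coe_coe, isom_adj hg.2.1]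
    exact h1 x hx

theorem dec_cases_two (hk : Fintype.card κ = 2) (hq : ∃ a : F, σ a = a ∧ a ≠ 0 ∧ a ≠ 1) :
    M ≤ stabD (blk B b) ∨ sisom B ≤ M := by
  have := h.finiteDimensional
  have : Nonempty κ := Fintype.card_pos_iff.1 (by omega)
  refine or_iff_not_imp_right.2 fun hcon => h.le_stabD h2 hM hH fun i w hw hw' => ?_
  have key : ∀ u v w, B u u = 0 → B v v = 0 → B w w = 0 → HasTv B M u → HasTv B M v →
      HasTv B M w → B u v * B v w * B w u + σ (B u v * B v w * B w u) = 0 := by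
    intro u v w hu hv hw hu' hv' hw'
    by_contra ht
    obtain ⟨E, -, -, -, hE, hE3, hET⟩ := h.herm.hasTv_of_triple (hM.trans sisom_le_isom) hu hv hw
      hu' hv' hw' ht
    rcases h.grow_cases h2 hM hH hE hE3.ge (fun x hx => h.herm.mem_of_hasTv hE hE le_rfl hET
      (Or.inr (Or.inl hq)) hx.1 hx.2) with H | ⟨j, H, -⟩
    · exact hcon H
    · have := Submodule.finrank_mono H
      rw [h.finrank_blk] at this
      omega
  by_contra H
  obtain ⟨H1, H2⟩ := not_or.1 H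
  rw [h.mem_perp_blk, not_forall] at H2
  obtain ⟨a, ha⟩ := H2
  obtain ⟨m, hm, hm'⟩ : ∃ m : τ × κ, m.1 ≠ i ∧ B (b m) w ≠ 0 := by
    by_contra H3
    push Not at H3
    exact H1 H3
  have hD := h.nondegOn_subW fun x => x.1 = i
  obtain ⟨w₁, hw₁, w₂, hw₂, hww⟩ := h.herm.exists_add_perp hD w
  have e1 : ∀ u ∈ blk B b i, B u w = B u w₁ := fun u hu => by
    rw [hww, map_add, hw₂ u hu, add_zero]
  have e2 : ∀ u ∈ blk B b i, B w u = B w₁ u := fun u hu => by
    rw [hww, add_left, h.herm.flip_zero (hw₂ u hu), add_zero]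
  have h1 : B w₁ w₁ = 0 := by
    obtain ⟨e, f, he, hf, hef, hs⟩ := h.herm.exists_hyperbolic_basis hD (by rwa [h.finrank_blk])
    have he' : e ∈ blk B b i := hs.le (Submodule.subset_span (by simp))
    have hf' : f ∈ blk B b i := hs.le (Submodule.subset_span (by simp))
    obtain ⟨x, y, rfl⟩ := Submodule.mem_span_pair.1 (hs.ge hw₁)
    have := key e f _ he hf hw (h.hasTv_blk h2 hH he') (h.hasTv_blk h2 hH hf') hw'
    rw [e1 f hf', e2 e he'] at this
    simp only [map_add, LinearMap.add_apply, smul_left, smul_right, he, hf, hef,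
      h.herm.flip_one hef, map_mul, h.herm.inv.invol, map_one, map_zero] at this ⊢
    linear_combination this
  obtain ⟨ε, hε, hε2⟩ := exists_mu_sq_ne h.herm.inv
  have hε0 := mu_ne_zero hε
  have hne : (i, a) ≠ m := by rintro rfl; exact hm rfl
  obtain ⟨g, hg, -, Hg⟩ := FrM.exists_diag2 (M := mon F b ⊓ sisom B) ⟨h, inf_le_right, le_rfl⟩ hne hε
  have hgM : g ∈ M := hH ⟨h.mem_stabD fun j => ⟨j, fun x hx => by
    rw [Hg]
    refine Submodule.add_mem _ (Submodule.add_mem _ hx ?_) ?_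
    · by_cases hj : i = j
      · exact Submodule.smul_mem _ _ (h.b_mem_subW hj)
      · simp [hx (i, a) hj]
    · by_cases hj : m.1 = j
      · exact Submodule.smul_mem _ _ (h.b_mem_subW hj)
      · simp [hx m hj]⟩, hg.2⟩
  have e3 := e1 _ (h.b_mem_blk i a)
  rw [e3] at ha
  have hu : w₁ + ((ε⁻¹ - 1) * B (b (i, a)) w₁) • b (i, a) ∈ blk B b i :=
    Submodule.add_mem _ hw₁ (Submodule.smul_mem _ _ (h.b_mem_blk i a))
  have := key _ _ _ hw (isotropic_map hg.2.1 hw) (by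
      simp only [map_add, LinearMap.add_apply, smul_left, smul_right, h1, h.self, h.flip, map_mul,
        map_sub, map_one, map_inv₀, mu_σ hε, inv_inv]
      field_simp
      ring) hw' (hw'.map hg.2.1 hgM) (h.hasTv_blk h2 hH hu)
  rw [e1 _ hu, Hg, map_add (B w), map_add (B w), hw, add_left, add_left, e2 _ hu, smul_left,
    smul_left, hu m hm, e3, smul_right, smul_right, h.flip (i, a) w, h.flip m, e3] at this
  generalize B (b m) w = y at this hm'
  simp only [map_add, LinearMap.add_apply, smul_left, smul_right, h1, h.self, h.flip, map_mul,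
    map_sub, map_one, map_inv₀, mu_σ hε, inv_inv, h.herm.inv.invol, map_zero] at this
  generalize B (b (i, a)) w₁ = x at this ha
  have e4 := sub_ne_zero.2 (ne_one_of_sq_ne hε2)
  have e5 := sub_ne_zero.2 hε2
  refine mul_ne_zero (mul_ne_zero (pow_ne_zero 2 (mul_ne_zero ha ((map_ne_zero σ).2 ha)))
    (mul_ne_zero hm' ((map_ne_zero σ).2 hm'))) (pow_ne_zero 2 (mul_ne_zero e4 e5)) ?_
  field_simp at this
  linear_combination -this

end Fr

theorem Fr.isMaximalIn_stabD [Finite F] (h : Fr B b) (h2 : 2 ≤ Fintype.card τ)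
    (hc : 3 ≤ Fintype.card κ ∨ (Fintype.card κ = 2 ∧ ∃ a : F, σ a = a ∧ a ≠ 0 ∧ a ≠ 1) ∨
      (Fintype.card κ = 1 ∧ (7 ≤ Fintype.card τ ∨
        (Fintype.card τ = 6 ∧ ∃ a : F, σ a = a ∧ a ≠ 0 ∧ a ≠ 1)))) :
    Geo.IsMaximalIn (sisom B) (stabD (blk B b) ⊓ sisom B) := by
  have hκ : Nonempty κ := Fintype.card_pos_iff.1 (by omega)
  refine isMaximalIn_of_forall (h.stabD_lt h2 (by
    have : 2 * Fintype.card κ ≤ Fintype.card τ * Fintype.card κ := Nat.mul_le_mul_right _ h2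
    rw [Fintype.card_prod]
    rcases hc with hc | hc | hc
    · omega
    · omega
    · rw [hc.1]; omega)) fun M hH hM g hg hg' => ?_
  refine Or.resolve_left ?_ fun H : M ≤ stabD (blk B b) => hg' ⟨H hg, hM hg⟩
  rcases hc with hc | hc | ⟨h1, hc⟩
  · exact h.dec_cases_three (by omega) hM hH hc
  · exact h.dec_cases_two hc.1.ge hM hH hc.1 hc.2
  have hs : ∀ a a' : κ, a = a' := Fintype.card_le_one_iff.1 h1.le
  have h3 : mon F b ≤ stabD (blk B b) := by
    rintro g ⟨π, hπ⟩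
    obtain ⟨a⟩ := id hκ
    refine h.mem_stabD fun i => ⟨(π (i, a)).1, fun x => h.map_mem_blk fun a' => ?_⟩
    obtain ⟨c, -, hc⟩ := hπ (i, a)
    rw [hs a' a, hc]
    exact Submodule.smul_mem _ _ (h.b_mem_subW rfl)
  exact (FrM.le_or_le ⟨h, hM, (inf_le_inf_right _ h3).trans hH⟩
    (by rwa [Fintype.card_prod, h1, mul_one])).imp_left fun H => H.trans h3

/-- Maximality of the stabiliser of an orthogonal decomposition in `SU_n(q)`. -/
theorem su_c2_nondeg [Fintype F] {n q : ℕ} (hF : Fintype.card F = q ^ 2) {t k : ℕ}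
    {D : Fin t → Submodule F (Fin n → F)}
    (hD : Geo.IsNondegenerateMDecomposition (hermForm n F q) k D)
    (hc : 3 ≤ k ∨ (k = 2 ∧ q ≠ 2) ∨ (k = 1 ∧ (7 ≤ n ∨ (n = 6 ∧ q ≠ 2)))) :
    Geo.IsMaximalIn (GU n F q ⊓ Geo.specialLinear (Fin n) F)
      (Geo.decompositionStabilizer D ⊓ (GU n F q ⊓ Geo.specialLinear (Fin n) F)) := by
  have h := isHerm_hermB hF n
  have hnd := fun i => nondegOn_of_isNondegenerateOn (hermB_eq hF) (hD.nondegenerate i)
  choose c hc1 hc2 using fun i => h.exists_isON_of_nondegOn (hnd i) (hD.decomp.finrank_eq i).ge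
  have horth : ∀ i j, i ≠ j → ∀ x ∈ D i, ∀ y ∈ D j, hermB hF n x y = 0 := fun i j hij x hx y hy =>
    (hermB_eq hF x y).trans (hD.orthogonal j i hij.symm y hy x hx)
  have hon : IsON (hermB hF n) fun m : Fin t × Fin k => c m.1 m.2 := by
    rintro ⟨i, a⟩ ⟨j, a'⟩
    by_cases hij : i = j
    · subst hij
      simpa using hc2 i a a'
    · simpa [hij] using horth i j hij _ (hc1 i a) _ (hc1 j a')
  have hspan : ∀ i, Submodule.span F (Set.range (c i)) = D i := fun i =>
    Submodule.eq_of_le_of_finrank_eq (Submodule.span_le.2 (by rintro _ ⟨a, rfl⟩; exact hc1 i a))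
      (by rw [finrank_span_eq_card (hc2 i).linearIndependent, hD.decomp.finrank_eq,
        Fintype.card_fin])
  have hfr : Fr (hermB hF n) fun m : Fin t × Fin k => c m.1 m.2 := ⟨h, hon, fun x => by
    rw [← sub_eq_zero]
    refine h.nondeg' _ fun y => ?_
    have : y ∈ iSup D := by rw [hD.decomp.iSup_eq_top]; trivial
    refine (h.le_perp_comm (W := F ∙ _)).1 ?_ this _ (Submodule.mem_span_singleton_self _) |>
      h.flip_zero
    rw [h.le_perp_comm]
    refine iSup_le fun i => ?_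
    rw [← hspan, Submodule.span_le]
    rintro _ ⟨a, rfl⟩
    refine mem_perp_span_singleton.2 (h.flip_zero ?_)
    have h1 := fun m => hon (i, a) m
    simp only at h1
    simp [h1]⟩
  have hblk : D = blk (hermB hF n) fun m : Fin t × Fin k => c m.1 m.2 := funext fun i =>
    Submodule.eq_of_le_of_finrank_eq (fun x hx m hm => horth _ _ hm _ (hc1 _ _) _ hx)
      (by rw [hfr.finrank_blk, hD.decomp.finrank_eq, Fintype.card_fin])
  have hn : t * k = n := by simpa using hfr.finrank_eq.symm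
  have hq : q ≠ 2 → ∃ a : F, frobQ hF a = a ∧ a ≠ 0 ∧ a ≠ 1 := exists_fixed_ne hF fun _ => rfl
  refine isMaximalIn_SU_of hF (H' := stabD D) (fun _ => Iff.rfl) ?_
  rw [hblk]
  refine hfr.isMaximalIn_stabD (by simpa using hD.decomp.two_le) ?_
  simp only [Fintype.card_fin]
  rcases hc with hc | hc | ⟨rfl, hc⟩
  · exact Or.inl hc
  · exact Or.inr (Or.inl ⟨hc.1, hq hc.2⟩)
  · rw [mul_one] at hn
    exact Or.inr (Or.inr ⟨rfl, hn ▸ hc.imp_right fun h => ⟨h.1, hq h.2⟩⟩)

end Cfsg.Agent.H26
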