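import Cfsg.Agent.H26.UTenMain
import Cfsg.Agent.H26.PC3Geo

/-!
Field-theoretic lemmas for the field extension subgroups of unitary groups.
-/

set_option autoImplicit false

namespace Cfsg.Agent.H26

open H31 Module

section Det

variable {F : Type*} [Field F] [Finite F] {σ : F →+* F}

theorem exists_zero_quad_vec {T S : Type*} [AddCommGroup T] [Module F T] [FiniteDimensional F T]
    [AddCommGroup S] [Module F S] [FiniteDimensional F S] (b : T →ₗ[F] T →ₗ[F] S)
    (h : 2 * finrank F S < finrank F T) : ∃ x, x ≠ 0 ∧ b x x = 0 := by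
  obtain ⟨x, hx, H⟩ := exists_common_zero_quad (fun _ => 0)
    (fun i => b.compr₂ ((Module.finBasis F S).coord i)) (by simpa using h)
  exact ⟨x, hx, (Module.finBasis F S).repr.map_eq_zero_iff.1 (Finsupp.ext fun i => by
    simpa using H i)⟩

/-- A space of Hermitian matrices of dimension larger than their size contains a singular one. -/
theorem exists_det_eq_zero (hσ : IsInvol σ) {W : Type*} [AddCommGroup W]
    [Module (fixedField σ) W] [FiniteDimensional (fixedField σ) W] {m : ℕ} (hm : 0 < m)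
    (A : W →ₗ[fixedField σ] Matrix (Fin m) (Fin m) F) (hA : ∀ w i j, σ (A w i j) = A w j i)
    (h : m < finrank (fixedField σ) W) : ∃ w, w ≠ 0 ∧ (A w).det = 0 := by
  classical
  have := Fintype.ofFinite (fixedField σ)
  obtain ⟨p, hp⟩ := CharP.exists (fixedField σ)
  have hpp : p.Prime := CharP.char_is_prime (fixedField σ) p
  obtain ⟨l, hl⟩ := hσ.exists_trace_eq (map_one σ)
  let b := Module.finBasis (fixedField σ) W
  let N : Matrix (Fin m) (Fin m) (MvPolynomial (Fin (finrank (fixedField σ) W)) F) :=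
    Matrix.of fun j k => ∑ i, MvPolynomial.C (A (b i) j k) * MvPolynomial.X i
  have hN : N.det.totalDegree ≤ m := by
    rw [Matrix.det_apply']
    refine MvPolynomial.totalDegree_finsetSum_le fun π _ => ?_
    refine (MvPolynomial.totalDegree_mul _ _).trans ?_
    rw [← map_intCast (MvPolynomial.C : F →+* _), MvPolynomial.totalDegree_C, zero_add]
    refine (MvPolynomial.totalDegree_finsetProd _ _).trans ?_
    refine (Finset.sum_le_sum (g := fun _ => 1) fun j _ => ?_).trans (by simp)
    simp only [N, Matrix.of_apply]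
    refine MvPolynomial.totalDegree_finsetSum_le fun i _ => ?_
    refine (MvPolynomial.totalDegree_mul _ _).trans ?_
    simp
  let R : MvPolynomial (Fin (finrank (fixedField σ) W)) (fixedField σ) :=
    ∑ d ∈ N.det.support, MvPolynomial.monomial d (trF hσ (l * N.det.coeff d))
  have hR : R.totalDegree ≤ m := MvPolynomial.totalDegree_finsetSum_le fun d hd =>
    (MvPolynomial.totalDegree_monomial_le _ _).trans ((MvPolynomial.le_totalDegree hd).trans hN)
  have hev : ∀ x : Fin (finrank (fixedField σ) W) → fixedField σ,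
      (MvPolynomial.eval x R).1 = (A (b.equivFun.symm x)).det := fun x => by
    have h1 : MvPolynomial.eval (fun i => (x i : F)) N.det = (A (b.equivFun.symm x)).det := by
      rw [RingHom.map_det]
      congr 1
      ext j k
      simp [N, Matrix.sum_apply, mul_comm, Subfield.smul_def]
    have h2 : σ (A (b.equivFun.symm x)).det = (A (b.equivFun.symm x)).det := by
      rw [RingHom.map_det, ← Matrix.det_transpose]
      congr 1
      ext j k
      exact hA _ _ _
    have h3 : MvPolynomial.eval x R = trF hσ (l * MvPolynomial.eval (fun i => (x i : F)) N.det) := by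
      rw [MvPolynomial.eval_eq (f := N.det), Finset.mul_sum, map_sum, map_sum]
      refine Finset.sum_congr rfl fun d _ => ?_
      rw [MvPolynomial.eval_monomial, mul_comm, ← smul_eq_mul, ← map_smul]
      congr 1
      simp [Subfield.smul_def, Finsupp.prod]
      ring
    rw [h3, h1]
    change l * _ + σ (l * _) = _
    rw [map_mul, h2, ← add_mul, hl, one_mul]
  have hdvd := char_dvd_card_solutions p (f := R) (by simpa using hR.trans_lt h)
  by_contra! hcon
  have : Fintype.card {x : Fin (finrank (fixedField σ) W) → fixedField σ //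
      MvPolynomial.eval x R = 0} = 1 := by
    have : Nonempty (Fin m) := ⟨⟨0, hm⟩⟩
    rw [Fintype.card_eq_one_iff]
    refine ⟨⟨0, Subtype.ext (by rw [hev]; simp)⟩, fun ⟨x, hx⟩ => Subtype.ext ?_⟩
    by_contra hx0
    exact hcon _ (b.equivFun.symm.map_ne_zero_iff.2 hx0) (by rw [← hev, hx]; rfl)
  rw [this] at hdvd
  exact hpp.one_lt.ne' (Nat.dvd_one.1 hdvd)

end Det

variable {F K : Type*} [Field F] [Field K] [Algebra F K] {σ : F →+* F} {τ : K →+* K}
  {Λ : K →ₗ[F] F}

variable (σ) in
/-- The elements of `N` fixed by `τ`. -/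
def fixPart (τ : K →+* K) (h : ∀ c, τ (algebraMap F K c) = algebraMap F K (σ c))
    (N : Submodule F K) : Submodule (fixedField σ) K where
  carrier := {a | τ a = a ∧ a ∈ N}
  add_mem' ha hb := ⟨by rw [map_add, ha.1, hb.1], N.add_mem ha.2 hb.2⟩
  zero_mem' := ⟨map_zero _, N.zero_mem⟩
  smul_mem' c a ha := ⟨by
    rw [Subfield.smul_def, Algebra.smul_def, map_mul, h, ha.1, show σ c = c from c.2],
    N.smul_mem c.1 ha.2⟩

/-- An extension of odd prime degree with compatible involutions and trace functional. -/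
structure UF (σ : F →+* F) (τ : K →+* K) (Λ : K →ₗ[F] F) : Prop where
  hσ : IsInvol σ
  hτ : IsInvol τ
  ne : Λ ≠ 0
  alg : ∀ c, τ (algebraMap F K c) = algebraMap F K (σ c)
  conj : ∀ a, Λ (τ a) = σ (Λ a)
  prime : (finrank F K).Prime
  three : 3 ≤ finrank F K

namespace UF

variable (X : UF σ τ Λ)
include X

theorem τ_smul (c : F) (a : K) : τ (c • a) = σ c • τ a := by
  rw [Algebra.smul_def, Algebra.smul_def, map_mul, X.alg]

theorem finite : FiniteDimensional F K := Module.finite_of_finrank_pos (by have := X.three; omega)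

theorem exists_coords {θ : F} (hθ : σ θ ≠ θ) {N : Submodule F K} (hN : ∀ a ∈ N, τ a ∈ N) {x : K}
    (hx : x ∈ N) : ∃ a ∈ N, ∃ b ∈ N, τ a = a ∧ τ b = b ∧ x = a + θ • b := by
  have h0 : θ - σ θ ≠ 0 := sub_ne_zero.2 hθ.symm
  have h1 : σ θ - θ ≠ 0 := sub_ne_zero.2 hθ
  refine ⟨(θ - σ θ)⁻¹ • (θ • τ x - σ θ • x), N.smul_mem _ (N.sub_mem (N.smul_mem _ (hN x hx))
    (N.smul_mem _ hx)), (θ - σ θ)⁻¹ • (x - τ x), N.smul_mem _ (N.sub_mem hx (hN x hx)), ?_, ?_, ?_⟩
  · simp only [X.τ_smul, map_sub, map_inv₀, X.hσ.invol, X.hτ.invol]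
    match_scalars <;> field_simp <;> ring
  · simp only [X.τ_smul, map_sub, map_inv₀, X.hσ.invol, X.hτ.invol]
    match_scalars <;> field_simp <;> ring
  · match_scalars <;> field_simp <;> ring

theorem eq_zero_of_coords {θ : F} (hθ : σ θ ≠ θ) {a b : K} (ha : τ a = a) (hb : τ b = b)
    (h : a + θ • b = 0) : a = 0 ∧ b = 0 := by
  have h1 := congrArg τ h
  rw [map_add, X.τ_smul, ha, hb, map_zero] at h1
  have h2 : (σ θ - θ) • b = 0 := by linear_combination (norm := module) h1 - h
  rw [smul_eq_zero, or_iff_right (sub_ne_zero.2 hθ)] at h2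
  exact ⟨by simpa [h2] using h, h2⟩

theorem mem_range_of_sq {a : K} (ha : a * a ∈ Set.range (algebraMap F K)) :
    a ∈ Set.range (algebraMap F K) := by
  classical
  obtain ⟨c, hc⟩ := ha
  refine H27.exists_algebraMap_of_stabilizes X.prime (D := Submodule.span F {1, a})
    (Submodule.subset_span (by simp)) one_ne_zero (fun h => ?_) fun x hx => ?_
  · have h1 := finrank_span_le_card (R := F) ({1, a} : Set K)
    have h2 := X.three
    rw [h, finrank_top] at h1
    exact absurd (h1.trans (by simpa using Finset.card_le_two)) (by omega)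
  · obtain ⟨s, t, rfl⟩ := Submodule.mem_span_pair.1 hx
    exact Submodule.mem_span_pair.2 ⟨t * c, s, by simp [Algebra.smul_def, hc]; ring⟩

theorem finrank_ker : finrank F (LinearMap.ker Λ) + 1 = finrank F K := by
  have := X.finite
  have h1 := Λ.finrank_range_add_finrank_ker
  rw [LinearMap.range_eq_top.2 (LinearMap.surjective X.ne), finrank_top, finrank_self] at h1
  omega

/-- Hua's identity: the inverses of the fixed elements of `ker Λ` are not closed under
addition. -/
theorem exists_hua : ∃ a b : K, τ a = a ∧ τ b = b ∧ Λ a = 0 ∧ Λ b = 0 ∧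
    Λ (a⁻¹ + b⁻¹)⁻¹ ≠ 0 := by
  by_contra! H
  have := X.finite
  obtain ⟨θ, hθ⟩ := X.hσ.ne_id
  have hk : ∀ a ∈ LinearMap.ker Λ, τ a ∈ LinearMap.ker Λ := fun a ha => by
    rw [LinearMap.mem_ker, X.conj, LinearMap.mem_ker.1 ha, map_zero]
  have h1 : ∀ a c : K, τ a = a → τ c = c → Λ a = 0 → Λ c = 0 → Λ (a * a / c) = 0 := by
    intro a c ha hc ha' hc'
    by_cases ha0 : a = 0
    · simp [ha0]
    by_cases hc0 : c = 0
    · simp [hc0]
    by_cases hca : c - a = 0
    · rwa [sub_eq_zero.1 hca, mul_div_cancel_right₀ _ ha0]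
    have h2 := H a (c - a) ha (by rw [map_sub, ha, hc]) ha' (by rw [map_sub, ha', hc', sub_zero])
    have h3 : a * a / c = a - (a⁻¹ + (c - a)⁻¹)⁻¹ := by
      rw [show a⁻¹ + (c - a)⁻¹ = c / (a * (c - a)) by field_simp; ring]
      field_simp; ring
    rw [h3, map_sub, ha', h2, sub_zero]
  have h2 : ∀ a b : K, τ a = a → τ b = b → Λ a = 0 → Λ b = 0 → b ≠ 0 → a ∈ F ∙ b := by
    intro a b ha hb ha' hb' hb0
    obtain ⟨c, hc⟩ := X.mem_range_of_sq (a := a / b) (H27.exists_algebraMap_of_stabilizes X.prime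
      (D := LinearMap.ker Λ) hb' hb0 (fun h => X.ne (LinearMap.ker_eq_top.1 h)) fun x hx => by
        have h3 : ∀ s : K, τ s = s → Λ s = 0 → Λ (a / b * (a / b) * s) = 0 := fun s hs hs' => by
          have := h1 a (b * b / s) ha (by rw [map_div₀, map_mul, hb, hs]) ha' (h1 b s hb hs hb' hs')
          rwa [show a * a / (b * b / s) = a / b * (a / b) * s by field_simp] at this
        obtain ⟨s, hs, t, ht, h4, h5, rfl⟩ := X.exists_coords hθ hk hx
        rw [LinearMap.mem_ker, mul_add, mul_smul_comm, map_add, map_smul, h3 s h4 hs, h3 t h5 ht]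
        simp)
    exact Submodule.mem_span_singleton.2 ⟨c, by rw [Algebra.smul_def, hc, div_mul_cancel₀ _ hb0]⟩
  have h3 := X.finrank_ker
  have h4 := X.three
  obtain ⟨b, hb, hb', hb0⟩ : ∃ b : K, τ b = b ∧ Λ b = 0 ∧ b ≠ 0 := by
    by_contra! H'
    obtain ⟨x, hx, hx0⟩ := Submodule.exists_mem_ne_zero_of_ne_bot (p := LinearMap.ker Λ)
      fun h => by rw [h, finrank_bot] at h3; omega
    obtain ⟨s, hs, t, ht, h5, h6, rfl⟩ := X.exists_coords hθ hk hx
    exact hx0 (by simp [H' s h5 hs, H' t h6 ht])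
  have h5 : LinearMap.ker Λ ≤ F ∙ b := fun x hx => by
    obtain ⟨s, hs, t, ht, h5, h6, rfl⟩ := X.exists_coords hθ hk hx
    exact add_mem (h2 s b h5 hb hs hb' hb0) (Submodule.smul_mem _ _ (h2 t b h6 hb ht hb' hb0))
  have h6 := (Submodule.finrank_mono h5).trans (PForm.finrank_span_singleton_le b)
  omega

variable [Finite F]

theorem finite₀ : FiniteDimensional (fixedField σ) K :=
  have := X.finite
  Module.Finite.trans F K

theorem finrank_fixPart_le (N : Submodule F K) :
    finrank (fixedField σ) (fixPart σ τ X.alg N) ≤ finrank F N := by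
  have := X.finite
  have := X.finite₀
  have : FiniteDimensional (fixedField σ) N := Module.Finite.trans F N
  obtain ⟨θ, hθ⟩ := X.hσ.ne_id
  let φ : fixPart σ τ X.alg N × fixPart σ τ X.alg N →ₗ[fixedField σ] N :=
    { toFun := fun a => ⟨a.1.1 + θ • a.2.1, N.add_mem a.1.2.2 (N.smul_mem _ a.2.2.2)⟩
      map_add' := fun a b => Subtype.ext (by simp; abel)
      map_smul' := fun c a => Subtype.ext (by simp [Subfield.smul_def, smul_comm θ]) }
  have h1 := LinearMap.finrank_le_finrank_of_injective (f := φ)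
    ((injective_iff_map_eq_zero φ).2 fun a ha => by
      obtain ⟨h1, h2⟩ := X.eq_zero_of_coords hθ a.1.2.1 a.2.2.1 (congrArg Subtype.val ha)
      exact Prod.ext (Subtype.ext h1) (Subtype.ext h2))
  rw [finrank_prod, finrank_fixedField_eq X.hσ N] at h1
  omega

theorem le_finrank_fixPart : finrank F K ≤ finrank (fixedField σ) (fixPart σ τ X.alg ⊤) := by
  have := X.finite
  have := X.finite₀
  obtain ⟨θ, hθ⟩ := X.hσ.ne_id
  let φ : fixPart σ τ X.alg ⊤ × fixPart σ τ X.alg ⊤ →ₗ[fixedField σ] K :=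
    { toFun := fun a => a.1.1 + θ • a.2.1
      map_add' := fun a b => by simp; abel
      map_smul' := fun c a => by simp [Subfield.smul_def, smul_comm θ] }
  have h1 := LinearMap.finrank_le_finrank_of_surjective (f := φ) fun x => by
    obtain ⟨a, -, b, -, ha, hb, rfl⟩ := X.exists_coords hθ (N := ⊤) (fun _ _ => trivial)
      (x := x) trivial
    exact ⟨(⟨a, ha, trivial⟩, ⟨b, hb, trivial⟩), rfl⟩
  rw [finrank_prod, finrank_fixedField_eq X.hσ K] at h1
  omega

omit [Finite F] in
/-- The trace form of `K`. -/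
def trB : K →ₛₗ[σ] K →ₗ[F] F :=
  LinearMap.mk₂'ₛₗ σ (RingHom.id F) (fun a b => Λ (τ a * b))
    (fun a a' b => by rw [map_add, add_mul, map_add])
    (fun c a b => by rw [X.τ_smul, smul_mul_assoc, map_smul])
    (fun a b b' => by rw [mul_add, map_add])
    (fun c a b => by rw [mul_smul_comm, map_smul]; rfl)

omit [Finite F] in
theorem trB_apply (a b : K) : X.trB a b = Λ (τ a * b) := rfl

omit [Finite F] in
theorem isHerm_trB : IsHerm X.trB :=
  ⟨⟨X.hσ, fun a b => by rw [trB_apply, trB_apply, ← X.conj, map_mul, X.hτ.invol, mul_comm]⟩,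
    fun a ha => by
      by_contra h0
      obtain ⟨b, hb⟩ := H27.exists_map_mul_ne_zero X.ne ((map_ne_zero τ).2 h0)
      exact hb (by rw [mul_comm]; exact ha b)⟩

/-- A subspace `Y` such that each multiplication by a fixed element maps `Y` into `Y^⊥` or onto a
complement of it is a line. -/
theorem exists_line {Y D : Submodule F K} (hY : Y ≠ ⊥) (hD : D ≠ ⊥)
    (hd : finrank F D + finrank F Y = finrank F K) (ho : ∀ y ∈ Y, ∀ a ∈ D, Λ (τ y * a) = 0)
    (h : ∀ a, τ a = a → ∀ y ∈ Y, y ≠ 0 → a * y ∈ D → ∀ y' ∈ Y, a * y' ∈ D) :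
    ∃ y ∈ Y, y ≠ 0 ∧ Y ≤ F ∙ y ∧ ∃ a, τ a = a ∧ a ≠ 0 ∧ a * y ∈ D := by
  have := X.finite
  have := X.finite₀
  have hY0 : 0 < finrank F Y := Nat.pos_of_ne_zero fun h => hY (Submodule.finrank_eq_zero.1 h)
  have hD0 : 0 < finrank F D := Nat.pos_of_ne_zero fun h => hD (Submodule.finrank_eq_zero.1 h)
  have h1 : D = perp X.trB Y := Submodule.eq_of_le_of_finrank_le (fun a ha y hy => ho y hy a ha)
    (by have := X.isHerm_trB.finrank_add_finrank_perp Y; omega)
  let b := Module.finBasis F Y
  let N : Submodule F K :=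
    { carrier := {a | ∀ y ∈ Y, a * y ∈ D}
      add_mem' := fun ha hb y hy => by rw [add_mul]; exact D.add_mem (ha y hy) (hb y hy)
      zero_mem' := fun y _ => by rw [zero_mul]; exact D.zero_mem
      smul_mem' := fun c a ha y hy => by rw [smul_mul_assoc]; exact D.smul_mem c (ha y hy) }
  obtain ⟨W, hW⟩ := Submodule.exists_isCompl
    ((fixPart σ τ X.alg N).submoduleOf (fixPart σ τ X.alg ⊤))
  have h2 : finrank (fixedField σ) W ≤ finrank F Y := by
    by_contra! hlt
    obtain ⟨w, hw0, hw⟩ := exists_det_eq_zero X.hσ hY0 (W := W)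
      { toFun := fun w => Matrix.of fun j k => Λ (τ (b j) * (w.1.1 * b k))
        map_add' := fun _ _ => by ext; simp [add_mul, mul_add]
        map_smul' := fun _ _ => by ext; simp [Subfield.smul_def] }
      (fun w j k => by
        change σ (Λ (τ (b j) * (w.1.1 * b k))) = Λ (τ (b k) * (w.1.1 * b j))
        rw [← X.conj, map_mul τ, map_mul τ, X.hτ.invol, w.1.2.1]
        congr 1; ring) hlt
    obtain ⟨v, hv0, hv⟩ := Matrix.exists_mulVec_eq_zero_iff.2 hw
    have h3 : w.1.1 * (b.equivFun.symm v).1 ∈ D := by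
      rw [h1]
      intro y hy
      have h4 : ∀ j, X.trB (b j) (w.1.1 * (b.equivFun.symm v).1) = 0 := fun j => by
        simpa [trB_apply, Matrix.mulVec, dotProduct, Finset.mul_sum, mul_comm] using congrFun hv j
      have h5 := congrArg Subtype.val (b.sum_repr ⟨y, hy⟩)
      rw [Submodule.coe_sum] at h5
      change _ = y at h5
      rw [← h5, map_sum, LinearMap.sum_apply]
      exact Finset.sum_eq_zero fun j _ => by rw [Submodule.coe_smul, smul_left, h4, mul_zero]
    exact hw0 (Subtype.ext (Submodule.disjoint_def.1 hW.disjoint w.1 ⟨w.1.2.1, h _ w.1.2.1 _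
      (b.equivFun.symm v).2 (fun e => b.equivFun.symm.map_ne_zero_iff.2 hv0 (Subtype.ext e)) h3⟩
      w.2))
  have h3 := Submodule.finrank_add_eq_of_isCompl hW
  rw [(Submodule.submoduleOfEquivOfLe (p := fixPart σ τ X.alg N) (q := fixPart σ τ X.alg ⊤)
    fun _ ha => And.intro ha.1 trivial).finrank_eq] at h3
  have h4 := X.le_finrank_fixPart
  have h5 := X.finrank_fixPart_le N
  obtain ⟨y, hy, hy0⟩ := Submodule.exists_mem_ne_zero_of_ne_bot hY
  obtain ⟨a, ha, ha0⟩ := Submodule.exists_mem_ne_zero_of_ne_bot (p := fixPart σ τ X.alg N)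
    fun e => by rw [e, finrank_bot] at h3; omega
  refine ⟨y, hy, hy0, fun y' hy' => ?_, a, ha.1, ha0, ha.2 y hy⟩
  have h6 : N.map (LinearMap.mulRight F y) = D := Submodule.eq_of_le_of_finrank_le
    (by rintro _ ⟨n, hn, rfl⟩; exact hn y hy) (by
      rw [← (Submodule.equivMapOfInjective (LinearMap.mulRight F y) (mul_left_injective₀ hy0)
        N).finrank_eq]; omega)
  obtain ⟨c, hc⟩ := H27.exists_algebraMap_of_stabilizes X.prime (ha.2 y hy) (mul_ne_zero ha0 hy0)
    (fun e => by rw [e, finrank_top] at hd; omega) (e := y' / y) fun d hd => by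
      obtain ⟨n, hn, rfl⟩ := h6 ▸ hd
      rw [LinearMap.mulRight_apply, show y' / y * (n * y) = n * y' by field_simp]
      exact hn y' hy'
  exact Submodule.mem_span_singleton.2 ⟨c, by rw [Algebra.smul_def, hc, div_mul_cancel₀ _ hy0]⟩

/-- An element of norm one outside `F` that is a `(q+1)`-st power of an element of norm one. -/
theorem exists_mu (h : finrank F K ≠ 3 ∨ Nat.card F ≠ 4) :
    ∃ (z : K) (n : ℕ), z * τ z = 1 ∧ (∀ c : F, c * σ c = c ^ n) ∧
      z ^ n ∉ Set.range (algebraMap F K) := by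
  have := X.finite
  have : Finite K := Module.finite_of_finite F
  have := Fintype.ofFinite F
  have := Fintype.ofFinite K
  obtain ⟨q, hq, hσ⟩ := X.hσ.exists_q
  obtain ⟨Q, hQ, hτ⟩ := X.hτ.exists_q
  have h1 : Q = q ^ finrank F K := by
    have := Module.card_eq_pow_finrank (K := F) (V := K)
    rw [hQ, hq, ← pow_mul, mul_comm, pow_mul] at this
    exact Nat.pow_left_injective two_ne_zero this
  have h2 : (q + 1) * (q + 1) < Q + 1 := by
    have h2 := two_le_of_card_sq hq
    have h3 := X.three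
    rw [h1]
    by_cases h4 : q = 2
    · subst h4
      have h5 : finrank F K ≠ 3 := h.resolve_right (by simp [hq])
      exact Nat.lt_succ_of_le (le_trans (by norm_num)
        (Nat.pow_le_pow_right two_pos (show 4 ≤ finrank F K by omega)))
    · have h5 := Nat.pow_le_pow_right (n := q) (by omega) h3
      have h6 : 3 * (q * q) ≤ q ^ 3 := by
        rw [pow_succ', sq]; exact Nat.mul_le_mul_right _ (by omega)
      have h7 : 3 * q ≤ q * q := Nat.mul_le_mul_right _ (by omega)
      nlinarith
  by_contra! H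
  have h3 := Nat.card_le_card_of_injective (α := {x : K // x * τ x = 1})
    (β := {x : K // x ^ ((q + 1) * (q + 1)) = 1}) (fun x => ⟨x.1, by
      obtain ⟨c, hc⟩ := H x.1 (q + 1) x.2 fun c => by rw [hσ, pow_succ']
      rw [pow_mul, ← hc, ← map_pow, pow_succ', ← hσ, map_mul, ← X.alg, hc, map_pow, ← mul_pow, x.2,
        one_pow]⟩) fun x y e => Subtype.ext (Subtype.mk.inj e)
  rw [card_norm_eq hQ hτ one_ne_zero (map_one τ), card_pow_eq_one _ (by positivity)] at h3
  exact absurd (h3.trans (Nat.gcd_le_right _ (by positivity))) (by omega)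

end UF

end Cfsg.Agent.H26
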