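import Cfsg.Agent.H26.UExtF
import Cfsg.Agent.H31.HermSp

/-!
The field extension subgroups of unitary groups: semilinear maps and generation.
-/

set_option autoImplicit false

namespace Cfsg.Agent.H26

open H31 Module
open H27 (kline mem_kline smul_mem_kline self_mem_kline finrank_kline)

section Scale

variable {F : Type*} [Field F] {σ : F →+* F} {V : Type*} [AddCommGroup V] [Module F V]
  [FiniteDimensional F V] {B : V →ₛₗ[σ] V →ₗ[F] F}

theorem skew_div {c a : F} (hc : c + σ c = 0) (ha : σ a = a) : a / c + σ (a / c) = 0 := by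
  rw [div_eq_inv_mul]
  exact skew_mul_fixed (skew_inv hc) ha

theorem exists_sisom_hyp (h : IsHerm B) {e f : V} (he : B e e = 0) (hf : B f f = 0) {ω : F}
    (hω0 : ω ≠ 0) (hω : ω + σ ω = 0) (hef : B e f = ω) {a b : F} (ha : σ a = a) (hb : σ b = b)
    (hb0 : b ≠ 0) : ∃ g ∈ sisom B, g e = a • e + b • f := by
  have h1 : B f e = -ω := by rw [← h.symm, hef]; linear_combination hω
  refine ⟨_, mul_mem (h.tv_mem_sisom he (skew_div hω (a := (a - 1) / b) (by simp [ha, hb])))
    (h.tv_mem_sisom hf (skew_div hω (a := -b) (by simp [hb]))), ?_⟩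
  simp only [LinearEquiv.mul_apply, tv_apply, map_add, map_smul, he, h1, hef, smul_eq_mul]
  match_scalars <;> field_simp <;> ring

theorem exists_hyp_skew (h : IsHerm B) {e : V} (he : B e e = 0) (he0 : e ≠ 0) :
    ∃ f ω, ω ≠ 0 ∧ ω + σ ω = 0 ∧ B f f = 0 ∧ B e f = ω := by
  obtain ⟨f, hf, hef⟩ := h.exists_hyperbolic' he he0
  obtain ⟨ω, hω0, hω⟩ := h.inv.exists_skew'
  exact ⟨ω • f, ω, hω0, hω, isotropic_smul hf ω, by rw [smul_right, hef, mul_one]⟩

theorem exists_sisom_smul (h : IsHerm B) {e : V} (he : B e e = 0) (he0 : e ≠ 0) {a : F}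
    (ha : σ a = a) (ha0 : a ≠ 0) : ∃ g ∈ sisom B, g e = a • e := by
  obtain ⟨f, ω, hω0, hω, hf, hef⟩ := exists_hyp_skew h he he0
  obtain ⟨g, hg, H⟩ := exists_sisom_hyp h he hf hω0 hω hef ha (map_one σ) one_ne_zero
  have h1 : B f e = -ω := by rw [← h.symm, hef]; linear_combination hω
  refine ⟨_, mul_mem (h.tv_mem_sisom hf (skew_div hω (a := a⁻¹) (by simp [ha]))) hg, ?_⟩
  simp only [LinearEquiv.mul_apply, H, tv_apply, map_add, map_smul, hf, h1, smul_eq_mul]
  match_scalars <;> field_simp <;> ring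

end Scale

variable {F K : Type*} [Field F] [Field K] [Algebra F K] {σ : F →+* F} {τ : K →+* K}
  {V : Type*} [AddCommGroup V] [Module F V] [Module K V] [IsScalarTower F K V]

/-- The Hermitian form `B` over `F` is the trace of the Hermitian form `H` over `K`. -/
structure UX (B : V →ₛₗ[σ] V →ₗ[F] F) (H : V →ₛₗ[τ] V →ₗ[K] K) (Λ : K →ₗ[F] F) : Prop
    extends UF σ τ Λ where
  hB : IsHerm B
  hH : IsHerm H
  tr : ∀ x y, B x y = Λ (H x y)
  two : 2 ≤ finrank K V

variable {B : V →ₛₗ[σ] V →ₗ[F] F} {H : V →ₛₗ[τ] V →ₗ[K] K} {Λ : K →ₗ[F] F}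
  {M : Subgroup (V ≃ₗ[F] V)}

theorem H_smul_right (c : F) (x y : V) : H x (c • y) = c • H x y := by
  rw [← algebraMap_smul K, smul_right, Algebra.smul_def]

namespace UX

variable (X : UX B H Λ)
include X

omit [IsScalarTower F K V] in
theorem finiteV : FiniteDimensional K V :=
  Module.finite_of_finrank_pos (by have := X.two; omega)

theorem finiteV' : FiniteDimensional F V :=
  have := X.finiteV
  have := X.finite
  Module.Finite.trans K V

omit [IsScalarTower F K V] in
theorem finiteK [Finite F] : Finite K :=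
  have := X.finite
  Module.finite_of_finite F

theorem six_le : 6 ≤ finrank F V := by
  rw [← Module.finrank_mul_finrank F K V]
  exact Nat.mul_le_mul X.three X.two

theorem H_smul_left (c : F) (x y : V) : H (c • x) y = σ c • H x y := by
  rw [← algebraMap_smul K, smul_left, X.alg, Algebra.smul_def]

omit [IsScalarTower F K V] in
theorem B_right (a : K) (x y : V) : B x (a • y) = Λ (a * H x y) := by rw [X.tr, smul_right]

omit [IsScalarTower F K V] in
theorem B_left (a : K) (x y : V) : B (a • x) y = Λ (τ a * H x y) := by rw [X.tr, smul_left]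

omit [IsScalarTower F K V] in
theorem B_zero {x y : V} (h : H x y = 0) : B x y = 0 := by rw [X.tr, h, map_zero]

omit [IsScalarTower F K V] in
theorem B_smul_smul {u : V} (h : H u u = 0) (a b : K) : B (a • u) (b • u) = 0 :=
  X.B_zero (by rw [smul_left, smul_right, h, mul_zero, mul_zero])

theorem B_kline {u : V} (h : H u u = 0) : TotIso B (kline F K u) := fun x hx y hy => by
  obtain ⟨a, rfl⟩ := mem_kline.1 hx
  obtain ⟨b, rfl⟩ := mem_kline.1 hy
  exact X.B_smul_smul h a b

theorem res_mem {g : V ≃ₗ[K] V} (hg : g ∈ sisom H) : resHom F g ∈ semiN F K V ⊓ sisom B := by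
  refine ⟨resHom_mem_semiN g, mem_sisom'.2 ⟨fun x y => ?_, ?_⟩⟩
  · rw [X.tr, X.tr, resHom_apply, resHom_apply, hg.1]
  · change LinearMap.det ((g : V →ₗ[K] V).restrictScalars F) = 1
    rw [LinearMap.det_restrictScalars, (mem_sisom'.1 hg).2, map_one]

omit [IsScalarTower F K V] in
theorem skew_smul {ω : F} (hω : ω + σ ω = 0) {a : K} (ha : τ a = a) : ω • a + τ (ω • a) = 0 := by
  rw [X.τ_smul, ha, ← add_smul, hω, zero_smul]

variable [Finite F]

/-- A totally isotropic subspace of the dimension of `K` contains an `H`-isotropic vector. -/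
theorem exists_isotropic {T : Submodule F V} (hT : TotIso B T) (hd : finrank F T = finrank F K) :
    ∃ x ∈ T, x ≠ 0 ∧ H x x = 0 := by
  have := X.finiteV'
  have := X.finite₀
  have : FiniteDimensional (fixedField σ) T := Module.Finite.trans F T
  obtain ⟨l, hl⟩ := X.hσ.exists_trace_eq (map_one σ)
  obtain ⟨x, hx0, hx⟩ := exists_zero_quad_vec (F := fixedField σ) (T := T)
    (S := fixPart σ τ X.alg (LinearMap.ker Λ))
    (LinearMap.mk₂ (fixedField σ) (fun x y => ⟨l • H x y + τ (l • H x y),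
      X.hτ.trace_fixed _, by
        rw [LinearMap.mem_ker, map_add, X.conj, map_smul, ← X.tr, hT x x.2 y y.2]; simp⟩)
      (fun x x' y => Subtype.ext (by simp; ring))
      (fun c x y => Subtype.ext (by
        simp [Subfield.smul_def, X.H_smul_left, X.τ_smul, show σ c = c from c.2, smul_comm l,
          smul_comm (σ l)]))
      (fun x y y' => Subtype.ext (by simp; ring))
      (fun c x y => Subtype.ext (by
        simp [Subfield.smul_def, H_smul_right, X.τ_smul, show σ c = c from c.2, smul_comm l,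
          smul_comm (σ l)])))
    (by
      have h1 := X.finrank_fixPart_le (LinearMap.ker Λ)
      have h2 := X.finrank_ker
      rw [finrank_fixedField_eq X.hσ T]
      omega)
  refine ⟨x, x.2, fun h => hx0 (Subtype.ext h), ?_⟩
  have h1 : l • H x x + τ (l • H x x) = 0 := congrArg Subtype.val hx
  rwa [X.τ_smul, X.hH.norm_fixed, ← add_smul, hl, one_smul] at h1

/-- An `F`-linear map fixing the isotropic `K`-lines is a scalar in `K`. -/
theorem exists_scalar (A : V →ₗ[F] V) (hA : ∀ u, H u u = 0 → A u ∈ K ∙ u) :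
    ∃ c : K, ∀ x, A x = c • x := by
  have := X.finiteV
  have := X.finiteK
  have h0 : ∀ u, H u u = 0 → ∀ a : K, ∃ c : K, A (a • u) = c • u := fun u hu a => by
    obtain ⟨c, hc⟩ := Submodule.mem_span_singleton.1 (hA _ (isotropic_smul hu a))
    exact ⟨c * a, by rw [← hc, smul_smul]⟩
  obtain ⟨θ, hθ⟩ := X.hσ.ne_id
  obtain ⟨ω, hω0, hω⟩ := X.hτ.exists_skew'
  have key : ∀ e f (c : K), H e e = 0 → H f f = 0 → H e f ≠ 0 → A e = c • e → A f = c • f := by
    intro e f c he hf hef hc
    obtain ⟨μ, f', rfl, h1, h2⟩ : ∃ (μ : K) (f' : V), f = μ • f' ∧ H e f' = ω ∧ H f' f' = 0 :=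
      ⟨H e f / ω, (ω / H e f) • f, by
        rw [smul_smul, show H e f / ω * (ω / H e f) = 1 by field_simp, one_smul], by
        rw [smul_right, div_mul_cancel₀ _ hef], isotropic_smul hf _⟩
    have h3 : H f' e = -ω := by rw [← X.hH.symm, h1]; linear_combination hω
    have h4 : ∀ a l α : K, τ a = a → A (l • e) = α • e → A ((l * a) • f') = (α * a) • f' := by
      intro a l α ha h5
      obtain ⟨β, h6⟩ := h0 f' h2 (l * a)
      obtain ⟨γ, h7⟩ := h0 (e + a • f') (by simp [he, h1, h2, h3, ha]) l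
      rw [smul_add, smul_smul, map_add, h5, h6] at h7
      have h8 := congrArg (H e) h7
      have h9 := congrArg (H f') h7
      simp only [map_add, map_smul, he, h1, h2, h3, smul_eq_mul] at h8 h9
      rw [h6]
      congr 1
      apply mul_right_cancel₀ hω0
      linear_combination h8 + a * h9
    have h5 : ∀ a : K, τ a = a → A (a • f') = (c * a) • f' := fun a ha => by
      simpa using h4 a 1 c ha (by rwa [one_smul])
    obtain ⟨s, -, t, -, hs, ht, rfl⟩ := X.exists_coords hθ (N := ⊤) (fun _ _ => trivial)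
      (x := μ) trivial
    rw [add_smul, smul_assoc, map_add, map_smul A θ, h5 s hs, h5 t ht, smul_add, smul_comm c θ,
      smul_smul c s, smul_smul c t]
  obtain ⟨e, -, he0, he⟩ := X.hH.exists_isotropic X.hH.nondegOn_top (by rw [finrank_top]; exact X.two)
  obtain ⟨c, hc⟩ := Submodule.mem_span_singleton.1 (hA e he)
  have h1 : ∀ v, H v v = 0 → A v = c • v := fun v hv => by
    by_cases hv0 : v = 0
    · simp [hv0]
    by_cases h : H e v = 0
    · obtain ⟨z, -, h1, h2, h3⟩ := PForm.exists_sing_ne_ne (P := hermP X.hH) (S := ⊥) (x := e)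
        (x' := v) (by rw [PForm.perp_bot]; trivial) (by simpa using he0) (by simpa using hv0)
        ((hermP_sing _).2 he) h
      rw [hermP_sing] at h1
      exact key z v c h1 hv h3 (key e z c he h1 (X.hH.flip_ne_zero h2) hc.symm)
    · exact key e v c he hv h hc.symm
  refine ⟨c, fun x => ?_⟩
  obtain ⟨y, -, z, -, hy, hz, rfl⟩ := X.hH.exists_add_isotropic X.hH.nondegOn_top
    (by rw [finrank_top]; exact X.two) (v := x) trivial
  rw [map_add, h1 y hy, h1 z hz, smul_add]

theorem mem_semiN_of_lines {g : V ≃ₗ[F] V}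
    (h : ∀ u, H u u = 0 → ∀ a : K, g⁻¹ (a • g u) ∈ K ∙ u) : g ∈ semiN F K V := by
  have := X.finiteK
  have : Nontrivial V := Module.nontrivial_of_finrank_pos (R := K) (by have := X.two; omega)
  refine (inv_mem_iff (x := g)).1 (mem_semiN_of fun a => ?_)
  obtain ⟨c, hc⟩ := X.exists_scalar ((g⁻¹ : V ≃ₗ[F] V).toLinearMap ∘ₗ
    (LinearMap.lsmul K V a).restrictScalars F ∘ₗ g.toLinearMap) fun u hu => h u hu a
  refine ⟨c, fun v => ?_⟩
  have := hc (g⁻¹ v)
  change g⁻¹ (a • g (g⁻¹ v)) = _ at this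
  rwa [apply_inv_apply] at this

theorem not_sisom_le : ¬ sisom B ≤ semiN F K V := fun h => by
  have := X.finiteV
  have := X.finiteV'
  have := X.finiteK
  obtain ⟨e, -, he0, he⟩ := X.hH.exists_isotropic X.hH.nondegOn_top (by rw [finrank_top]; exact X.two)
  obtain ⟨ω, hω0, hω⟩ := X.hσ.exists_skew'
  obtain ⟨x, hx⟩ := X.hB.exists_eq_one he0
  have h1 : (⊤ : Submodule F K) ≤ F ∙ 1 := fun a _ => by
    have h2 := smul_of_mem_semiN (h (X.hB.tv_mem_sisom (X.B_zero he) hω)) he0
      (fun b => tv_apply_of_perp _ _ (by simpa using X.B_smul_smul he 1 b)) a x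
    rw [tv_apply, tv_apply, hx, smul_add, add_right_inj, mul_one, ← algebraMap_smul K,
      ← algebraMap_smul K ω, smul_smul] at h2
    refine Submodule.mem_span_singleton.2 ⟨B e (a • x), mul_right_cancel₀
      ((map_ne_zero (algebraMap F K)).2 hω0) ?_⟩
    rw [← smul_left_injective K he0 h2, map_mul, Algebra.smul_def, mul_one, mul_comm]
  have h2 := (Submodule.finrank_mono h1).trans (PForm.finrank_span_singleton_le _)
  have h3 := X.three
  rw [finrank_top] at h2
  omega

/-- If all `H`-isotropic vectors are centres of transvection groups of `M` then `M` is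
everything. -/
theorem sisom_le_of_isotropic (hM : M ≤ isom B) (ht : ∀ u, H u u = 0 → HasTv B M u) :
    sisom B ≤ M := by
  have := X.finiteV
  have := X.finiteV'
  have := X.finiteK
  obtain ⟨ω, hω0, hω⟩ := X.hσ.exists_skew'
  have full : ∀ e, H e e = 0 → e ≠ 0 → (hermP X.hB).Full M e := fun e he he0 => by
    have hs := (hermP_sing X.hB).2 (X.B_zero he)
    have ei : ∀ w, H w w = 0 → (hermP X.hB).Ei M w 0 ω := fun w hw =>
      ei_of_hasTv (ht w hw) (X.B_zero hw) hω
    have h1 : ∀ w, H w w = 0 → H e w = 0 → w ∈ PForm.Ygrp M hs := fun w hw hew => by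
      have := (ei e he).of_tv_add (ei ((-ω⁻¹) • w) (by simp [X.H_smul_left, H_smul_right, hw]))
        (ei _ (by simp [X.H_smul_left, H_smul_right, hw, he, hew, X.hH.flip_zero hew]))
        (by rw [hermP_f, smul_right, X.B_zero hew, mul_zero])
      rw [hermP_ε, smul_smul, one_mul, neg_mul_neg, mul_inv_cancel₀ hω0, one_smul] at this
      exact ⟨0, this⟩
    have h2 : ∀ a : K, a • e ∈ PForm.Ygrp M hs := fun a =>
      h1 _ (isotropic_smul he a) (by rw [smul_right, he, mul_zero])
    have h3 : ∀ w, H w w = 0 → B e w = 0 → w ∈ PForm.Ygrp M hs := fun w hw hew => by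
      by_cases h : H e w = 0
      · exact h1 w hw h
      obtain ⟨a, ha⟩ := H27.exists_map_mul_eq X.ne (X.hH.flip_ne_zero h) ω⁻¹
      obtain ⟨ν, h4⟩ := h2 a
      have h5 := h4.conj (ht w hw ω (X.B_zero hw) hω)
        (hermP_isom X.hB ▸ hM (ht w hw ω (X.B_zero hw) hω))
      rw [tv_apply_of_perp _ _ (X.hB.flip_zero hew), tv_apply, X.B_right, ha, mul_inv_cancel₀ hω0,
        one_smul] at h5
      simpa using AddSubgroup.sub_mem _ (⟨ν, h5⟩ : _ ∈ PForm.Ygrp M hs) (h2 a)
    have h4 : ∀ y, H e y ≠ 0 → B e y = 0 → y ∈ PForm.Ygrp M hs := fun y hy hey => by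
      obtain ⟨b, hb⟩ := X.hτ.exists_trace_eq (X.hH.norm_fixed y)
      have h5 := X.hH.flip_ne_zero hy
      have h6 := h3 (y - (b / H y e) • e) (by
        simp only [map_sub, map_smul, LinearMap.sub_apply, smul_left, he, smul_eq_mul, map_div₀,
          X.hH.symm]
        rw [mul_zero, sub_zero, div_mul_cancel₀ _ hy, div_mul_cancel₀ _ h5]
        linear_combination -hb) (by simpa [hey] using X.B_smul_smul he 1 _)
      simpa using AddSubgroup.add_mem _ h6 (h2 (b / H y e))
    refine full_of_Y (X.B_zero he) (ht e he) fun y hy => (PForm.mem_Ygrp (he := hs)).1 ?_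
    by_cases h : H e y = 0
    swap
    · exact h4 y h hy
    obtain ⟨f, hf⟩ := X.hH.exists_eq_one he0
    obtain ⟨s, hs, hs0⟩ := Submodule.exists_mem_ne_zero_of_ne_bot (p := LinearMap.ker Λ) fun h => by
      have h1 := X.finrank_ker
      have h2 := X.three
      rw [h, finrank_bot] at h1
      omega
    have h5 : B e (s • f) = 0 := by rw [X.B_right, hf, mul_one]; exact hs
    simpa using AddSubgroup.sub_mem _ (h4 (y + s • f) (by simpa [h, hf] using hs0)
      (by rw [map_add, hy, h5, add_zero])) (h4 (s • f) (by simpa [hf] using hs0) h5)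
  obtain ⟨e, -, he0, he⟩ := X.hH.exists_isotropic X.hH.nondegOn_top (by rw [finrank_top]; exact X.two)
  obtain ⟨f, hf, hef⟩ := X.hH.exists_hyperbolic' he he0
  obtain ⟨a, ha⟩ := H27.exists_map_mul_ne_zero X.ne (one_ne_zero (α := K))
  have h1 : B e (a • f) ≠ 0 := by rwa [X.B_right, hef]
  exact sisom_le_of_E_le (Or.inl (by have := X.six_le; omega)) ((full e he he0).E_le
    (full _ (isotropic_smul hf a) fun h => h1 (by rw [h, map_zero])) h1)

/-- One full transvection group with `H`-isotropic centre suffices. -/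
theorem sisom_le_of_hasTv (h1 : semiN F K V ⊓ sisom B ≤ M) (hM : M ≤ isom B)
    (hex : finrank K V ≠ 2 ∨ finrank F K ≠ 3 ∨ Nat.card F ≠ 4) {δ : V} (hδ : H δ δ = 0)
    (hδ0 : δ ≠ 0) (ht : HasTv B M δ) : sisom B ≤ M := by
  have := X.finiteV
  have := X.finiteV'
  have := X.finiteK
  have hg : ∀ g ∈ sisom H, HasTv B M (g δ) := fun g hg =>
    ht.map (hM (h1 (X.res_mem hg))) (h1 (X.res_mem hg))
  by_cases h2 : finrank K V = 2
  swap
  · refine X.sisom_le_of_isotropic hM fun u hu => ?_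
    by_cases hu0 : u = 0
    · exact hu0 ▸ hasTv_zero M
    obtain ⟨g, h3, rfl⟩ := X.hH.exists_suOn_map X.hH.nondegOn_top (x := δ) (y := u) trivial trivial
      hδ0 hu0 (hδ.trans hu.symm) (Or.inl (by have := X.two; rw [finrank_top]; omega))
    exact hg g h3.1
  obtain ⟨f, ω, hω0, hω, hf, hδf⟩ := exists_hyp_skew X.hH hδ hδ0
  have hfδ : H f δ = -ω := by rw [← X.hH.symm, hδf]; linear_combination hω
  obtain ⟨θ, hθ⟩ := X.hσ.ne_id
  let V₀ : AddSubgroup V :=
    { carrier := {x | ∃ a b : K, τ a = a ∧ τ b = b ∧ x = a • δ + b • f}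
      add_mem' := by
        rintro _ _ ⟨a, b, ha, hb, rfl⟩ ⟨c, d, hc, hd, rfl⟩
        exact ⟨a + c, b + d, by rw [map_add, ha, hc], by rw [map_add, hb, hd], by module⟩
      zero_mem' := ⟨0, 0, map_zero _, map_zero _, by simp⟩
      neg_mem' := by
        rintro _ ⟨a, b, ha, hb, rfl⟩
        exact ⟨-a, -b, by rw [map_neg, ha], by rw [map_neg, hb], by module⟩ }
  have hsk : ∀ v ∈ V₀, ∀ w ∈ V₀, ∃ a, τ a = a ∧ H v w = ω * a ∧ (v = w → a = 0) := by
    rintro _ ⟨a, b, ha, hb, rfl⟩ _ ⟨c, d, hc, hd, rfl⟩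
    have h3 : H (a • δ + b • f) (c • δ + d • f) = ω * (a * d - b * c) := by
      simp [hδ, hf, hδf, hfδ, ha, hb]; ring
    refine ⟨_, by simp [ha, hb, hc, hd], h3, fun e => mul_left_cancel₀ hω0 ?_⟩
    rw [← h3, ← e]
    simp [hδ, hf, hδf, hfδ, ha, hb]; ring
  have hV : IsSpStr B V₀ θ := by
    refine ⟨hθ, ?_, fun v hv w hw => ?_, fun v hv => ?_, fun x => ?_⟩
    · rintro c hc _ ⟨a, b, ha, hb, rfl⟩
      exact ⟨c • a, c • b, by rw [X.τ_smul, ha, hc], by rw [X.τ_smul, hb, hc], by
        rw [smul_add, smul_assoc, smul_assoc]⟩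
    · obtain ⟨a, ha, h3, -⟩ := hsk v hv w hw
      rw [X.tr, ← X.conj, ← map_add, h3, skew_mul_fixed hω ha, map_zero]
    · obtain ⟨a, -, h3, h4⟩ := hsk v hv v hv
      exact X.B_zero (by rw [h3, h4 rfl, mul_zero])
    · have h3 : Submodule.span K {δ, f} = ⊤ := Submodule.eq_top_of_finrank_eq
        ((finrank_span_pair_of_gram (B := H) (by simp [hδ, hδf, hfδ, hω0])).trans h2.symm)
      obtain ⟨l, m, rfl⟩ := Submodule.mem_span_pair.1 (h3 ▸ Submodule.mem_top (x := x))
      obtain ⟨a, -, b, -, ha, hb, rfl⟩ := X.exists_coords hθ (N := ⊤) (fun _ _ => trivial)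
        (x := l) trivial
      obtain ⟨c, -, d, -, hc, hd, rfl⟩ := X.exists_coords hθ (N := ⊤) (fun _ _ => trivial)
        (x := m) trivial
      exact ⟨_, ⟨a, c, ha, hc, rfl⟩, _, ⟨b, d, hb, hd, rfl⟩, by
        simp only [add_smul, smul_add, smul_assoc]; abel⟩
  obtain ⟨z, n, hz, hn, hzn⟩ := X.exists_mu (hex.resolve_left fun h => h h2)
  have hz0 : z ≠ 0 := mu_ne_zero hz
  let g : V ≃ₗ[F] V := resHom F (LinearEquiv.smulOfNeZero K V z hz0)
  have hg1 : ∀ m x, (g ^ m) x = z ^ m • x := fun m x => by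
    induction m with
    | zero => simp
    | succ m ih => rw [pow_succ', LinearEquiv.mul_apply, ih, pow_succ', mul_smul]; rfl
  have hg2 : g ∈ isom B := fun x y => by
    change B (z • x) (z • y) = _
    rw [X.tr, X.tr, smul_left, smul_right, ← mul_assoc, mul_comm (τ z), hz, one_mul]
  have hg3 : g ^ n ∈ M := h1 ⟨pow_mem (resHom_mem_semiN _) n, pow_mem hg2 n, by
    change LinearEquiv.det (g ^ n) = 1
    rw [map_pow]
    ext
    rw [Units.val_pow_eq_pow_val, LinearEquiv.coe_det, ← hn, X.hB.det_norm hg2, Units.val_one]⟩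
  refine X.hB.sisom_le_of_hasTv (hV.hasTv_of_not_isRat X.hB hM ?_ (w := (g ^ n) δ)
    (isotropic_map (hM hg3) (X.B_zero hδ)) ?_ (ht.map (hM hg3) hg3))
    (Or.inl (by have := X.six_le; omega))
  · rintro _ ⟨a, b, ha, hb, rfl⟩
    by_cases hb0 : b = 0
    · by_cases ha0 : a = 0
      · simpa [ha0, hb0] using hasTv_zero M
      obtain ⟨k, hk, h3⟩ := exists_sisom_smul X.hH hδ hδ0 ha ha0
      simpa [h3, hb0] using hg k hk
    · obtain ⟨k, hk, h3⟩ := exists_sisom_hyp X.hH hδ hf hω0 hω hδf ha hb hb0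
      exact h3 ▸ hg k hk
  · rintro ⟨c, _, ⟨a, b, ha, hb, rfl⟩, h3⟩
    have h4 := congrArg (H f) h3
    rw [hg1, H_smul_right c] at h4
    simp only [map_add, map_smul, hf, hfδ, smul_eq_mul, mul_zero, add_zero, ← smul_mul_assoc] at h4
    have h5 := mul_right_cancel₀ (neg_ne_zero.2 hω0) h4
    have h6 : z ^ n * τ (z ^ n) = 1 := by rw [map_pow, ← mul_pow, hz, one_pow]
    rw [h5, X.τ_smul, ha, smul_mul_smul_comm, Algebra.smul_def] at h6
    obtain ⟨d, hd⟩ := X.mem_range_of_sq (a := a) ⟨(c * σ c)⁻¹, by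
      rw [map_inv₀]; exact (eq_inv_of_mul_eq_one_right h6).symm⟩
    exact hzn ⟨c * d, by rw [h5, map_mul, hd, Algebra.smul_def]⟩

end UX

end Cfsg.Agent.H26
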