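import Cfsg.Agent.H26.UExtM

/-!
Maximality of `GU_k(q^r).r` in `SU_{kr}(q)` for `r` an odd prime and `k ≥ 2`.
-/

set_option autoImplicit false

namespace Cfsg.Agent.H26

open H31 Module
open H27 (kline mem_kline smul_mem_kline self_mem_kline finrank_kline)

variable {F K : Type*} [Field F] [Field K] [Algebra F K] {σ : F →+* F} {τ : K →+* K}
  {V : Type*} [AddCommGroup V] [Module F V] [Module K V] [IsScalarTower F K V]
  {B : V →ₛₗ[σ] V →ₗ[F] F} {H : V →ₛₗ[τ] V →ₗ[K] K} {Λ : K →ₗ[F] F}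
  {M : Subgroup (V ≃ₗ[F] V)}

variable (H M) in
/-- The images of the isotropic `K`-lines. -/
def KOrb : Set (Submodule F V) :=
  {T | ∃ g ∈ M, ∃ u, u ≠ 0 ∧ H u u = 0 ∧ T = act g (kline F K u)}

theorem korb_act {T : Submodule F V} (hT : T ∈ KOrb H M) {g : V ≃ₗ[F] V} (hg : g ∈ M) :
    act g T ∈ KOrb H M := by
  obtain ⟨k, hk, u, h1, h2, rfl⟩ := hT
  exact ⟨g * k, M.mul_mem hg hk, u, h1, h2, (act_mul _ _ _).symm⟩

theorem kline_mem_KOrb {u : V} (h0 : u ≠ 0) (hu : H u u = 0) : kline F K u ∈ KOrb H M :=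
  ⟨1, M.one_mem, u, h0, hu, (act_one _).symm⟩

theorem finrank_of_KOrb {T : Submodule F V} (hT : T ∈ KOrb H M) : finrank F T = finrank F K := by
  obtain ⟨k, -, u, h1, -, rfl⟩ := hT
  rw [finrank_act, finrank_kline h1]

variable (B M) in
/-- Some element of `M` acts on `T` as the identity plus a map of rank one. -/
def TvOn (T : Submodule F V) : Prop :=
  ∃ n ∈ M, ∃ δ ∈ T, δ ≠ 0 ∧ ∃ e, (∃ x ∈ T, B e x ≠ 0) ∧ ∀ x ∈ T, n x = x + B e x • δ

omit [Module K V] [IsScalarTower F K V] in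
theorem TvOn.of_act (hM : M ≤ isom B) {T : Submodule F V} {g : V ≃ₗ[F] V} (hg : g ∈ M)
    (h : TvOn B M (act g T)) : TvOn B M T := by
  obtain ⟨n, hn, δ, hδ, hδ0, e, ⟨x, hx, hex⟩, h1⟩ := h
  refine ⟨g⁻¹ * n * g, M.mul_mem (M.mul_mem (M.inv_mem hg) hn) hg, g⁻¹ δ, mem_act.1 hδ,
    (g⁻¹).map_ne_zero_iff.2 hδ0, g⁻¹ e, ⟨g⁻¹ x, mem_act.1 hx, by rwa [hM (M.inv_mem hg)]⟩,
    fun y hy => ?_⟩
  rw [LinearEquiv.mul_apply, LinearEquiv.mul_apply, h1 _ (apply_mem_act.2 hy), map_add, map_smul,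
    inv_apply_apply, isom_adj' (hM hg)]

namespace UX

variable (X : UX B H Λ)
include X

theorem totIso_of_KOrb (hM : M ≤ isom B) {T : Submodule F V} (hT : T ∈ KOrb H M) :
    TotIso B T := fun x hx y hy => by
  obtain ⟨g, hg, u, -, hu, rfl⟩ := hT
  rw [← hM (M.inv_mem hg)]
  exact X.B_kline hu _ (mem_act.1 hx) _ (mem_act.1 hy)

theorem tvOn_of {T : Submodule F V} {n : V ≃ₗ[F] V} (hn : n ∈ M) {w u : V} {s y : K}
    (h1 : ∀ x ∈ T, n x = x + (s * H w x) • u) (h2 : ∀ x ∈ T, H w x ∈ F ∙ y)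
    (h3 : ∃ x ∈ T, H w x ≠ 0) (h4 : (s * y) • u ∈ T) (h5 : (s * y) • u ≠ 0) : TvOn B M T := by
  have hy : y ≠ 0 := right_ne_zero_of_mul (left_ne_zero_of_smul h5)
  obtain ⟨a, ha⟩ := H27.exists_map_mul_eq X.ne hy 1
  have h6 : ∀ x ∈ T, H w x = B (τ a • w) x • y := fun x hx => by
    obtain ⟨c, hc⟩ := Submodule.mem_span_singleton.1 (h2 x hx)
    rw [X.B_left, X.hτ.invol, ← hc, mul_smul_comm, map_smul, ha, smul_eq_mul, mul_one]
  obtain ⟨x, hx, h7⟩ := h3
  exact ⟨n, hn, _, h4, h5, τ a • w, ⟨x, hx, fun h => h7 (by rw [h6 x hx, h, zero_smul])⟩,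
    fun x hx => by rw [h1 x hx, h6 x hx, mul_smul_comm, smul_assoc]⟩

variable (hN : ∀ g ∈ sisom H, resHom F g ∈ M) (hM : M ≤ isom B)
include hN hM

theorem ei_scale {e y : V} (hey : y ∈ K ∙ e) (he : H e e = 0) (he0 : e ≠ 0) {a : K} (ha : τ a = a)
    (ha0 : a ≠ 0) [Finite F] {ν : F} (h : (hermP X.hB).Ei M e y ν) :
    (hermP X.hB).Ei M (a • e) (a • y) ν := by
  have := X.finiteV
  obtain ⟨g, hg, h1⟩ := exists_sisom_smul X.hH he he0 ha ha0
  obtain ⟨b, rfl⟩ := Submodule.mem_span_singleton.1 hey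
  have := h.conj (hN g hg) (hermP_isom X.hB ▸ hM (hN g hg))
  rwa [resHom_apply, resHom_apply, map_smul, h1, smul_comm b a] at this

variable [Finite F]

theorem exists_hasTv {u : V} (hu : H u u = 0) (h : TvOn B M (kline F K u)) :
    ∃ δ, H δ δ = 0 ∧ δ ≠ 0 ∧ HasTv B M δ := by
  have := X.finiteV
  obtain ⟨n, hn, δ, hδ, hδ0, e, ⟨x, hx, hex⟩, h1⟩ := h
  obtain ⟨d, rfl⟩ := mem_kline.1 hδ
  obtain ⟨b, rfl⟩ := mem_kline.1 hx
  have hκ : H e u ≠ 0 := fun h => hex (by rw [X.B_right, h, mul_zero, map_zero])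
  have hκ' := X.hH.flip_ne_zero hκ
  have h2 : ∀ z, H u (n⁻¹ z) = H u z + B (d • u) z • H u e := fun z =>
    H27.eq_of_forall_map_mul_eq X.ne fun a => by
      rw [← X.hτ.invol a, ← X.B_left, ← isom_adj (hM hn), h1 _ (smul_mem_kline _ _), add_left,
        smul_left, X.hB.symm, mul_add, map_add Λ, mul_smul_comm, map_smul Λ, ← X.B_left,
        ← X.B_left, smul_eq_mul, mul_comm]
  obtain ⟨ω, hω0, hω⟩ := X.hσ.exists_skew'
  have h3 : ∀ a, τ a = a → (hermP X.hB).Ei M (d • u) (a • ((ω • (H e u)⁻¹) • u)) (-(ω * Λ a)) := by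
    intro a ha
    have hν : ω • (a / (H u e * H e u)) + τ (ω • (a / (H u e * H e u))) = 0 :=
      X.skew_smul hω (by rw [map_div₀, map_mul, ha, X.hH.symm, X.hH.symm, mul_comm])
    have ht := hN _ (X.hH.tv_mem_sisom hu hν)
    refine ei_of_eq (X.B_smul_smul hu _ _) (by rw [smul_smul]; exact X.B_smul_smul hu _ _) (by
      rw [smul_smul, X.B_smul_smul hu, map_neg, map_mul, ← X.conj, ha]
      linear_combination -Λ a * hω)
      (M.mul_mem (M.inv_mem ht) (M.mul_mem (M.mul_mem hn ht) (M.inv_mem hn))) fun z => ?_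
    rw [← map_inv, tv_inv]
    simp only [LinearEquiv.mul_apply, resHom_apply, tv_apply, map_add, apply_inv_apply]
    rw [h1 _ (smul_mem_kline _ _), h2]
    generalize B (d • u) z = β
    have e1 : B e ((ω • (a / (H u e * H e u)) * (H u z + β • H u e)) • u) =
        -B (a • (ω • (H e u)⁻¹) • u) z + β * (ω * Λ a) := by
      rw [smul_smul, X.B_right, X.B_left, ← smul_eq_mul β, ← smul_eq_mul ω, ← map_smul Λ,
        ← map_smul Λ, ← map_neg Λ, ← map_add Λ, map_mul τ, X.τ_smul, ha, map_inv₀, X.hH.symm,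
        show σ ω = -ω by linear_combination hω]
      congr 1
      simp only [Algebra.smul_def, map_neg]
      field_simp
    rw [e1]
    generalize B (a • (ω • (H e u)⁻¹) • u) z = γ
    simp only [map_add, map_smul (H u), H_smul_right, hu, smul_eq_mul, mul_zero, smul_zero,
      add_zero]
    have e2 : ∀ (c : F) (v : V), c • v = algebraMap F K c • v := fun c v =>
      (algebraMap_smul K c v).symm
    simp only [e2, Algebra.smul_def, map_add, map_mul, map_neg, smul_smul]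
    match_scalars <;> field_simp <;> ring
  set v := (ω • (H e u)⁻¹) • u with hv
  have hv0 : v ≠ 0 := smul_ne_zero (smul_ne_zero hω0 (inv_ne_zero hκ)) (right_ne_zero_of_smul hδ0)
  have hvv : H v v = 0 := isotropic_smul hu _
  have hdv : d • u ∈ K ∙ v := Submodule.mem_span_singleton.2 ⟨d / (ω • (H e u)⁻¹), by
    rw [hv, smul_smul, div_mul_cancel₀ _ (left_ne_zero_of_smul hv0)]⟩
  have hsing : ∀ a : K, (hermP X.hB).Sing (a • v) := fun a =>
    (hermP_sing _).2 (X.B_smul_smul hvv a a)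
  have h4 : ∀ a, τ a = a → a ≠ 0 → Λ a = 0 → (hermP X.hB).Ei M v (a⁻¹ • -(d • u)) 0 := by
    intro a ha ha0 ha'
    have h5 := h3 a ha
    rw [ha', mul_zero, neg_zero] at h5
    have h6 := X.ei_scale hN hM (y := -(d • u)) (by
      rw [Submodule.span_singleton_smul_eq (IsUnit.mk0 a ha0)]; exact neg_mem hdv)
      (isotropic_smul hvv a) (smul_ne_zero ha0 hv0) (a := a⁻¹) (by rw [map_inv₀, ha])
      (inv_ne_zero ha0) (by simpa [hermP_ε] using h5.swap (hsing a))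
    rwa [inv_smul_smul₀ ha0] at h6
  have h5 : ∀ a b, τ a = a → τ b = b → Λ a = 0 → Λ b = 0 → Λ (a⁻¹ + b⁻¹)⁻¹ ≠ 0 →
      (hermP X.hB).Ei M (d • u) 0 (ω * Λ (a⁻¹ + b⁻¹)⁻¹) := by
    intro a b ha hb ha' hb' h
    have ha0 : a ≠ 0 := by rintro rfl; simp [hb'] at h
    have hb0 : b ≠ 0 := by rintro rfl; simp [ha'] at h
    have hc0 : a⁻¹ + b⁻¹ ≠ 0 := fun e => by simp [e] at h
    have hc : τ (a⁻¹ + b⁻¹)⁻¹ = (a⁻¹ + b⁻¹)⁻¹ := by simp [ha, hb]
    have h6 := (h4 a ha ha0 ha').add (h4 b hb hb0 hb')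
    rw [← add_smul, hermP_f, X.B_smul_smul (by simp [hu])] at h6
    have h7 := X.ei_scale hN hM (Submodule.smul_mem _ _ (neg_mem hdv)) hvv hv0 hc
      (inv_ne_zero hc0) h6
    rw [inv_smul_smul₀ hc0, add_zero, add_zero] at h7
    have hs : (hermP X.hB).Sing (d • u) := (hermP_sing _).2 (X.B_smul_smul hu d d)
    have h8 := (show (hermP X.hB).Ei M ((-1 : F) • d • u) _ 0 by
      simpa using h7.swap hs.neg).smul_left (-1) hs
    simpa [hermP_ε] using (show (hermP X.hB).Ei M (d • u) ((a⁻¹ + b⁻¹)⁻¹ • v) 0 by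
      simpa [hermP_ε] using h8).sub_same (h3 _ hc)
  refine ⟨d • u, isotropic_smul hu d, hδ0, hasTv_of_ei (h := X.hB) fun ν hν => ?_⟩
  by_cases hν0 : ν = 0
  · exact hν0 ▸ PForm.Ei.zero ((hermP_sing _).2 (X.B_smul_smul hu d d))
  obtain ⟨a, b, ha, hb, ha', hb', h⟩ := X.exists_hua
  have h6 : σ (Λ (a⁻¹ + b⁻¹)⁻¹) = Λ (a⁻¹ + b⁻¹)⁻¹ := by rw [← X.conj]; simp [ha, hb]
  obtain ⟨l, hl, hl0, h7⟩ : ∃ l : F, σ l = l ∧ l ≠ 0 ∧ ω * (l * Λ (a⁻¹ + b⁻¹)⁻¹) = ν :=
    ⟨ν / (ω * Λ (a⁻¹ + b⁻¹)⁻¹), by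
      rw [map_div₀, map_mul, h6, show σ ω = -ω by linear_combination hω,
        show σ ν = -ν by linear_combination hν, neg_mul, neg_div_neg_eq],
      div_ne_zero hν0 (mul_ne_zero hω0 h), by
        rw [mul_left_comm, div_mul_cancel₀ _ (mul_ne_zero hω0 h)]⟩
  have h8 : Λ ((l • a)⁻¹ + (l • b)⁻¹)⁻¹ = l * Λ (a⁻¹ + b⁻¹)⁻¹ := by
    rw [smul_inv₀, smul_inv₀, ← smul_add, smul_inv₀, inv_inv, map_smul, smul_eq_mul]
  have := h5 (l • a) (l • b) (by rw [X.τ_smul, hl, ha]) (by rw [X.τ_smul, hl, hb])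
    (by rw [map_smul, ha', smul_zero]) (by rw [map_smul, hb', smul_zero])
    (by rw [h8]; exact mul_ne_zero hl0 h)
  rwa [h8, h7] at this

theorem tvOn_of_extr {u : V} (hu0 : u ≠ 0) (hu : H u u = 0) {T : Submodule F V}
    (hE : Extr (KOrb H M) (kline F K u) T) (h0 : kline F K u ⊓ T ≠ ⊥) : TvOn B M T := by
  have := X.finiteV
  have := X.finiteV'
  have := X.finiteK
  have hT := X.totIso_of_KOrb hM hE.right
  have hd := (finrank_of_KOrb hE.left).trans (finrank_of_KOrb hE.right).symm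
  let D : Submodule F K := T.comap ((LinearMap.toSpanSingleton K V u).restrictScalars F)
  have hD : ∀ a, a ∈ D ↔ a • u ∈ T := fun a => Iff.rfl
  have hD1 : D ≠ ⊤ := fun h => hE.ne (Submodule.eq_of_le_of_finrank_eq (fun y hy => by
    obtain ⟨a, rfl⟩ := mem_kline.1 hy
    exact (hD a).1 (h ▸ Submodule.mem_top)) hd)
  obtain ⟨a₀, ha₀, ha₀0⟩ : ∃ a ∈ D, a ≠ 0 := by
    obtain ⟨δ, ⟨h1, h2⟩, h3⟩ := Submodule.exists_mem_ne_zero_of_ne_bot h0
    obtain ⟨a, rfl⟩ := mem_kline.1 h1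
    exact ⟨a, h2, left_ne_zero_of_smul h3⟩
  have key : ∀ g ∈ sisom H, g u = u → ∀ x ∈ T, g x ∈ T → g x ∉ K ∙ u → ∀ x' ∈ T, g x' ∈ T := by
    intro g hg h1 x hx h2 h3 x' hx'
    rw [← hE.act_eq (korb_act hE.right (hN g hg)) (fun y hy _ => by
      obtain ⟨a, rfl⟩ := mem_kline.1 hy
      rw [resHom_apply, map_smul, h1]) hx h2 h3]
    exact apply_mem_act.2 hx'
  by_cases ho : ∀ x ∈ T, H u x = 0
  · have h1 : ∀ y, H u y = 0 → ∃ g ∈ sisom H, g u = u ∧ ∀ x ∈ T, g x = x - H y x • u := by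
      intro y hy
      obtain ⟨ν, -, g, hg, h1⟩ := exists_eich' X.hH hu hy
      exact ⟨g, hg, by simp [h1, hu, X.hH.flip_zero hy], fun x hx => by simp [h1, ho x hx]⟩
    obtain ⟨x, hx, hxu⟩ : ∃ x ∈ T, x ∉ K ∙ u := SetLike.not_le_iff_exists.1 fun h =>
      hE.ne (Submodule.eq_of_le_of_finrank_eq (S₁ := T) (S₂ := kline F K u) h hd.symm).symm
    have h2 : ∀ y, H u y = 0 → H y x ∈ D → ∀ x' ∈ T, H y x' ∈ D := fun y hy h x' hx' => by
      obtain ⟨g, hg, h2, h3⟩ := h1 y hy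
      have := key g hg h2 x hx (by rw [h3 x hx]; exact sub_mem hx h) (fun h' => hxu (by
        rw [h3 x hx] at h'
        simpa using add_mem h' (Submodule.smul_mem _ (H y x) (Submodule.mem_span_singleton_self u))))
        x' hx'
      rw [h3 x' hx'] at this
      simpa [hD] using sub_mem hx' this
    obtain ⟨y, hy, hyx⟩ := exists_perp_eq X.hH hxu a₀
    obtain ⟨g, hg, -, h3⟩ := h1 y hy
    refine X.tvOn_of (hN g hg) (w := y) (u := u) (s := -1) (y := a₀)
      (fun x hx => by rw [resHom_apply, h3 x hx]; module) (fun x' hx' => ?_) ⟨x, hx, hyx ▸ ha₀0⟩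
      (by simpa using (hD _).1 ha₀) (by simp [ha₀0, hu0])
    obtain ⟨l, m, rfl⟩ : ∃ l m : K, l • x + m • u = x' := by
      rw [← Submodule.mem_span_pair]
      by_contra h
      obtain ⟨z, hz, h4⟩ := X.hH.exists_perp_of_notMem h
      rw [mem_perp_span] at hz
      refine hD1 (eq_top_iff.2 fun b _ => ?_)
      have := h2 (τ (b / H z x') • z) (by rw [smul_right, hz u (by simp), mul_zero])
        (by rw [smul_left, X.hH.flip_zero (hz x (by simp)), mul_zero]; exact D.zero_mem) x' hx'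
      rwa [smul_left, X.hτ.invol, div_mul_cancel₀ _ h4] at this
    obtain ⟨c, rfl⟩ := H27.exists_algebraMap_of_stabilizes X.prime ha₀ ha₀0 hD1 (e := l)
      fun a ha => by
        obtain ⟨z, hz, hzx⟩ := exists_perp_eq X.hH hxu a
        simpa [hzx, X.hH.flip_zero hz] using h2 z hz (hzx ▸ ha) _ hx'
    exact Submodule.mem_span_singleton.2 ⟨c, by simp [hyx, X.hH.flip_zero hy]⟩
  push Not at ho
  obtain ⟨x₀, hx₀, h1⟩ := ho
  obtain ⟨ω, hω0, hω⟩ := X.hσ.exists_skew'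
  obtain ⟨θ, hθ⟩ := X.hσ.ne_id
  have h2 : ∀ a (ha : τ a = a) x, tv H u _ hu (X.skew_smul hω ha) x = x + ω • (a * H u x) • u :=
    fun a ha x => by rw [tv_apply, smul_mul_assoc, smul_assoc]
  have h3 : ∀ a, τ a = a → ∀ x ∈ T, x ∉ K ∙ u → a * H u x ∈ D → ∀ x' ∈ T, a * H u x' ∈ D := by
    intro a ha x hx hxu h x' hx'
    have := key _ (X.hH.tv_mem_sisom hu (X.skew_smul hω ha)) (tv_apply_of_perp _ _ hu) x hx
      (by rw [h2 a ha]; exact add_mem hx (T.smul_mem ω h)) (fun h' => hxu (by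
        rwa [tv_apply, Submodule.add_mem_iff_left _
          (Submodule.smul_mem _ _ (Submodule.mem_span_singleton_self u))] at h'))
      x' hx'
    rw [h2 a ha] at this
    exact (T.smul_mem_iff hω0).1 (by simpa using sub_mem this hx')
  have h4 : T ⊓ LinearMap.ker ((H u).restrictScalars F) =
      D.map ((LinearMap.toSpanSingleton K V u).restrictScalars F) := by
    refine le_antisymm (fun x hx => ?_) ?_
    · have h5 : x ∈ K ∙ u := by
        by_contra h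
        refine hD1 (eq_top_iff.2 fun b _ => ?_)
        obtain ⟨s, -, t, -, hs, ht, h5⟩ := X.exists_coords hθ (N := ⊤) (fun _ _ => trivial)
          (x := b / H u x₀) trivial
        have h6 : ∀ a, τ a = a → a * H u x₀ ∈ D := fun a ha => h3 a ha x hx.1 h (by
          rw [show H u x = 0 from hx.2, mul_zero]; exact D.zero_mem) x₀ hx₀
        rw [← div_mul_cancel₀ b h1, h5, add_mul, smul_mul_assoc]
        exact add_mem (h6 s hs) (D.smul_mem θ (h6 t ht))
      obtain ⟨a, rfl⟩ := Submodule.mem_span_singleton.1 h5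
      exact ⟨a, hx.1, rfl⟩
    · rintro _ ⟨a, ha, rfl⟩
      exact ⟨ha, show H u (a • u) = 0 by rw [smul_right, hu, mul_zero]⟩
  obtain ⟨_, ⟨x, hx, rfl⟩, h5, h6, a, ha, ha0, h7⟩ := X.exists_line
    (Y := T.map ((H u).restrictScalars F)) (D := D)
    (fun h => h1 ((Submodule.eq_bot_iff _).1 h _ ⟨x₀, hx₀, rfl⟩))
    (fun h => ha₀0 ((Submodule.eq_bot_iff _).1 h _ ha₀))
    (by
      have h5 := (((H u).restrictScalars F).domRestrict T).finrank_range_add_finrank_ker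
      rw [LinearMap.range_domRestrict, LinearMap.ker_domRestrict,
        ← Submodule.finrank_map_subtype_eq, Submodule.map_comap_subtype, h4,
        ← (Submodule.equivMapOfInjective ((LinearMap.toSpanSingleton K V u).restrictScalars F)
          (smul_left_injective K hu0) D).finrank_eq, finrank_of_KOrb hE.right] at h5
      omega)
    (by
      rintro _ ⟨x, hx, rfl⟩ a ha
      have := hT x hx _ ha
      change B x (a • u) = 0 at this
      rwa [X.B_right, ← X.hH.symm, mul_comm] at this)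
    (by
      rintro a ha _ ⟨x, hx, rfl⟩ h5 h6 _ ⟨x', hx', rfl⟩
      refine h3 a ha x hx (fun h => h5 ?_) h6 x' hx'
      obtain ⟨b, rfl⟩ := Submodule.mem_span_singleton.1 h
      change H u (b • u) = 0
      rw [smul_right, hu, mul_zero])
  exact X.tvOn_of (hN _ (X.hH.tv_mem_sisom hu (X.skew_smul hω ha))) (w := u) (u := u) (s := ω • a)
    (y := H u x) (fun x _ => rfl) (fun x' hx' => h6 ⟨x', hx', rfl⟩) ⟨x₀, hx₀, h1⟩
    (by rw [smul_mul_assoc, smul_assoc]; exact T.smul_mem ω h7)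
    (smul_ne_zero (mul_ne_zero (smul_ne_zero hω0 ha0) h5) hu0)

omit hN hM in
theorem le_or (hex : finrank K V ≠ 2 ∨ finrank F K ≠ 3 ∨ Nat.card F ≠ 4)
    (h1 : semiN F K V ⊓ sisom B ≤ M) (h2 : M ≤ sisom B) : M ≤ semiN F K V ∨ sisom B ≤ M := by
  have := X.finiteV'
  have hN : ∀ g ∈ sisom H, resHom F g ∈ M := fun g hg => h1 (X.res_mem hg)
  have hM := h2.trans sisom_le_isom
  by_cases h : ∀ T ∈ KOrb H M, ∀ x ∈ T, x ≠ 0 → H x x = 0 → kline F K x = T
  · refine Or.inl fun g hg => (inv_mem_iff (x := g)).1 (X.mem_semiN_of_lines fun u hu a => ?_)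
    by_cases hu0 : u = 0
    · simp [hu0]
    have h3 := korb_act (kline_mem_KOrb (M := M) hu0 hu) (M.inv_mem hg)
    obtain ⟨x, hx, hx0, h4⟩ := X.exists_isotropic (X.totIso_of_KOrb hM h3) (finrank_of_KOrb h3)
    have h5 := h _ h3 x hx hx0 h4
    obtain ⟨b, hb⟩ := mem_kline.1 (h5 ▸ apply_mem_act.2 (self_mem_kline u) : g⁻¹ u ∈ kline F K x)
    rw [← hb, smul_smul]
    exact mem_act.1 (h5 ▸ smul_mem_kline (a * b) x : _ ∈ act g⁻¹ (kline F K u))
  right
  push Not at h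
  obtain ⟨T, hT, x, hx, hx0, h3, h4⟩ := h
  obtain ⟨U, U', hE⟩ := exists_extr (kline_mem_KOrb hx0 h3) hT h4
  have h5 := hE.ne_bot (kline_mem_KOrb hx0 h3) hT h4 fun h =>
    hx0 ((Submodule.eq_bot_iff _).1 h x ⟨self_mem_kline x, hx⟩)
  obtain ⟨g, hg, u, hu0, hu, rfl⟩ := hE.left
  have h6 := hE.map (korb_act hE.left (M.inv_mem hg)) (korb_act hE.right (M.inv_mem hg))
  have h7 : act g⁻¹ (act g (kline F K u)) ⊓ act g⁻¹ U' ≠ ⊥ := by
    rwa [← act_inf, act, ne_eq, Submodule.map_eq_bot_iff]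
  rw [act_inv_act] at h6 h7
  have h8 := X.tvOn_of_extr hN hM hu0 hu h6 h7
  obtain ⟨k, hk, v, -, hv, h9⟩ := h6.right
  obtain ⟨δ, h10, h11, h12⟩ := X.exists_hasTv hN hM hv ((h9 ▸ h8).of_act hM hk)
  exact X.sisom_le_of_hasTv h1 hM hex h10 h11 h12

omit hN hM in
theorem isMaximalIn (hex : finrank K V ≠ 2 ∨ finrank F K ≠ 3 ∨ Nat.card F ≠ 4) :
    Geo.IsMaximalIn (sisom B) (semiN F K V ⊓ sisom B) :=
  isMaximalIn_inf X.not_sisom_le fun _ => X.le_or hex

end UX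

theorem exists_UX [Finite F] (hB : IsHerm B) (hr : (finrank F K).Prime) (h3 : 3 ≤ finrank F K)
    (h2 : 2 ≤ finrank K V) (hac : ∀ k : K, ∃ k' : K, ∀ u v, B u (k • v) = B (k' • u) v) :
    ∃ (τ : K →+* K) (H : V →ₛₗ[τ] V →ₗ[K] K) (Λ : K →ₗ[F] F), UX B H Λ := by
  have : FiniteDimensional F K := Module.finite_of_finrank_pos (by omega)
  have : Nontrivial V := Module.nontrivial_of_finrank_pos (R := K) (by omega)
  choose s hs using hac
  obtain ⟨v, -, hv⟩ := hB.exists_norm_ne_zero hB.nondegOn_top top_ne_bot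
  have hv0 : v ≠ 0 := by rintro rfl; simp at hv
  have h1 : ∀ a b : K, (∀ u, B (a • v) u = B (b • v) u) → a = b := fun a b h =>
    smul_left_injective K hv0 (hB.ext_left h)
  let τ : K →+* K :=
    { toFun := s
      map_one' := h1 _ _ fun u => by rw [← hs, one_smul, one_smul]
      map_mul' := fun a b => h1 _ _ fun u => by
        rw [← hs, mul_smul, hs, hs, smul_smul, mul_comm]
      map_zero' := h1 _ _ fun u => by rw [← hs, zero_smul, zero_smul, map_zero, zero_left]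
      map_add' := fun a b => h1 _ _ fun u => by
        rw [← hs, add_smul, add_smul, map_add, add_left, hs, hs] }
  replace hs : ∀ k u v, B u (k • v) = B (τ k • u) v := hs
  have h4 : ∀ a, τ (τ a) = a := fun a => h1 _ _ fun u => by
    rw [← hs, ← hB.symm, ← hs, hB.symm]
  have h5 : ∀ c, τ (algebraMap F K c) = algebraMap F K (σ c) := fun c => h1 _ _ fun u => by
    rw [← hs, algebraMap_smul, algebraMap_smul, smul_left, smul_right, hB.inv.invol]
  have hτ : IsInvol τ := ⟨h4, by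
    obtain ⟨c, hc⟩ := hB.inv.ne_id
    exact ⟨algebraMap F K c, fun h => hc ((algebraMap F K).injective ((h5 c).symm.trans h))⟩⟩
  let Λ : K →ₗ[F] F := B v ∘ₗ (LinearMap.toSpanSingleton K V v).restrictScalars F
  have hΛ : ∀ a, Λ a = B v (a • v) := fun _ => rfl
  have hΛ0 : Λ ≠ 0 := fun h => hv (by simpa [h] using (hΛ 1).symm)
  have h6 : ∀ a, Λ (τ a) = σ (Λ a) := fun a => by rw [hΛ, hΛ, hs, h4, hB.symm]
  choose H hH using fun x y : V => H27.exists_forall_map_mul_eq hΛ0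
    (B x ∘ₗ (LinearMap.toSpanSingleton K V y).restrictScalars F)
  replace hH : ∀ (x y : V) (a : K), Λ (a * H x y) = B x (a • y) := hH
  have h7 : ∀ x y, B x y = Λ (H x y) := fun x y => by simpa using (hH x y 1).symm
  refine ⟨τ, LinearMap.mk₂'ₛₗ τ (RingHom.id K) H
    (fun x x' y => H27.eq_of_forall_map_mul_eq hΛ0 fun a => by
      rw [mul_add, map_add, hH, hH, hH, add_left])
    (fun c x y => H27.eq_of_forall_map_mul_eq hΛ0 fun a => by
      rw [smul_eq_mul, ← mul_assoc, hH, hH, mul_comm, mul_smul, hs (τ c), h4])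
    (fun x y y' => H27.eq_of_forall_map_mul_eq hΛ0 fun a => by
      rw [mul_add, map_add, hH, hH, hH, smul_add, map_add])
    (fun c x y => H27.eq_of_forall_map_mul_eq hΛ0 fun a => by
      rw [smul_eq_mul, ← mul_assoc, hH, hH, smul_smul, RingHom.id_apply]), Λ,
    ⟨hB.inv, hτ, hΛ0, h5, h6, hr, h3⟩, hB,
    ⟨⟨hτ, fun x y => H27.eq_of_forall_map_mul_eq hΛ0 fun a => ?_⟩,
      fun x hx => hB.nondeg x fun y => ?_⟩, h7, h2⟩
  · change Λ (a * τ (H x y)) = Λ (a * H y x)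
    rw [hH, hs, ← hB.symm, hB.symm, ← hB.symm, ← hH, ← h6, map_mul τ, h4]
  · rw [h7, show H x y = 0 from hx y, map_zero]

open scoped Matrix in
/-- The normaliser of an adjoint-closed field of odd prime degree `r < n` is maximal in
`SU_n(q)`, except in `SU_6(2)`. -/
theorem su_c3 {F : Type*} [Field F] [Fintype F] {q n r : ℕ} (hF : Fintype.card F = q ^ 2)
    (hr : r.Prime) (h3 : 3 ≤ r) (hn : r < n) (hex : ¬ (n = 6 ∧ q = 2))
    {K : Subalgebra F (Matrix (Fin n) (Fin n) F)} (hK : Geo.IsFieldSubalgebra r K)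
    (hac : Geo.IsAdjointClosedFor (hermForm n F q) K) :
    Geo.IsMaximalIn (GU n F q ⊓ Geo.specialLinear (Fin n) F)
      (Geo.subalgebraNormalizer K ⊓ (GU n F q ⊓ Geo.specialLinear (Fin n) F)) := by
  have : Nonempty (Fin n) := ⟨⟨0, by omega⟩⟩
  let _ : Field K := (H27.isField_of_isFieldSubalgebra hK).toField
  let _ := H27.homModule K.val
  have := H27.homModule_isScalarTower K.val
  have hdim := Module.finrank_mul_finrank F K (Fin n → F)
  rw [hK.finrank_eq, finrank_fin] at hdim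
  obtain ⟨τ, H, Λ, X⟩ := exists_UX (K := K) (isHerm_hermB hF n) (hK.finrank_eq ▸ hr)
    (hK.finrank_eq ▸ h3) (by
      by_contra! h
      have := Nat.mul_le_mul_left r (Nat.le_of_lt_succ h)
      omega)
    fun k => (hac k k.2).elim fun k' h => ⟨⟨k', h.1⟩, fun u v => by
      rw [hermB_eq, hermB_eq]; exact h.2 v u⟩
  have h1 := mem_subalgebraNormalizer_iff K.val
  rw [Subalgebra.range_val] at h1
  refine isMaximalIn_SU_of hF (fun g => (h1 g).symm) (X.isMaximalIn ?_)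
  by_contra! h
  rw [hK.finrank_eq, Nat.card_eq_fintype_card, hF] at h
  exact hex ⟨by rw [← hdim, h.1, h.2.1], Nat.pow_left_injective two_ne_zero h.2.2⟩

end Cfsg.Agent.H26
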