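import Cfsg.Agent.H26.UFrSec

/-!
Overgroups of the monomial group in the special unitary group, odd characteristic.
-/

set_option autoImplicit false

namespace Cfsg.Agent.H26

open H31 Module

variable {F : Type*} [Field F] {σ : F →+* F} {V : Type*} [AddCommGroup V] [Module F V]
  {B : V →ₛₗ[σ] V →ₗ[F] F} {ι : Type*} {M : Subgroup (V ≃ₗ[F] V)} {b : ι → V}

/-- `z` is the product of the reflections in `u` and `v`. -/
def Zz (B : V →ₛₗ[σ] V →ₗ[F] F) (u v : V) (z : V ≃ₗ[F] V) : Prop :=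
  ∀ x, z x = x - (2 * B u x) • u - (2 * B v x) • v

theorem Zz.conj {u v : V} {z g : V ≃ₗ[F] V} (hz : Zz B u v z) (hg : g ∈ isom B) :
    Zz B (g u) (g v) (g * z * g⁻¹) := fun x => by
  rw [LinearEquiv.mul_apply, LinearEquiv.mul_apply, hz, map_sub, map_sub, map_smul, map_smul,
    apply_inv_apply, isom_adj hg, isom_adj hg]

theorem Zz.of_smul {u v : V} {z : V ≃ₗ[F] V} {c d : F} (hz : Zz B (c • u) (d • v) z)
    (hc : c * σ c = 1) (hd : d * σ d = 1) : Zz B u v z := fun x => by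
  rw [hz, smul_left, smul_left, smul_smul, smul_smul]
  congr 2
  · congr 1
    linear_combination 2 * B u x * hc
  · linear_combination 2 * B v x * hd

theorem Zz.symm {u v : V} {z : V ≃ₗ[F] V} (hz : Zz B u v z) : Zz B v u z := fun x => by
  rw [hz, sub_right_comm]

theorem Zz.eq {u v : V} {z z' : V ≃ₗ[F] V} (hz : Zz B u v z) (hz' : Zz B u v z') : z = z' :=
  LinearEquiv.ext fun x => by rw [hz, hz']

variable [Fintype ι] [DecidableEq ι]

namespace Fr

variable (h : Fr B b) {i j : ι} {z : V ≃ₗ[F] V}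
include h

theorem zz_left (hij : i ≠ j) (hz : Zz B (b i) (b j) z) : z (b i) = (-1 : F) • b i := by
  rw [hz, h.self, h.ne hij.symm]; module

theorem zz_of_ne (hz : Zz B (b i) (b j) z) {k : ι} (hi : k ≠ i) (hj : k ≠ j) : z (b k) = b k := by
  rw [hz, h.ne hi.symm, h.ne hj.symm]; module

theorem zz_diag (hij : i ≠ j) (hz : Zz B (b i) (b j) z) (k : ι) :
    ∃ s : F, s * s = 1 ∧ z (b k) = s • b k := by
  by_cases hi : k = i
  · exact ⟨-1, by ring, hi ▸ h.zz_left hij hz⟩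
  by_cases hj : k = j
  · exact ⟨-1, by ring, hj ▸ h.zz_left hij.symm hz.symm⟩
  exact ⟨1, by ring, by rw [h.zz_of_ne hz hi hj, one_smul]⟩

theorem zz_mul_self (hij : i ≠ j) (hz : Zz B (b i) (b j) z) : z * z = 1 :=
  h.equiv_ext fun k => by
    obtain ⟨s, hs, H⟩ := h.zz_diag hij hz k
    rw [LinearEquiv.mul_apply, H, map_smul, H, smul_smul, hs, one_smul]
    rfl

theorem zz_mem (h2 : (2 : F) ≠ 0) (hij : i ≠ j) (hz : Zz B (b i) (b j) z) {k l : ι}
    (hz' : Zz B (b k) (b l) z) : i = k ∨ i = l := by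
  by_contra H
  push Not at H
  have := congrArg (B (b i)) ((h.zz_left hij hz).symm.trans (h.zz_of_ne hz' H.1 H.2))
  rw [smul_right, h.self] at this
  exact h2 (by linear_combination -this)

theorem coord_eq_zero_of_mono {η : V ≃ₗ[F] V} (hη : η ∈ isom B) {τ : Equiv.Perm ι}
    (H : ∀ k, ∃ c : F, c * σ c = 1 ∧ η (b k) = c • b (τ k)) {S : Submodule F V}
    (hS : finrank F S ≤ 4) (hηS : ∀ x, η x - x ∈ S) {p r s : ι} (p1 : τ p ≠ p) (p2 : τ (τ p) ≠ p)
    (r1 : τ r ≠ r) (r2 : τ (τ r) ≠ r) (r3 : τ r ≠ p) (r4 : r ≠ p) (r5 : r ≠ τ p)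
    (r6 : r ≠ τ (τ p)) (hs : s ∉ [p, τ p, τ (τ p), r, τ r, τ (τ r)]) {x : V} (hx : x ∈ S) :
    B (b s) x = 0 := by
  have := h.finiteDimensional
  simp only [List.mem_cons, List.not_mem_nil, or_false, not_or] at hs
  choose c hc hc' using H
  let w : Fin 4 → V := fun a => η (b (![p, τ p, r, τ r] a)) - b (![p, τ p, r, τ r] a)
  have hw : LinearIndependent F w := by
    rw [Fintype.linearIndependent_iff]
    intro t ht
    set v := t 0 • b p + t 1 • b (τ p) + t 2 • b r + t 3 • b (τ r) with hv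
    have h1 : η v = v := by
      rw [← sub_eq_zero, ← ht]
      simp only [w, Fin.sum_univ_four, Matrix.cons_val, hv, map_add, map_smul]
      module
    have e : ∀ k, B (b (τ k)) v = 0 → B (b k) v = 0 := fun k hk => by
      have := h.coord_map hη (hc' k) v
      rw [h1, hk] at this
      exact (mul_eq_zero.1 this.symm).resolve_left (mu_ne_zero (hc k))
    have e0 : ∀ k, B (b k) v = t 0 * B (b k) (b p) + t 1 * B (b k) (b (τ p)) +
        t 2 * B (b k) (b r) + t 3 * B (b k) (b (τ r)) := fun k => by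
      simp only [hv, map_add, smul_right]
    have e1 := e (τ p) (by
      rw [e0, h.ne p2, h.ne (τ.injective.ne p1), h.ne r6.symm, h.ne (τ.injective.ne r5.symm)]
      ring)
    have e2 := e p e1
    rw [e0, h.ne p1, h.self, h.ne r5.symm, h.ne (τ.injective.ne r4.symm)] at e1
    rw [e0, h.ne p1.symm, h.self, h.ne r4.symm, h.ne r3.symm] at e2
    have t1 : t 1 = 0 := by linear_combination e1
    have t0 : t 0 = 0 := by linear_combination e2
    have e3 := e (τ r) (by rw [e0, t0, t1, h.ne r2, h.ne (τ.injective.ne r1)]; ring)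
    have e4 := e r e3
    rw [e0, t0, t1, h.ne r1, h.self] at e3
    rw [e0, t0, t1, h.ne r1.symm, h.self] at e4
    have t2 : t 2 = 0 := by linear_combination e4
    have t3 : t 3 = 0 := by linear_combination e3
    intro a
    fin_cases a
    exacts [t0, t1, t2, t3]
  have h1 : Submodule.span F (Set.range w) = S := Submodule.eq_of_le_of_finrank_le
    (Submodule.span_le.2 (by rintro _ ⟨a, rfl⟩; exact hηS _))
    (by rwa [finrank_span_eq_card hw, Fintype.card_fin])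
  have h3 : Submodule.span F (Set.range w) ≤ LinearMap.ker (B (b s)) := Submodule.span_le.2 (by
    rintro _ ⟨a, rfl⟩
    fin_cases a <;> simp [w, hc', h.on s, hs])
  exact h3 (h1 ▸ hx)

end Fr

namespace FrM

variable (h : FrM B b M) (hP : PtMon b M) (h2 : (2 : F) ≠ 0)
include h

theorem exists_col {g : V ≃ₗ[F] V} (hg : g ∈ M) (k : ι) : ∃ m, B (b k) (g (b m)) ≠ 0 := by
  obtain ⟨m, hm⟩ := h.exists_coord (x := g⁻¹ (b k)) (g⁻¹.map_ne_zero_iff.2 (h.b_ne_zero k))
  exact ⟨m, by rw [isom_adj' (h.isom_of hg)]; exact h.herm.flip_ne_zero hm⟩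

theorem exists_zz {i j : ι} (hij : i ≠ j) : ∃ z ∈ M, z ∈ mon F b ∧ Zz B (b i) (b j) z := by
  obtain ⟨z, hz, hz', H⟩ := h.exists_diag2 hij mu_neg_one
  exact ⟨z, hz, hz', fun x => by rw [H, inv_neg, inv_one]; module⟩

theorem exists_cls {i j k l : ι} (hij : i ≠ j) (hkl : k ≠ l) {z : V ≃ₗ[F] V}
    (hz : Zz B (b i) (b j) z) (hzm : z ∈ mon F b) :
    ∃ x, Cls M z x ∧ x ∈ mon F b ∧ Zz B (b k) (b l) x := by
  obtain ⟨π, h1, h3⟩ := exists_perm_pair hij hkl
  obtain ⟨g, hg, hg', H⟩ := h.exists_perm' π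
  obtain ⟨c, hc, hc'⟩ := H i
  obtain ⟨d, hd, hd'⟩ := H j
  have := hz.conj (h.isom_of hg)
  rw [hc', hd', h1, h3] at this
  exact ⟨_, Cls.self.conj hg, (mon F b).mul_mem ((mon F b).mul_mem hg' hzm) ((mon F b).inv_mem hg'),
    this.of_smul hc hd⟩

include hP h2

theorem supp_pair {g : V ≃ₗ[F] V} (hg : g ∈ M) (hn : g ∉ mon F b) {i k l m : ι} (hkl : k ≠ l)
    (hk : B (b k) (g (b i)) = 0) (hl : B (b l) (g (b i)) = 0) (hm : B (b k) (g (b m)) ≠ 0) :
    B (b l) (g (b m)) ≠ 0 ∧ ∀ r, r ≠ k → r ≠ l → B (b r) (g (b m)) = 0 := by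
  set v := g (b m) with hv
  have key : ∀ r, r ≠ k → r ≠ l → B (b r) v = 0 := by
    intro r hrk hrl
    by_contra hr
    have e : ∀ x : F, x * σ x = 1 → x ≠ 1 → 1 + (x - 1) * (B (b k) v * σ (B (b k) v)) +
        (x⁻¹ - 1) * (B (b l) v * σ (B (b l) v)) = 0 := by
      intro x hx hx1
      obtain ⟨D, hD, -, H⟩ := h.exists_diag2 hkl hx
      obtain ⟨π, hπ⟩ := hP (g⁻¹ * D * g) (M.mul_mem (M.mul_mem (M.inv_mem hg) hD) hg) i i 1 (by
        rw [LinearEquiv.mul_apply, LinearEquiv.mul_apply, H, hk, hl]; simp)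
      obtain ⟨c, -, hc⟩ := hπ m
      have h3 : D v = c • g (b (π m)) := by
        rw [← map_smul, ← hc, LinearEquiv.mul_apply, LinearEquiv.mul_apply, apply_inv_apply]
      by_cases h4 : π m = m
      · rw [h4, ← hv, H] at h3
        have e1 := congrArg (B (b r)) h3
        have e2 := congrArg (B (b k)) h3
        simp only [map_add, smul_right, h.self, h.ne hrk, h.ne hrl, h.ne hkl] at e1 e2
        have e3 : c = 1 := mul_right_cancel₀ hr (by linear_combination -e1)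
        exact absurd (mul_right_cancel₀ hm (by linear_combination e2 + B (b k) v * e3)) hx1
      · have e1 := congrArg (B v) h3
        rw [smul_right, hv, h.isom_of hg, h.ne (Ne.symm h4), ← hv, H, map_add, map_add, smul_right,
          smul_right, h.flip k, h.flip l, hv, h.isom_of hg, h.self, ← hv] at e1
        linear_combination e1
    obtain ⟨ε, hε, hε2⟩ := exists_mu_sq_ne h.herm.inv
    have hε0 := mu_ne_zero hε
    have e1 := e (-1) mu_neg_one fun h0 => h2 (by linear_combination -h0)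
    have e2 := e ε hε (ne_one_of_sq_ne hε2)
    have e3 := e ε⁻¹ (mu_inv hε) (inv_ne_one.2 (ne_one_of_sq_ne hε2))
    rw [inv_inv] at e3
    rw [inv_neg, inv_one] at e1
    have e4 : ε * ε⁻¹ = 1 := mul_inv_cancel₀ hε0
    generalize B (b k) v * σ (B (b k) v) = α at e1 e2 e3
    generalize B (b l) v * σ (B (b l) v) = β at e1 e2 e3
    have e5 : α = β := mul_left_cancel₀ (sub_ne_zero.2 hε2) (by
      linear_combination ε * (e2 - e3) + (α - β) * e4)
    subst e5
    have e6 : (ε + 1) ^ 2 = 0 := by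
      linear_combination 4 * ε * e2 + (ε * ε + 1 - 2 * ε) * e1 - 4 * α * e4
    exact ne_neg_one_of_sq_ne hε2 (eq_neg_of_add_eq_zero_left (pow_eq_zero_iff two_ne_zero |>.1 e6))
  refine ⟨fun h0 => hn (hP g hg m k _ (h.eq_smul fun r hr => ?_)), key⟩
  by_cases hrl : r = l
  · rw [hrl, h0]
  · exact key r hr hrl

/-- An element with two zeros in a column is monomial. -/
theorem mon_of_zeros (h5 : 5 ≤ Fintype.card ι) {g : V ≃ₗ[F] V} (hg : g ∈ M) {i k l : ι}
    (hkl : k ≠ l) (hk : B (b k) (g (b i)) = 0) (hl : B (b l) (g (b i)) = 0) : g ∈ mon F b := by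
  by_contra hn
  obtain ⟨m, hm⟩ := h.exists_col hg k
  have h1 := (h.supp_pair hP h2 hg hn hkl hk hl hm).2
  obtain ⟨p, hp⟩ := exists_notMem_list [k, l] (by simp; omega)
  obtain ⟨r, hr⟩ := exists_notMem_list [k, l, p] (by simp; omega)
  obtain ⟨s, hs⟩ := exists_notMem_list [k, l, p, r] (by simp; omega)
  simp only [List.mem_cons, List.not_mem_nil, or_false, not_or] at hp hr hs
  obtain ⟨m', hm'⟩ := h.exists_col hg p
  exact (h.supp_pair hP h2 hg hn (Ne.symm hs.2.2.1) (h1 p hp.1 hp.2) (h1 s hs.1 hs.2.1) hm').1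
    ((h.supp_pair hP h2 hg hn (Ne.symm hr.2.2) (h1 p hp.1 hp.2) (h1 r hr.1 hr.2.1) hm').2 s
      hs.2.2.1 hs.2.2.2)

variable (h6 : 6 ≤ Fintype.card ι) {i j : ι} (hij : i ≠ j) {z : V ≃ₗ[F] V}
  (hz : Zz B (b i) (b j) z)
include h6 hij hz

theorem mon_of_conj {g : V ≃ₗ[F] V} (hg : g ∈ M) (hm : g * z * g⁻¹ ∈ mon F b) :
    g ∈ mon F b := by
  by_contra hn
  have H := hz.conj (h.isom_of hg)
  set y := g * z * g⁻¹
  set u := g (b i) with hu
  set v := g (b j) with hv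
  obtain ⟨π, hπ⟩ := hm
  obtain ⟨k₀, hk₀⟩ : ∃ k₀, ∀ k, k ≠ k₀ → y (b k) ≠ b k := by
    by_contra H'
    push Not at H'
    obtain ⟨k, -, hk⟩ := H' i
    obtain ⟨l, hlk, hl⟩ := H' k
    have key : ∀ k, y (b k) = b k → B (b k) u = 0 := by
      intro k hk
      have := congrArg (B u) ((H _).symm.trans hk)
      rw [map_sub, map_sub, smul_right, smul_right, hu, hv, h.isom_of hg, h.isom_of hg, h.self,
        h.ne hij, ← hu] at this
      exact h.herm.flip_zero (mul_left_cancel₀ h2 (by linear_combination -this))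
    exact hn (h.mon_of_zeros hP h2 (by omega) hg hlk (key l hl) (key k hk))
  have e : ∀ k l, B (b k) (y (b l)) = B (b k) (b l) -
      2 * (B (b k) u * σ (B (b l) u) + B (b k) v * σ (B (b l) v)) := by
    intro k l
    rw [H, map_sub, map_sub, smul_right, smul_right, h.flip l u, h.flip l v]
    ring
  have e1 : ∀ k l, k ≠ l → k ≠ π l →
      B (b k) u * σ (B (b l) u) + B (b k) v * σ (B (b l) v) = 0 ∧
      B (b l) u * σ (B (b k) u) + B (b l) v * σ (B (b k) v) = 0 := by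
    intro k l h1 h3
    obtain ⟨c, -, hc⟩ := hπ l
    have h4 := e k l
    rw [hc, smul_right, h.ne h1, h.ne h3] at h4
    have h5 : B (b k) u * σ (B (b l) u) + B (b k) v * σ (B (b l) v) = 0 :=
      mul_left_cancel₀ h2 (by linear_combination h4)
    refine ⟨h5, ?_⟩
    have h7 := congrArg σ h5
    simp only [map_add, map_mul, h.herm.inv.invol, map_zero] at h7
    linear_combination h7
  have e2 : ∀ k, k ≠ k₀ → B (b k) u * σ (B (b k) u) + B (b k) v * σ (B (b k) v) ≠ 0 := by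
    intro k hk h0
    obtain ⟨c, -, hc⟩ := hπ k
    have h4 := e k k
    rw [h0, hc, smul_right, h.self, mul_zero, sub_zero] at h4
    by_cases h5 : k = π k
    · rw [← h5, h.self, mul_one] at h4
      exact hk₀ k hk (by rw [hc, ← h5, h4, one_smul])
    · rw [h.ne h5, mul_zero] at h4
      exact zero_ne_one h4
  obtain ⟨p, hp⟩ := exists_notMem_list [k₀] (by simp; omega)
  obtain ⟨r, hr⟩ := exists_notMem_list [k₀, p, π p] (by simp; omega)
  obtain ⟨s, hs⟩ := exists_notMem_list [k₀, p, π p, r, π r] (by simp; omega)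
  simp only [List.mem_cons, List.not_mem_nil, or_false, not_or] at hp hr hs
  obtain ⟨a1, a2⟩ := e1 r p hr.2.1 hr.2.2
  obtain ⟨a3, a4⟩ := e1 s p hs.2.1 hs.2.2.1
  obtain ⟨a5, a6⟩ := e1 s r hs.2.2.2.1 hs.2.2.2.2
  refine mul_ne_zero (mul_ne_zero (e2 p hp) (e2 r hr.1)) (e2 s hs.1) ?_
  linear_combination
    (B (b p) u * σ (B (b r) u) + B (b p) v * σ (B (b r) v)) *
      (B (b s) u * σ (B (b s) u) + B (b s) v * σ (B (b s) v)) * a1 +
    (B (b p) u * σ (B (b s) u) + B (b p) v * σ (B (b s) v)) *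
      (B (b r) u * σ (B (b r) u) + B (b r) v * σ (B (b r) v)) * a3 +
    (B (b p) u * σ (B (b p) u) + B (b p) v * σ (B (b p) v)) *
      (B (b r) u * σ (B (b s) u) + B (b r) v * σ (B (b s) v)) * a5 -
    (B (b r) u * σ (B (b s) u) + B (b r) v * σ (B (b s) v)) *
      (B (b s) u * σ (B (b p) u) + B (b s) v * σ (B (b p) v)) * a2 -
    (B (b r) u * σ (B (b p) u) + B (b r) v * σ (B (b p) v)) *
      (B (b s) u * σ (B (b r) u) + B (b s) v * σ (B (b r) v)) * a4

theorem zz_of_cls {x : V ≃ₗ[F] V} (hx : Cls M z x) (hm : x ∈ mon F b) :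
    ∃ k l, k ≠ l ∧ Zz B (b k) (b l) x := by
  obtain ⟨g, hg, rfl⟩ := hx
  obtain ⟨π, hπ⟩ := h.mon_of_conj hP h2 h6 hij hz hg hm
  obtain ⟨c, -, hc⟩ := hπ i
  obtain ⟨d, -, hd⟩ := hπ j
  have := hz.conj (h.isom_of hg)
  rw [hc, hd] at this
  exact ⟨_, _, π.injective.ne hij, this.of_smul (h.norm_of_map (h.isom_of hg) hc)
    (h.norm_of_map (h.isom_of hg) hd)⟩

theorem diag_of_comm (hzm : z ∈ mon F b) {t : V ≃ₗ[F] V} (ht : t ∈ M) (h1 : t * z = z * t)
    (h3 : Cls M z (t * z)) :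
    (∀ m, ∃ s : F, t (b m) = s • b m) ∧ ∃ p r, p ≠ r ∧ t (b p) = b p ∧ t (b r) = b r := by
  have h4 := h.mon_of_conj hP h2 h6 hij hz ht (by rwa [h1, mul_inv_cancel_right])
  obtain ⟨k, l, hkl, H⟩ := h.zz_of_cls hP h2 h6 hij hz h3 ((mon F b).mul_mem h4 hzm)
  have h5 : ∀ x, t x = (t * z) (z x) := fun x => by
    rw [← LinearEquiv.mul_apply, mul_assoc, h.zz_mul_self hij hz, mul_one]
  refine ⟨fun m => ?_, ?_⟩
  · obtain ⟨s, -, hs⟩ := h.zz_diag hij hz m
    obtain ⟨s', -, hs'⟩ := h.zz_diag hkl H m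
    exact ⟨s * s', by rw [h5, hs, map_smul, hs', smul_smul]⟩
  obtain ⟨p, hp⟩ := exists_notMem_list [i, j, k, l] (by simp; omega)
  obtain ⟨r, hr⟩ := exists_notMem_list [i, j, k, l, p] (by simp; omega)
  simp only [List.mem_cons, List.not_mem_nil, or_false, not_or] at hp hr
  exact ⟨r, p, hr.2.2.2.2, by rw [h5, h.zz_of_ne hz hr.1 hr.2.1, h.zz_of_ne H hr.2.2.1 hr.2.2.2.1],
    by rw [h5, h.zz_of_ne hz hp.1 hp.2.1, h.zz_of_ne H hp.2.2.1 hp.2.2.2]⟩

theorem exists_conj [Finite M] (hzM : z ∈ M) (hzm : z ∈ mon F b) {d : V ≃ₗ[F] V}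
    (hd : Cls M z d) (hdm : d ∉ mon F b) : ∃ y, Cls M z y ∧ y * z * y⁻¹ = d := by
  refine (dihedral_cases hzM (h.zz_mul_self hij hz) Cls.self hd).resolve_right ?_
  rintro ⟨t, ht, ht1, -, h1, h3, h4, h5⟩
  obtain ⟨k, hk, rfl⟩ := hd
  obtain ⟨-, p, r, hpr, hp, hr⟩ := h.diag_of_comm hP h2 h6 hij hz hzm ht h1 h4
  obtain ⟨H, -⟩ := h.diag_of_comm hP h2 h6 hij hz hzm (t := k⁻¹ * t * k)
    (M.mul_mem (M.mul_mem (M.inv_mem hk) ht) hk)
    (by
      calc _ = k⁻¹ * (t * (k * z * k⁻¹)) * k := by group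
        _ = _ := by rw [h3]; group)
    (by convert h5.conj (M.inv_mem hk) using 1; group)
  choose s hs using H
  obtain ⟨m, hm⟩ : ∃ m, s m ≠ 1 := by
    by_contra H
    push Not at H
    have : k⁻¹ * t * k = 1 := h.equiv_ext fun m => by rw [hs, H, one_smul]; rfl
    exact ht1 (by
      calc t = k * (k⁻¹ * t * k) * k⁻¹ := by group
        _ = 1 := by rw [this]; group)
  have h7 : t (k (b m)) = s m • k (b m) := by
    rw [← map_smul, ← hs, LinearEquiv.mul_apply, LinearEquiv.mul_apply, apply_inv_apply]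
  have key : ∀ p, t (b p) = b p → B (b p) (k (b m)) = 0 := fun p hp => by
    have := h.isom_of ht (b p) (k (b m))
    rw [hp, h7, smul_right] at this
    exact mul_left_cancel₀ (sub_ne_zero.2 hm) (by linear_combination this)
  have h8 := h.mon_of_zeros hP h2 (by omega) hk hpr (key p hp) (key r hr)
  exact hdm ((mon F b).mul_mem ((mon F b).mul_mem h8 hzm) ((mon F b).inv_mem h8))

omit h6 hij hz in
/-- In odd characteristic, if the point stabilisers are monomial then so is `M`. -/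
theorem le_mon_odd [Finite M] (hn : 7 ≤ Fintype.card ι ∨ Fintype.card ι = 6) : M ≤ mon F b := by
  have h6 : 6 ≤ Fintype.card ι := by omega
  obtain ⟨i, j, hij⟩ := Fintype.exists_pair_of_one_lt_card (α := ι) (by omega)
  obtain ⟨z, hzM, hzm, hz⟩ := h.exists_zz hij
  intro g₀ hg₀
  by_contra hg₀'
  have hF : ∀ g ∈ M, g * z * g⁻¹ ∈ mon F b ⊓ M → g ∈ mon F b ⊓ M := fun g hg H =>
    ⟨h.mon_of_conj hP h2 h6 hij hz hg H.1, hg⟩
  have hO : ∀ d, Cls M z d → d ∉ mon F b ⊓ M → ∃ y, Cls M z y ∧ y * z * y⁻¹ = d := fun d hd H =>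
    h.exists_conj hP h2 h6 hij hz hzM hzm hd fun H' => H ⟨H', hd.mem hzM⟩
  have hy₀ : Cls M z (g₀ * z * g₀⁻¹) := Cls.self.conj hg₀
  have hy₀' : g₀ * z * g₀⁻¹ ∉ mon F b ⊓ M := fun H => hg₀' (hF g₀ hg₀ H).1
  have hZ₀ := hz.conj (h.isom_of hg₀)
  set y₀ := g₀ * z * g₀⁻¹
  have hy₀M := hy₀.mem hzM
  let Y := {y // Cls M z y ∧ y ∉ mon F b ⊓ M ∧ y₀⁻¹ * y ∈ mon F b}
  have hY : ∀ y : Y, ∃ π : Equiv.Perm ι, ∀ k, ∃ c : F, c * σ c = 1 ∧
      (y₀⁻¹ * y.1) (b k) = c • b (π k) := fun y => by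
    obtain ⟨π, hπ⟩ := y.2.2.2
    refine ⟨π, fun k => ?_⟩
    obtain ⟨c, -, hc⟩ := hπ k
    exact ⟨c, h.norm_of_map (h.isom_of (M.mul_mem (M.inv_mem hy₀M) (y.2.1.mem hzM))) hc, hc⟩
  choose π hπ using hY
  have hZ : ∀ (y : Y) k l x, Zz B (b k) (b l) x →
      Zz B (b (π y k)) (b (π y l)) (y₀⁻¹ * (y.1 * x * y.1⁻¹) * y₀) := by
    intro y k l x hx
    obtain ⟨c, hc, hc'⟩ := hπ y k
    obtain ⟨d, hd, hd'⟩ := hπ y l
    have := hx.conj (h.isom_of (M.mul_mem (M.inv_mem hy₀M) (y.2.1.mem hzM)))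
    rw [hc', hd'] at this
    convert this.of_smul hc hd using 1
    group
  have hinj : ∀ (y y' : Y) k l, k ≠ l → (π y k = π y' k ∧ π y l = π y' l ∨
      π y k = π y' l ∧ π y l = π y' k) → y = y' := by
    intro y y' k l hkl H
    obtain ⟨x, hx, hxm, hx'⟩ := h.exists_cls hij hkl hz hzm
    refine Subtype.ext (odd_injective inf_le_right hzM hF hO hx ⟨hxm, hx.mem hzM⟩ y.2.1 y.2.2.1
      y'.2.1 y'.2.2.1 ?_)
    have h1 := hZ y k l x hx'
    have h3 := hZ y' k l x hx'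
    rcases H with H | H
    · rw [H.1, H.2] at h1
      simpa using h1.eq h3
    · rw [H.1, H.2] at h1
      simpa using h1.eq h3.symm
  have hsurj : ∀ k l p r, k ≠ l → p ≠ r →
      ∃ y : Y, π y k = p ∧ π y l = r ∨ π y k = r ∧ π y l = p := by
    intro k l p r hkl hpr
    obtain ⟨x, hx, hxm, hx'⟩ := h.exists_cls hij hkl hz hzm
    obtain ⟨x₀, hx₀, hxm₀, hx₀'⟩ := h.exists_cls hij hpr hz hzm
    obtain ⟨y, hy, hy', H⟩ := odd_exists inf_le_right hF hO hx ⟨hxm, hx.mem hzM⟩ (hx₀.conj hy₀M)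
      fun H => hy₀' (hx₀.mem_of_conj hF ⟨hxm₀, hx₀.mem hzM⟩ hy₀M H)
    have h1 : y₀⁻¹ * y ∈ mon F b ⊓ M := hx.mem_of_conj hF ⟨hxm, hx.mem hzM⟩
      (M.mul_mem (M.inv_mem hy₀M) (hy.mem hzM)) (by
        rw [show y₀⁻¹ * y * x * (y₀⁻¹ * y)⁻¹ = y₀⁻¹ * (y * x * y⁻¹) * y₀ by group, H]
        simpa [mul_assoc] using ⟨hxm₀, hx₀.mem hzM⟩)
    refine ⟨⟨y, hy, hy', h1.1⟩, ?_⟩
    have h3 := hZ ⟨y, hy, hy', h1.1⟩ k l x hx'
    simp only [H, mul_assoc, inv_mul_cancel_left, inv_mul_cancel, mul_one] at h3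
    rcases h.zz_mem h2 hpr hx₀' h3 with h4 | h4 <;>
      rcases h.zz_mem h2 hpr.symm hx₀'.symm h3 with h5 | h5
    · exact absurd (h4.trans h5.symm) hpr
    · exact Or.inl ⟨h4.symm, h5.symm⟩
    · exact Or.inr ⟨h5.symm, h4.symm⟩
    · exact absurd (h4.trans h5.symm) hpr
  rcases hn with h7 | h6'
  · obtain ⟨k, hk⟩ := exists_notMem_list [i, j] (by simp; omega)
    simp only [List.mem_cons, List.not_mem_nil, or_false, not_or] at hk
    obtain ⟨y, hy⟩ := hsurj i j i k hij (Ne.symm hk.1)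
    let y₁ : Y := ⟨y₀, hy₀, hy₀', by simp⟩
    have hy₁ : ∀ k, π y₁ k = k := fun k => by
      obtain ⟨c, hc, hc'⟩ := hπ y₁ k
      refine h.index_eq (mu_ne_zero hc) (d := 1) ?_
      rw [← hc']
      simp [y₁]
    have hp : ∀ p r, p ≠ r → ¬ (π y p = p ∧ π y r = r) ∧ ¬ (π y p = r ∧ π y r = p) := by
      intro p r hpr
      have : ¬ (π y p = π y₁ p ∧ π y r = π y₁ r ∨ π y p = π y₁ r ∧ π y r = π y₁ p) := by
        intro H
        rw [hinj y y₁ p r hpr H, hy₁, hy₁] at hy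
        rcases hy with hy | hy
        exacts [hk.2 hy.2.symm, hk.1 hy.1.symm]
      simpa only [hy₁, not_or] using this
    set τ := π y
    have hp2 : ∀ p, τ p ≠ p → τ (τ p) ≠ p := fun p h1 h3 => (hp p (τ p) h1.symm).2 ⟨rfl, h3⟩
    obtain ⟨k₀, hk₀⟩ : ∃ k₀, ∀ k, k ≠ k₀ → τ k ≠ k := by
      by_contra H'
      push Not at H'
      obtain ⟨k, -, hk⟩ := H' i
      obtain ⟨l, hlk, hl⟩ := H' k
      exact (hp l k hlk).1 ⟨hl, hk⟩
    obtain ⟨p, hp1⟩ := exists_notMem_list [k₀] (by simp; omega)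
    obtain ⟨r, hr⟩ := exists_notMem_list [k₀, p, τ p, τ (τ p), τ⁻¹ p] (by simp; omega)
    obtain ⟨s, hs⟩ := exists_notMem_list [p, τ p, τ (τ p), r, τ r, τ (τ r)] (by simp; omega)
    simp only [List.mem_cons, List.not_mem_nil, or_false, not_or] at hp1 hr
    have p1 := hk₀ p hp1
    have r1 := hk₀ r hr.1
    obtain ⟨k₁, hk₁, hy1⟩ := y.2.1
    have hZ₁ := hz.conj (h.isom_of hk₁)
    rw [← hy1] at hZ₁
    have hinv : y₀⁻¹ = y₀ := inv_eq_of_mul_eq_one_right (hy₀.mul_self (h.zz_mul_self hij hz))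
    let S := Submodule.span F (Set.range ![g₀ (b i), g₀ (b j), k₁ (b i), k₁ (b j)])
    have hS : ∀ x ∈ S, B (b s) x = 0 := fun x hx => h.coord_eq_zero_of_mono
      (h.isom_of (M.mul_mem (M.inv_mem hy₀M) (y.2.1.mem hzM))) (hπ y)
      ((finrank_range_le_card _).trans (by simp)) (fun x => by
        rw [LinearEquiv.mul_apply, DFunLike.congr_fun hinv, hZ₀, sub_right_comm,
          sub_right_comm _ _ x]
        refine S.sub_mem (S.sub_mem ?_ (S.smul_mem _ (Submodule.subset_span ⟨0, rfl⟩)))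
          (S.smul_mem _ (Submodule.subset_span ⟨1, rfl⟩))
        rw [hZ₁, sub_right_comm, sub_right_comm _ _ x, sub_self, zero_sub]
        exact S.sub_mem (S.neg_mem (S.smul_mem _ (Submodule.subset_span ⟨2, rfl⟩)))
          (S.smul_mem _ (Submodule.subset_span ⟨3, rfl⟩)))
      p1 (hp2 p p1) r1 (hp2 r r1) (fun h0 => hr.2.2.2.2 (Equiv.Perm.eq_inv_iff_eq.2 h0)) hr.2.1 hr.2.2.1
      hr.2.2.2.1 hs hx
    refine hy₀' ⟨hP y₀ hy₀M s s 1 ?_, hy₀M⟩
    rw [hZ₀, h.herm.flip_zero (hS (g₀ (b i)) (Submodule.subset_span ⟨0, rfl⟩)),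
      h.herm.flip_zero (hS (g₀ (b j)) (Submodule.subset_span ⟨1, rfl⟩))]
    simp
  · have : Finite Y := Finite.of_injective (fun y : Y => (⟨y.1, y.2.1.mem hzM⟩ : M))
      fun a b hab => Subtype.ext (congrArg (fun z : M => (z : V ≃ₗ[F] V)) hab)
    have := Fintype.ofFinite Y
    classical
    have key : ∀ k l, k ≠ l → (Finset.univ.filter fun y : Y => π y k = i).card +
        (Finset.univ.filter fun y : Y => π y l = i).card = 5 := by
      intro k l hkl
      rw [← Finset.card_union_of_disjoint (Finset.disjoint_filter.2 fun y _ h1 h3 =>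
        hkl ((π y).injective (h1.trans h3.symm))), ← Finset.filter_or,
        show 5 = (Finset.univ.erase i).card by simp [h6']]
      refine Finset.card_bij (fun y _ => if π y k = i then π y l else π y k) (fun y hy => ?_)
        (fun y hy y' hy' H => hinj y y' k l hkl ?_) fun p hp => ?_
      · rw [Finset.mem_erase]
        split_ifs with h1
        · exact ⟨fun h3 => hkl ((π y).injective (h1.trans h3.symm)), Finset.mem_univ _⟩
        · exact ⟨h1, Finset.mem_univ _⟩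
      · simp only [Finset.mem_filter, Finset.mem_univ, true_and] at hy hy'
        split_ifs at H with h1 h3 h3
        · exact Or.inl ⟨h1.trans h3.symm, H⟩
        · exact Or.inr ⟨h1.trans (hy'.resolve_left h3).symm, H⟩
        · exact Or.inr ⟨H, (hy.resolve_left h1).trans h3.symm⟩
        · exact Or.inl ⟨H, (hy.resolve_left h1).trans (hy'.resolve_left h3).symm⟩
      · have hp' := Finset.ne_of_mem_erase hp
        obtain ⟨y, hy | hy⟩ := hsurj k l i p hkl hp'.symm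
        · exact ⟨y, by simp [hy.1], by simp [hy]⟩
        · exact ⟨y, by simp [hy.2], by simp [hy, hp']⟩
    obtain ⟨k, hk⟩ := exists_notMem_list [i, j] (by simp; omega)
    simp only [List.mem_cons, List.not_mem_nil, or_false, not_or] at hk
    have e1 := key i j hij
    have e2 := key k i hk.1
    have e3 := key k j hk.2
    omega

end FrM

end Cfsg.Agent.H26
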