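import Cfsg.Agent.H26.UFrame
import Cfsg.Agent.H31.HermStab

/-!
Overgroups of the monomial group in the special unitary group: sections and point stabilisers.
-/

set_option autoImplicit false

namespace Cfsg.Agent.H26

open H31 Module

variable {F : Type*} [Field F] {σ : F →+* F} {V : Type*} [AddCommGroup V] [Module F V]
  {B : V →ₛₗ[σ] V →ₗ[F] F} {ι : Type*} {M : Subgroup (V ≃ₗ[F] V)} {b : ι → V}

/-- The span of the frame vectors with index satisfying `p`. -/
def subW (B : V →ₛₗ[σ] V →ₗ[F] F) (b : ι → V) (p : ι → Prop) : Submodule F V where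
  carrier := {x | ∀ i, ¬ p i → B (b i) x = 0}
  add_mem' hx hy i hi := by rw [map_add, hx i hi, hy i hi, add_zero]
  zero_mem' i _ := map_zero _
  smul_mem' c x hx i hi := by rw [smul_right, hx i hi, mul_zero]

theorem mem_subW {p : ι → Prop} {x : V} : x ∈ subW B b p ↔ ∀ i, ¬ p i → B (b i) x = 0 := Iff.rfl

variable [Fintype ι] [DecidableEq ι]

namespace Fr

variable (h : Fr B b)
include h

theorem b_mem_subW {p : ι → Prop} {i : ι} (hi : p i) : b i ∈ subW B b p :=
  fun j hj => h.ne (by rintro rfl; exact hj hi)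

theorem nondegOn_subW (p : ι → Prop) : NondegOn B (subW B b p) := fun x hx H => h.ext fun i => by
  rw [map_zero]
  by_cases hi : p i
  · exact h.herm.flip_zero (H _ (h.b_mem_subW hi))
  · exact hx i hi

theorem coord_sum (p : ι → Prop) [DecidablePred p] (c : {i // p i} → F) (j : ι) :
    B (b j) (∑ i, c i • b i) = if hj : p j then c ⟨j, hj⟩ else 0 := by
  rw [map_sum]
  split_ifs with hj
  · rw [Finset.sum_eq_single ⟨j, hj⟩, smul_right, h.self, mul_one]
    · intro i _ hi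
      rw [smul_right, h.ne fun h0 => hi (Subtype.ext h0.symm), mul_zero]
    · simp
  · exact Finset.sum_eq_zero fun i _ => by
      rw [smul_right, h.ne (by rintro rfl; exact hj i.2), mul_zero]

theorem sub (p : ι → Prop) [DecidablePred p] : Fr (restr B (subW B b p))
    fun i : {i // p i} => (⟨b i, h.b_mem_subW i.2⟩ : subW B b p) where
  herm := h.herm.isHerm_restr (h.nondegOn_subW p)
  on i j := by
    rw [restr_apply, h.on]
    simp only [Subtype.ext_iff]
  sum_eq x := Subtype.ext (h.ext fun j => by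
    simp only [AddSubmonoidClass.coe_finsetSum, SetLike.val_smul, restr_apply]
    rw [h.coord_sum p]
    split_ifs with hj
    · rfl
    · exact (x.2 j hj).symm)

/-- The reduction of a subgroup to a section `(W + S) / S`. -/
theorem section_cases [Finite F] (p : ι → Prop) [DecidablePred p]
    (hc : 4 ≤ Fintype.card {i // p i} ∨
      (3 ≤ Fintype.card {i // p i} ∧ ∃ a : F, σ a = a ∧ a ≠ 0 ∧ a ≠ 1))
    {S : Submodule F V} (hSW : ∀ s ∈ S, ∀ x ∈ subW B b p, B s x = 0) (hS : TotIso B S)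
    (hM : M ≤ isom B)
    (hl : ∀ π : Equiv.Perm ι, (∀ i, ¬ p i → π i = i) → ∀ t : ι → F, (∀ i, t i * σ (t i) = 1) →
      ∃ g ∈ M, g ∈ stab S ∧ ∀ i, p i → g (b i) = t i • b (π i))
    {g : V ≃ₗ[F] V} (hg : g ∈ M) (hgS : g ∈ stab S)
    (hgW : ∀ i, p i → ∃ w ∈ subW B b p, g (b i) - w ∈ S) :
    (∀ i, p i → ∃ j, p j ∧ ∃ c : F, g (b i) - c • b j ∈ S) ∨
      ∀ k ∈ suOn B (subW B b p), ∃ g ∈ M, g ∈ stab S ∧ ∀ x ∈ subW B b p, g x - k x ∈ S := by
  have := h.finiteDimensional
  set W := subW B b p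
  have h' := h.sub p
  have form : ∀ x ∈ W, ∀ y ∈ W, ∀ x' y', x' - x ∈ S → y' - y ∈ S → B x' y' = B x y := by
    intro x hx y hy x' y' h1 h2
    rw [← sub_add_cancel x' x, ← sub_add_cancel y' y, add_left, map_add, map_add, hS _ h1 _ h2,
      hSW _ h1 _ hy, h.herm.flip_zero (hSW _ h2 _ hx)]
    ring
  let M' : Subgroup (W ≃ₗ[F] W) :=
    { carrier := {k | ∃ g ∈ M, g ∈ stab S ∧ ∀ x : W, g x - k x ∈ S}
      mul_mem' := by
        rintro k k' ⟨g, hg, hgS, H⟩ ⟨g', hg', hgS', H'⟩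
        refine ⟨g * g', M.mul_mem hg hg', (stab S).mul_mem hgS hgS', fun x => ?_⟩
        have := S.add_mem ((hgS _).1 (H' x)) (H (k' x))
        rwa [map_sub, sub_add_sub_cancel] at this
      one_mem' := ⟨1, M.one_mem, (stab S).one_mem, fun x => by simp⟩
      inv_mem' := by
        rintro k ⟨g, hg, hgS, H⟩
        refine ⟨g⁻¹, M.inv_mem hg, (stab S).inv_mem hgS, fun x => (hgS _).2 ?_⟩
        have := S.neg_mem (H (k⁻¹ x))
        rwa [apply_inv_apply, neg_sub, ← apply_inv_apply g x, ← map_sub] at this }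
  have ext : ∀ (g : V ≃ₗ[F] V) (k : W ≃ₗ[F] W), (∀ i : {i // p i},
      g (b i) - k ⟨b i, h.b_mem_subW i.2⟩ ∈ S) → ∀ x : W, g x - k x ∈ S := by
    intro g k H x
    rw [← h'.sum_eq x]
    simp only [map_sum, map_smul, AddSubmonoidClass.coe_finsetSum, SetLike.val_smul,
      ← Finset.sum_sub_distrib, ← smul_sub]
    exact S.sum_mem fun i _ => S.smul_mem _ (H i)
  have hM' : M' ≤ isom (restr B W) := by
    rintro k ⟨g, hg, -, H⟩ x y
    rw [restr_apply, restr_apply, ← hM hg x y]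
    exact (form _ (k x).2 _ (k y).2 _ _ (H x) (H y)).symm
  by_cases hn : M' ≤ mon F fun i : {i // p i} => (⟨b i, h.b_mem_subW i.2⟩ : W)
  · left
    choose w hw hw' using hgW
    have h1 : IsON (restr B W) fun i : {i // p i} => (⟨w i i.2, hw i i.2⟩ : W) := fun i j => by
      rw [← h'.on, restr_apply, restr_apply, ← hM hg (b i) (b j)]
      exact (form _ (hw _ _) _ (hw _ _) _ _ (hw' _ _) (hw' _ _)).symm
    obtain ⟨k, -, H⟩ := h'.herm.witt_family h'.on.linearIndependent h1.linearIndependent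
      fun i j => by rw [h'.on, h1]
    obtain ⟨π, hπ⟩ := hn ⟨g, hg, hgS, ext g k fun i => by rw [H]; exact hw' _ _⟩
    intro i hi
    obtain ⟨c, -, hc⟩ := hπ ⟨i, hi⟩
    refine ⟨π ⟨i, hi⟩, (π _).2, c, ?_⟩
    have h2 := congrArg Subtype.val (hc.symm.trans (H ⟨i, hi⟩))
    simp only [SetLike.val_smul] at h2
    rw [h2]
    exact hw' _ _
  right
  have h1 := h'.sisom_le hc hM' (by
    rintro k ⟨⟨π, hπ⟩, hk⟩
    choose c _ hc using hπ
    obtain ⟨g, hg, hgS, H⟩ := hl (Equiv.Perm.ofSubtype π)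
      (fun i hi => Equiv.Perm.ofSubtype_apply_of_not_mem π hi)
      (fun i => if hi : p i then c ⟨i, hi⟩ else 1) fun i => by
        split_ifs
        exacts [h'.norm_of_map hk (hc _), mu_one]
    refine ⟨g, hg, hgS, ext g k fun i => ?_⟩
    rw [H i i.2, hc, dif_pos i.2, Equiv.Perm.ofSubtype_apply_coe]
    simp) hn
  intro k hk
  have hkW := h.herm.suOn_le_stab W hk
  obtain ⟨g, hg, hgS, H⟩ := h1 (x := restrictStab W ⟨k, hkW⟩) (mem_sisom'.2
    ⟨fun x y => hk.1.1 x y, by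
      have h2 := det_glue (h.herm.isCompl_perp (h.nondegOn_subW p)) (g := k)
        (a := restrictStab W ⟨k, hkW⟩) (b := 1) (fun x => rfl) fun x => hk.2 x x.2
      rw [(mem_sisom'.1 hk.1).2] at h2
      simpa using h2.symm⟩)
  exact ⟨g, hg, hgS, fun x hx => H ⟨x, hx⟩⟩

end Fr

/-- An overgroup of the monomial group in the special unitary group. -/
structure FrM (B : V →ₛₗ[σ] V →ₗ[F] F) (b : ι → V) (M : Subgroup (V ≃ₗ[F] V)) : Prop
    extends Fr B b where
  le : M ≤ sisom B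
  ge : mon F b ⊓ sisom B ≤ M

/-- Elements mapping a line of the frame to a line of the frame are monomial. -/
def PtMon (b : ι → V) (M : Subgroup (V ≃ₗ[F] V)) : Prop :=
  ∀ g ∈ M, ∀ i j, ∀ c : F, g (b i) = c • b j → g ∈ mon F b

namespace FrM

variable (h : FrM B b M)
include h

theorem isom_of {g : V ≃ₗ[F] V} (hg : g ∈ M) : g ∈ isom B := (h.le hg).1

theorem le_isom : M ≤ isom B := fun _ hg => h.isom_of hg

theorem exists_diag2 {i j : ι} (hij : i ≠ j) {ε : F} (hε : ε * σ ε = 1) :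
    ∃ g ∈ M, g ∈ mon F b ∧
      ∀ x, g x = x + ((ε - 1) * B (b i) x) • b i + ((ε⁻¹ - 1) * B (b j) x) • b j := by
  obtain ⟨g, hg, -, H, hd⟩ := h.exists_diag
    (t := fun k => if k = i then ε else if k = j then ε⁻¹ else 1) fun k => by
      split_ifs
      exacts [hε, mu_inv hε, mu_one]
  refine ⟨g, h.ge ⟨hg.1, mem_sisom'.2 ⟨hg.2, ?_⟩⟩, hg.1, fun x => h.ext fun k => ?_⟩
  · rw [hd, Finset.prod_eq_mul i j hij (fun c _ hc => by simp [hc.1, hc.2]) (by simp) (by simp)]
    simp [hij.symm, mu_ne_zero hε]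
  · rw [H, map_add, map_add, smul_right, smul_right, h.on, h.on]
    split_ifs with h1 h2 h2
    · exact absurd (h1.symm.trans h2) hij
    · rw [h1]; ring
    · rw [h2]; ring
    · ring

theorem exists_perm' (π : Equiv.Perm ι) :
    ∃ g ∈ M, g ∈ mon F b ∧ ∀ i, ∃ c : F, c * σ c = 1 ∧ g (b i) = c • b (π i) := by
  rcases isEmpty_or_nonempty ι with hι | ⟨⟨i₀⟩⟩
  · exact ⟨1, M.one_mem, (mon F b).one_mem, fun i => isEmptyElim i⟩
  obtain ⟨g, hg, H, c, hc⟩ := h.exists_mono_det π (t := fun _ => 1) (fun _ => mu_one) i₀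
  refine ⟨g, h.ge hg, hg.1, fun i => ?_⟩
  by_cases hi : i = i₀
  · subst hi
    exact ⟨c, h.norm_of_map hg.2.1 hc, hc⟩
  · exact ⟨1, mu_one, H i hi⟩

/-- If an element fixing a line of the frame is not monomial, then `M` is everything. -/
theorem ptMon_or [Finite F]
    (hc : 5 ≤ Fintype.card ι ∨ (4 ≤ Fintype.card ι ∧ ∃ a : F, σ a = a ∧ a ≠ 0 ∧ a ≠ 1)) :
    PtMon b M ∨ sisom B ≤ M := by
  have := h.finiteDimensional
  by_contra hcon
  obtain ⟨hP, hcon⟩ := not_or.1 hcon
  simp only [PtMon, not_forall] at hP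
  obtain ⟨g₀, hg₀, i, j, c₀, hc₀, hn⟩ := hP
  obtain ⟨k, hk, hkm, Hk⟩ := h.exists_perm' (Equiv.swap i j)
  obtain ⟨c₁, -, hc₁⟩ := Hk j
  have hg := M.mul_mem hk hg₀
  set g := k * g₀
  have hgi : g (b i) = (c₀ * c₁) • b i := by
    rw [LinearEquiv.mul_apply, hc₀, map_smul, hc₁, Equiv.swap_apply_right, smul_smul]
  have hn' : g ∉ mon F b := fun h0 => hn (((mon F b).mul_mem_cancel_left hkm).1 h0)
  have hW : subW B b (· ≠ i) = perp B (F ∙ b i) := by
    ext x
    rw [mem_perp_span_singleton, mem_subW]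
    simp
  have hb : B (b i) (b i) ≠ 0 := by rw [h.self]; exact one_ne_zero
  rcases h.section_cases (· ≠ i) (S := ⊥) (by
      rw [Fintype.card_subtype_compl, Fintype.card_subtype_eq]
      exact hc.imp (by omega) fun h => ⟨by omega, h.2⟩) (by simp) (by simp [TotIso]) h.le_isom
    (fun π _ t ht => by
      obtain ⟨g, hg, H, -⟩ := h.exists_mono_det π ht i
      exact ⟨g, h.ge hg, fun x => by simp, H⟩) hg (fun x => by simp)
    (fun l hl => ⟨g (b l), by
      rw [hW, mem_perp_span_singleton, h.coord_map (h.isom_of hg) hgi, h.ne (Ne.symm hl), mul_zero],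
      by simp⟩) with H | H
  · refine hn' (h.mem_mon fun l => ?_)
    by_cases hl : l = i
    · exact ⟨i, _, by rw [hl, hgi]⟩
    · obtain ⟨j, -, c, hc⟩ := H l hl
      exact ⟨j, c, sub_eq_zero.1 hc⟩
  rw [hW] at H
  have h1 : suOn B (perp B (F ∙ b i)) ≤ M := by
    intro k hk
    obtain ⟨g, hg, -, H⟩ := H k hk
    have h2 := (sisom B).mul_mem ((sisom B).inv_mem hk.1) (h.le hg)
    have h3 : k⁻¹ * g ∈ fixOn (perp B (F ∙ b i)) := fun x hx => by
      rw [LinearEquiv.mul_apply, sub_eq_zero.1 (H x hx), inv_apply_apply]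
    have h4 := h.herm.apply_eq_det_smul hb h2.1 h3
    rw [(mem_sisom'.1 h2).2, one_smul] at h4
    have h5 : k⁻¹ * g = 1 := h.equiv_ext fun l => by
      by_cases hl : l = i
      · rw [hl, h4]; rfl
      · exact h3 _ (mem_perp_span_singleton.2 (h.ne (Ne.symm hl)))
    rwa [inv_mul_eq_one.1 h5]
  obtain ⟨l, hl⟩ := exists_notMem_list [i] (by simp; omega)
  simp only [List.mem_cons, List.not_mem_nil, or_false] at hl
  have h2 : stab (F ∙ b i) ⊓ sisom B ≤ M := by
    rintro k ⟨hk, hk'⟩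
    obtain ⟨c, hc⟩ := Submodule.mem_span_singleton.1
      ((hk _).1 (Submodule.mem_span_singleton_self _))
    obtain ⟨d, hd, -, Hd⟩ := h.exists_diag2 (Ne.symm hl) (h.norm_of_map hk'.1 hc.symm)
    refine (M.mul_mem_cancel_left (M.inv_mem hd)).1 (h1 ⟨(sisom B).mul_mem
      ((sisom B).inv_mem (h.le hd)) hk', ?_⟩)
    rw [h.herm.perp_perp]
    refine mem_fixOn_span fun x hx => d.injective ?_
    rw [Set.mem_singleton_iff.1 hx, LinearEquiv.mul_apply, apply_inv_apply, Hd, h.self, h.ne hl,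
      ← hc]
    module
  rcases (h.herm.isMaximalIn_nondeg (by rw [h.finrank_eq]; omega) (nondegOn_span_singleton hb)
    (by simpa using h.b_ne_zero i) (by
      rw [finrank_span_singleton (h.b_ne_zero i), h.finrank_eq]; omega)).2 M h2 h.le with h3 | h3
  · obtain ⟨k, hk, -, Hk⟩ := h.exists_perm' (Equiv.swap i l)
    obtain ⟨c, hc, hc'⟩ := Hk i
    rw [h3] at hk
    obtain ⟨d, hd⟩ := Submodule.mem_span_singleton.1
      ((hk.1 _).1 (Submodule.mem_span_singleton_self _))
    rw [hc', Equiv.swap_apply_left] at hd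
    exact hl (h.index_eq (mu_ne_zero hc) hd.symm)
  · exact hcon h3.ge

end FrM

end Cfsg.Agent.H26
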