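import Cfsg.Agent.H26.UFrOdd

/-!
Overgroups of the monomial group in the special unitary group, characteristic two; maximality of
the monomial group.
-/

set_option autoImplicit false

namespace Cfsg.Agent.H26

open H31 Module

variable {F : Type*} [Field F] {σ : F →+* F} {V : Type*} [AddCommGroup V] [Module F V]
  {B : V →ₛₗ[σ] V →ₗ[F] F} {ι : Type*} {M : Subgroup (V ≃ₗ[F] V)} {b : ι → V}

/-- `w` is the transvection `v ↦ v + B x v • x`. -/
def Tw (B : V →ₛₗ[σ] V →ₗ[F] F) (x : V) (w : V ≃ₗ[F] V) : Prop := ∀ v, w v = v + B x v • x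

theorem Tw.conj {x : V} {w g : V ≃ₗ[F] V} (hw : Tw B x w) (hg : g ∈ isom B) :
    Tw B (g x) (g * w * g⁻¹) := fun v => by
  rw [LinearEquiv.mul_apply, LinearEquiv.mul_apply, hw, map_add, map_smul, apply_inv_apply,
    isom_adj hg]

theorem Tw.apply_eq {x v : V} {w t : V ≃ₗ[F] V} (hw : Tw B x w) (h2 : (2 : F) = 0)
    (hv : B x v ≠ 0) (hx : x ≠ 0) (h1 : t * w = w * t) (ht : t * t = 1) : t x = x := by
  have h3 := DFunLike.congr_fun h1 v
  rw [LinearEquiv.mul_apply, LinearEquiv.mul_apply, hw, hw, map_add, map_smul,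
    add_right_inj] at h3
  have h4 : t x = (B x (t v) / B x v) • x := by
    rw [div_eq_inv_mul, ← smul_smul, ← h3, smul_smul, inv_mul_cancel₀ hv, one_smul]
  generalize B x (t v) / B x v = a at h4
  have h5 := DFunLike.congr_fun ht x
  rw [LinearEquiv.mul_apply, h4, map_smul, h4, smul_smul] at h5
  have h6 : a * a = 1 := smul_left_injective F hx (h5.trans (one_smul F x).symm)
  have h7 : (a - 1) ^ 2 = 0 := by linear_combination h6 + (1 - a) * h2
  rw [h4, sub_eq_zero.1 (pow_eq_zero_iff two_ne_zero |>.1 h7), one_smul]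

variable [Fintype ι] [DecidableEq ι]

namespace FrM

variable [Finite F] (h : FrM B b M) (h2 : (2 : F) = 0) {i j : ι} (hij : i ≠ j)
include h h2 hij

omit [Finite F] in
theorem root_self : B (b i + b j) (b i + b j) = 0 := by
  rw [add_left, map_add, map_add, h.self, h.self, h.ne hij, h.ne hij.symm]
  linear_combination h2

omit [Finite F] h2 in
theorem root_ne_zero : b i + b j ≠ 0 := fun h0 => by
  have := congrArg (B (b i)) h0
  simp [h.self, h.ne hij] at this

omit [Finite F] h2 hij in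
theorem coord_root {k : ι} (hi : k ≠ i) (hj : k ≠ j) : B (b k) (b i + b j) = 0 := by
  rw [map_add, h.ne hi, h.ne hj, add_zero]

omit [Finite F] in
theorem sub_mem_subW {y : V} (hy : B (b i + b j) y = 0) :
    y - B (b i) y • (b i + b j) ∈ subW B b fun k => k ≠ i ∧ k ≠ j := by
  intro k hk
  rw [add_left] at hy
  rw [map_sub, smul_right, map_add]
  by_cases hki : k = i
  · rw [hki, h.self, h.ne hij]; ring
  · rw [not_not.1 (not_and.1 hk hki), h.self, h.ne hij.symm]
    linear_combination hy - B (b i) y * h2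

theorem Y_cases (h5 : 5 ≤ Fintype.card ι) :
    (∀ y ν, (hermP h.herm).Ei M (b i + b j) y ν → y ∈ F ∙ (b i + b j)) ∨ sisom B ≤ M := by
  have := h.finiteDimensional
  have hMI : M ≤ (hermP h.herm).isom := hermP_isom h.herm ▸ h.le_isom
  refine or_iff_not_imp_left.2 fun H => ?_
  push Not at H
  obtain ⟨y, ν, hν, hy⟩ := H
  have hzz := h.root_self h2 hij
  have hzs := (hermP_sing h.herm).2 hzz
  have hfix : ∀ g ∈ M, g (b i) = b i → g (b j) = b j → ∀ x ∈ PForm.Ygrp M hzs,
      g x ∈ PForm.Ygrp M hzs := by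
    rintro g hg h1 h3 x ⟨ν, hν⟩
    have := hν.conj hg (hMI hg)
    rw [map_add, h1, h3] at this
    exact ⟨_, this⟩
  have hdiag : ∀ k l, k ≠ l → k ≠ i → k ≠ j → l ≠ i → l ≠ j → ∀ ε : F, ε * σ ε = 1 →
      ∀ x ∈ PForm.Ygrp M hzs, ((ε - 1) * B (b k) x) • b k + ((ε⁻¹ - 1) * B (b l) x) • b l ∈
        PForm.Ygrp M hzs := by
    intro k l hkl h1 h3 h4 h6 ε hε x hx
    obtain ⟨g, hg, -, H⟩ := h.exists_diag2 hkl hε
    have := AddSubgroup.sub_mem _ (hfix g hg (by rw [H, h.ne h1, h.ne h4]; simp)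
      (by rw [H, h.ne h3, h.ne h6]; simp) x hx) hx
    rwa [H, add_assoc, add_sub_cancel_left] at this
  have h1 := h.sub_mem_subW h2 hij ((hermP_ev h.herm).1 hν.ev).2.1
  obtain ⟨k, hk⟩ := h.exists_coord (x := y - B (b i) y • (b i + b j)) fun h0 =>
    hy (Submodule.mem_span_singleton.2 ⟨_, (sub_eq_zero.1 h0).symm⟩)
  obtain ⟨hki, hkj⟩ : k ≠ i ∧ k ≠ j := by_contra fun h0 => hk (h1 k h0)
  rw [map_sub, smul_right, h.coord_root hki hkj, mul_zero, sub_zero] at hk
  obtain ⟨l, hl⟩ := exists_notMem_list [i, j, k] (by simp; omega)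
  obtain ⟨m, hm⟩ := exists_notMem_list [i, j, k, l] (by simp; omega)
  simp only [List.mem_cons, List.not_mem_nil, or_false, not_or] at hl hm
  obtain ⟨ε, hε, hε2⟩ := exists_mu_sq_ne h.herm.inv
  have hε1 := sub_ne_zero.2 (ne_one_of_sq_ne hε2)
  have h3 := hdiag k m (Ne.symm hm.2.2.1) hki hkj hm.1 hm.2.1 ε hε _
    (hdiag k l (Ne.symm hl.2.2) hki hkj hl.1 hl.2.1 ε hε y ⟨ν, hν⟩)
  simp only [map_add, smul_right, h.self, h.ne hm.2.2.1, h.ne hm.2.2.2, h.ne (Ne.symm hl.2.2),
    mul_zero, add_zero, zero_smul, mul_one] at h3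
  have hYk : ∀ c : F, c • b k ∈ PForm.Ygrp M hzs := fun c => mu_span h.herm.inv
    (A := (PForm.Ygrp M hzs).comap (LinearMap.toSpanSingleton F V (b k)).toAddMonoidHom)
    (fun δ hδ a ha => by
      have h4 := AddSubgroup.add_mem (PForm.Ygrp M hzs) ha (hdiag k l (Ne.symm hl.2.2) hki hkj hl.1 hl.2.1 δ hδ _ ha)
      change (δ * a) • b k ∈ PForm.Ygrp M hzs
      convert h4 using 1
      change _ = a • b k + (((δ - 1) * B (b k) (a • b k)) • b k +
        ((δ⁻¹ - 1) * B (b l) (a • b k)) • b l)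
      rw [smul_right, smul_right, h.self, h.ne hl.2.2]
      module) h3 (mul_ne_zero hε1 (mul_ne_zero hε1 hk)) c
  have hYl : ∀ l, l ≠ i → l ≠ j → ∀ c : F, c • b l ∈ PForm.Ygrp M hzs := by
    intro l h1 h3 c
    by_cases hlk : l = k
    · exact hlk ▸ hYk c
    obtain ⟨p, hp, Hp, -⟩ := h.exists_mono_det (Equiv.swap k l) (t := fun _ => 1)
      (fun _ => mu_one) l
    have := hfix p (h.ge hp)
      (by rw [Hp i h1.symm, Equiv.swap_apply_of_ne_of_ne hki.symm h1.symm, one_smul])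
      (by rw [Hp j h3.symm, Equiv.swap_apply_of_ne_of_ne hkj.symm h3.symm, one_smul]) _ (hYk c)
    rwa [map_smul, Hp k (Ne.symm hlk), Equiv.swap_apply_left, one_smul] at this
  have hF : (hermP h.herm).Full M (b i + b j) := by
    refine full_of_Y hzz (hasTv_of_Y (u := b k) (by rw [h.self]; exact one_ne_zero) hYk)
      fun y hy => ?_
    have e1 := h.sub_mem_subW h2 hij hy
    obtain ⟨ν, hν⟩ : y - B (b i) y • (b i + b j) ∈ PForm.Ygrp M hzs := by
      rw [← h.sum_eq (y - _)]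
      refine AddSubgroup.sum_mem _ fun l _ => ?_
      by_cases hl : l ≠ i ∧ l ≠ j
      · exact hYl l hl.1 hl.2 _
      · rw [e1 l hl, zero_smul]
        exact zero_mem _
    have := hν.add_smul_self (B (b i) y)
    rw [sub_add_cancel] at this
    exact ⟨_, this⟩
  obtain ⟨p, hp, Hp, -⟩ := h.exists_mono_det (Equiv.swap j k) (t := fun _ => 1)
    (fun _ => mu_one) k
  refine sisom_le_of_E_le (Or.inl (by rw [h.finrank_eq]; omega))
    (hF.E_le (hF.conj (h.ge hp) (hMI (h.ge hp))) ?_)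
  rw [hermP_f, map_add p, Hp i hki.symm, Hp j hkj.symm, Equiv.swap_apply_left,
    Equiv.swap_apply_of_ne_of_ne hij hki.symm, one_smul, one_smul]
  simp [h.self, h.ne hij.symm, h.ne hki.symm, h.ne hkj.symm]

variable (hP : PtMon b M)
  (hY : ∀ y ν, (hermP h.herm).Ei M (b i + b j) y ν → y ∈ F ∙ (b i + b j))
include hP hY

theorem mon_of_two {g : V ≃ₗ[F] V} (hg : g ∈ M)
    {k l m m' : ι} (hkl : k ≠ l) (hm : m ≠ i ∧ m ≠ j)
    (hm' : m' ≠ i ∧ m' ≠ j) {c c' : F} (hc : g (b k) - c • b m ∈ F ∙ (b i + b j))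
    (hc' : g (b l) - c' • b m' ∈ F ∙ (b i + b j)) : g ∈ mon F b := by
  have := h.finiteDimensional
  set d := b i + b j
  have hd : B d d = 0 := h.root_self h2 hij
  have hd0 : d ≠ 0 := h.root_ne_zero hij
  obtain ⟨κ, hκ⟩ := Submodule.mem_span_singleton.1 hc
  obtain ⟨κ', hκ'⟩ := Submodule.mem_span_singleton.1 hc'
  have e1 : g (b k) = c • b m + κ • d := by rw [hκ]; abel
  have e2 : g (b l) = c' • b m' + κ' • d := by rw [hκ']; abel
  have d1 : B (b m) d = 0 := h.coord_root hm.1 hm.2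
  have d2 : B (b m') d = 0 := h.coord_root hm'.1 hm'.2
  have d3 := h.herm.flip_zero d1
  have d4 := h.herm.flip_zero d2
  have n1 := h.isom_of hg (b k) (b k)
  have n2 := h.isom_of hg (b l) (b l)
  have n3 := h.isom_of hg (b k) (b l)
  simp only [e1, e2, LinearMap.add_apply, map_add, smul_left, smul_right, h.self, d1, d2, d3, d4, hd,
    h.ne hkl, mul_zero, add_zero, mul_one] at n1 n2 n3
  have hmm : m ≠ m' := by
    rintro rfl
    rw [h.self, mul_one] at n3
    exact mul_ne_zero (left_ne_zero_of_mul_eq_one n2) (right_ne_zero_of_mul_eq_one n1) n3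
  obtain ⟨ε, hε, hε2⟩ := exists_mu_sq_ne h.herm.inv
  obtain ⟨s, hs, -, Hs⟩ := h.exists_diag2 hkl hε
  obtain ⟨s', hs', -, Hs'⟩ := h.exists_diag2 hmm hε
  have hs'd : s' d = d := by rw [Hs', d1, d2]; simp
  have H : ∀ x, B d x = 0 → (g * s * g⁻¹) x = s' x +
      ((ε - 1) * σ c * B (b m) x * κ + (ε⁻¹ - 1) * σ c' * B (b m') x * κ') • d := by
    intro x hx
    rw [LinearEquiv.mul_apply, LinearEquiv.mul_apply, Hs, map_add, map_add, map_smul, map_smul,
      apply_inv_apply, ← isom_adj (h.isom_of hg), ← isom_adj (h.isom_of hg), Hs', e1, e2]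
    simp only [add_left, smul_left, hx]
    match_scalars
    · ring
    · linear_combination (ε - 1) * B (b m) x * n1
    · ring
    · ring
    · linear_combination (ε⁻¹ - 1) * B (b m') x * n2
  have ht := M.mul_mem (M.inv_mem hs') (M.mul_mem (M.mul_mem hg hs) (M.inv_mem hg))
  have H' : ∀ x, B d x = 0 → (s'⁻¹ * (g * s * g⁻¹)) x = x +
      ((ε - 1) * σ c * B (b m) x * κ + (ε⁻¹ - 1) * σ c' * B (b m') x * κ') • d := by
    intro x hx
    apply s'.injective
    rw [LinearEquiv.mul_apply, apply_inv_apply, H x hx, map_add, map_smul, hs'd]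
  obtain ⟨y, ν, hν, H''⟩ := exists_ei_of_flag (h := h.herm) hd hd0 ht (h.isom_of ht)
    (by rw [H' d hd, d1, d2]; simp) fun x hx => by
      rw [H' x hx, add_sub_cancel_left]
      exact Submodule.smul_mem _ _ (Submodule.mem_span_singleton_self _)
  obtain ⟨a, rfl⟩ := Submodule.mem_span_singleton.1 (hY y ν hν)
  have e3 := (H'' (b m)).symm.trans (H' _ d3)
  simp only [smul_left, d3, h.self, h.ne hmm.symm, mul_zero, zero_smul, add_zero, sub_zero, mul_one,
    zero_mul, left_eq_add, smul_eq_zero, hd0, or_false, mul_eq_zero,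
    sub_ne_zero.2 (ne_one_of_sq_ne hε2), right_ne_zero_of_mul_eq_one n1, false_or] at e3
  exact hP g hg k m c (by rw [e1, e3, zero_smul, add_zero])

variable (hc : 7 ≤ Fintype.card ι ∨ (6 ≤ Fintype.card ι ∧ ∃ a : F, σ a = a ∧ a ≠ 0 ∧ a ≠ 1))
include hc

theorem mon_of_fix {g : V ≃ₗ[F] V} (hg : g ∈ M) (hgd : g (b i + b j) = b i + b j) :
    g ∈ mon F b := by
  have := h.finiteDimensional
  have hd := h.root_self h2 hij
  have hperp : ∀ x ∈ subW B b fun k => k ≠ i ∧ k ≠ j, B (b i + b j) x = 0 := fun x hx => by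
    rw [add_left, hx i (by simp), hx j (by simp), add_zero]
  have hstab : ∀ g : V ≃ₗ[F] V, ∀ a : F, g (b i + b j) = a • (b i + b j) →
      g ∈ stab (F ∙ (b i + b j)) := fun g a ha => mem_stab_of_le fun x hx => by
    obtain ⟨c, rfl⟩ := Submodule.mem_span_singleton.1 hx
    rw [map_smul, ha]
    exact Submodule.smul_mem _ _ (Submodule.smul_mem _ _ (Submodule.mem_span_singleton_self _))
  obtain ⟨k, hk⟩ := exists_notMem_list [i, j] (by simp; omega)
  obtain ⟨l, hl⟩ := exists_notMem_list [i, j, k] (by simp; omega)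
  obtain ⟨r, hr⟩ := exists_notMem_list [i, j, k, l] (by simp; omega)
  obtain ⟨s, hs⟩ := exists_notMem_list [i, j, k, l, r] (by simp; omega)
  simp only [List.mem_cons, List.not_mem_nil, or_false, not_or] at hk hl hr hs
  have hcard : Fintype.card {k // k ≠ i ∧ k ≠ j} = Fintype.card ι - 2 := by
    rw [Fintype.card_subtype, ← Finset.card_pair hij, ← Finset.card_univ_sdiff]
    congr 1
    ext k
    simp
  rcases h.section_cases (fun k => k ≠ i ∧ k ≠ j) (S := F ∙ (b i + b j)) (by omega)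
    (fun x hx y hy => by
      obtain ⟨c, rfl⟩ := Submodule.mem_span_singleton.1 hx
      rw [smul_left, hperp y hy, mul_zero])
    (totIso_span_iff.2 (by simpa only [Set.mem_singleton_iff, forall_eq] using hd)) h.le_isom
    (fun π hπ t ht => by
      have hP := mu_inv (mu_prod ((Finset.univ.erase i).erase j) ht)
      obtain ⟨a, ha⟩ := Finite.injective_iff_surjective.1
        (show Function.Injective fun x : F => x * x from fun x y hxy => by
          have h3 : (x - y) ^ 2 = 0 := by linear_combination hxy + (y * y - x * y) * h2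
          exact sub_eq_zero.1 (pow_eq_zero_iff two_ne_zero |>.1 h3))
        (∏ k ∈ (Finset.univ.erase i).erase j, t k)⁻¹
      have ha' : a * σ a = 1 := by
        rw [← ha, map_mul] at hP
        have h3 : (a * σ a - 1) ^ 2 = 0 := by linear_combination hP + (1 - a * σ a) * h2
        exact sub_eq_zero.1 (pow_eq_zero_iff two_ne_zero |>.1 h3)
      obtain ⟨g, hg, H⟩ := h.exists_mono π (t := fun k => if k = i ∨ k = j then a else t k)
        fun k => by split_ifs; exacts [ha', ht k]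
      refine ⟨g, h.ge ⟨h.mono_mem H, mem_sisom'.2 ⟨hg, ?_⟩⟩, hstab g a ?_, fun k hk => ?_⟩
      · rw [h.det_eq H, ← Finset.mul_prod_erase _ _ (Finset.mem_univ i),
          ← Finset.mul_prod_erase _ _ (Finset.mem_erase.2 ⟨hij.symm, Finset.mem_univ j⟩),
          Finset.prod_congr rfl (g := t) fun k hk => if_neg (by
            simp only [Finset.mem_erase] at hk; tauto)]
        simp only [true_or, or_true, if_true]
        rw [← mul_assoc a, show a * a = _ from ha, inv_mul_cancel₀ (mu_ne_zero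
          (mu_prod ((Finset.univ.erase i).erase j) ht)), mul_one]
        rcases Int.units_eq_one_or (Equiv.Perm.sign π) with h3 | h3 <;> rw [h3] <;> simp
        linear_combination -h2
      · rw [map_add, H, H, hπ i (by simp), hπ j (by simp)]
        simp
      · rw [H, if_neg (not_or.2 hk)])
    hg (hstab g 1 (by rw [hgd, one_smul]))
    (fun k hk => ⟨_, h.sub_mem_subW h2 hij (y := g (b k)) (by
      rw [← hgd, h.isom_of hg, hperp _ (h.b_mem_subW hk)]), by
      rw [sub_sub_cancel]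
      exact Submodule.smul_mem _ _ (Submodule.mem_span_singleton_self _)⟩) with H | H
  · obtain ⟨m, hm, c, hc⟩ := H k hk
    obtain ⟨m', hm', c', hc'⟩ := H l ⟨hl.1, hl.2.1⟩
    exact h.mon_of_two h2 hij hP hY hg (Ne.symm hl.2.2) hm hm' hc hc'
  exfalso
  have he := h.root_self h2 (Ne.symm hs.2.2.2.2)
  have key : ∀ y ν, y ∈ subW B b (fun k => k ≠ i ∧ k ≠ j) → B y (b k) = 0 → B y (b l) = 0 →
      B (b r + b s) y = 0 → ν + σ ν = B y y → ∀ t, t ≠ i → t ≠ j → t ≠ s →
      B (b s) (b r + y - (B y (b r) + ν) • (b r + b s)) ≠ 0 →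
      B (b t) (b r + y - (B y (b r) + ν) • (b r + b s)) = 0 := by
    intro y ν hy hyk hyl hy' hν t hti htj hts h1
    by_contra h3
    have hv := (hermP_ev h.herm).2 ⟨he, hy', hν⟩
    have H0 : ∀ x, hv.equiv x = _ := fun x => hermP_eich h.herm _ y ν x
    obtain ⟨g, hg, -, H⟩ := H hv.equiv ⟨E_le_sisom hv.equiv_mem_E, fun x hx => by
      rw [H0, hx y hy, add_left, hx _ (h.b_mem_subW ⟨hr.1, hr.2.1⟩),
        hx _ (h.b_mem_subW ⟨hs.1, hs.2.1⟩)]
      simp⟩
    have e1 := H _ (h.b_mem_subW hk)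
    have e2 := H _ (h.b_mem_subW (i := l) ⟨hl.1, hl.2.1⟩)
    have e3 := H _ (h.b_mem_subW (i := r) ⟨hr.1, hr.2.1⟩)
    rw [H0, hyk, add_left, h.ne hr.2.2.1, h.ne hs.2.2.1] at e1
    rw [H0, hyl, add_left, h.ne hr.2.2.2, h.ne hs.2.2.2.1] at e2
    rw [H0, add_left, h.self, h.ne hs.2.2.2.2, add_zero, one_smul, mul_one] at e3
    obtain ⟨π, hπ⟩ := h.mon_of_two h2 hij hP hY hg (Ne.symm hl.2.2) hk ⟨hl.1, hl.2.1⟩ (c := 1)
      (c' := 1) (by simpa using e1) (by simpa using e2)
    obtain ⟨c, -, hc⟩ := hπ r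
    obtain ⟨κ, hκ⟩ := Submodule.mem_span_singleton.1 e3
    have e4 := congrArg (B (b s)) hκ
    have e5 := congrArg (B (b t)) hκ
    rw [hc, smul_right, map_sub, smul_right] at e4 e5
    rw [h.coord_root hs.1 hs.2.1] at e4
    rw [h.coord_root hti htj] at e5
    by_cases h4 : s = π r
    · rw [← h4, h.ne hts] at e5
      exact h3 (by linear_combination e5)
    · rw [h.ne h4] at e4
      exact h1 (by linear_combination e4)
  rcases hc with h7 | ⟨-, a, ha, ha0, ha1⟩
  · obtain ⟨t, ht⟩ := exists_notMem_list [i, j, k, l, r, s] (by simp; omega)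
    simp only [List.mem_cons, List.not_mem_nil, or_false, not_or] at ht
    obtain ⟨ν, hν⟩ := h.herm.inv.exists_trace_eq (map_one σ)
    have hν0 : ν ≠ 0 := by rintro rfl; simp at hν
    have := key (b t) ν (h.b_mem_subW ⟨ht.1, ht.2.1⟩) (h.ne ht.2.2.1) (h.ne ht.2.2.2.1)
      (by rw [add_left, h.ne (Ne.symm ht.2.2.2.2.1), h.ne (Ne.symm ht.2.2.2.2.2), add_zero])
      (by rw [hν, h.self]) t ht.1 ht.2.1 ht.2.2.2.2.2
      (by simpa [h.self, h.ne hs.2.2.2.2, h.ne (Ne.symm ht.2.2.2.2.2), h.ne ht.2.2.2.2.1] using hν0)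
    simp [h.self, h.ne ht.2.2.2.2.1, h.ne ht.2.2.2.2.2] at this
  · have := key 0 a (Submodule.zero_mem _) (by simp) (by simp) (by simp)
      (by rw [ha, map_zero]; linear_combination a * h2) r hr.1 hr.2.1 (Ne.symm hs.2.2.2.2)
      (by simpa [h.self, h.ne hs.2.2.2.2] using ha0)
    simp [h.self, h.ne (Ne.symm hs.2.2.2.2), sub_eq_zero] at this
    exact ha1 this.symm

theorem mon_of_conj_tw {w : V ≃ₗ[F] V} (hw : Tw B (b i + b j) w) {g : V ≃ₗ[F] V} (hg : g ∈ M)
    (hm : g * w * g⁻¹ ∈ mon F b) : g ∈ mon F b := by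
  have H := hw.conj (h.isom_of hg)
  have hgi := h.isom_of (M.mul_mem (M.mul_mem hg (M.one_mem)) (M.inv_mem hg))
  set x := g (b i + b j) with hx
  have hxx : B x x = 0 := by rw [hx, h.isom_of hg, h.root_self h2 hij]
  obtain ⟨k, hk⟩ := h.exists_coord (x := x) (g.map_ne_zero_iff.2 (h.root_ne_zero hij))
  obtain ⟨π, hπ⟩ := hm
  obtain ⟨c, -, hc'⟩ := hπ k
  rw [H, h.flip] at hc'
  have hσ := (map_ne_zero σ).2 hk
  have hπk : k ≠ π k := fun h0 => by
    have e1 := congrArg (B x) hc'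
    have e2 := congrArg (B (b k)) hc'
    rw [← h0, map_add, smul_right, smul_right] at e1 e2
    rw [hxx, h.flip] at e1
    rw [h.self] at e2
    have e3 : c = 1 := mul_right_cancel₀ hσ (by linear_combination -e1)
    exact mul_ne_zero hσ hk (by linear_combination e2 + e3)
  have e2 := congrArg (B (b k)) hc'
  rw [map_add, smul_right, smul_right, h.self, h.ne hπk] at e2
  have e3 : B (b k) x * σ (B (b k) x) = 1 := by linear_combination e2 - h2
  have e4 : x = B (b k) x • b k + (B (b k) x * c) • b (π k) := by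
    rw [mul_smul, ← hc', smul_add, smul_smul, e3, one_smul, ← add_assoc, ← add_smul, ← two_mul, h2,
      zero_mul, zero_smul, zero_add]
  have e5 : B (b k) x * c * σ (B (b k) x * c) = 1 := by
    generalize B (b k) x * c = a at e4
    generalize B (b k) x = a' at e3 e4
    rw [e4] at hxx
    simp only [map_add, LinearMap.add_apply, smul_left, smul_right, h.self, h.ne hπk,
      h.ne hπk.symm] at hxx
    linear_combination hxx - e3 - h2
  obtain ⟨τ, h1, h3⟩ := exists_perm_pair hij hπk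
  obtain ⟨l, hl⟩ := exists_notMem_list [i, j] (by simp; omega)
  simp only [List.mem_cons, List.not_mem_nil, or_false, not_or] at hl
  obtain ⟨p, hp, Hp, -⟩ := h.exists_mono_det τ
    (t := fun m => if m = i then B (b k) x else B (b k) x * c)
    (fun m => by split_ifs; exacts [e3, e5]) l
  refine ((mon F b).mul_mem_cancel_left ((mon F b).inv_mem hp.1)).1 (h.mon_of_fix h2 hij hP hY hc
    (M.mul_mem (M.inv_mem (h.ge hp)) hg) (p.injective ?_))
  rw [LinearEquiv.mul_apply, apply_inv_apply, map_add p, Hp i (Ne.symm hl.1), Hp j (Ne.symm hl.2),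
    if_pos rfl, if_neg hij.symm, h1, h3, ← e4]

theorem le_mon_two [Finite M] : M ≤ mon F b := by
  have := h.finiteDimensional
  have hd := h.root_self h2 hij
  have hd0 := h.root_ne_zero hij
  have h1 : (1 : F) + σ 1 = 0 := by rw [map_one]; linear_combination h2
  have htw : ∀ k l, k ≠ l → ∃ w ∈ M, w ∈ mon F b ∧ Tw B (b k + b l) w := by
    intro k l hkl
    have H : Tw B (b k + b l) (tv B _ 1 (h.root_self h2 hkl) h1) := fun v => by
      rw [tv_apply, one_mul]
    have : tv B _ 1 (h.root_self h2 hkl) h1 ∈ mon F b := h.mem_mon fun m => by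
      refine ⟨Equiv.swap k l m, 1, ?_⟩
      rw [H, add_left, Equiv.swap_apply_def]
      split_ifs with h3 h4
      · rw [h3, h.self, h.ne hkl.symm]
        match_scalars
        exacts [by linear_combination h2, by ring]
      · rw [h4, h.self, h.ne hkl]
        match_scalars
        exacts [by linear_combination h2, by ring]
      · rw [h.ne (Ne.symm h3), h.ne (Ne.symm h4)]
        simp
    exact ⟨_, h.ge ⟨this, h.herm.tv_mem_sisom _ _⟩, this, H⟩
  obtain ⟨w, hwM, hwm, hw⟩ := htw i j hij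
  have hww : w * w = 1 := LinearEquiv.ext fun v => by
    rw [LinearEquiv.mul_apply, hw, hw, map_add (B _), smul_right, hd]
    change _ = v
    match_scalars
    exacts [by ring, by linear_combination B (b i + b j) v * h2,
      by linear_combination B (b i + b j) v * h2]
  have hF : ∀ g ∈ M, g * w * g⁻¹ ∈ mon F b → g ∈ mon F b := fun g hg H =>
    h.mon_of_conj_tw h2 hij hP hY hc hw hg H
  have hO : ∀ d, Cls M w d → d ∉ mon F b → ∃ y, Cls M w y ∧ y * w * y⁻¹ = d := by
    intro d hd' hdm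
    refine (dihedral_cases hwM hww Cls.self hd').resolve_right ?_
    rintro ⟨t, -, ht1, htt, h3, h4, ⟨k', hk', h5⟩, -⟩
    have hdM := hd'.mem hwM
    obtain ⟨k, hk, rfl⟩ := hd'
    have H := hw.conj (h.isom_of hk)
    have H' := hw.conj (h.isom_of hk')
    rw [← h5] at H'
    have h6 : B (k (b i + b j)) (b i + b j) ≠ 0 := fun h0 =>
      hdm (h.mon_of_fix h2 hij hP hY hc hdM (by rw [H, h0, zero_smul, add_zero]))
    have h7 := h.herm.flip_ne_zero h6
    have e1 := H.apply_eq h2 h6 (k.map_ne_zero_iff.2 hd0) h4 htt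
    have e2 := hw.apply_eq h2 h7 hd0 h3 htt
    have e3 := H' (k (b i + b j))
    rw [LinearEquiv.mul_apply, hw, map_add t, map_smul, e1, e2, add_right_inj] at e3
    generalize k' (b i + b j) = x at H' e3
    generalize k (b i + b j) = y at h7 e3
    have h8 : B x y ≠ 0 := fun h0 => by
      rw [h0, zero_smul, smul_eq_zero] at e3
      exact e3.elim h7 hd0
    have e4 : x = (B (b i + b j) y / B x y) • (b i + b j) := by
      rw [div_eq_inv_mul, ← smul_smul, e3, smul_smul, inv_mul_cancel₀ h8, one_smul]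
    generalize B (b i + b j) y / B x y = a at e4
    rw [e4, smul_left, smul_smul] at e3
    have e5 : a * σ a = 1 := mul_right_cancel₀ h7 (by
      linear_combination -(smul_left_injective F hd0 e3))
    refine ht1 (mul_right_cancel (b := w) (LinearEquiv.ext fun v => ?_))
    rw [H', one_mul, hw, e4, smul_left, smul_smul]
    congr 2
    linear_combination B (b i + b j) v * e5
  intro g₀ hg₀
  by_contra hg₀'
  obtain ⟨k, hk⟩ := exists_notMem_list [i, j] (by simp; omega)
  obtain ⟨l, hl⟩ := exists_notMem_list [i, j, k] (by simp; omega)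
  obtain ⟨m, hm⟩ := exists_notMem_list [i, j, k, l] (by simp; omega)
  simp only [List.mem_cons, List.not_mem_nil, or_false, not_or] at hk hl hm
  have hy₀ : Cls M w (g₀ * w * g₀⁻¹) := Cls.self.conj hg₀
  have hy₀' : g₀ * w * g₀⁻¹ ∉ mon F b := fun H => hg₀' (hF g₀ hg₀ H)
  have H₀ := hw.conj (h.isom_of hg₀)
  set y₀ := g₀ * w * g₀⁻¹
  have hy₀M := hy₀.mem hwM
  obtain ⟨τ, h3, h4⟩ := exists_perm_pair hij (Ne.symm hl.2.2)
  obtain ⟨p, hp, Hp, -⟩ := h.exists_mono_det τ (t := fun _ => 1) (fun _ => mu_one) m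
  have hx₀ : Cls M w (p * w * p⁻¹) := Cls.self.conj (h.ge hp)
  have hx₀m : p * w * p⁻¹ ∈ mon F b :=
    (mon F b).mul_mem ((mon F b).mul_mem hp.1 hwm) ((mon F b).inv_mem hp.1)
  have Hx₀ := hw.conj hp.2.1
  rw [map_add, Hp i (Ne.symm hm.1), Hp j (Ne.symm hm.2.1), h3, h4, one_smul, one_smul] at Hx₀
  set x₀ := p * w * p⁻¹
  obtain ⟨y, hy, H⟩ := hO _ (hx₀.conj hy₀M) fun H => hy₀' (hx₀.mem_of_conj hF hx₀m hy₀M H)
  have hηM := M.mul_mem (M.inv_mem hy₀M) (hy.mem hwM)
  have h5 : y₀⁻¹ * y * w * (y₀⁻¹ * y)⁻¹ = x₀ := by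
    rw [show y₀⁻¹ * y * w * (y₀⁻¹ * y)⁻¹ = y₀⁻¹ * (y * w * y⁻¹) * y₀ by group, H]
    group
  obtain ⟨π, hπ⟩ := hF _ hηM (h5 ▸ hx₀m)
  have Hη := hw.conj (h.isom_of hηM)
  rw [h5] at Hη
  obtain ⟨c, hc0, hc1⟩ := hπ i
  obtain ⟨c', hc0', hc1'⟩ := hπ j
  have h6 : ∀ r, r ≠ k → r ≠ l → r ≠ π i ∧ r ≠ π j := by
    intro r h6 h7
    have e1 := (Hη (b r)).symm.trans (Hx₀ (b r))
    rw [add_right_inj, add_left _ (b k), h.ne h6.symm, h.ne h7.symm, add_zero, zero_smul,
      smul_eq_zero] at e1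
    have e2 := e1.resolve_right ((y₀⁻¹ * y).map_ne_zero_iff.2 hd0)
    rw [map_add, hc1, hc1', add_left, smul_left, smul_left] at e2
    constructor <;> rintro rfl
    · simp [h.self, h.ne (π.injective.ne hij.symm), hc0] at e2
    · simp [h.self, h.ne (π.injective.ne hij), hc0'] at e2
  obtain ⟨k₁, hk₁, rfl⟩ := hy
  have H₁ := hw.conj (h.isom_of hk₁)
  have hinv : y₀⁻¹ = y₀ := inv_eq_of_mul_eq_one_right (hy₀.mul_self hww)
  rw [hinv, LinearEquiv.mul_apply, H₀, H₁] at hc1 hc1'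
  generalize g₀ (b i + b j) = u at H₀ hc1 hc1'
  generalize k₁ (b i + b j) = v at hc1 hc1'
  generalize B u (b i + B v (b i) • v) = α at hc1
  generalize B u (b j + B v (b j) • v) = α' at hc1'
  generalize B v (b i) = β at hc1
  generalize B v (b j) = β' at hc1'
  obtain ⟨a1, a2⟩ := h6 i (Ne.symm hk.1) (Ne.symm hl.1)
  obtain ⟨a3, a4⟩ := h6 j (Ne.symm hk.2) (Ne.symm hl.2.1)
  obtain ⟨a5, a6⟩ := h6 m hm.2.2.1 hm.2.2.2
  have e1 := congrArg (B (b i)) hc1
  have e2 := congrArg (B (b i)) hc1'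
  have e3 := congrArg (B (b j)) hc1
  have e4 := congrArg (B (b j)) hc1'
  have e5 := congrArg (B (b m)) hc1
  have e6 := congrArg (B (b m)) hc1'
  simp only [map_add, smul_right, h.self, h.ne a1, h.ne a2, h.ne a3, h.ne a4, h.ne a5, h.ne a6,
    h.ne hij, h.ne hij.symm, h.ne hm.1, h.ne hm.2.1] at e1 e2 e3 e4 e5 e6
  have e7 : B (b m) u = 0 := by
    linear_combination B (b m) u * ((β' * B (b j) v + α' * B (b j) u) * (-e1) + e4 - 
      (β * B (b j) v + α * B (b j) u) * (-e2)) +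
      (B (b i) u * B (b j) v - B (b j) u * B (b i) v) * (β' * e5 - β * e6)
  refine hy₀' (hP y₀ hy₀M m m 1 ?_)
  rw [H₀, h.herm.flip_zero e7, zero_smul, add_zero, one_smul]

end FrM

/-- Overgroups of the monomial group in the special unitary group. -/
theorem FrM.le_or_le [Finite F] (h : FrM B b M)
    (hc : 7 ≤ Fintype.card ι ∨ (Fintype.card ι = 6 ∧ ∃ a : F, σ a = a ∧ a ≠ 0 ∧ a ≠ 1)) :
    M ≤ mon F b ∨ sisom B ≤ M := by
  have := h.finiteDimensional
  have : Finite V := Module.finite_of_finite F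
  have : Finite (V ≃ₗ[F] V) := DFunLike.finite _
  rcases h.ptMon_or (Or.inl (by omega)) with hP | hP
  swap
  · exact Or.inr hP
  by_cases h2 : (2 : F) = 0
  · obtain ⟨i, j, hij⟩ := Fintype.exists_pair_of_one_lt_card (α := ι) (by omega)
    exact (h.Y_cases h2 hij (by omega)).imp_left fun hY =>
      h.le_mon_two h2 hij hP hY (hc.imp_right fun h => ⟨h.1.ge, h.2⟩)
  · exact Or.inl (h.le_mon_odd hP h2 (hc.imp_right fun h => h.1))

end Cfsg.Agent.H26
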