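import Cfsg.Agent.H26.UHerm

/-!
Orthonormal frames of a unitary space and monomial isometries. A group of isometries properly
containing the full monomial group contains the special unitary group.
-/

set_option autoImplicit false

namespace Cfsg.Agent.H26

open H31 Module

variable {F : Type*} [Field F] {σ : F →+* F} {V : Type*} [AddCommGroup V] [Module F V]
  {B : V →ₛₗ[σ] V →ₗ[F] F} {ι : Type*}

/-- The maps permuting the lines through the vectors `b i`. -/
def mon (F : Type*) [Field F] [Module F V] (b : ι → V) : Subgroup (V ≃ₗ[F] V) where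
  carrier := {g | ∃ π : Equiv.Perm ι, ∀ i, ∃ c : F, c ≠ 0 ∧ g (b i) = c • b (π i)}
  mul_mem' := by
    rintro g k ⟨π, hπ⟩ ⟨τ, hτ⟩
    refine ⟨π * τ, fun i => ?_⟩
    obtain ⟨c, hc0, hc⟩ := hτ i
    obtain ⟨d, hd0, hd⟩ := hπ (τ i)
    exact ⟨c * d, mul_ne_zero hc0 hd0, by
      rw [LinearEquiv.mul_apply, hc, map_smul, hd, smul_smul]; rfl⟩
  one_mem' := ⟨1, fun i => ⟨1, one_ne_zero, by simp⟩⟩
  inv_mem' := by
    rintro g ⟨π, hπ⟩
    refine ⟨π⁻¹, fun i => ?_⟩
    obtain ⟨c, hc0, hc⟩ := hπ (π⁻¹ i)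
    refine ⟨c⁻¹, inv_ne_zero hc0, g.injective ?_⟩
    rw [apply_inv_apply, map_smul, hc, smul_smul, inv_mul_cancel₀ hc0]
    simp

theorem exists_ne_of_card {α : Type*} [Fintype α] [DecidableEq α] (s : Finset α)
    (hs : s.card < Fintype.card α) : ∃ a, a ∉ s := by
  by_contra h
  push Not at h
  rw [Finset.eq_univ_of_forall h, Finset.card_univ] at hs
  exact lt_irrefl _ hs

theorem exists_notMem_list {α : Type*} [Fintype α] [DecidableEq α] (l : List α)
    (hs : l.length < Fintype.card α) : ∃ a, a ∉ l := by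
  obtain ⟨a, ha⟩ := exists_ne_of_card l.toFinset (lt_of_le_of_lt l.toFinset_card_le hs)
  exact ⟨a, by simpa using ha⟩

theorem exists_perm_pair {α : Type*} [DecidableEq α] {i j p q : α} (hij : i ≠ j) (hpq : p ≠ q) :
    ∃ π : Equiv.Perm α, π i = p ∧ π j = q := by
  refine ⟨(Equiv.swap (Equiv.swap i p j) q) * Equiv.swap i p, ?_, by simp⟩
  rw [Equiv.Perm.mul_apply, Equiv.swap_apply_left]
  apply Equiv.swap_apply_of_ne_of_ne _ hpq
  intro h2
  apply hij
  apply (Equiv.swap i p).injective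
  rw [← h2, Equiv.swap_apply_left]

variable [Fintype ι] [DecidableEq ι]

/-- An orthonormal basis. -/
structure Fr (B : V →ₛₗ[σ] V →ₗ[F] F) (b : ι → V) : Prop where
  herm : IsHerm B
  on : IsON B b
  sum_eq : ∀ x, ∑ i, B (b i) x • b i = x

namespace Fr

variable {b : ι → V} (h : Fr B b)
include h

theorem self (i : ι) : B (b i) (b i) = 1 := by rw [h.on, if_pos rfl]

theorem ne {i j : ι} (hij : i ≠ j) : B (b i) (b j) = 0 := by rw [h.on, if_neg hij]

theorem b_ne_zero (i : ι) : b i ≠ 0 := fun h0 => by simpa [h0] using h.self i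

theorem ext {x y : V} (H : ∀ i, B (b i) x = B (b i) y) : x = y := by
  rw [← h.sum_eq x, ← h.sum_eq y]
  simp only [H]

theorem exists_coord {x : V} (hx : x ≠ 0) : ∃ i, B (b i) x ≠ 0 := by
  by_contra H
  push Not at H
  exact hx (h.ext fun i => by simp [H])

theorem form (x y : V) : B x y = ∑ i, σ (B (b i) x) * B (b i) y := by
  rw [← form_sum_sum h.on, h.sum_eq, h.sum_eq]

theorem flip (i : ι) (x : V) : B x (b i) = σ (B (b i) x) := (h.herm.symm _ _).symm

/-- The frame as a basis. -/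
noncomputable def basis : Basis ι F V :=
  Basis.mk h.on.linearIndependent fun x _ => by
    rw [← h.sum_eq x]
    exact Submodule.sum_mem _ fun i _ => Submodule.smul_mem _ _ (Submodule.subset_span ⟨i, rfl⟩)

theorem basis_apply (i : ι) : h.basis i = b i := Basis.mk_apply _ _ _

theorem finiteDimensional : FiniteDimensional F V := Module.Finite.of_basis h.basis

theorem finrank_eq : finrank F V = Fintype.card ι := finrank_eq_card_basis h.basis

theorem equiv_ext {g k : V ≃ₗ[F] V} (H : ∀ i, g (b i) = k (b i)) : g = k :=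
  h.basis.ext' fun i => by simp only [basis_apply, H]

theorem eq_smul {x : V} {j : ι} (H : ∀ i, i ≠ j → B (b i) x = 0) : x = B (b j) x • b j :=
  h.ext fun i => by
    by_cases hi : i = j
    · rw [hi, smul_right, h.self, mul_one]
    · rw [smul_right, h.ne hi, H i hi, mul_zero]

theorem index_eq {i j : ι} {c d : F} (hc : c ≠ 0) (H : c • b i = d • b j) : i = j := by
  by_contra hij
  have := congrArg (B (b i)) H
  rw [smul_right, smul_right, h.self, h.ne hij, mul_one, mul_zero] at this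
  exact hc this

theorem mem_mon {g : V ≃ₗ[F] V} (H : ∀ i, ∃ j, ∃ c : F, g (b i) = c • b j) : g ∈ mon F b := by
  choose π c hc using H
  have h0 : ∀ i, c i ≠ 0 := fun i h0 => h.b_ne_zero i (by simpa [h0] using hc i)
  have h1 : Function.Injective π := fun i j hij => h.index_eq (h0 j) (d := c i) (g.injective (by
    rw [map_smul, map_smul, hc, hc, hij, smul_smul, smul_smul, mul_comm]))
  exact ⟨Equiv.ofBijective π (Finite.injective_iff_bijective.1 h1), fun i => ⟨c i, h0 i, hc i⟩⟩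

theorem norm_of_map {g : V ≃ₗ[F] V} (hg : g ∈ isom B) {i j : ι} {c : F}
    (H : g (b i) = c • b j) : c * σ c = 1 := by
  have := hg (b i) (b i)
  rwa [H, smul_left, smul_right, h.self, h.self, mul_one, mul_comm] at this

theorem coord_map {g : V ≃ₗ[F] V} (hg : g ∈ isom B) {i j : ι} {c : F}
    (H : g (b i) = c • b j) (x : V) : B (b j) (g x) = c * B (b i) x := by
  rw [← hg (b i) x, H, smul_left, ← mul_assoc, h.norm_of_map hg H, one_mul]

theorem det_eq {g : V ≃ₗ[F] V} {π : Equiv.Perm ι} {t : ι → F} (H : ∀ i, g (b i) = t i • b (π i)) :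
    LinearMap.det (g : V →ₗ[F] V) = (Equiv.Perm.sign π : ℤ) * ∏ i, t i := by
  have h1 := h.basis.det_comp (g : V →ₗ[F] V) h.basis
  rw [Basis.det_self, mul_one] at h1
  have h2 : (g : V →ₗ[F] V) ∘ h.basis = fun i => t i • (h.basis ∘ π) i := by
    ext i
    simp [basis_apply, H]
  rw [← h1, h2, AlternatingMap.map_smul_univ, AlternatingMap.map_perm, Basis.det_self]
  simp [Units.smul_def, mul_comm]

theorem exists_mono (π : Equiv.Perm ι) {t : ι → F} (ht : ∀ i, t i * σ (t i) = 1) :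
    ∃ g ∈ isom B, ∀ i, g (b i) = t i • b (π i) := by
  have := h.finiteDimensional
  have h1 : IsON B fun i => t i • b (π i) := fun i j => by
    rw [smul_left, smul_right, h.on]
    by_cases hij : i = j
    · simp [hij, mul_comm, ht]
    · simp [hij]
  exact h.herm.witt_family h.on.linearIndependent h1.linearIndependent
    fun i j => by rw [h.on, h1]

theorem mono_mem {g : V ≃ₗ[F] V} {π : ι → ι} {t : ι → F}
    (H : ∀ i, g (b i) = t i • b (π i)) : g ∈ mon F b := h.mem_mon fun i => ⟨_, _, H i⟩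

/-- Diagonal isometries. -/
theorem exists_diag {t : ι → F} (ht : ∀ i, t i * σ (t i) = 1) :
    ∃ g ∈ mon F b ⊓ isom B, (∀ i, g (b i) = t i • b i) ∧
      (∀ i x, B (b i) (g x) = t i * B (b i) x) ∧ LinearMap.det (g : V →ₗ[F] V) = ∏ i, t i := by
  obtain ⟨g, hg, H⟩ := h.exists_mono 1 ht
  exact ⟨g, ⟨h.mono_mem H, hg⟩, H, fun i => h.coord_map hg (H i), by simpa using h.det_eq H⟩

theorem exists_perm (π : Equiv.Perm ι) : ∃ g ∈ mon F b ⊓ isom B, (∀ i, g (b i) = b (π i)) ∧
    ∀ i x, B (b (π i)) (g x) = B (b i) x := by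
  obtain ⟨g, hg, H⟩ := h.exists_mono π (t := fun _ => 1) fun _ => mu_one
  exact ⟨g, ⟨h.mono_mem H, hg⟩, fun i => by rw [H, one_smul],
    fun i x => by rw [h.coord_map hg (H i), one_mul]⟩

/-- A monomial isometry of determinant one with prescribed entries outside `i₀`. -/
theorem exists_mono_det (π : Equiv.Perm ι) {t : ι → F} (ht : ∀ i, t i * σ (t i) = 1) (i₀ : ι) :
    ∃ g ∈ mon F b ⊓ sisom B, (∀ i, i ≠ i₀ → g (b i) = t i • b (π i)) ∧
      ∃ c : F, g (b i₀) = c • b (π i₀) := by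
  let s : F := (Equiv.Perm.sign π : ℤ)
  have hs : s * s = 1 := by
    simp only [s]
    rw [← Int.cast_mul, ← Units.val_mul, Int.units_mul_self]
    simp
  have hP := mu_prod (Finset.univ.erase i₀) ht
  let t' : ι → F := fun i => if i = i₀ then s * (∏ i ∈ Finset.univ.erase i₀, t i)⁻¹ else t i
  obtain ⟨g, hg, H⟩ := h.exists_mono π (t := t') fun i => by
    simp only [t']
    split_ifs
    · exact mu_mul (by rw [map_intCast]; exact hs) (mu_inv hP)
    · exact ht i
  refine ⟨g, ⟨h.mono_mem H, mem_sisom'.2 ⟨hg, ?_⟩⟩, fun i hi => by rw [H]; simp [t', hi], _, H i₀⟩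
  rw [h.det_eq H, ← Finset.mul_prod_erase _ _ (Finset.mem_univ i₀),
    Finset.prod_congr rfl (g := t) fun i hi => if_neg (Finset.ne_of_mem_erase hi)]
  simp only [t', if_true]
  rw [mul_assoc, inv_mul_cancel₀ (mu_ne_zero hP), mul_one, hs]

end Fr

/-- `M` contains all unitary reflections with centre the unit vector `u`. -/
def Rf (B : V →ₛₗ[σ] V →ₗ[F] F) (M : Subgroup (V ≃ₗ[F] V)) (u : V) : Prop :=
  B u u = 1 ∧ ∀ ε : F, ε * σ ε = 1 → ∃ g ∈ M, ∀ x, g x = x + ((ε - 1) * B u x) • u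

variable {M : Subgroup (V ≃ₗ[F] V)} {b : ι → V}

omit [Fintype ι] [DecidableEq ι] in
theorem Rf.map (hM : M ≤ isom B) {u : V} (hu : Rf B M u) {g : V ≃ₗ[F] V} (hg : g ∈ M) :
    Rf B M (g u) := by
  refine ⟨by rw [hM hg, hu.1], fun ε hε => ?_⟩
  obtain ⟨k, hk, H⟩ := hu.2 ε hε
  refine ⟨g * k * g⁻¹, M.mul_mem (M.mul_mem hg hk) (M.inv_mem hg), fun x => ?_⟩
  rw [LinearEquiv.mul_apply, LinearEquiv.mul_apply, H, map_add, map_smul, apply_inv_apply,
    isom_adj (hM hg)]

theorem Fr.rf (h : Fr B b) (hH : mon F b ⊓ isom B ≤ M) (i : ι) : Rf B M (b i) := by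
  refine ⟨h.self i, fun ε hε => ?_⟩
  obtain ⟨g, hg, -, H, -⟩ := h.exists_diag (t := fun j => if j = i then ε else 1) fun j => by
    split_ifs
    exacts [hε, mu_one]
  refine ⟨g, hH hg, fun x => h.ext fun j => ?_⟩
  rw [H, map_add, smul_right, h.on]
  split_ifs with hj
  · rw [hj]; ring
  · ring

section Refl

variable [Finite F]

omit [Fintype ι] [DecidableEq ι] in
/-- Two reflection groups spanning a degenerate plane. -/
theorem Rf.ei (h : IsHerm B) (hM : M ≤ isom B) {u z : V} (hu : Rf B M u) (hu' : Rf B M (u + z))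
    (hz : B u z = 0) (c : F) : B z z = 0 ∧ ∃ ν, (hermP h).Ei M z (c • u) ν := by
  have hz' : B z u = 0 := h.flip_zero hz
  have hzz : B z z = 0 := by
    have := hu'.1
    rwa [add_left, map_add, map_add, hu.1, hz, hz', add_zero, zero_add, add_eq_left] at this
  refine ⟨hzz, ?_⟩
  let A : AddSubgroup F := (PForm.Ygrp M ((hermP_sing h).2 hzz)).comap
    (LinearMap.toSpanSingleton F V u).toAddMonoidHom
  have hA : ∀ c, c ∈ A ↔ ∃ ν, (hermP h).Ei M z (c • u) ν := fun c => Iff.rfl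
  obtain ⟨ε, hε, hε2⟩ := exists_mu_sq_ne h.inv
  have hε0 := mu_ne_zero hε
  refine (hA c).1 (mu_span h.inv (a₀ := ε - 1) (fun δ hδ a ha => ?_) ?_
    (sub_ne_zero.2 (ne_one_of_sq_ne hε2)) c)
  · obtain ⟨ν, hν⟩ := (hA a).1 ha
    obtain ⟨g, hg, H⟩ := hu.2 δ hδ
    have := hν.conj hg (hermP_isom h ▸ hM hg)
    rw [H, H, hz, smul_right, hu.1, mul_zero, zero_smul, add_zero, ← add_smul] at this
    exact (hA _).2 ⟨ν, by convert this using 2; ring⟩
  · obtain ⟨g, hg, H⟩ := hu.2 ε⁻¹ (mu_inv hε)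
    obtain ⟨k, hk, H'⟩ := hu'.2 ε hε
    refine (hA _).2 ⟨1 - ε, ei_of_eq hzz (by rw [smul_right, hz', mul_zero]) ?_
      (M.mul_mem hk hg) fun x => ?_⟩
    · rw [smul_left, smul_right, hu.1, map_sub, map_sub, map_one]
      linear_combination -hε
    · rw [LinearEquiv.mul_apply, H, H']
      rw [add_left]
      simp only [map_add, smul_right, smul_left, hu.1, hz', map_sub, map_one, mu_σ hε]
      match_scalars <;> field_simp <;> ring

theorem Fr.exists_three (h : Fr B b) (h3 : 3 ≤ Fintype.card ι) (hM : M ≤ isom B)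
    (hH : mon F b ⊓ isom B ≤ M) (hn : ¬ M ≤ mon F b) : ∃ u, Rf B M u ∧ ∃ i j k, i ≠ j ∧ i ≠ k ∧
      j ≠ k ∧ B (b i) u ≠ 0 ∧ B (b j) u ≠ 0 ∧ B (b k) u ≠ 0 := by
  obtain ⟨g, hg, hg'⟩ := SetLike.not_le_iff_exists.1 hn
  obtain ⟨i₀, hi₀⟩ : ∃ i₀, ∀ j, ∀ c : F, g (b i₀) ≠ c • b j := by
    by_contra H
    push Not at H
    exact hg' (h.mem_mon H)
  have hu := (h.rf hH i₀).map hM hg
  set u := g (b i₀)
  obtain ⟨i, hi⟩ := h.exists_coord (x := u) (g.map_ne_zero_iff.2 (h.b_ne_zero i₀))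
  obtain ⟨j, hji, hj⟩ : ∃ j, j ≠ i ∧ B (b j) u ≠ 0 := by
    by_contra H
    push Not at H
    exact hi₀ i _ (h.eq_smul H)
  obtain ⟨k, hk⟩ := exists_notMem_list [i, j] (by simp; omega)
  simp only [List.mem_cons, List.not_mem_nil, or_false, not_or] at hk
  by_cases hk0 : B (b k) u = 0
  swap
  · exact ⟨u, hu, i, j, k, hji.symm, Ne.symm hk.1, Ne.symm hk.2, hi, hj, hk0⟩
  by_cases hl : ∃ l, l ≠ i ∧ l ≠ j ∧ B (b l) u ≠ 0
  · obtain ⟨l, h1, h2, h4⟩ := hl
    exact ⟨u, hu, i, j, l, hji.symm, h1.symm, h2.symm, hi, hj, h4⟩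
  push Not at hl
  obtain ⟨p, hp, -, Hp⟩ := h.exists_perm (Equiv.swap j k)
  have p1 : B (b i) (p u) = B (b i) u := by
    have := Hp i u
    rwa [Equiv.swap_apply_of_ne_of_ne hji.symm (Ne.symm hk.1)] at this
  have p2 : B (b j) (p u) = 0 := by
    have := Hp k u
    rwa [Equiv.swap_apply_right, hk0] at this
  have p3 : B (b k) (p u) = B (b j) u := by
    have := Hp j u
    rwa [Equiv.swap_apply_left] at this
  have p4 : B (p u) u = σ (B (b i) u) * B (b i) u := by
    rw [h.form, Finset.sum_eq_single i, p1]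
    · intro l _ hli
      by_cases hlj : l = j
      · rw [hlj, p2, map_zero, zero_mul]
      · rw [hl l hli hlj, mul_zero]
    · simp
  obtain ⟨ε, hε, hε2⟩ := exists_mu_sq_ne h.herm.inv
  obtain ⟨r, hr, Hr⟩ := (hu.map hM (hH hp)).2 ε hε
  have ha : σ (B (b i) u) * B (b i) u ≠ 0 := mul_ne_zero ((map_ne_zero σ).2 hi) hi
  refine ⟨r u, hu.map hM hr, i, j, k, hji.symm, Ne.symm hk.1, Ne.symm hk.2, ?_, ?_, ?_⟩
  · rw [Hr, map_add, smul_right, p1, p4, ← one_add_mul]
    refine mul_ne_zero (fun h0 => hε2 ?_) hi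
    have h1 := congrArg σ h0
    simp only [map_add, map_one, map_mul, map_sub, h.herm.inv.invol, map_zero] at h1
    have h2 : σ ε = ε := mul_right_cancel₀ ha (by linear_combination h1 - h0)
    rwa [h2] at hε
  · rwa [Hr, map_add, smul_right, p2, mul_zero, add_zero]
  · rw [Hr, map_add, smul_right, p3, p4, hk0, zero_add]
    exact mul_ne_zero (mul_ne_zero (sub_ne_zero.2 (ne_one_of_sq_ne hε2)) ha) hj

omit [Finite F] in
theorem Fr.exists_diag_three (h : Fr B b) (hH : mon F b ⊓ isom B ≤ M) {i j : ι} (hij : i ≠ j)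
    {s t r : F} (hs : s * σ s = 1) (ht : t * σ t = 1) (hr : r * σ r = 1) :
    ∃ g ∈ M, ∀ x, g x = r • x + ((s - r) * B (b i) x) • b i + ((t - r) * B (b j) x) • b j := by
  obtain ⟨g, hg, -, H, -⟩ := h.exists_diag
    (t := fun k => if k = i then s else if k = j then t else r) fun k => by
      split_ifs
      exacts [hs, ht, hr]
  refine ⟨g, hH hg, fun x => h.ext fun k => ?_⟩
  rw [H, map_add, map_add, smul_right, smul_right, smul_right, h.on, h.on]
  split_ifs with h1 h2 h2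
  · exact absurd (h1.symm.trans h2) hij
  · rw [h1]; ring
  · rw [h2]; ring
  · ring

theorem Fr.exists_degenerate (h : Fr B b) (hM : M ≤ isom B) (hH : mon F b ⊓ isom B ≤ M) {u : V}
    (hu : Rf B M u) {i j k : ι} (hij : i ≠ j) (hik : i ≠ k) (hjk : j ≠ k) (hi : B (b i) u ≠ 0)
    (hj : B (b j) u ≠ 0) (hk : B (b k) u ≠ 0) : ∃ z, z ≠ 0 ∧ Rf B M (u + z) ∧ B u z = 0 := by
  set α := B (b i) u * σ (B (b i) u) with hα
  set β := B (b j) u * σ (B (b j) u) with hβ
  have hα' : σ α = α := h.herm.inv.norm_fixed _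
  have hβ' : σ β = β := h.herm.inv.norm_fixed _
  obtain ⟨s, t, r, hs, ht, hr, h1, h2⟩ : ∃ s t r : F, s * σ s = 1 ∧ t * σ t = 1 ∧ r * σ r = 1 ∧
      ¬ (s = 1 ∧ t = 1 ∧ r = 1) ∧ s * α + t * β + r * (1 - α - β) = 1 := by
    by_cases hc : 1 - α - β = 0
    · obtain ⟨ε, hε, hε2⟩ := exists_mu_sq_ne h.herm.inv
      exact ⟨1, 1, ε, mu_one, mu_one, hε, fun h1 => ne_one_of_sq_ne hε2 h1.2.2, by
        linear_combination (ε - 1) * hc⟩
    obtain ⟨x, y, hx, hy, hx1, hxy⟩ := exists_mu_norm_eq h.herm.inv hα' hβ' (map_one σ)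
      (δ := -(1 - α - β)) (by simp [hα', hβ'])
      (mul_ne_zero (mul_ne_zero hi ((map_ne_zero σ).2 hi)) (mul_ne_zero hj ((map_ne_zero σ).2 hj)))
      (by rw [one_mul]; exact neg_ne_zero.2 hc)
    obtain ⟨κ, hκ, hκ'⟩ := exists_mu_of_norm_eq hxy
    have hκ0 := mu_ne_zero hκ
    refine ⟨κ⁻¹, κ⁻¹ * x, y, mu_inv hκ, mu_mul (mu_inv hκ) hx, hy, fun h1 => hx1 ?_, ?_⟩
    · simpa [h1.1] using h1.2.1
    · field_simp
      linear_combination hκ'
  obtain ⟨g, hg, H⟩ := h.exists_diag_three hH hij hs ht hr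
  refine ⟨g u - u, fun h0 => h1 ?_, by rw [add_sub_cancel]; exact hu.map hM hg, ?_⟩
  · rw [sub_eq_zero, H] at h0
    have e1 := congrArg (B (b i)) h0
    have e2 := congrArg (B (b j)) h0
    have e3 := congrArg (B (b k)) h0
    simp only [map_add, smul_right, h.self, h.ne hij, h.ne hij.symm, h.ne hik.symm,
      h.ne hjk.symm] at e1 e2 e3
    exact ⟨mul_right_cancel₀ hi (by linear_combination e1),
      mul_right_cancel₀ hj (by linear_combination e2),
      mul_right_cancel₀ hk (by linear_combination e3)⟩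
  · rw [H]
    simp only [map_sub, map_add, smul_right, hu.1, h.flip]
    linear_combination h2

omit [Finite F] in
theorem Fr.exists_hasTv_ne (h : Fr B b) (hM : M ≤ isom B) (hH : mon F b ⊓ isom B ≤ M) {z : V}
    (hz0 : z ≠ 0) {r : V} (hr : r ≠ 0) : ∃ g ∈ M, B r (g z) ≠ 0 := by
  obtain ⟨i, hi⟩ := h.exists_coord hz0
  obtain ⟨j, hj⟩ := h.exists_coord hr
  obtain ⟨p, hp, -, Hp⟩ := h.exists_perm (Equiv.swap i j)
  by_cases h0 : B r (p z) = 0
  swap
  · exact ⟨p, hH hp, h0⟩
  obtain ⟨ε, hε, hε2⟩ := exists_mu_sq_ne h.herm.inv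
  obtain ⟨g, hg, H⟩ := (h.rf hH j).2 ε hε
  refine ⟨g * p, M.mul_mem hg (hH hp), ?_⟩
  have h1 := Hp i z
  rw [Equiv.swap_apply_left] at h1
  rw [LinearEquiv.mul_apply, H, map_add, h0, zero_add, smul_right, h1, h.flip]
  exact mul_ne_zero (mul_ne_zero (sub_ne_zero.2 (ne_one_of_sq_ne hε2)) hi) ((map_ne_zero σ).2 hj)

omit [Finite F] in
/-- A block of dimension at least three of the monomial group is the whole space. -/
theorem Fr.block_eq_top (h : Fr B b) (hH : mon F b ⊓ isom B ≤ M) {E : Submodule F V}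
    (hE : NondegOn B E) (h3 : 3 ≤ finrank F E)
    (hb : ∀ g ∈ M, g ∈ stab E ∨ ∀ x ∈ E, g x ∈ perp B E) : E = ⊤ := by
  have := h.finiteDimensional
  have key : ∀ i j : ι, ∀ g ∈ M, (∀ x, B (b i) x = 0 → B (b j) x = 0 → g x = x) →
      g ∈ stab E := by
    intro i j g hg H
    refine (hb g hg).resolve_right fun h1 => ?_
    have h2 := LinearMap.finrank_range_add_finrank_ker (((B (b i)).prod (B (b j))).domRestrict E)
    have h4 := Submodule.finrank_le
      (LinearMap.range (((B (b i)).prod (B (b j))).domRestrict E))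
    rw [finrank_prod, finrank_self] at h4
    obtain ⟨x, hx, hx0⟩ := Submodule.exists_mem_ne_zero_of_ne_bot
      (p := LinearMap.ker (((B (b i)).prod (B (b j))).domRestrict E))
      (fun h5 => by rw [h5, finrank_bot] at h2; omega)
    have h5 : B (b i) x = 0 ∧ B (b j) x = 0 := by simpa using hx
    have h6 := h1 x x.2
    rw [H x h5.1 h5.2] at h6
    exact hx0 (Subtype.ext (hE x x.2 fun y hy => h.herm.flip_zero (h6 y hy)))
  obtain ⟨x, hx, hx0⟩ := Submodule.exists_mem_ne_zero_of_ne_bot (p := E)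
    (fun h5 => by rw [h5, finrank_bot] at h3; omega)
  obtain ⟨i, hi⟩ := h.exists_coord hx0
  obtain ⟨ε, hε, hε2⟩ := exists_mu_sq_ne h.herm.inv
  obtain ⟨g, hg, H⟩ := (h.rf hH i).2 ε hε
  have h1 := (key i i g hg (fun x h1 _ => by rw [H, h1]; simp) x).1 hx
  rw [H, E.add_mem_iff_right hx,
    E.smul_mem_iff (mul_ne_zero (sub_ne_zero.2 (ne_one_of_sq_ne hε2)) hi)] at h1
  have h2 : ∀ j, b j ∈ E := by
    intro j
    obtain ⟨p, hp, Hp', Hp⟩ := h.exists_perm (Equiv.swap i j)
    have h2 := (key i j p (hH hp) (fun x h1 h2 => h.ext fun k => ?_) _).1 h1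
    · rwa [Hp', Equiv.swap_apply_left] at h2
    · rw [← Equiv.swap_apply_self i j k, Hp, Equiv.swap_apply_self, Equiv.swap_apply_def]
      split_ifs with h4 h5
      · rw [h4, h1, h2]
      · rw [h5, h1, h2]
      · rfl
  rw [eq_top_iff]
  intro y _
  rw [← h.sum_eq y]
  exact E.sum_mem fun j _ => E.smul_mem _ (h2 j)

/-- A group of isometries properly containing the full monomial group contains `SU`. -/
theorem Fr.sisom_le (h : Fr B b)
    (hc : 4 ≤ Fintype.card ι ∨ (3 ≤ Fintype.card ι ∧ ∃ a : F, σ a = a ∧ a ≠ 0 ∧ a ≠ 1))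
    (hM : M ≤ isom B) (hH : mon F b ⊓ isom B ≤ M) (hn : ¬ M ≤ mon F b) : sisom B ≤ M := by
  have := h.finiteDimensional
  have hMI : M ≤ (hermP h.herm).isom := hermP_isom h.herm ▸ hM
  obtain ⟨u, hu, i, j, k, hij, hik, hjk, hi, hj, hk⟩ := h.exists_three (by omega) hM hH hn
  have hu0 : B u u ≠ 0 := by rw [hu.1]; exact one_ne_zero
  by_cases hq : ∃ a : F, σ a = a ∧ a ≠ 0 ∧ a ≠ 1
  · obtain ⟨z, hz0, hz1, hz2⟩ := h.exists_degenerate hM hH hu hij hik hjk hi hj hk
    have hY := Rf.ei h.herm hM hu hz1 hz2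
    have hzz := (hY 0).1
    have hT : HasTv B M z := hasTv_of_Y hu0 fun c => (hY c).2
    obtain ⟨g, hg, hgz⟩ := h.exists_hasTv_ne hM hH hz0 hz0
    obtain ⟨ν, hν⟩ := (hY 1).2
    rw [one_smul] at hν
    obtain ⟨k, hk, hki, H⟩ := exists_of_ei hν
    have hν' := ((hermP_ev h.herm).1 hν.ev).2.2
    have hw := isotropic_map (hM hg) hzz
    obtain ⟨E, -, -, -, hE, hE3, hET⟩ := h.herm.hasTv_of_triple hM hzz hw (isotropic_map hki hw)
      hT (hT.map (hM hg) hg) ((hT.map (hM hg) hg).map hki hk) (by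
        have e1 : B (k (g z)) z = B (g z) z := by
          rw [H, sub_left, add_left, smul_left, smul_left, hz2, hzz]; ring
        have e2 : B (g z) (k (g z)) = B z (g z) * B (g z) u -
            (B u (g z) + ν * B z (g z)) * B (g z) z := by
          rw [H, map_sub, map_add, smul_right, smul_right, hw, zero_add]
        rw [e1, e2]
        simp only [map_mul, map_sub, map_add, h.herm.symm]
        have e3 : B z (g z) * B (g z) z ≠ 0 := mul_ne_zero hgz (h.herm.flip_ne_zero hgz)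
        intro e4
        refine mul_ne_zero (mul_ne_zero e3 e3) hu0 ?_
        rw [← hν']
        linear_combination -e4)
    obtain ⟨E', h1, h2, h3, -, h5⟩ := h.herm.exists_grow hM (fun r hr => by
        obtain ⟨g', hg', h1⟩ := h.exists_hasTv_ne hM hH hz0 hr
        exact ⟨g' z, isotropic_map (hM hg') hzz, hT.map (hM hg') hg', h1⟩) hE hE3.ge
      fun x hx => h.herm.mem_of_hasTv hE hE le_rfl hET (Or.inr (Or.inl hq)) hx.1 hx.2
    rwa [h.block_eq_top hH h2 (hE3 ▸ Submodule.finrank_mono h1) h5, h.herm.suOn_top] at h3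
  have h4 := hc.resolve_right fun h4 => hq h4.2
  push Not at hq
  have hN : ∀ a : F, a ≠ 0 → a * σ a = 1 := fun a ha =>
    hq _ (h.herm.inv.norm_fixed a) (mul_ne_zero ha ((map_ne_zero σ).2 ha))
  have h2 : (2 : F) = 0 := by
    by_contra h2
    exact one_ne_zero (α := F) (by linear_combination hq 2 (map_ofNat σ 2) h2)
  obtain ⟨ε, hε, hε2⟩ := exists_mu_sq_ne h.herm.inv
  have hε1 := sub_ne_zero.2 (ne_one_of_sq_ne hε2)
  obtain ⟨g, hg, H⟩ := h.exists_diag_three hH hij hε hε mu_one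
  set z := ((ε - 1) * B (b i) u) • b i + ((ε - 1) * B (b j) u) • b j with hz
  have hz1 : Rf B M (u + z) := by
    have := hu.map hM hg
    rwa [H, one_smul, add_assoc] at this
  have hz2 : B u z = 0 := by
    simp only [hz, map_add, smul_right, h.flip]
    linear_combination (ε - 1) * (hN _ hi + hN _ hj + h2)
  have hzi : B (b i) z ≠ 0 := by
    simpa [hz, smul_right, h.self, h.ne hij, hε1] using hi
  have hzj : B (b j) z ≠ 0 := by
    simpa [hz, smul_right, h.self, h.ne hij.symm, hε1] using hj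
  have hzl : ∀ l, l ≠ i → l ≠ j → B (b l) z = 0 := fun l h1 h2 => by
    simp [hz, smul_right, h.ne h1, h.ne h2]
  have hY := Rf.ei h.herm hM hu hz1 hz2
  have hzz := (hY 0).1
  have hzs := (hermP_sing h.herm).2 hzz
  have hYk : ∀ c : F, c • b k ∈ PForm.Ygrp M hzs := by
    intro c
    obtain ⟨r, hr, Hr⟩ := (h.rf hH k).2 ε hε
    obtain ⟨ν, hν⟩ := (hY (c / ((ε - 1) * B (b k) u))).2
    have h1 := hν.conj hr (hMI hr)
    rw [Hr z, hzl k hik.symm hjk.symm, mul_zero, zero_smul, add_zero] at h1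
    have h3 := (PForm.Ygrp M hzs).sub_mem ⟨_, h1⟩ ⟨_, hν⟩
    rw [Hr, add_sub_cancel_left, smul_right] at h3
    convert h3 using 2
    field_simp
  have hYl : ∀ l, l ≠ i → l ≠ j → ∀ c : F, c • b l ∈ PForm.Ygrp M hzs := by
    intro l h1 h3 c
    obtain ⟨p, hp, Hp, -⟩ := h.exists_perm (Equiv.swap k l)
    obtain ⟨ν, hν⟩ := hYk c
    have h5 := hν.conj (hH hp) (hMI (hH hp))
    rw [map_smul, Hp, Equiv.swap_apply_left, show p z = z by
      rw [hz, map_add, map_smul, map_smul, Hp, Hp, Equiv.swap_apply_of_ne_of_ne hik h1.symm,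
        Equiv.swap_apply_of_ne_of_ne hjk h3.symm]] at h5
    exact ⟨_, h5⟩
  have hF : (hermP h.herm).Full M z := by
    refine full_of_Y hzz (hasTv_of_Y hu0 fun c => (hY c).2) fun y hy => ?_
    have e1 : B (b i) (y - (B (b i) y / B (b i) z) • z) = 0 := by
      rw [map_sub, smul_right, div_mul_cancel₀ _ hzi, sub_self]
    have e2 : B (b j) (y - (B (b i) y / B (b i) z) • z) = 0 := by
      have e3 : B z (y - (B (b i) y / B (b i) z) • z) = 0 := by
        rw [map_sub, smul_right, hy, hzz, mul_zero, sub_zero]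
      rw [h.form, Finset.sum_eq_single j] at e3
      · exact (mul_eq_zero.1 e3).resolve_left ((map_ne_zero σ).2 hzj)
      · intro l _ hlj
        by_cases hli : l = i
        · rw [hli, e1, mul_zero]
        · rw [hzl l hli hlj, map_zero, zero_mul]
      · simp
    have e4 : y - (B (b i) y / B (b i) z) • z ∈ PForm.Ygrp M hzs := by
      rw [← h.sum_eq (y - _)]
      refine AddSubgroup.sum_mem _ fun l _ => ?_
      by_cases hli : l = i
      · rw [hli, e1, zero_smul]; exact zero_mem _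
      by_cases hlj : l = j
      · rw [hlj, e2, zero_smul]; exact zero_mem _
      exact hYl l hli hlj _
    obtain ⟨ν, hν⟩ := e4
    have := hν.add_smul_self (B (b i) y / B (b i) z)
    rw [sub_add_cancel] at this
    exact ⟨_, this⟩
  obtain ⟨g', hg', hgz⟩ := h.exists_hasTv_ne hM hH (z := z) (by rintro h0; simp [h0] at hzi)
    (r := z) (by rintro h0; simp [h0] at hzi)
  exact sisom_le_of_E_le (Or.inl (by rw [h.finrank_eq]; omega))
    (hF.E_le (hF.conj hg' (hMI hg')) hgz)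

end Refl

end Cfsg.Agent.H26
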