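import Cfsg.Agent.H26.UMu
import Cfsg.Agent.H26.Extr
import Cfsg.Agent.H26.PC3

/-!
A non-degenerate Hermitian form in the sense of `H31` as a `PForm`.
-/

set_option autoImplicit false

namespace Cfsg.Agent.H26

open H31 Module

variable {F : Type*} [Field F] [Finite F] {σ : F →+* F} {V : Type*} [AddCommGroup V] [Module F V]
  {B : V →ₛₗ[σ] V →ₗ[F] F}

/-- An involutive ring endomorphism as an automorphism. -/
def involE (h : IsInvol σ) : F ≃+* F :=
  { σ with invFun := σ, left_inv := h.invol, right_inv := h.invol }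

/-- The `PForm` of a Hermitian form. -/
noncomputable def hermP (h : IsHerm B) : PForm F V :=
  PForm.ofHerm (involE h.inv) h.inv.invol h.inv.ne_id (h.inv.exists_trace_eq (map_one σ)).choose
    (h.inv.exists_trace_eq (map_one σ)).choose_spec (fun x y => B y x)
    (fun x y z => map_add _ x y) (fun c x y => smul_right B c y x) (fun x y => (h.symm y x).symm)
    (fun y hy => h.nondeg y hy)

variable (h : IsHerm B)

theorem hermP_f (x y : V) : (hermP h).f x y = B y x := rfl

theorem hermP_σ (a : F) : (hermP h).σ a = σ a := rfl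

theorem hermP_ε : (hermP h).ε = 1 := rfl

theorem hermP_d : (hermP h).d = 2 := rfl

theorem hermP_Λ {a : F} : a ∈ (hermP h).Λ ↔ a + σ a = 0 := Iff.rfl

theorem hermP_ev {e y : V} {ν : F} :
    (hermP h).EV e y ν ↔ B e e = 0 ∧ B e y = 0 ∧ ν + σ ν = B y y := by
  have hl := (h.inv.exists_trace_eq (map_one σ)).choose_spec
  have key : ∀ (ν : F) (y : V), ν - (hermP h).h y ∈ (hermP h).Λ ↔ ν + σ ν = B y y := by
    intro ν y
    change ν - _ * B y y + σ (ν - _ * B y y) = 0 ↔ _
    rw [map_sub, map_mul, h.norm_fixed]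
    constructor
    · intro h1; linear_combination h1 + B y y * hl
    · intro h1; linear_combination h1 - B y y * hl
  constructor
  · exact fun hv => ⟨hv.sing.f_self, hv.orth, (key ν y).1 hv.nu⟩
  · rintro ⟨h1, h2, h3⟩
    refine ⟨?_, h2, (key ν y).2 h3⟩
    have := (hermP h).Λ.neg_mem ((key 0 e).2 (by simp [h1]))
    simpa [PForm.Sing] using this

theorem hermP_sing {x : V} : (hermP h).Sing x ↔ B x x = 0 :=
  ⟨fun hx => hx.f_self, fun hx => ((hermP_ev h (y := 0) (ν := 0)).2 ⟨hx, by simp, by simp⟩).sing⟩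

theorem hermP_eich (e y : V) (ν : F) (x : V) :
    (hermP h).eich e y ν x = x + B e x • y - (B y x + ν * B e x) • e := by
  rw [PForm.eich_apply, hermP_ε, one_mul]; rfl

theorem hermP_isom : (hermP h).isom = isom B := by
  ext g
  refine ⟨fun hg u v => hg.1 v u, fun hg => ⟨fun x y => hg y x, fun x => ?_⟩⟩
  change _ * B (g x) (g x) - _ * B x x + σ (_ * B (g x) (g x) - _ * B x x) = 0
  rw [hg]; simp

theorem hermP_perp (W : Submodule F V) : (hermP h).perp W = perp B W := rfl

theorem hermP_Λ_ne_bot : (hermP h).Λ ≠ ⊥ := by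
  obtain ⟨ω, h0, h1⟩ := h.inv.exists_skew'
  exact fun h2 => h0 (AddSubgroup.mem_bot.1 (h2 ▸ ((hermP_Λ h).2 h1)))

theorem exists_eq_sub_conj (hσ : IsInvol σ) {ν : F} (hν : ν + σ ν = 0) : ∃ a, ν = a - σ a := by
  obtain ⟨l, hl⟩ := hσ.exists_trace_eq (map_one σ)
  exact ⟨l * ν, by rw [map_mul]; linear_combination (-ν) * hl + σ l * hν⟩

variable {h} {M : Subgroup (V ≃ₗ[F] V)}

theorem ei_of_eq {e y : V} {ν : F} (h1 : B e e = 0) (h2 : B e y = 0) (h3 : ν + σ ν = B y y)
    {g : V ≃ₗ[F] V} (hg : g ∈ M) (H : ∀ x, g x = x + B e x • y - (B y x + ν * B e x) • e) :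
    (hermP h).Ei M e y ν :=
  PForm.Ei.of_eq ((hermP_ev h).2 ⟨h1, h2, h3⟩) hg fun x => by rw [H, hermP_eich]

theorem exists_of_ei {e y : V} {ν : F} (he : (hermP h).Ei M e y ν) :
    ∃ g ∈ M, g ∈ isom B ∧ ∀ x, g x = x + B e x • y - (B y x + ν * B e x) • e :=
  ⟨_, he.mem, hermP_isom h ▸ he.ev.equiv_mem_isom, fun x => hermP_eich h e y ν x⟩

theorem hasTv_of_ei {e : V} (he : ∀ ν, ν + σ ν = 0 → (hermP h).Ei M e 0 ν) : HasTv B M e := by
  intro c hu hc
  obtain ⟨g, hg, -, H⟩ := exists_of_ei (he (-c) (skew_neg hc))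
  convert hg using 1
  ext x
  rw [tv_apply, H]
  simp

theorem ei_of_hasTv {e : V} (he : HasTv B M e) (h0 : B e e = 0) {ν : F} (hν : ν + σ ν = 0) :
    (hermP h).Ei M e 0 ν :=
  ei_of_eq h0 (by simp) (by simpa using hν) (he (-ν) h0 (skew_neg hν)) fun x => by
    rw [tv_apply]; simp [sub_eq_add_neg]

/-- If the whole line through a non-isotropic vector occurs in the unipotent radical at `e`, then
so does the full transvection group. -/
theorem hasTv_of_Y {e u : V} (hu : B u u ≠ 0) (H : ∀ c : F, ∃ ν, (hermP h).Ei M e (c • u) ν) :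
    HasTv B M e := by
  refine hasTv_of_ei (h := h) fun ν hν => ?_
  obtain ⟨a, ha⟩ := exists_eq_sub_conj h.inv hν
  obtain ⟨ν₁, h1⟩ := H (a / B u u)
  obtain ⟨ν₂, h2⟩ := H 1
  convert h1.comm h2 using 1
  simp only [hermP_f, smul_left, smul_right, map_div₀, h.norm_fixed, one_smul]
  rw [ha]
  field_simp

theorem full_of_Y {e : V} (he : B e e = 0) (ht : HasTv B M e)
    (H : ∀ y, B e y = 0 → ∃ ν, (hermP h).Ei M e y ν) : (hermP h).Full M e := by
  refine ⟨(hermP_sing h).2 he, fun y ν hv => ?_⟩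
  obtain ⟨ν', h1⟩ := H y hv.orth
  have := h1.add_zero (ei_of_hasTv ht he (hv.sub_mem h1.ev))
  rwa [add_sub_cancel] at this

variable [FiniteDimensional F V]

theorem E_le_sisom : (hermP h).E ≤ sisom B := fun _ hg =>
  mem_sisom'.2 ⟨hermP_isom h ▸ PForm.E_le_isom hg, PForm.det_of_mem_E hg⟩

theorem sisom_le_of_E_le (hc : finrank F V ≠ 3 ∨ ∃ b : F, σ b = b ∧ b ≠ 0 ∧ b ≠ 1)
    (hE : (hermP h).E ≤ M) : sisom B ≤ M :=
  h.sisom_le_of_hasTv (fun u c hu hc => hasTv_of_ei (fun ν hν => PForm.Ei.of_le hE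
    ((hermP_ev h).2 ⟨hu, by simp, by simpa using hν⟩)) c hu hc) hc

omit [FiniteDimensional F V] in
/-- An isometry fixing an isotropic vector `d` and acting trivially on `d^⊥ / d` is an Eichler
transformation. -/
theorem exists_ei_of_flag [FiniteDimensional F V] {d : V} (hd : B d d = 0) (hd0 : d ≠ 0)
    {g : V ≃ₗ[F] V} (hg : g ∈ M) (hgi : g ∈ isom B) (h1 : g d = d)
    (h2 : ∀ x, B d x = 0 → g x - x ∈ F ∙ d) : ∃ y ν, (hermP h).Ei M d y ν ∧
      ∀ x, g x = x + B d x • y - (B y x + ν * B d x) • d := by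
  obtain ⟨d', hd', hdd'⟩ := h.exists_hyperbolic' hd hd0
  have h3 : B d (g d') = 1 := by rw [← hdd', ← hgi d d', h1]
  have h4 : B d (g d' - d') = 0 := by rw [map_sub, h3, hdd', sub_self]
  have h5 : B d' d = 1 := h.flip_one hdd'
  have h6 : B (g d') d = 1 := h.flip_one h3
  have key : ∀ x, g x = x + B d x • (g d' - d') -
      (B (g d' - d') x + (-B (g d') d') * B d x) • d := by
    intro x
    have h7 : B d (x - B d x • d') = 0 := by rw [map_sub, smul_right, hdd', mul_one, sub_self]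
    obtain ⟨c, hc⟩ := Submodule.mem_span_singleton.1 (h2 _ h7)
    have h8 : g x = x + B d x • (g d' - d') + c • d := by
      rw [hc, map_sub, map_smul]; module
    have h9 := hgi d' x
    rw [h8, map_add, map_add, smul_right, smul_right, map_sub, hgi, hd', h6] at h9
    rw [h8, sub_left, show B (g d') x - B d' x + -B (g d') d' * B d x = -c by
      linear_combination h9]
    module
  refine ⟨_, _, ei_of_eq hd h4 ?_ hg key, key⟩
  rw [sub_left, map_sub, map_sub, hgi, hd', map_neg, h.symm]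
  ring

end Cfsg.Agent.H26
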