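import Cfsg.Agent.H31.HermGrow

/-!
Elements of norm one in a finite field with an involution; dihedral subgroups and classes of
involutions with products of odd order.
-/

set_option autoImplicit false

namespace Cfsg.Agent.H26

open H31 Module

section Mu

variable {F : Type*} [Field F] {σ : F →+* F}

theorem mu_ne_zero {a : F} (ha : a * σ a = 1) : a ≠ 0 := left_ne_zero_of_mul_eq_one ha

theorem mu_σ {a : F} (ha : a * σ a = 1) : σ a = a⁻¹ := eq_inv_of_mul_eq_one_right ha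

theorem mu_one : (1 : F) * σ 1 = 1 := by simp

theorem mu_neg_one : (-1 : F) * σ (-1) = 1 := by simp

theorem mu_mul {a b : F} (ha : a * σ a = 1) (hb : b * σ b = 1) : a * b * σ (a * b) = 1 := by
  rw [map_mul]; linear_combination (b * σ b) * ha + hb

theorem mu_inv {a : F} (ha : a * σ a = 1) : a⁻¹ * σ a⁻¹ = 1 := by
  rw [map_inv₀, ← mul_inv, ha, inv_one]

theorem mu_conj (h : IsInvol σ) {a : F} (ha : a * σ a = 1) : σ a * σ (σ a) = 1 := by
  rw [h.invol, mul_comm, ha]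

theorem mu_prod {ι : Type*} (s : Finset ι) {t : ι → F} (ht : ∀ i, t i * σ (t i) = 1) :
    (∏ i ∈ s, t i) * σ (∏ i ∈ s, t i) = 1 := by
  rw [map_prod, ← Finset.prod_mul_distrib]
  simp [ht]

theorem exists_mu_sq_ne (h : IsInvol σ) : ∃ ε : F, ε * σ ε = 1 ∧ ε * ε ≠ 1 := by
  have key : ∀ θ : F, σ θ ≠ θ → σ θ ≠ -θ → ∃ ε : F, ε * σ ε = 1 ∧ ε * ε ≠ 1 := by
    intro θ h1 h2
    have h0 : θ ≠ 0 := by rintro rfl; simp at h1
    have h0' : σ θ ≠ 0 := (map_ne_zero σ).2 h0
    refine ⟨θ / σ θ, by rw [map_div₀, h.invol]; field_simp, fun h3 => ?_⟩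
    field_simp at h3
    rcases sq_eq_sq_iff_eq_or_eq_neg.1 h3 with h4 | h4
    · exact h1 h4.symm
    · exact h2 (by linear_combination h4)
  obtain ⟨θ, hθ⟩ := h.ne_id
  by_cases h2 : σ θ = -θ
  · refine key (θ + 1) (by simpa using hθ) fun h3 => hθ ?_
    rw [map_add, map_one, h2] at h3
    rw [h2]
    linear_combination (-θ) * h3
  · exact key θ hθ h2

theorem ne_one_of_sq_ne {ε : F} (h : ε * ε ≠ 1) : ε ≠ 1 := by rintro rfl; simp at h

theorem ne_neg_one_of_sq_ne {ε : F} (h : ε * ε ≠ 1) : ε ≠ -1 := by rintro rfl; simp at h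

theorem exists_mu_of_norm_eq {s t : F} (h : s * σ s = t * σ t) :
    ∃ κ : F, κ * σ κ = 1 ∧ s = κ * t := by
  by_cases ht : t = 0
  · rw [ht, zero_mul, mul_eq_zero, map_eq_zero, or_self] at h
    exact ⟨1, mu_one, by rw [h, ht, mul_zero]⟩
  have ht' : σ t ≠ 0 := (map_ne_zero σ).2 ht
  exact ⟨s / t, by rw [map_div₀]; field_simp; linear_combination h, by field_simp⟩

variable [Finite F]

theorem mu_span (h : IsInvol σ) {A : AddSubgroup F} (hA : ∀ c, c * σ c = 1 → ∀ a ∈ A, c * a ∈ A)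
    {a₀ : F} (ha₀ : a₀ ∈ A) (h0 : a₀ ≠ 0) (x : F) : x ∈ A := by
  classical
  have := Fintype.ofFinite F
  obtain ⟨q, hF, hσ⟩ := h.exists_q
  let K : Subfield F :=
    { carrier := {k | ∀ a ∈ A, k * a ∈ A}
      mul_mem' := fun {x y} hx hy a ha => by rw [mul_assoc]; exact hx _ (hy a ha)
      one_mem' := fun a ha => by rwa [one_mul]
      add_mem' := fun {x y} hx hy a ha => by rw [add_mul]; exact A.add_mem (hx a ha) (hy a ha)
      zero_mem' := fun a _ => by rw [zero_mul]; exact A.zero_mem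
      neg_mem' := fun {x} hx a ha => by rw [neg_mul]; exact A.neg_mem (hx a ha)
      inv_mem' := fun x hx a ha => by
        by_cases hx0 : x = 0
        · rw [hx0, inv_zero, zero_mul]; exact A.zero_mem
        let m : A → A := fun b => ⟨x * b, hx b b.2⟩
        have hm : Function.Injective m := fun b c hbc =>
          Subtype.ext (mul_left_cancel₀ hx0 (congrArg Subtype.val hbc))
        obtain ⟨b, hb⟩ := Finite.injective_iff_surjective.1 hm ⟨a, ha⟩
        have hb' : x * b = a := congrArg Subtype.val hb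
        rw [← hb', inv_mul_cancel_left₀ hx0]
        exact b.2 }
  have h1 : q + 1 ≤ Nat.card K := by
    rw [← card_norm_eq hF hσ one_ne_zero (map_one σ)]
    exact Nat.card_le_card_of_injective (fun x => (⟨x.1, hA x.1 x.2⟩ : K))
      fun x y hxy => Subtype.ext (congrArg (fun z : K => (z : F)) hxy)
  have h2 : Nat.card F = Nat.card K ^ finrank K F := Module.natCard_eq_pow_finrank
  rw [Nat.card_eq_fintype_card, hF] at h2
  have hq := two_le_of_card_sq hF
  have h3 : finrank K F = 1 := by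
    have h4 : finrank K F ≠ 0 := Module.finrank_pos.ne'
    by_contra h5
    have h6 : Nat.card K ^ 2 ≤ Nat.card K ^ finrank K F :=
      Nat.pow_le_pow_right (by omega) (by omega)
    have h7 : (q + 1) ^ 2 ≤ Nat.card K ^ 2 := Nat.pow_le_pow_left h1 2
    nlinarith
  have h4 : K.toAddSubgroup = ⊤ := by
    apply AddSubgroup.eq_top_of_card_eq
    change Nat.card K = _
    rw [Nat.card_eq_fintype_card (α := F), hF, h2, h3, pow_one]
  have h5 : x / a₀ ∈ K.toAddSubgroup := by rw [h4]; trivial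
  simpa [h0] using h5 a₀ ha₀

theorem exists_mu_norm_eq (h : IsInvol σ) {α β γ δ : F} (hα : σ α = α) (hβ : σ β = β)
    (hγ : σ γ = γ) (hδ : σ δ = δ) (h1 : α * β ≠ 0) (h2 : γ * δ ≠ 0) :
    ∃ x y : F, x * σ x = 1 ∧ y * σ y = 1 ∧ x ≠ 1 ∧
      (α + β * x) * σ (α + β * x) = (γ + δ * y) * σ (γ + δ * y) := by
  classical
  have := Fintype.ofFinite F
  obtain ⟨q, hF, hσ⟩ := h.exists_q
  let U : Finset F := Finset.univ.filter fun x => x * σ x = 1
  let F₀ : Finset F := Finset.univ.filter fun x => σ x = x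
  have hU : U.card = q + 1 := by
    rw [← card_norm_eq hF hσ one_ne_zero (map_one σ), Nat.card_eq_fintype_card,
      Fintype.card_subtype]
  have hF₀ : F₀.card = q := by
    rw [← card_fixed hF hσ, Nat.card_eq_fintype_card, Fintype.card_subtype]
  have hU1 : (1 : F) ∈ U := by simp [U]
  let T : Finset F := (U.erase 1).image fun x => x + σ x
  have hT : q ≤ 2 * T.card := by
    have h3 := Finset.card_le_mul_card_image (f := fun x => x + σ x) (U.erase 1) 2 (by
      intro τ hτ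
      obtain ⟨x₀, hx₀, rfl⟩ := Finset.mem_image.1 hτ
      refine le_trans (Finset.card_le_card (t := {x₀, σ x₀}) fun x hx => ?_) Finset.card_le_two
      simp only [U, Finset.mem_filter, Finset.mem_erase, Finset.mem_univ, true_and] at hx hx₀
      have h4 : (x - x₀) * (x - σ x₀) = 0 := by
        linear_combination x * hx.2 - hx.1.2 + hx₀.2
      simpa [sub_eq_zero] using h4)
    rwa [Finset.card_erase_of_mem hU1, hU, Nat.add_sub_cancel] at h3
  have h2T : (2 : F) ∉ T := by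
    intro h3
    obtain ⟨x, hx, hx2⟩ := Finset.mem_image.1 h3
    simp only [U, Finset.mem_filter, Finset.mem_erase, Finset.mem_univ, true_and] at hx
    have h4 : (x - 1) ^ 2 = 0 := by linear_combination x * hx2 - hx.2
    exact hx.1 (sub_eq_zero.1 (pow_eq_zero_iff two_ne_zero |>.1 h4))
  have hTσ : ∀ τ ∈ insert (2 : F) T, σ τ = τ ∧ ∃ y, y * σ y = 1 ∧ y + σ y = τ := by
    intro τ hτ
    rcases Finset.mem_insert.1 hτ with rfl | hτ
    · exact ⟨map_ofNat σ 2, 1, mu_one, by rw [map_one]; norm_num⟩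
    · obtain ⟨x, hx, rfl⟩ := Finset.mem_image.1 hτ
      simp only [U, Finset.mem_filter, Finset.mem_erase, Finset.mem_univ, true_and] at hx
      exact ⟨h.trace_fixed x, x, hx.2, rfl⟩
  let A : Finset F := T.image fun τ => α * α + β * β + α * β * τ
  let C : Finset F := (insert 2 T).image fun τ => γ * γ + δ * δ + γ * δ * τ
  have hA : A.card = T.card := Finset.card_image_of_injective _ fun x y hxy =>
    mul_left_cancel₀ h1 (add_left_cancel hxy)
  have hC : C.card = T.card + 1 := by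
    rw [← Finset.card_insert_of_notMem h2T]
    exact Finset.card_image_of_injective _ fun x y hxy => mul_left_cancel₀ h2 (add_left_cancel hxy)
  have hAC : A ∪ C ⊆ F₀ := by
    intro z hz
    simp only [F₀, Finset.mem_filter, Finset.mem_univ, true_and]
    rcases Finset.mem_union.1 hz with hz | hz
    · obtain ⟨τ, hτ, rfl⟩ := Finset.mem_image.1 hz
      simp [hα, hβ, (hTσ τ (Finset.mem_insert_of_mem hτ)).1]
    · obtain ⟨τ, hτ, rfl⟩ := Finset.mem_image.1 hz
      simp [hγ, hδ, (hTσ τ hτ).1]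
  have h3 := Finset.card_le_card hAC
  have h4 := Finset.card_union_add_card_inter A C
  obtain ⟨z, hz⟩ : (A ∩ C).Nonempty := Finset.card_pos.1 (by omega)
  obtain ⟨τ, hτ, rfl⟩ := Finset.mem_image.1 (Finset.mem_inter.1 hz).1
  obtain ⟨τ', hτ', hz'⟩ := Finset.mem_image.1 (Finset.mem_inter.1 hz).2
  obtain ⟨x, hx, rfl⟩ := Finset.mem_image.1 hτ
  obtain ⟨-, y, hy, rfl⟩ := hTσ τ' hτ'
  simp only [U, Finset.mem_filter, Finset.mem_erase, Finset.mem_univ, true_and] at hx
  refine ⟨x, y, hx.2, hy, hx.1, ?_⟩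
  simp only [map_add, map_mul, hα, hβ, hγ, hδ]
  linear_combination β * β * hx.2 - δ * δ * hy - hz'

end Mu

section Dihedral

variable {G : Type*} [Group G]

/-- The conjugates of `s` under `M`. -/
def Cls (M : Subgroup G) (s x : G) : Prop := ∃ k ∈ M, x = k * s * k⁻¹

variable {M H : Subgroup G} {s x y d : G}

theorem Cls.self : Cls M s s := ⟨1, M.one_mem, by simp⟩

theorem Cls.conj (h : Cls M s x) {g : G} (hg : g ∈ M) : Cls M s (g * x * g⁻¹) := by
  obtain ⟨k, hk, rfl⟩ := h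
  exact ⟨g * k, M.mul_mem hg hk, by group⟩

theorem Cls.mem (h : Cls M s x) (hs : s ∈ M) : x ∈ M := by
  obtain ⟨k, hk, rfl⟩ := h
  exact M.mul_mem (M.mul_mem hk hs) (M.inv_mem hk)

theorem Cls.mul_self (h : Cls M s x) (hs : s * s = 1) : x * x = 1 := by
  obtain ⟨k, -, rfl⟩ := h
  calc k * s * k⁻¹ * (k * s * k⁻¹) = k * (s * s) * k⁻¹ := by group
    _ = 1 := by rw [hs]; group

/-- Two involutions of a class are conjugate under a third one, or their product has even
order. -/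
theorem dihedral_cases [Finite M] (hsM : s ∈ M) (hs : s * s = 1) (hx : Cls M s x)
    (hd : Cls M s d) : (∃ y, Cls M s y ∧ y * x * y⁻¹ = d) ∨
      ∃ ι ∈ M, ι ≠ 1 ∧ ι * ι = 1 ∧ ι * x = x * ι ∧ ι * d = d * ι ∧ Cls M s (ι * x) ∧
        Cls M s (ι * d) := by
  have hxx := hx.mul_self hs
  have hdd := hd.mul_self hs
  have hxi : x⁻¹ = x := inv_eq_of_mul_eq_one_right hxx
  have hdi : d⁻¹ = d := inv_eq_of_mul_eq_one_right hdd
  set ρ := x * d with hρ
  have hρM : ρ ∈ M := M.mul_mem (hx.mem hsM) (hd.mem hsM)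
  have h1 : x * ρ⁻¹ = ρ * x := by rw [hρ, mul_inv_rev, hxi, hdi, mul_assoc]
  have h2 : ∀ i : ℕ, x * (ρ ^ i)⁻¹ = ρ ^ i * x := by
    intro i
    induction i with
    | zero => simp
    | succ i ih => rw [pow_succ', mul_inv_rev, ← mul_assoc, ih, mul_assoc, h1, ← mul_assoc,
        ← pow_succ, ← pow_succ']
  have h3 : ρ * d = x := by rw [hρ, mul_assoc, hdd, mul_one]
  have h4 : ∀ j : ℕ, Cls M s (ρ ^ j * x) := by
    intro j
    rcases Nat.even_or_odd' j with ⟨i, rfl | rfl⟩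
    · convert hx.conj (M.pow_mem hρM i) using 1
      rw [mul_assoc, h2, ← mul_assoc, ← pow_add, two_mul]
    · convert hd.conj (M.pow_mem hρM (i + 1)) using 1
      rw [pow_succ ρ i, mul_assoc (ρ ^ i), h3, mul_assoc, ← pow_succ, h2, ← mul_assoc, ← pow_add]
      congr 2
      omega
  have hfin : IsOfFinOrder ρ := by
    have := isOfFinOrder_of_finite (⟨ρ, hρM⟩ : M)
    exact M.subtype.isOfFinOrder this
  have hpos := hfin.orderOf_pos
  rcases Nat.even_or_odd' (orderOf ρ) with ⟨m, hm | hm⟩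
  · right
    have h5 : ρ ^ m * ρ ^ m = 1 := by rw [← pow_add, ← two_mul, ← hm, pow_orderOf_eq_one]
    have h6 : ρ ^ m * x = x * ρ ^ m := by rw [← h2, inv_eq_of_mul_eq_one_right h5]
    obtain ⟨m', rfl⟩ : ∃ m', m = m' + 1 := ⟨m - 1, by omega⟩
    have h7 : d = x * ρ := by rw [hρ, ← mul_assoc, hxx, one_mul]
    refine ⟨ρ ^ (m' + 1), M.pow_mem hρM _, pow_ne_one_of_lt_orderOf (by omega) (by omega), h5, h6,
      ?_, h4 _, ?_⟩
    · rw [h7, ← mul_assoc, h6, mul_assoc, mul_assoc, ← pow_succ, ← pow_succ']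
    · rw [pow_succ, mul_assoc, h3]
      exact h4 _
  · left
    refine ⟨ρ ^ m * x, h4 m, ?_⟩
    have h5 : ρ ^ m * ρ ^ m * ρ = 1 := by
      rw [← pow_add, ← pow_succ, ← two_mul, ← hm, pow_orderOf_eq_one]
    rw [mul_inv_rev, hxi, mul_assoc (ρ ^ m), hxx, mul_one, h2, ← mul_assoc, ← h3, ← mul_assoc, h5,
      one_mul]

theorem Cls.mem_of_conj (hF : ∀ g ∈ M, g * s * g⁻¹ ∈ H → g ∈ H) (hx : Cls M s x) (hxH : x ∈ H)
    {g : G} (hg : g ∈ M) (h : g * x * g⁻¹ ∈ H) : g ∈ H := by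
  obtain ⟨k, hk, rfl⟩ := hx
  have h1 := hF (g * k) (M.mul_mem hg hk) (by convert h using 1; group)
  exact (H.mul_mem_cancel_right (hF k hk hxH)).1 h1

theorem odd_exists (hHM : H ≤ M) (hF : ∀ g ∈ M, g * s * g⁻¹ ∈ H → g ∈ H)
    (hO : ∀ d, Cls M s d → d ∉ H → ∃ y, Cls M s y ∧ y * s * y⁻¹ = d) (hx : Cls M s x)
    (hxH : x ∈ H) (hd : Cls M s d) (hdH : d ∉ H) :
    ∃ y, Cls M s y ∧ y ∉ H ∧ y * x * y⁻¹ = d := by
  obtain ⟨k, hk, rfl⟩ := hx
  have hkH := hF k hk hxH
  obtain ⟨y, hy, hy'⟩ := hO (k⁻¹ * d * k⁻¹⁻¹) (hd.conj (M.inv_mem hk)) fun h => hdH (by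
    have := H.mul_mem (H.mul_mem hkH h) (H.inv_mem hkH)
    simpa [mul_assoc] using this)
  have h1 : k * y * k⁻¹ * (k * s * k⁻¹) * (k * y * k⁻¹)⁻¹ = d := by
    calc _ = k * (y * s * y⁻¹) * k⁻¹ := by group
      _ = d := by rw [hy']; group
  refine ⟨k * y * k⁻¹, hy.conj (hHM hkH), fun h => hdH ?_, h1⟩
  rw [← h1]
  exact H.mul_mem (H.mul_mem h hxH) (H.inv_mem h)

theorem odd_injective [Finite M] (hHM : H ≤ M) (hsM : s ∈ M)
    (hF : ∀ g ∈ M, g * s * g⁻¹ ∈ H → g ∈ H)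
    (hO : ∀ d, Cls M s d → d ∉ H → ∃ y, Cls M s y ∧ y * s * y⁻¹ = d) (hx : Cls M s x)
    (hxH : x ∈ H) {y y' : G} (hy : Cls M s y) (hyH : y ∉ H) (hy' : Cls M s y') (hyH' : y' ∉ H)
    (h : y * x * y⁻¹ = y' * x * y'⁻¹) : y = y' := by
  let X := {y : G // Cls M s y ∧ y ∉ H}
  have : Finite X := Finite.of_injective (fun y : X => (⟨y.1, y.2.1.mem hsM⟩ : M))
    fun a b hab => Subtype.ext (congrArg (fun z : M => (z : G)) hab)
  let Φ : X → X := fun y => ⟨y.1 * x * y.1⁻¹, hx.conj (y.2.1.mem hsM),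
    fun h => y.2.2 (hx.mem_of_conj hF hxH (y.2.1.mem hsM) h)⟩
  have hΦ : Function.Surjective Φ := fun d => by
    obtain ⟨y, h1, h2, h3⟩ := odd_exists hHM hF hO hx hxH d.2.1 d.2.2
    exact ⟨⟨y, h1, h2⟩, Subtype.ext h3⟩
  exact congrArg Subtype.val
    (Finite.injective_iff_surjective.2 hΦ (a₁ := ⟨y, hy, hyH⟩) (a₂ := ⟨y', hy', hyH'⟩)
      (Subtype.ext h))

end Dihedral

end Cfsg.Agent.H26
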