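import Cfsg.Agent.H26.UTenSt
import Cfsg.Agent.H27.TenGeo
import Cfsg.Agent.H31.HermSU

/-!
Maximality of `GU(U) ∘ GU(W)` in `SU(U ⊗ W)`.
-/

set_option autoImplicit false

namespace Cfsg.Agent.H26

open H31 Module TensorProduct

variable {F : Type*} [Field F] [Finite F] {σ : F →+* F}

theorem finrank_fixedField (hσ : IsInvol σ) : finrank (fixedField σ) F = 2 := by
  have h1 := Module.natCard_eq_pow_finrank (K := fixedField σ) (V := F)
  rw [hσ.card_eq_sq] at h1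
  exact (Nat.pow_right_injective (Finite.one_lt_card (α := fixedField σ)) h1).symm

theorem finrank_fixedField_eq (hσ : IsInvol σ) (Y : Type*) [AddCommGroup Y] [Module F Y] :
    finrank (fixedField σ) Y = 2 * finrank F Y := by
  rw [← Module.finrank_mul_finrank (fixedField σ) F Y, finrank_fixedField hσ]

/-- The trace to the fixed field. -/
def trF (hσ : IsInvol σ) : F →ₗ[fixedField σ] fixedField σ where
  toFun x := ⟨x + σ x, hσ.trace_fixed x⟩
  map_add' x y := Subtype.ext (by simp; ring)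
  map_smul' a x := Subtype.ext (by
    change a * x + σ (a * x) = a * (x + σ x)
    rw [map_mul, show σ a = a from a.2]; ring)

/-- Chevalley–Warning for the equation of an Eichler transformation together with linear
conditions over the fixed field. -/
theorem exists_ker_herm {P Y : Type*} [AddCommGroup P] [Module F P] [FiniteDimensional F P]
    [AddCommGroup Y] [Module F Y] [FiniteDimensional F Y] {h : P →ₛₗ[σ] P →ₗ[F] F}
    (hh : IsHermSymm h) (Φ : P × F →+ Y) (hΦ : ∀ a, σ a = a → ∀ k, Φ (a • k) = a • Φ k)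
    (hd : finrank F Y + 1 ≤ finrank F P ∨
      (¬ Function.Surjective Φ ∧ finrank F Y ≤ finrank F P)) :
    ∃ k, k ≠ 0 ∧ Φ k = 0 ∧ k.2 + σ k.2 = h k.1 k.1 := by
  have : FiniteDimensional (fixedField σ) (P × F) := Module.Finite.trans F _
  have : FiniteDimensional (fixedField σ) Y := Module.Finite.trans F _
  let Ψ : P × F →ₗ[fixedField σ] Y := ⟨Φ.toAddHom, fun a k => hΦ a a.2 k⟩
  have h1 := Ψ.finrank_range_add_finrank_ker
  rw [finrank_fixedField_eq hh.inv (P × F), finrank_prod, finrank_self] at h1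
  have h2 := finrank_fixedField_eq hh.inv Y
  have h3 : 2 < finrank (fixedField σ) (LinearMap.ker Ψ) := by
    rcases hd with hd | ⟨hs, hd⟩
    · have := Submodule.finrank_le (LinearMap.range Ψ)
      omega
    · have := Submodule.finrank_lt (s := LinearMap.range Ψ) fun e => hs (LinearMap.range_eq_top.1 e)
      omega
  obtain ⟨l, hl⟩ := hh.inv.exists_trace_eq (map_one σ)
  obtain ⟨k, hk0, hk⟩ := exists_common_zero_quad (ι := Unit) (V := LinearMap.ker Ψ)
    (fun _ => -(trF hh.inv ∘ₗ LinearMap.snd _ P F ∘ₗ (LinearMap.ker Ψ).subtype))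
    (fun _ => LinearMap.mk₂ (fixedField σ) (fun k k' => trF hh.inv (l * h k.1.1 k'.1.1))
      (fun a b c => by simp [mul_add])
      (fun a b c => by
        rw [← map_smul]
        congr 1
        change l * h ((a : F) • b.1.1) c.1.1 = a * _
        rw [smul_left, show σ a = a from a.2]; ring)
      (fun a b c => by simp [mul_add])
      (fun a b c => by
        rw [← map_smul]
        congr 1
        change l * h b.1.1 ((a : F) • c.1.1) = a * _
        rw [smul_right]; ring)) (by simpa using h3)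
  refine ⟨k.1, fun e => hk0 (Subtype.ext e), k.2, ?_⟩
  have h4 : -(k.1.2 + σ k.1.2) + (l * h k.1.1 k.1.1 + σ (l * h k.1.1 k.1.1)) = 0 :=
    congrArg Subtype.val (hk ())
  rw [map_mul, hh.norm_fixed] at h4
  linear_combination -h4 + h k.1.1 k.1.1 * hl

variable {U : Type*} [AddCommGroup U] [Module F U]
  {f : U →ₛₗ[σ] U →ₗ[F] F} [FiniteDimensional F U]
  {W : Type*} [AddCommGroup W] [Module F W] [FiniteDimensional F W]
  {h : W →ₛₗ[σ] W →ₗ[F] F} {B : U ⊗[F] W →ₛₗ[σ] U ⊗[F] W →ₗ[F] F}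
  {M : Subgroup (U ⊗[F] W ≃ₗ[F] U ⊗[F] W)}

variable (M) in
/-- The conjugates of `U ⊗ z`. -/
def Orb (z : W) : Set (Submodule F (U ⊗[F] W)) := {T | ∃ g ∈ M, T = act g (sR F U z)}

omit [Finite F] [FiniteDimensional F U] [FiniteDimensional F W] in
theorem orb_act {z : W} {T : Submodule F (U ⊗[F] W)} (hT : T ∈ Orb M z)
    {g : U ⊗[F] W ≃ₗ[F] U ⊗[F] W} (hg : g ∈ M) : act g T ∈ Orb M z := by
  obtain ⟨k, hk, rfl⟩ := hT
  exact ⟨g * k, M.mul_mem hg hk, (act_mul _ _ _).symm⟩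

omit [Finite F] [FiniteDimensional F U] [FiniteDimensional F W] in
theorem self_mem_Orb (z : W) : sR F U z ∈ Orb M z := ⟨1, M.one_mem, (act_one _).symm⟩

omit [Finite F] [FiniteDimensional F U] [FiniteDimensional F W] in
theorem act_ten (α : U ≃ₗ[F] U) (β : W ≃ₗ[F] W) (z : W) :
    act (tenHom F U W (α, β)) (sR F U z) = sR F U (β z) := by
  ext p
  constructor
  · rintro ⟨_, ⟨x, rfl⟩, rfl⟩
    exact tmul_mem_sR _ _
  · rintro ⟨x, rfl⟩
    exact ⟨_, tmul_mem_sR (α⁻¹ x) z, by simp [tenHom_tmul]⟩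

namespace UT

variable (hT : UT f h B M)
include hT

omit [Finite F] [FiniteDimensional F U] [FiniteDimensional F W] in
theorem B_orb {z : W} (hz : h z z = 0) {T : Submodule F (U ⊗[F] W)} (h1 : T ∈ Orb M z)
    {s t : U ⊗[F] W} (hs : s ∈ T) (ht : t ∈ T) : B s t = 0 := by
  obtain ⟨g, hg, rfl⟩ := h1
  rw [← hT.iso (M.inv_mem hg)]
  exact hT.B_sR (mem_act.1 hs) (cR_sR hz (mem_act.1 ht))

/-- An element `1 ⊗ E(z, y, ν)` mapping a vector of `T` into `T^⊥`. -/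
theorem exists_R_perp {z z' : W} (hp : HypPair h z z') {T : Submodule F (U ⊗[F] W)}
    {x : U ⊗[F] W} (hx : x ∈ T) (hxS : x ∉ sR F U z)
    (hd : finrank F T + 3 ≤ finrank F W + finrank F ↥(T ⊓ sR F U z) ∨
      (f (cR U (h z) x) (cR U (h z) x) = 0 ∧
        finrank F T + 2 ≤ finrank F W + finrank F ↥(T ⊓ sR F U z))) :
    ∃ y ν, (y, ν) ≠ 0 ∧ h z y = 0 ∧ h z' y = 0 ∧ ν + σ ν = h y y ∧
      ∀ t ∈ T, B (tRf h z y ν x - x) t = 0 := by
  let A : Submodule F (Dual F T) := ((sR F U z).comap T.subtype).dualAnnihilator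
  have h1 := Subspace.finrank_add_finrank_dualAnnihilator_eq ((sR F U z).comap T.subtype)
  rw [← Submodule.finrank_map_subtype_eq, Submodule.map_comap_subtype] at h1
  change _ + finrank F A = _ at h1
  have h2 := hT.hh.finrank_hypPerp hp
  have h3 : ∀ y ν, tRf h z y ν x - x =
      cR U (h z) x ⊗ₜ y - cR U (h y) x ⊗ₜ z - ν • cR U (h z) x ⊗ₜ z := fun y ν => by
    rw [tRf]; abel
  let Φ : hypPerp h z z' × F →+ A :=
    { toFun := fun k => ⟨B (tRf h z k.1 k.2 x - x) ∘ₗ T.subtype,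
        (Submodule.mem_dualAnnihilator _).2 fun t ht => by
          obtain ⟨s, hs⟩ : ∃ s, s ⊗ₜ z = t.1 := ht
          simp [h3, ← hs, hT.tm, hp.he, hT.hh.flip_zero (mem_hypPerp.1 k.1.2).1]⟩
      map_zero' := Subtype.ext (by simp [h3, cR_zero])
      map_add' := fun k k' => Subtype.ext (by
        simp only [Submodule.coe_add, ← LinearMap.add_comp, ← map_add, h3, Prod.fst_add,
          Prod.snd_add]
        rw [map_add h, cR_add, add_tmul, tmul_add]
        congr 2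
        module) }
  obtain ⟨k, hk0, hk, hk'⟩ := exists_ker_herm (hT.hh.toIsHermSymm.restr (hypPerp h z z')) Φ
    (fun a ha k => Subtype.ext (by
      change B (tRf h z (a • k.1) (a * k.2) x - x) ∘ₗ T.subtype =
        a • (B (tRf h z k.1 k.2 x - x) ∘ₗ T.subtype)
      rw [← LinearMap.smul_comp, ← ha, ← LinearMap.map_smulₛₗ, ha, h3, h3, LinearMap.map_smulₛₗ,
        cR_smul, ha, tmul_smul, ← smul_tmul']
      congr 2
      module)) (by
      rcases hd with hd | ⟨hw, hd⟩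
      · exact Or.inl (by omega)
      · refine Or.inr ⟨fun hs => ?_, by omega⟩
        obtain ⟨t, ht⟩ := hT.hf.inv.exists_trace_ne_zero
        obtain ⟨m, hm, hm'⟩ := exists_dual_of_notMem hxS
        obtain ⟨k, hk⟩ := hs ⟨(t • m) ∘ₗ T.subtype, (Submodule.mem_dualAnnihilator _).2
          fun s hs => by simp [hm' s.1 hs]⟩
        have h4 : B (tRf h z k.1 k.2 x - x) x = t • m x :=
          LinearMap.congr_fun (congrArg Subtype.val hk) ⟨x, hx⟩
        rw [h3, sub_left, sub_left, smul_left, hT.B_tmul, hT.B_tmul, hT.B_tmul, hw, hm] at h4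
        refine ht ?_
        rw [show t = _ from (mul_one t).symm.trans h4.symm]
        simp [hT.hf.symm])
  refine ⟨k.1, k.2, fun e => hk0 (Prod.ext (Subtype.ext (Prod.ext_iff.1 e).1)
    (Prod.ext_iff.1 e).2), (mem_hypPerp.1 k.1.2).1, (mem_hypPerp.1 k.1.2).2, hk', fun t ht => ?_⟩
  exact LinearMap.congr_fun (congrArg Subtype.val hk) ⟨t, ht⟩

variable (h4 : 4 ≤ finrank F W) (hM : ¬ sisom B ≤ M) {z : W} (hz : h z z = 0) (hz0 : z ≠ 0)
include h4 hM hz hz0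

theorem mem_of_extr {g : U ⊗[F] W ≃ₗ[F] U ⊗[F] W} (hg : g ∈ M) (hg' : g ∉ tenG F U W)
    (hE : Extr (Orb M z) (sR F U z) (act g (sR F U z))) {x : U ⊗[F] W}
    (hx : x ∈ act g (sR F U z)) (h0 : cR U (h z) x = 0) : x ∈ sR F U z := by
  by_contra hxS
  obtain ⟨c, hc0, hc⟩ := hT.hf.inv.exists_skew'
  have h1 : tenHom F U W (1, tv h z c hz hc) x = x := by simp [ten_tv, h0]
  exact hg' (hT.mem_tenG_of_norm h4 hM hz hz0 hg hz hz0 hc hc0 (hE.act_eq
    (orb_act hE.right (hT.right (hT.hh.tv_mem_sisom hz hc))) (fun p hp _ => by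
      simp [ten_tv, cR_sR hz hp]) hx (by rwa [h1]) (by rwa [h1])))

theorem exists_extr_eq {T₁ T₂ : Submodule F (U ⊗[F] W)} (hE : Extr (Orb M z) T₁ T₂)
    (h0 : T₁ ⊓ T₂ ≠ ⊥) : ∃ k ∈ M, ∃ g ∈ M, g ∉ tenG F U W ∧ T₁ = act k (sR F U z) ∧
      T₂ = act k (act g (sR F U z)) ∧ Extr (Orb M z) (sR F U z) (act g (sR F U z)) ∧
      sR F U z ⊓ act g (sR F U z) ≠ ⊥ := by
  obtain ⟨k, hk, rfl⟩ := hE.left
  have h1 := hE.map (orb_act hE.left (M.inv_mem hk)) (orb_act hE.right (M.inv_mem hk))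
  rw [act_inv_act] at h1
  obtain ⟨g, hg, h2⟩ := h1.right
  rw [h2] at h1
  have h3 := h1.ne_bot hE.left hE.right hE.ne h0
  refine ⟨k, hk, g, hg, fun hg' => ?_, rfl, by rw [← h2, act_act_inv], h1, h3⟩
  obtain ⟨α, β, rfl⟩ := mem_tenG.1 hg'
  rw [act_ten] at h1 h3
  obtain ⟨p, hp, hp0⟩ := Submodule.exists_mem_ne_zero_of_ne_bot h3
  exact h1.ne (sR_eq_of_mem hz0 hp0 hp.1 hp.2)

theorem mem_of_extr' {T₁ T₂ : Submodule F (U ⊗[F] W)} (hE : Extr (Orb M z) T₁ T₂)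
    (h0 : T₁ ⊓ T₂ ≠ ⊥) {x : U ⊗[F] W} (hx : x ∈ T₂) (h1 : ∀ t ∈ T₁, B t x = 0) : x ∈ T₁ := by
  obtain ⟨k, hk, g, hg, hg', rfl, rfl, h2, -⟩ := hT.exists_extr_eq h4 hM hz hz0 hE h0
  exact mem_act.2 (hT.mem_of_extr h4 hM hz hz0 hg hg' h2 (mem_act.1 hx) (hT.cR_eq_zero fun y => by
    rw [← isom_adj (hT.iso hk)]
    exact h1 _ (apply_mem_act.2 (tmul_mem_sR y z))))

/-- Distinct conjugates of `U ⊗ z` intersect trivially. -/
theorem inf_eq_bot {T₁ T₂ : Submodule F (U ⊗[F] W)} (h1 : T₁ ∈ Orb M z) (h2 : T₂ ∈ Orb M z)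
    (hne : T₁ ≠ T₂) : T₁ ⊓ T₂ = ⊥ := by
  by_contra h0
  obtain ⟨T₃, T₄, hE⟩ := exists_extr h1 h2 hne
  obtain ⟨-, -, g, hg, hg', -, -, hE, hD⟩ := hT.exists_extr_eq h4 hM hz hz0 hE
    (hE.ne_bot h1 h2 hne h0)
  set T := act g (sR F U z) with hTdef
  obtain ⟨z', hz', hzz'⟩ := hT.hh.exists_hyperbolic' hz hz0
  have a1 : finrank F T = finrank F U := by rw [finrank_act, finrank_sR hz0]
  have a2 : 1 ≤ finrank F ↥(T ⊓ sR F U z) := by
    rw [inf_comm]
    exact Nat.one_le_iff_ne_zero.2 fun e => hD (Submodule.finrank_eq_zero.1 e)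
  have a3 : ∀ x ∈ T, cR U (h z) x = 0 → x ∈ sR F U z := fun x =>
    hT.mem_of_extr h4 hM hz hz0 hg hg' hE
  have a4 := hT.lt
  obtain ⟨x, hx, hxS, hd⟩ : ∃ x ∈ T, x ∉ sR F U z ∧
      (finrank F T + 3 ≤ finrank F W + finrank F ↥(T ⊓ sR F U z) ∨
      (f (cR U (h z) x) (cR U (h z) x) = 0 ∧
        finrank F T + 2 ≤ finrank F W + finrank F ↥(T ⊓ sR F U z))) := by
    by_cases hm : finrank F T ≤ finrank F ↥(T ⊓ sR F U z) + 1
    · obtain ⟨x, hx, hxS⟩ := SetLike.not_le_iff_exists.1 fun e => hE.ne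
        (Submodule.eq_of_le_of_finrank_eq e (by rw [a1, finrank_sR hz0])).symm
      exact ⟨x, hx, hxS, Or.inl (by omega)⟩
    · have b1 := (cR U (h z) ∘ₗ T.subtype).finrank_range_add_finrank_ker
      have b2 := Submodule.finrank_mono (show (LinearMap.ker (cR U (h z) ∘ₗ T.subtype)).map
        T.subtype ≤ T ⊓ sR F U z by
          rintro _ ⟨y, hy, rfl⟩
          exact ⟨y.2, a3 y y.2 hy⟩)
      rw [Submodule.finrank_map_subtype_eq] at b2
      obtain ⟨_, ⟨x, rfl⟩, b3, b4⟩ := exists_isotropic_mem hT.hf.toIsHermSymm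
        (S := LinearMap.range (cR U (h z) ∘ₗ T.subtype)) (by omega)
      exact ⟨x, x.2, fun e => b3 (cR_sR hz e), Or.inr ⟨b4, by omega⟩⟩
  obtain ⟨y, ν, hyν, hy, hy', hν, H⟩ := hT.exists_R_perp ⟨hz, hz', hzz'⟩ hx hxS hd
  obtain ⟨r, hr, Hr⟩ := hT.exists_R hz hy hν
  have b0 : cR U (h z) x ≠ 0 := fun e => hxS (a3 x hx e)
  have b1 : ∀ p ∈ sR F U z, r p = p := fun p hp => by
    simp [Hr, tRf, cR_sR hz hp, cR_sR (hT.hh.flip_zero hy) hp]
  have b2 : cR U (h z) (r x) = cR U (h z) x := by simp [Hr, tRf, cR_tmul, hz, hy]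
  have b3 : act r T = T := by
    by_contra b3
    have b4 : sR F U z ⊓ T ≤ T ⊓ act r T := fun p hp =>
      ⟨hp.2, by rw [← b1 p hp.1]; exact apply_mem_act.2 hp.2⟩
    refine b3 (hE.act_eq (orb_act hE.right hr) (fun p hp _ => b1 p hp) hx (hT.mem_of_extr' h4 hM hz hz0
      (hE.of_le hE.right (orb_act hE.right hr) (Ne.symm b3) b4) (fun e => hD (le_bot_iff.1 (e ▸ b4)))
      (apply_mem_act.2 hx) fun t ht => hT.hB.flip_zero ?_) fun e => b0 (b2 ▸ cR_sR hz e))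
    have := H t ht
    rwa [sub_left, hT.B_orb hz hE.right hx ht, sub_zero, ← Hr] at this
  have b4 := a3 _ (T.sub_mem (b3 ▸ apply_mem_act.2 hx : r x ∈ T) hx) (by rw [map_sub, b2, sub_self])
  have b5 : y = 0 := by
    have := Submodule.add_mem _ (Submodule.add_mem _ b4 (tmul_mem_sR (cR U (h y) x) z))
      (Submodule.smul_mem _ ν (tmul_mem_sR (cR U (h z) x) z))
    rw [Hr, tRf, show ∀ a b c d : U ⊗[F] W, a + b - c - d - a + c + d = b from
      fun a b c d => by abel] at this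
    obtain ⟨a, rfl⟩ := Submodule.mem_span_singleton.1 (mem_span_of_tmul_mem_sR b0 this)
    rw [smul_right, hT.hh.flip_one hzz', mul_one] at hy'
    rw [hy', zero_smul]
  subst b5
  have b6 : -ν + σ (-ν) = 0 := skew_neg (by simpa using hν)
  refine hg' (hT.mem_tenG_of_norm h4 hM hz hz0 hg hz hz0 b6 (fun e => hyν ?_) ?_)
  · rw [neg_eq_zero.1 e]; rfl
  · convert b3 using 2
    ext p
    simp [ten_tv, Hr, tRf, cR_zero, sub_eq_add_neg]

theorem eq_zero_of_orb {g : U ⊗[F] W ≃ₗ[F] U ⊗[F] W} (hg : g ∈ M) (hg' : g ∉ tenG F U W)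
    {v : W} (hv : h v v = 0) (hv0 : v ≠ 0) {x : U ⊗[F] W} (hx : x ∈ act g (sR F U z))
    (h0 : cR U (h v) x = 0) : x = 0 := by
  obtain ⟨c, hc0, hc⟩ := hT.hf.inv.exists_skew'
  have h1 : act g (sR F U z) ∈ Orb M z := ⟨g, hg, rfl⟩
  refine (Submodule.eq_bot_iff _).1 (hT.inf_eq_bot h4 hM hz hz0
    (orb_act h1 (hT.right (hT.hh.tv_mem_sisom hv hc))) h1 fun e =>
      hg' (hT.mem_tenG_of_norm h4 hM hz hz0 hg hv hv0 hc hc0 e)) x ⟨?_, hx⟩
  have : tenHom F U W (1, tv h v c hv hc) x = x := by simp [ten_tv, h0]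
  rw [← this]
  exact apply_mem_act.2 hx

omit hz hz0 in
/-- A proper overgroup of the tensor product subgroup preserves the decomposition. -/
theorem le_tenG : M ≤ tenG F U W := by
  intro g₀ hg₀
  by_contra hg₀'
  obtain ⟨z, z', hz0, hz, hz', hzz'⟩ := hT.exists_pair
  have := hT.ntU
  obtain ⟨x₀, hx₀⟩ := exists_ne (0 : U)
  have a4 := hT.lt
  by_cases hb : finrank F U + 2 ≤ finrank F W
  · let L : Dual F U →ₗ[F] W :=
      { toFun := fun m => cL W m (g₀ (x₀ ⊗ₜ z))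
        map_add' := fun m m' => by simp [cL, LinearMap.rTensor_add]
        map_smul' := fun c m => by simp [cL, LinearMap.rTensor_smul] }
    have b1 := hT.hh.finrank_add_finrank_perp (LinearMap.range L)
    have b2 := L.finrank_range_le
    rw [Subspace.dual_finrank_eq] at b2
    obtain ⟨v, hv, hv0, hv'⟩ := exists_isotropic_mem hT.hh.toIsHermSymm
      (S := perp h (LinearMap.range L)) (by omega)
    refine tmul_ne_zero' (F := F) hx₀ hz0 (g₀.injective ?_)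
    rw [map_zero]
    exact hT.eq_zero_of_orb h4 hM hz hz0 hg₀ hg₀' hv' hv0 (apply_mem_act.2 (tmul_mem_sR x₀ z))
      (eq_zero_of_dual fun m => by rw [← cL_cR]; exact hT.hh.flip_zero (hv _ ⟨m, rfl⟩))
  have : Finite (U ⊗[F] W) := Module.finite_of_finite F
  obtain ⟨c, hc0, hc⟩ := hT.hf.inv.exists_skew'
  set t := tenHom F U W (1, tv h z c hz hc) with ht
  have htM : t ∈ M := hT.right (hT.hh.tv_mem_sisom hz hc)
  let X := {T : Submodule F (U ⊗[F] W) // ∃ g ∈ M, g ∉ tenG F U W ∧ T = act g (sR F U z)}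
  have : Nonempty X := ⟨⟨_, g₀, hg₀, hg₀', rfl⟩⟩
  choose γ hγ hγ' hγ'' using fun T : X => T.2
  let ζ : X → (U ⊗[F] W ≃ₗ[F] U ⊗[F] W) := fun T => γ T * t * (γ T)⁻¹
  have b1 : ∀ T, ζ T ∈ M := fun T => M.mul_mem (M.mul_mem (hγ T) htM) (M.inv_mem (hγ T))
  have b2 : ∀ T, ζ T ∉ tenG F U W := fun T e => hγ' T (inv_mem_iff.1
    (hT.mem_tenG_of_conj h4 hM hz hz0 (M.inv_mem (hγ T)) hc hc0 (by rwa [inv_inv])))
  have b3 : ∀ T p, ζ T p - p = γ T (c • cR U (h z) ((γ T)⁻¹ p) ⊗ₜ z) := fun T p => by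
    simp only [ζ, LinearEquiv.mul_apply, ht, ten_tv, map_add, apply_inv_apply, add_sub_cancel_left]
  have b4 : ∀ T p, ζ T p - p ∈ T.1 := fun T p => by
    rw [b3, hγ'' T, apply_mem_act]
    exact Submodule.smul_mem _ _ (tmul_mem_sR _ _)
  have b5 : ∀ T p, ζ T p = p → ∀ s ∈ T.1, B s p = 0 := fun T p hp s hs => by
    have := b3 T p
    rw [hp, sub_self, eq_comm, LinearEquiv.map_eq_zero_iff, smul_eq_zero_iff_right hc0] at this
    rw [hγ'' T] at hs
    rw [← hT.iso (M.inv_mem (hγ T))]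
    exact hT.B_sR (mem_act.1 hs) (tmul_inj_left (F := F) hz0 (by rw [this, zero_tmul]))
  obtain ⟨β, hβ, hβz⟩ := hT.trans hz hz0 hz' (by rintro rfl; simp at hzz')
  let κ : Bool → (U ⊗[F] W ≃ₗ[F] U ⊗[F] W) := fun i => tenHom F U W (1, if i then β else 1)
  have c1 : ∀ i, κ i ∈ M := fun i => hT.right (by split_ifs; exacts [hβ, one_mem _])
  have c2 : ∀ i, κ i ∈ tenG F U W := fun i => tenHom_mem _ _
  let Ψ : X × Bool → X := fun a => ⟨_, ζ a.1 * κ a.2, M.mul_mem (b1 _) (c1 _),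
    fun e => b2 _ ((Subgroup.mul_mem_cancel_right _ (c2 _)).1 e), rfl⟩
  obtain ⟨⟨T, i⟩, ⟨T', j⟩, d1, d2⟩ := Function.not_injective_iff.1 fun e : Ψ.Injective => by
    have := Nat.card_le_card_of_injective Ψ e
    rw [Nat.card_prod, Nat.card_eq_fintype_card (α := Bool), Fintype.card_bool] at this
    have := Nat.card_pos (α := X)
    omega
  replace d1 : act (ζ T * κ i) (sR F U z) = act (ζ T' * κ j) (sR F U z) := congrArg Subtype.val d1
  have d3 : T ≠ T' := by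
    rintro rfl
    rw [act_mul (ζ T), act_mul (ζ T), (act_injective _).eq_iff, act_ten, act_ten] at d1
    have d4 : sR F U z ≠ sR F U z' := fun e => by
      obtain ⟨a, ha⟩ := Submodule.mem_span_singleton.1 (mem_span_of_tmul_mem_sR hx₀
        (e ▸ tmul_mem_sR x₀ z' : x₀ ⊗ₜ z' ∈ sR F U z))
      simp [← ha, hz] at hzz'
    cases i <;> cases j <;> simp [hβz, d4, d4.symm] at d1 d2
  have d4 : (ζ T)⁻¹ * ζ T' ∈ tenG F U W := by
    have := hT.mem_tenG_of_stab h4 hM hz hz0 (M.mul_mem (M.inv_mem (M.mul_mem (b1 T) (c1 i)))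
      (M.mul_mem (b1 T') (c1 j))) fun x => by
        rw [LinearEquiv.mul_apply, ← mem_act, d1, apply_mem_act]
        exact tmul_mem_sR x z
    rwa [mul_inv_rev, mul_assoc, Subgroup.mul_mem_cancel_left _ (inv_mem (c2 i)), ← mul_assoc,
      Subgroup.mul_mem_cancel_right _ (c2 j)] at this
  obtain ⟨α, β', d5⟩ := mem_tenG.1 d4
  have d6 : ∀ T : X, finrank F T.1 = finrank F U := fun T => by
    rw [hγ'' T, finrank_act, finrank_sR hz0]
  obtain ⟨u, K, hu, hK, d7⟩ := exists_fixed_of_rank (by omega) (α := α) (β := β')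
    (S := T.1 ⊔ T'.1) (fun p => by
      have e1 := b4 T ((ζ T)⁻¹ (ζ T' p))
      rw [apply_inv_apply] at e1
      convert Submodule.sub_mem _ (Submodule.mem_sup_right (b4 T' p)) (Submodule.mem_sup_left e1)
        using 1
      rw [d5, LinearEquiv.mul_apply]
      abel)
    ((Submodule.finrank_add_le_finrank_add_finrank _ _).trans (by rw [d6, d6]; omega)) a4 h4
  obtain ⟨v, hv, hv0, hv'⟩ := exists_isotropic_mem hT.hh.toIsHermSymm hK
  have d8 : ζ T' (u ⊗ₜ v) = ζ T (u ⊗ₜ v) := by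
    conv_rhs => rw [← d7 v hv, ← tenHom_tmul, d5, LinearEquiv.mul_apply (ζ T)⁻¹,
      apply_inv_apply]
  have d9 := b5 T (u ⊗ₜ v) (sub_eq_zero.1 ((Submodule.eq_bot_iff _).1
    (hT.inf_eq_bot h4 hM hz hz0 ⟨_, hγ T, hγ'' T⟩ ⟨_, hγ T', hγ'' T'⟩ fun e => d3 (Subtype.ext e))
    _ ⟨b4 T _, d8 ▸ b4 T' _⟩))
  have d10 : Function.Surjective (cR U (h v) ∘ₗ T.1.subtype) :=
    (LinearMap.injective_iff_surjective_of_finrank_eq_finrank (d6 T)).1
      ((injective_iff_map_eq_zero _).2 fun s hs => Subtype.ext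
        (hT.eq_zero_of_orb h4 hM hz hz0 (hγ T) (hγ' T) hv' hv0 (hγ'' T ▸ s.2) hs))
  refine hu (hT.hf.nondeg u fun y => ?_)
  obtain ⟨s, rfl⟩ := d10 y
  exact (hT.B_tmul u v s).symm.trans (hT.hB.flip_zero (d9 s s.2))

end UT

/-- `GU(U) ∘ GU(W)` is maximal in `SU(U ⊗ W)`. -/
theorem isMaximalIn_tenG (hf : IsHerm f) (hh : IsHerm h) (hB : IsHerm B)
    (tm : ∀ x y w w', B (x ⊗ₜ w) (y ⊗ₜ w') = f x y * h w w') (two : 2 ≤ finrank F U)
    (lt : finrank F U < finrank F W) (h4 : 4 ≤ finrank F W)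
    (big : 3 ≤ finrank F U ∨ ∃ k : F, σ k = k ∧ k ≠ 0 ∧ k ≠ 1) :
    Geo.IsMaximalIn (sisom B) (tenG F U W ⊓ sisom B) := by
  refine isMaximalIn_inf (fun hle => ?_) fun M h1 h2 => or_iff_not_imp_right.2 fun hM =>
    UT.le_tenG ⟨hf, hh, hB, tm, two, lt, big, h2, h1⟩ h4 hM
  obtain ⟨u, -, hu0, hu⟩ := exists_isotropic_mem hf.toIsHermSymm (S := ⊤) (by rwa [finrank_top])
  obtain ⟨z, -, hz0, hz⟩ := exists_isotropic_mem hh.toIsHermSymm (S := ⊤)
    (by rw [finrank_top]; omega)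
  obtain ⟨u', hu'⟩ := hf.exists_eq_one hu0
  obtain ⟨z', hz'⟩ := hh.exists_eq_one hz0
  obtain ⟨c, hc0, hc⟩ := hf.inv.exists_skew'
  have h1 : B (u ⊗ₜ z) (u ⊗ₜ z) = 0 := by rw [tm, hu, zero_mul]
  obtain ⟨β, hβ⟩ := exists_eq_lTensor_of_rank (hle (hB.tv_mem_sisom h1 hc)) (S := F ∙ (u ⊗ₜ z))
    (fun p => by
      rw [tv_apply, add_sub_cancel_left]
      exact Submodule.smul_mem _ _ (Submodule.mem_span_singleton_self _))
    (by rw [finrank_span_singleton (tmul_ne_zero' hu0 hz0)]; omega)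
  have h2 := hβ u' z'
  rw [tv_apply, tm, hu', hz', mul_one, mul_one] at h2
  have h3 := congrArg (cL W (f u)) h2
  simp only [map_add, map_smul, cL_tmul, hu, hu', one_smul, zero_smul, smul_zero, add_zero] at h3
  rw [← h3, add_eq_left, smul_eq_zero_iff_right hc0] at h2
  exact tmul_ne_zero' hu0 hz0 h2

section Bridge

open Matrix
open scoped Kronecker

theorem formOfGram_pure2 {F : Type*} [Field F] {σ : F →+* F} {a b : ℕ}
    {f₁ : (Fin a → F) → (Fin a → F) → F} {f₂ : (Fin b → F) → (Fin b → F) → F}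
    {B₁ : (Fin a → F) →ₛₗ[σ] (Fin a → F) →ₗ[F] F} {B₂ : (Fin b → F) →ₛₗ[σ] (Fin b → F) →ₗ[F] F}
    (h₁ : ∀ x y, B₁ x y = f₁ y x) (h₂ : ∀ x y, B₂ x y = f₂ y x) (x y : Fin a → F)
    (w w' : Fin b → F) : Geo.formOfGram σ (Geo.gramMatrix f₁ ⊗ₖ Geo.gramMatrix f₂)
      (H25.pure2 y w') (H25.pure2 x w) = B₁ x y * B₂ w w' := by
  have key : ∀ {n : ℕ} {f : (Fin n → F) → (Fin n → F) → F}
      {B : (Fin n → F) →ₛₗ[σ] (Fin n → F) →ₗ[F] F}, (∀ x y, B x y = f y x) → ∀ x y,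
      B x y = ∑ i, ∑ j, y i * Geo.gramMatrix f i j * σ (x j) := fun {n f B} hB x y => by
    conv_lhs => rw [pi_eq_sum_univ' x, pi_eq_sum_univ' y]
    simp only [map_sum, LinearMap.map_smulₛₗ, LinearMap.sum_apply, LinearMap.smul_apply,
      smul_eq_mul, RingHom.id_apply, Geo.gramMatrix, ← hB, Finset.mul_sum]
    exact Finset.sum_congr rfl fun i _ => Finset.sum_congr rfl fun j _ => by ring
  rw [key h₁, key h₂, Finset.sum_mul_sum, Geo.formOfGram, Fintype.sum_prod_type]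
  refine Finset.sum_congr rfl fun i _ => Finset.sum_congr rfl fun k _ => ?_
  rw [Finset.sum_mul_sum, Fintype.sum_prod_type]
  refine Finset.sum_congr rfl fun j _ => Finset.sum_congr rfl fun l _ => ?_
  simp only [H25.pure2, kroneckerMap_apply, map_mul]
  ring

/-- The stabilizer in `SU_n(q)` of a tensor decomposition with factors of dimensions
`2 ≤ n₁ < n₂`, `4 ≤ n₂`, is maximal unless `n₁ = q = 2`. -/
theorem su_c4 {F : Type*} [Field F] [Fintype F] {n q : ℕ} (hF : Fintype.card F = q ^ 2)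
    {n₁ n₂ : ℕ} (h1 : 2 ≤ n₁) (h12 : n₁ < n₂) (h4 : 4 ≤ n₂) (hex : ¬ (n₁ = 2 ∧ q = 2))
    (e : Fin n ≃ Fin n₁ × Fin n₂) (P : GL (Fin n) F) {f₁ : (Fin n₁ → F) → (Fin n₁ → F) → F}
    {f₂ : (Fin n₂ → F) → (Fin n₂ → F) → F} (hf₁ : Geo.IsUnitaryFormPow q f₁)
    (hf₂ : Geo.IsUnitaryFormPow q f₂)
    (hT : Geo.IsTensorFormStructure (fun x : F => x ^ q) (hermForm n F q) f₁ f₂ e P) :
    Geo.IsMaximalIn (GU n F q ⊓ Geo.specialLinear (Fin n) F)
      (Geo.tensorProductSubgroup n₁ n₂ e P ⊓ (GU n F q ⊓ Geo.specialLinear (Fin n) F)) := by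
  obtain ⟨B₁, hB₁, a1⟩ := exists_isHerm_of_isUnitaryFormPow hF hf₁
  obtain ⟨B₂, hB₂, a2⟩ := exists_isHerm_of_isUnitaryFormPow hF hf₂
  obtain ⟨c, hc0, hc⟩ := hT
  let T := H27.tenFrame e P
  let B := ((hermB hF n).comp T.toLinearMap).compl₂ T.toLinearMap
  have hBT : ∀ p p', hermB hF n (T p) (T p') = B p p' := fun _ _ => rfl
  have hB : IsHerm B := ⟨⟨isInvol_frobQ hF, fun x y => (isHerm_hermB hF n).symm _ _⟩,
    fun x hx => T.injective (by
      rw [map_zero]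
      exact (isHerm_hermB hF n).nondeg _ fun y => by
        obtain ⟨y, rfl⟩ := T.surjective y
        exact hx y)⟩
  have tm : ∀ x y w w', B (x ⊗ₜ w) (y ⊗ₜ w') = c * B₁ x y * B₂ w w' := fun x y w w' => by
    rw [← hBT, hermB_eq, mul_assoc, ← formOfGram_pure2 a1 a2]
    simp only [T, H27.tenFrame, LinearEquiv.trans_apply, H27.tenEquiv_tmul, H25.frameEquiv_apply]
    exact hc _ _
  have hne : Nonempty (Fin n) := ⟨e.symm (⟨0, by omega⟩, ⟨0, by omega⟩)⟩
  have hcσ : frobQ hF c = c := by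
    have : Nontrivial (Fin n₁ → F) := Module.nontrivial_of_finrank_pos (R := F) (by simp; omega)
    have : Nontrivial (Fin n₂ → F) := Module.nontrivial_of_finrank_pos (R := F) (by simp; omega)
    obtain ⟨x, hx⟩ := exists_ne (0 : Fin n₁ → F)
    obtain ⟨w, hw⟩ := exists_ne (0 : Fin n₂ → F)
    obtain ⟨y, hy⟩ := hB₁.exists_eq_one hx
    obtain ⟨w', hw'⟩ := hB₂.exists_eq_one hw
    have := hB.symm (x ⊗ₜ w) (y ⊗ₜ w')
    rwa [tm, tm, hy, hw', hB₁.flip_one hy, hB₂.flip_one hw', mul_one, mul_one] at this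
  have hB₁' : IsHerm (c • B₁) := ⟨⟨isInvol_frobQ hF, fun x y => by
      simp only [LinearMap.smul_apply, smul_eq_mul, map_mul, hcσ, hB₁.symm]⟩,
    fun x hx => hB₁.nondeg x fun y => by simpa [hc0] using hx y⟩
  have hS : ∀ g, g ∈ GU n F q ⊓ Geo.specialLinear (Fin n) F ↔
      ((glEquiv (Fin n) F).trans (autCongr T).symm) g ∈ sisom B := fun g => by
    rw [← glEquiv_mem_sisom hF, ← autCongr_mem_sisom hBT, MulEquiv.trans_apply,
      MulEquiv.apply_symm_apply]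
  refine isMaximalIn_of_equiv ((glEquiv (Fin n) F).trans (autCongr T).symm) hS (fun g => ?_)
    (isMaximalIn_tenG hB₁' hB₂ hB tm (by simpa) (by simpa) (by simpa) ?_)
  · rw [Subgroup.mem_inf, Subgroup.mem_inf (p' := sisom B), hS, H27.mem_tensorProductSubgroup_iff]
    refine and_congr_left fun _ => ⟨fun ⟨α, β, H⟩ => ?_, fun H => ?_⟩
    · have : Nontrivial (Fin n₁ → F) := Module.nontrivial_of_finrank_pos (R := F) (by simp; omega)
      have : Nontrivial (Fin n₂ → F) := Module.nontrivial_of_finrank_pos (R := F) (by simp; omega)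
      exact mem_tenG_of_map (α := α) (β := β) fun x w => T.symm_apply_eq.2 (H _)
    · obtain ⟨α, β, H⟩ := mem_tenG.1 H
      exact ⟨α, β, fun p => T.symm_apply_eq.1 (LinearEquiv.congr_fun H p).symm⟩
  · by_cases hq : q = 2
    · exact Or.inl (by simp; omega)
    · exact Or.inr (exists_fixed_ne hF (fun _ => rfl) hq)

end Bridge

end Cfsg.Agent.H26
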