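import Cfsg.Agent.H26.UTen3St
import Cfsg.Agent.H26.UTenMain

/-!
Overgroups of `GU₂(q) ∘ GU₃(q)` in `SU₆(q)`, `q ≥ 3`: low-dimensional lemmas and generation by
transvections.
-/

set_option autoImplicit false

namespace Cfsg.Agent.H26

open H31 Module TensorProduct

variable {F : Type*} [Field F] [Finite F] {σ : F →+* F}

/-- A quadratic polynomial over the fixed field has a root. -/
theorem exists_root_fixed (hσ : IsInvol σ) {a b : F} (ha : σ a = a) (hb : σ b = b) :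
    ∃ x : F, x ^ 2 + a * x + b = 0 := by
  classical
  let K := fixedField σ
  let p : Polynomial K := Polynomial.X ^ 2 + Polynomial.C ⟨a, ha⟩ * Polynomial.X + Polynomial.C ⟨b, hb⟩
  have hp : p.natDegree = 2 := by
    simp only [p]
    compute_degree!
  have hev : ∀ x : F, Polynomial.aeval x p = x ^ 2 + a * x + b := fun x => by
    simp only [p, map_add, map_mul, map_pow, Polynomial.aeval_X, Polynomial.aeval_C]
    rfl
  have hm : p.Monic := by
    simp only [p]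
    monicity!
  by_cases h : p.roots = 0
  · have hi : Irreducible p := (hm.irreducible_iff_roots_eq_zero_of_degree_le_three
      (by omega) (by omega)).2 h
    have := Fact.mk hi
    have : FiniteDimensional K (AdjoinRoot p) := (AdjoinRoot.powerBasis hi.ne_zero).finite
    have : Finite (AdjoinRoot p) := Module.finite_of_finite K
    obtain ⟨φ⟩ := FiniteField.nonempty_algHom_of_finrank_dvd (F := K) (K := AdjoinRoot p) (L := F)
      (by rw [(AdjoinRoot.powerBasis hi.ne_zero).finrank, AdjoinRoot.powerBasis_dim, hp,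
        finrank_fixedField hσ])
    exact ⟨φ (AdjoinRoot.root p), by
      rw [← hev, Polynomial.aeval_algHom_apply, AdjoinRoot.aeval_eq, AdjoinRoot.mk_self, map_zero]⟩
  · obtain ⟨x, hx⟩ := Multiset.exists_mem_of_ne_zero h
    refine ⟨x, ?_⟩
    rw [← hev, show (x : F) = algebraMap K F x from rfl, Polynomial.aeval_algebraMap_apply,
      Polynomial.coe_aeval_eq_eval, (Polynomial.mem_roots hm.ne_zero).1 hx, map_zero]

variable {U : Type*} [AddCommGroup U] [Module F U] {f : U →ₛₗ[σ] U →ₗ[F] F} [FiniteDimensional F U]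

omit [Finite F] in
theorem eq_zero_of_gram (hf : IsHerm f) (h2 : finrank F U = 2) {u v x : U}
    (huv : f u u * f v v - f u v * f v u ≠ 0) (h1 : f u x = 0) (h3 : f v x = 0) : x = 0 := by
  have := Submodule.eq_top_of_finrank_eq ((finrank_span_pair_of_gram huv).trans h2.symm)
  rw [← Submodule.mem_bot F, ← hf.perp_top, ← this, mem_perp_span]
  simp [h1, h3]

omit [Finite F] in
theorem eq_orth (hf : IsHerm f) (h2 : finrank F U = 2) {u v : U} (hu : f u u ≠ 0) (hv : f v v ≠ 0)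
    (huv : f u v = 0) (x : U) : x = (f u x / f u u) • u + (f v x / f v v) • v := by
  rw [← sub_eq_zero]
  refine eq_zero_of_gram hf h2 (u := u) (v := v) (by simp [huv, hu, hv]) ?_ ?_ <;>
    simp [huv, hu, hv, hf.flip_zero huv]

omit [Finite F] in
theorem eq_hyp (hf : IsHerm f) (h2 : finrank F U = 2) {u v : U} (hp : HypPair f u v) (x : U) :
    x = f v x • u + f u x • v := by
  rw [← sub_eq_zero]
  refine eq_zero_of_gram hf h2 (hp.gram hf.toIsHermSymm) ?_ ?_ <;>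
    simp [hp.he, hp.hf, hp.hef, hf.flip_one hp.hef]

omit [Finite F] in
theorem exists_orth (hf : IsHerm f) (h2 : 2 ≤ finrank F U) {u : U} (hu : f u u ≠ 0) :
    ∃ v, f v v ≠ 0 ∧ f u v = 0 := by
  obtain ⟨v, -, h1, h3⟩ := hf.exists_nonisotropic_perp hf.nondegOn_top (x := u) trivial
    (Or.inr ⟨by rwa [finrank_top], hu⟩)
  exact ⟨v, h1, hf.flip_zero h3⟩

omit [Finite F] in
theorem mem_span_of_iso (hf : IsHerm f) (h3 : finrank F U ≤ 3) {z w : U} (hz0 : z ≠ 0)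
    (hz : f z z = 0) (hw : f w w = 0) (hzw : f z w = 0) : w ∈ F ∙ z := by
  have h1 : (F ∙ z) ⊔ F ∙ w ≤ perp f ((F ∙ z) ⊔ F ∙ w) := by
    rw [perp_sup]
    simp [mem_perp_span_singleton, hz, hw, hzw, hf.flip_zero hzw]
  have h4 := Submodule.finrank_mono h1
  have h5 := hf.finrank_add_finrank_perp ((F ∙ z) ⊔ F ∙ w)
  rw [Submodule.eq_of_le_of_finrank_le (le_sup_left : F ∙ z ≤ (F ∙ z) ⊔ F ∙ w)
    (by rw [finrank_span_singleton hz0]; omega)]
  exact Submodule.mem_sup_right (Submodule.mem_span_singleton_self w)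

omit [Finite F] in
theorem mem_span_of_iso_two (hf : IsHerm f) (h2 : finrank F U = 2) {z w : U} (hz0 : z ≠ 0)
    (hz : f z z = 0) (hzw : f z w = 0) : w ∈ F ∙ z := by
  obtain ⟨v, hp⟩ := hf.exists_hypPair hz hz0
  rw [eq_hyp hf h2 hp w, hzw, zero_smul, add_zero]
  exact Submodule.smul_mem _ _ (Submodule.mem_span_singleton_self z)

omit [Finite F] in
theorem exists_hypPerp (hf : IsHerm f) (h3 : 3 ≤ finrank F U) {z z' : U} (hp : HypPair f z z') :
    ∃ y, f y y ≠ 0 ∧ f z y = 0 ∧ f z' y = 0 := by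
  have h1 := hf.finrank_hypPerp hp
  obtain ⟨y, h2, h4⟩ := hf.exists_norm_ne_zero (hf.nondegOn_hypPerp hp) fun e => by
    rw [e, finrank_bot] at h1
    omega
  exact ⟨y, h4, mem_hypPerp.1 h2⟩

omit [Finite F] in
theorem eq_three (hf : IsHerm f) (h3 : finrank F U = 3) {z z' y : U} (hp : HypPair f z z')
    (hy : f y y ≠ 0) (h1 : f z y = 0) (h2 : f z' y = 0) (x : U) :
    x = f z' x • z + f z x • z' + (f y x / f y y) • y := by
  have h4 := hf.finrank_hypPerp hp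
  have hy0 : y ≠ 0 := by rintro rfl; simp at hy
  have h5 : x - (f z' x • z + f z x • z') ∈ F ∙ y := by
    rw [Submodule.eq_of_le_of_finrank_le ((Submodule.span_singleton_le_iff_mem _ _).2
      (mem_hypPerp.2 ⟨h1, h2⟩)) (by rw [finrank_span_singleton hy0]; omega), mem_hypPerp]
    simp [hp.he, hp.hf, hp.hef, hf.flip_one hp.hef]
  obtain ⟨c, hc⟩ := Submodule.mem_span_singleton.1 h5
  have h6 := congrArg (f y) hc
  simp only [map_smul, map_sub, map_add, hf.flip_zero h1, hf.flip_zero h2, smul_eq_mul, mul_zero,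
    add_zero, sub_zero] at h6
  rw [← h6, mul_div_cancel_right₀ _ hy, hc]
  abel

omit [Finite F] in
theorem exists_diag_sisom (hf : IsHerm f) {u v : U} (hu : f u u ≠ 0) (hv : f v v ≠ 0)
    (huv : f u v = 0) {l : F} (hl : l * σ l = 1) :
    ∃ α ∈ sisom f, α u = l • u ∧ α v = l⁻¹ • v := by
  obtain ⟨g, h1, h2, h3, h4⟩ := hf.exists_quasiRefl_det hu hl
  obtain ⟨k, a1, a2, a3, a4⟩ := hf.exists_quasiRefl_det hv (mu_inv hl)
  refine ⟨g * k, mem_sisom'.2 ⟨mul_mem h1 a1, ?_⟩, ?_, ?_⟩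
  · rw [LinearEquiv.coe_toLinearMap_mul, map_mul, h2, a2, mul_inv_cancel₀ (mu_ne_zero hl)]
  · rw [LinearEquiv.mul_apply, a4 u (hf.flip_zero huv), h3]
  · rw [LinearEquiv.mul_apply, a3, map_smul, h4 v huv]

variable {W : Type*} [AddCommGroup W] [Module F W] [FiniteDimensional F W]
  {h : W →ₛₗ[σ] W →ₗ[F] F} {B : U ⊗[F] W →ₛₗ[σ] U ⊗[F] W →ₗ[F] F}
  {M : Subgroup (U ⊗[F] W ≃ₗ[F] U ⊗[F] W)}

namespace UT

variable (hT : UT f h B M)
include hT

theorem tmul_mem_of_iso {S : Submodule F (U ⊗[F] W)} {u : U}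
    (h1 : ∀ v, h v v = 0 → u ⊗ₜ v ∈ S) (w : W) : u ⊗ₜ w ∈ S :=
  hT.hh.le_of_isotropic_mem (S := S.comap (TensorProduct.mk F U W u)) hT.hh.nondegOn_top
    (by rw [finrank_top]; have := hT.three; omega) (fun v _ hv => h1 v hv) (Submodule.mem_top (x := w))

theorem eq_top_of_pair (h2 : finrank F U = 2) {S : Submodule F (U ⊗[F] W)} {u e : U} {c : F}
    (hp : HypPair f u e) (hc : c ≠ 0) (h1 : ∀ v, h v v = 0 → u ⊗ₜ v ∈ S)
    (h3 : ∀ v, h v v = 0 → (u + c • e) ⊗ₜ v ∈ S) : S = ⊤ := by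
  refine Submodule.eq_top_iff'.2 fun p => ?_
  induction p using TensorProduct.induction_on with
  | zero => exact S.zero_mem
  | add a b ha hb => exact S.add_mem ha hb
  | tmul x w =>
    convert S.add_mem (S.smul_mem (f e x - f u x / c) (hT.tmul_mem_of_iso h1 w))
      (S.smul_mem (f u x / c) (hT.tmul_mem_of_iso h3 w)) using 1
    conv_lhs => rw [eq_hyp hT.hf h2 hp x]
    simp only [add_tmul, ← smul_tmul']
    match_scalars <;> field_simp <;> ring

/-- Transvections with centres `u ⊗ z` generate everything. -/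
theorem sisom_le_of_hasTv₃ (h2 : finrank F U = 2) (hq : ∃ k : F, σ k = k ∧ k ≠ 0 ∧ k ≠ 1)
    {u : U} (hu0 : u ≠ 0) (hu : f u u = 0) (ht : ∀ z, h z z = 0 → HasTv B M (u ⊗ₜ z)) :
    sisom B ≤ M := by
  obtain ⟨e, hp⟩ := hT.hf.exists_hypPair hu hu0
  have heu := hT.hf.flip_one hp.hef
  have hM : M ≤ isom B := fun _ hg => hT.iso hg
  have ht' : ∀ c : F, c + σ c = 0 → ∀ z, h z z = 0 → HasTv B M ((u + c • e) ⊗ₜ z) :=
    fun c hc z hz => by
    have := (ht z hz).map (hT.iso (hT.left (hT.hf.tv_mem_sisom hp.hf hc)))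
      (hT.left (hT.hf.tv_mem_sisom hp.hf hc))
    rwa [tenHom_left, tv_apply, heu, mul_one] at this
  obtain ⟨c, hc0, hc⟩ := hT.hf.inv.exists_skew'
  have hσc : σ c = -c := by linear_combination hc
  obtain ⟨k, hk, hk0, hk1⟩ := hq
  obtain ⟨z, z', hz0, hz, hz', hzz'⟩ := hT.exists_pair
  have hz'z := hT.hh.flip_one hzz'
  obtain ⟨y, hy, hzy, hz'y⟩ := exists_hypPerp hT.hh hT.three ⟨hz, hz', hzz'⟩
  obtain ⟨ν, hν, hν'⟩ : ∃ ν, ν + σ ν = h y y ∧ σ ν ≠ ν := by
    obtain ⟨ν, hν⟩ := hT.hf.inv.exists_trace_eq (hT.hh.norm_fixed y)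
    by_cases h1 : σ ν = ν
    · refine ⟨ν + c, by rw [map_add]; linear_combination hν + hc, fun h3 => hy ?_⟩
      rw [map_add, h1, hσc] at h3
      have h4 : (2 : F) = 0 := (mul_eq_zero.1 (show 2 * c = 0 by linear_combination -h3)).resolve_right hc0
      linear_combination -hν + ν * h4 + h1
    · exact ⟨ν, hν, h1⟩
  have hν0 : ν ≠ 0 := by rintro rfl; simp at hν'
  set z₃ := z' + y - ν • z with hz₃
  have a1 : h z₃ z₃ = 0 := by
    simp only [hz₃, map_sub, map_add, map_smul, LinearMap.sub_apply, LinearMap.add_apply,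
      smul_left, hz, hz', hzz', hz'z,
      hzy, hz'y, hT.hh.flip_zero hzy, hT.hh.flip_zero hz'y, smul_eq_mul]
    linear_combination -hν
  have a2 : h z' z₃ = -ν := by simp [hz₃, hz', hz'y, hz'z]
  have a3 : h z₃ z = 1 := by simp [hz₃, hz, hz'z, hT.hh.flip_zero hzy]
  clear_value z₃
  have iso : ∀ (x : U) {v}, h v v = 0 → B (x ⊗ₜ v) (x ⊗ₜ v) = 0 := fun x v hv => by
    rw [hT.tm, hv, mul_zero]
  obtain ⟨E, b1, b2, b3, b4, b5, b6⟩ := hT.hB.hasTv_of_triple hM (iso u hz) (iso (u + c • e) hz')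
    (iso (u + (c * k) • e) a1) (ht z hz) (ht' c hc z' hz') (ht' _ (skew_mul_fixed hc hk) z₃ a1) (by
      simp only [hT.tm, hzz', a2, a3, map_add, map_smul, LinearMap.add_apply, smul_left, hu, hp.hf,
        hp.hef,
        heu, smul_eq_mul, map_mul, hσc, hk, map_neg, map_zero, map_one]
      refine ne_of_eq_of_ne (b := k * (k - 1) * c ^ 3 * (ν - σ ν)) (by ring) ?_
      exact mul_ne_zero (mul_ne_zero (mul_ne_zero hk0 (sub_ne_zero.2 hk1)) (pow_ne_zero _ hc0))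
        (sub_ne_zero.2 hν'.symm))
  obtain ⟨E', c1, c2, c3, c4, -⟩ := hT.hB.exists_grow hM (fun r hr => by
      by_contra! H
      refine hr (hT.hB.nondeg r fun p => mem_perp_span_singleton.1 ?_)
      rw [hT.eq_top_of_pair h2 hp hc0 (S := perp B (F ∙ r))
        (fun v hv => mem_perp_span_singleton.2 (H _ (iso _ hv) (ht v hv)))
        fun v hv => mem_perp_span_singleton.2 (H _ (iso _ hv) (ht' c hc v hv))]
      trivial) b4 b5.ge fun g hg => hT.hB.mem_of_hasTv b4 b4 le_rfl b6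
        (Or.inr (Or.inl ⟨k, hk, hk0, hk1⟩)) hg.1 hg.2
  have key : ∀ {x p}, p ∈ E' → ∀ {v}, h v v = 0 → HasTv B M (x ⊗ₜ v) → B p (x ⊗ₜ v) ≠ 0 →
      x ⊗ₜ v ∈ E' := fun hp v hv h1 h3 => (c4 _ (iso _ hv) h1).resolve_right fun h4 => h3 (h4 _ hp)
  have d1 : ∀ v, h v v = 0 → h z' v ≠ 0 → u ⊗ₜ v ∈ E' := fun v hv h1 =>
    key (c1 b2) hv (ht v hv) (by simpa [hT.tm, hu, heu, hc0] using h1)
  have d2 : ∀ v, h v v = 0 → u ⊗ₜ v ∈ E' := fun v hv => by
    by_cases h1 : h z₃ v = 0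
    swap
    · exact key (c1 b3) hv (ht v hv) (by simpa [hT.tm, hu, heu, hc0, hk0] using h1)
    by_cases h3 : h z' v = 0
    swap
    · exact d1 v hv h3
    have h4 := d1 (v + z₃) (by simp [hv, a1, h1, hT.hh.flip_zero h1])
      (by simpa [h3, a2] using hν0)
    rw [tmul_add] at h4
    exact (E'.add_mem_iff_left (d1 z₃ a1 (by simpa [a2] using hν0))).1 h4
  rw [← hT.hB.suOn_top, ← hT.eq_top_of_pair h2 hp hc0 d2 fun v hv => ?_]
  · exact c3
  by_cases hv0 : v = 0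
  · simp [hv0]
  obtain ⟨w, hw⟩ := hT.hh.exists_eq_one hv0
  exact key (hT.tmul_mem_of_iso d2 w) hv (ht' c hc v hv)
    (by simpa [hT.tm, hu, hp.hef, hT.hh.flip_one hw] using hc0)

theorem gs_of_not_le (h2 : finrank F U = 2) (hq : ∃ k : F, σ k = k ∧ k ≠ 0 ∧ k ≠ 1)
    (hM : ¬ sisom B ≤ M) : hT.GS := fun γ hγ => by
  by_contra hns
  obtain ⟨u, hu0, hu, H⟩ := exists_ro_mem hT.hf hT.two hT.big hT.Gam
    (fun k hk γ => hT.smul_mem_Gam hk) (fun α hα γ => hT.conj_mem_Gam hα)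
    (fun γ => hT.skew_of_mem_Gam) hγ hns
  refine hM (hT.sisom_le_of_hasTv₃ h2 hq hu0 hu fun z hz c h1 hc => ?_)
  obtain ⟨g, hg, H'⟩ := H c hc z hz
  convert hg using 1
  ext p
  rw [tv_apply, H', hT.B_tmul, LinearMap.smul_apply, ro_apply, smul_smul, smul_tmul']

omit [Finite F] [FiniteDimensional F U] [FiniteDimensional F W] in
theorem B_iso (x : U) {v : W} (hv : h v v = 0) : B (x ⊗ₜ v) (x ⊗ₜ v) = 0 := by
  rw [hT.tm, hv, mul_zero]

/-- A product of two transvections with centres in `u ⊗ W`, `u` non-isotropic, cannot lie in a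
proper overgroup. -/
theorem not_mem_tv_mul (hΓ : hT.GS) (hq : ∃ k : F, σ k = k ∧ k ≠ 0 ∧ k ≠ 1) {u : U}
    (hu : f u u ≠ 0) {z v : W} (hp : HypPair h z v) {c d : F} (hc0 : c ≠ 0) (hc : c + σ c = 0)
    (hd : d + σ d = 0) :
    tv B (u ⊗ₜ z) c (hT.B_iso u hp.he) hc * tv B (u ⊗ₜ v) d (hT.B_iso u hp.hf) hd ∉ M := by
  intro H
  have h1 : ∀ {a b} (hab : HypPair h a b),
      tv B (u ⊗ₜ a) c (hT.B_iso u hab.he) hc * tv B (u ⊗ₜ b) d (hT.B_iso u hab.hf) hd ∈ M := by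
    intro a b hab
    obtain ⟨β, hβ, rfl⟩ := hT.trans hp.he hp.ne_zero hab.he hab.ne_zero
    obtain ⟨β', hβ', h2⟩ := hT.hh.exists_uniRad_map (e := β z) (f := β v)
      ⟨hab.he, by rw [hβ.1, hp.hf], by rw [hβ.1, hp.hef]⟩ hab
    have h3 := hT.right (mul_mem hβ'.1 hβ)
    convert M.mul_mem (M.mul_mem h3 H) (M.inv_mem h3) using 1
    rw [← conj_mul, tv_conj (hT.iso h3), tv_conj (hT.iso h3)]
    simp only [tenHom_right, LinearEquiv.mul_apply, hβ'.2.1, h2]
  obtain ⟨y, hy, hzy, hvy⟩ := exists_hypPerp hT.hh hT.three hp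
  have hvz := hT.hh.flip_one hp.hef
  have h2 : ∀ κ : F, ∃ b, h b b = 0 ∧ h z b = κ ∧ h v b = 1 := fun κ => by
    obtain ⟨s, hs⟩ := hT.hh.exists_smul_norm_eq hy (a := -(κ + σ κ))
      (by rw [map_neg, hT.hh.inv.trace_fixed])
    refine ⟨z + s • y + κ • v, ?_, by simp [hp.he, hp.hef, hzy], by simp [hp.hf, hvz, hvy]⟩
    rw [add_left, add_left, map_add, map_add, map_add, map_add, map_add, map_add, hs]
    simp only [smul_left, smul_right, hp.he, hp.hf, hp.hef, hvz, hzy, hvy, hT.hh.flip_zero hzy,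
      hT.hh.flip_zero hvy]
    ring
  obtain ⟨k, hk, hk0, hk1⟩ := hq
  obtain ⟨ρ, rfl⟩ := hT.hf.inv.exists_norm_eq hk
  have hρ : σ ρ ≠ 0 := right_ne_zero_of_mul hk0
  obtain ⟨b₁, a1, a2, a3⟩ := h2 1
  obtain ⟨b₂, b1, b2, b3⟩ := h2 (σ ρ)⁻¹
  have h3 := M.mul_mem (M.mul_mem (M.mul_mem (h1 (a := ρ • z) ⟨isotropic_smul hp.he ρ, b1, by
    rw [smul_left, b2, mul_inv_cancel₀ hρ]⟩) (M.inv_mem (h1 ⟨hp.hf, b1, b3⟩))) (h1 ⟨hp.hf, a1, a3⟩))
    (M.inv_mem (h1 ⟨hp.he, a1, a2⟩))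
  simp only [mul_inv_rev, mul_assoc, mul_inv_cancel_left, inv_mul_cancel_left] at h3
  obtain ⟨s, hs⟩ := hΓ ((c * (ρ * σ ρ - 1)) • ro f u u) (hT.mem_Gam hp.he hp.ne_zero h3 fun p => by
    simp only [tv_inv, LinearEquiv.mul_apply, tv_apply, tmul_smul, smul_left, map_add, map_smul,
      hT.B_iso u hp.he, LinearMap.smul_apply, ro_apply, ← smul_tmul', ← hT.B_tmul]
    module)
  obtain ⟨x, hx, hux⟩ := exists_orth hT.hf hT.two hu
  have hx0 : x ≠ 0 := by rintro rfl; simp at hx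
  have hu0 : u ≠ 0 := by rintro rfl; simp at hu
  have h4 := hs x
  have h5 := hs u
  rw [LinearMap.smul_apply, ro_apply] at h4 h5
  rw [hux, zero_smul, smul_zero, eq_comm, smul_eq_zero_iff_left hx0] at h4
  rw [h4, zero_smul, smul_smul, smul_eq_zero_iff_left hu0] at h5
  exact mul_ne_zero (mul_ne_zero hc0 (sub_ne_zero.2 hk1)) hu h5

end UT

end Cfsg.Agent.H26
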