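import Cfsg.Agent.H26.UTen3A

/-!
Maximality of `GU₂(q) ∘ GU₃(q)` in `SU₆(q)`, `q ≥ 3`.
-/

set_option autoImplicit false

namespace Cfsg.Agent.H26

open H31 Module TensorProduct

variable {F : Type*} [Field F] [Finite F] {σ : F →+* F}
  {U : Type*} [AddCommGroup U] [Module F U] {f : U →ₛₗ[σ] U →ₗ[F] F} [FiniteDimensional F U]
  {W : Type*} [AddCommGroup W] [Module F W] [FiniteDimensional F W]
  {h : W →ₛₗ[σ] W →ₗ[F] F} {B : U ⊗[F] W →ₛₗ[σ] U ⊗[F] W →ₗ[F] F}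
  {M : Subgroup (U ⊗[F] W ≃ₗ[F] U ⊗[F] W)}

omit [Finite F] [FiniteDimensional F U] [FiniteDimensional F W] in
theorem tensor_ext {φ ψ : U ⊗[F] W →ₗ[F] U ⊗[F] W} (H : ∀ x w, φ (x ⊗ₜ w) = ψ (x ⊗ₜ w))
    (p : U ⊗[F] W) : φ p = ψ p := LinearMap.congr_fun (TensorProduct.ext' H) p

omit [Finite F] in
theorem act_eq_of_le {g : U ⊗[F] W ≃ₗ[F] U ⊗[F] W} {T : Submodule F (U ⊗[F] W)}
    (H : ∀ x ∈ T, g x ∈ T) : act g T = T :=
  Submodule.eq_of_le_of_finrank_eq (by rintro _ ⟨x, hx, rfl⟩; exact H x hx) (finrank_act g T)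

namespace UT

variable (hT : UT f h B M) (h2 : finrank F U = 2) (h3 : finrank F W = 3)
include hT

section Dec

omit [Finite F] [FiniteDimensional F W] in
include h2 in
theorem eq_orth_tmul {u v : U} (hu : f u u ≠ 0) (hv : f v v ≠ 0) (huv : f u v = 0)
    (p : U ⊗[F] W) : p = u ⊗ₜ ((f u u)⁻¹ • cL W (f u) p) + v ⊗ₜ ((f v v)⁻¹ • cL W (f v) p) := by
  induction p using TensorProduct.induction_on with
  | zero => simp
  | add a b ha hb =>
    conv_lhs => rw [ha, hb]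
    simp only [map_add, smul_add, tmul_add]
    abel
  | tmul x w =>
    conv_lhs => rw [eq_orth hT.hf h2 hu hv huv x]
    simp only [cL_tmul, add_tmul, tmul_smul, ← smul_tmul', smul_smul, div_eq_inv_mul]

omit [Finite F] [FiniteDimensional F W] in
include h2 in
theorem cR_tmul_eq {u v : U} (hu : f u u ≠ 0) (hv : f v v ≠ 0) (huv : f u v = 0) (z : W)
    (p : U ⊗[F] W) : cR U (h z) p ⊗ₜ z =
      (B (u ⊗ₜ z) p / f u u) • u ⊗ₜ[F] z + (B (v ⊗ₜ z) p / f v v) • v ⊗ₜ z := by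
  conv_lhs => rw [eq_orth hT.hf h2 hu hv huv (cR U (h z) p)]
  rw [add_tmul, hT.B_tmul, hT.B_tmul, smul_tmul', smul_tmul']

omit [Finite F] [FiniteDimensional F U] in
include h3 in
theorem eq_three_tmul {z z' y : W} (hp : HypPair h z z') (hy : h y y ≠ 0) (h1 : h z y = 0)
    (h4 : h z' y = 0) (p : U ⊗[F] W) :
    p = cR U (h z') p ⊗ₜ z + cR U (h z) p ⊗ₜ z' + (h y y)⁻¹ • cR U (h y) p ⊗ₜ y := by
  induction p using TensorProduct.induction_on with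
  | zero => simp
  | add a b ha hb =>
    conv_lhs => rw [ha, hb]
    simp only [map_add, smul_add, add_tmul]
    abel
  | tmul x w =>
    conv_lhs => rw [eq_three hT.hh h3 hp hy h1 h4 w]
    simp only [cR_tmul, tmul_add, tmul_smul, ← smul_tmul', smul_smul, div_eq_inv_mul]

end Dec

variable (hΓ : hT.GS) (hq : ∃ k : F, σ k = k ∧ k ≠ 0 ∧ k ≠ 1) {z : W} (hz : h z z = 0)
  (hz0 : z ≠ 0)
include hΓ hz hz0

theorem mem_tenG_of_tv {g : U ⊗[F] W ≃ₗ[F] U ⊗[F] W} (hg : g ∈ M) {v : W} (hv : h v v = 0)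
    (hv0 : v ≠ 0) (H : ∀ x ∈ act g (sR F U z), cR U (h v) x ⊗ₜ v ∈ act g (sR F U z)) :
    g ∈ tenG F U W := by
  obtain ⟨c, hc0, hc⟩ := hT.hf.inv.exists_skew'
  refine hT.mem_tenG_of_norm₃ hΓ hz hz0 hg hv hv0 hc hc0 (act_eq_of_le fun x hx => ?_)
  rw [ten_tv]
  exact Submodule.add_mem _ hx (Submodule.smul_mem _ _ (H x hx))

include h3 in
/-- Two orthogonal conjugates of `U ⊗ z` coincide. -/
theorem eq_of_orth {T₁ T₂ : Submodule F (U ⊗[F] W)} (h1 : T₁ ∈ Orb M z) (h4 : T₂ ∈ Orb M z)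
    (H : ∀ s ∈ T₁, ∀ t ∈ T₂, B s t = 0) : T₁ = T₂ := by
  obtain ⟨k, hk, rfl⟩ := h1
  obtain ⟨g, hg, h5⟩ := orb_act h4 (M.inv_mem hk)
  have h6 : ∀ x ∈ act g (sR F U z), cR U (h z) x = 0 := fun x hx => hT.cR_eq_zero fun y => by
    rw [← hT.iso hk]
    exact H _ (apply_mem_act.2 (tmul_mem_sR y z)) _ (mem_act.1 (h5 ▸ hx))
  obtain ⟨α, β, rfl⟩ := mem_tenG.1 (hT.mem_tenG_of_tv hΓ hz hz0 hg hz hz0 fun x hx => by
    rw [h6 x hx, zero_tmul]; exact zero_mem _)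
  have h7 := fun s t => hT.B_orb hz (T := act (tenHom F U W (α, β)) (sR F U z)) ⟨_, hg, rfl⟩
    (s := s) (t := t)
  rw [act_ten] at h5 h6 h7
  have := hT.ntU
  obtain ⟨x, hx⟩ := exists_ne (0 : U)
  obtain ⟨y, hy⟩ := hT.hf.exists_eq_one hx
  have h8 := h6 _ (tmul_mem_sR x _)
  have h9 := h7 _ _ (tmul_mem_sR x _) (tmul_mem_sR y _)
  rw [cR_tmul, smul_eq_zero_iff_left hx] at h8
  rw [hT.tm, hy, one_mul] at h9
  obtain ⟨c, hc⟩ := Submodule.mem_span_singleton.1 (mem_span_of_iso hT.hh h3.le hz0 hz h9 h8)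
  rw [← act_act_inv k T₂, h5, ← hc, sR_smul]
  rintro rfl
  exact hz0 (β.injective (by rw [← hc, zero_smul, map_zero]))

theorem notMem_tenG_of_mem {g : U ⊗[F] W ≃ₗ[F] U ⊗[F] W} (hne : act g (sR F U z) ≠ sR F U z)
    {u : U} (hu0 : u ≠ 0) (hu : u ⊗ₜ z ∈ act g (sR F U z)) : g ∉ tenG F U W := fun hg => by
  obtain ⟨α, β, rfl⟩ := mem_tenG.1 hg
  rw [act_ten] at hne hu
  exact hne (sR_eq_of_mem hz0 (tmul_ne_zero' hu0 hz0) (tmul_mem_sR u z) hu).symm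

include h2 in
theorem norm_ne_zero_of_mem {g : U ⊗[F] W ≃ₗ[F] U ⊗[F] W} (hg : g ∈ M)
    (hne : act g (sR F U z) ≠ sR F U z) {u : U} (hu0 : u ≠ 0) (hu : u ⊗ₜ z ∈ act g (sR F U z)) :
    f u u ≠ 0 := fun h0 => by
  refine hT.notMem_tenG_of_mem hΓ hz hz0 hne hu0 hu
    (hT.mem_tenG_of_tv hΓ hz hz0 hg hz hz0 fun x hx => ?_)
  obtain ⟨c, hc⟩ := Submodule.mem_span_singleton.1 (mem_span_of_iso_two hT.hf h2 hu0 h0
    (w := cR U (h z) x) (by rw [← hT.B_tmul]; exact hT.B_orb hz ⟨g, hg, rfl⟩ hu hx))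
  rw [← hc, ← smul_tmul']
  exact Submodule.smul_mem _ _ hu

include h2 h3 in
theorem exists_pure_of_mem {g : U ⊗[F] W ≃ₗ[F] U ⊗[F] W} (hg : g ∈ M)
    (hne : act g (sR F U z) ≠ sR F U z) {u u' : U} (hu : f u u ≠ 0) (hu' : f u' u' ≠ 0)
    (huu' : f u u' = 0) (hδ : u ⊗ₜ z ∈ act g (sR F U z)) :
    ∃ v, HypPair h z v ∧ u' ⊗ₜ v ∈ act g (sR F U z) ∧
      ∀ t ∈ act g (sR F U z), ∃ a b : F, t = a • u ⊗ₜ z + b • u' ⊗ₜ v := by
  set T := act g (sR F U z) with hTdef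
  have hTO : T ∈ Orb M z := ⟨g, hg, rfl⟩
  have hu0 : u ≠ 0 := by rintro rfl; simp at hu
  have hu0' : u' ≠ 0 := by rintro rfl; simp at hu'
  have hu'u := hT.hf.flip_zero huu'
  have a1 : finrank F T = 2 := by rw [finrank_act, finrank_sR hz0, h2]
  have hsp : ∀ x ∈ T, x ∉ F ∙ (u ⊗ₜ[F] z) → ∀ t ∈ T, ∃ a b : F, t = a • u ⊗ₜ z + b • x := by
    intro x hx hxn t ht
    have := PForm.finrank_sup_span_of_notMem hxn
    rw [finrank_span_singleton (tmul_ne_zero' hu0 hz0)] at this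
    rw [← Submodule.eq_of_le_of_finrank_eq (sup_le ((Submodule.span_singleton_le_iff_mem _ _).2 hδ)
      ((Submodule.span_singleton_le_iff_mem _ _).2 hx)) (this.trans a1.symm)] at ht
    obtain ⟨_, hs, b, rfl⟩ := PForm.mem_sup_span.1 ht
    obtain ⟨a, rfl⟩ := Submodule.mem_span_singleton.1 hs
    exact ⟨a, b, rfl⟩
  obtain ⟨x, hx, hxn⟩ := exists_mem_notMem_of_finrank_lt (A := T) (S := F ∙ (u ⊗ₜ[F] z))
    (by rw [finrank_span_singleton (tmul_ne_zero' hu0 hz0)]; omega)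
  obtain ⟨w₂, w₁, rfl⟩ : ∃ w₂ w₁, x = u ⊗ₜ w₂ + u' ⊗ₜ w₁ := ⟨_, _, hT.eq_orth_tmul h2 hu hu' huu' x⟩
  have a2 : h z w₂ = 0 := by
    simpa [hT.tm, huu', hu] using hT.B_orb hz hTO hδ hx
  have a3 : h z w₁ ≠ 0 := fun e => hne (hT.eq_of_orth h3 hΓ hz hz0 (self_mem_Orb z) hTO
    fun s hs t ht => by
      obtain ⟨a, b, rfl⟩ := hsp _ hx hxn t ht
      exact hT.B_sR hs (by simp [cR_tmul, hz, a2, e])).symm
  have a4 : f u u * h w₂ w₂ + f u' u' * h w₁ w₁ = 0 := by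
    simpa [hT.tm, huu', hu'u] using hT.B_orb hz hTO hx hx
  have a5 : w₂ ∈ F ∙ z := by
    obtain ⟨l, hl, hl'⟩ := exists_mu_sq_ne hT.hf.inv
    have hl0 := mu_ne_zero hl
    obtain ⟨α, hα, b1, b2⟩ := exists_diag_sisom hT.hf hu hu' huu' hl
    have hσ3 : σ (h z w₁) ≠ 0 := (map_ne_zero σ).2 a3
    obtain ⟨y₁, -, b3, b4⟩ := hT.hh.exists_norm_ne_zero (hT.hh.nondegOn_perp
      (hT.hh.nondegOn_span_pair (u := z) (v := w₁) (by
        simpa [hz, a3] using hT.hh.flip_ne_zero a3))) (fun e => by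
        have := hT.hh.finrank_add_finrank_perp (Submodule.span F {z, w₁})
        rw [e, finrank_bot, finrank_span_pair_of_gram (B := h) (by
          simpa [hz, a3] using hT.hh.flip_ne_zero a3)] at this
        omega) |>.imp fun y hy => (⟨trivial, hy.2, mem_perp_span.1 hy.1⟩ : True ∧ _ ∧ _)
    set ν := (1 - l * l) * h w₁ w₁ / (h z w₁ * σ (h z w₁)) with hν
    obtain ⟨s, hs⟩ := hT.hh.exists_smul_norm_eq b3 (hT.hh.inv.trace_fixed ν)
    have b5 : h z (s • y₁) = 0 := by rw [smul_right, b4 z (by simp), mul_zero]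
    have b6 : h w₁ (s • y₁) = 0 := by rw [smul_right, b4 w₁ (by simp), mul_zero]
    generalize s • y₁ = y at hs b5 b6
    obtain ⟨β, hβ, Hβ⟩ := exists_eich hT.hh hz b5 hs.symm
    have hk := hT.ten_mem hα hβ
    have c1 : tenHom F U W (α, β) (u ⊗ₜ z) = l • u ⊗ₜ z := by
      simp [tenHom_tmul, b1, Hβ, hz, hT.hh.flip_zero b5, smul_tmul']
    have c2 : tenHom F U W (α, β) (u ⊗ₜ w₂ + u' ⊗ₜ w₁) = l • u ⊗ₜ (w₂ - h y w₂ • z) +
        l⁻¹ • u' ⊗ₜ (w₁ + h z w₁ • y - (ν * h z w₁) • z) := by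
      simp [tenHom_tmul, b1, b2, Hβ, a2, hT.hh.flip_zero b6, smul_tmul']
    have c3 : B (u ⊗ₜ w₂ + u' ⊗ₜ w₁) (tenHom F U W (α, β) (u ⊗ₜ w₂ + u' ⊗ₜ w₁)) = 0 := by
      simp only [c2, add_left, map_add, map_smul, hT.tm, huu', hu'u, map_sub, b6,
        hT.hh.flip_zero a2, ← hT.hh.symm z w₁, smul_eq_mul, LinearMap.add_apply, hν]
      field_simp
      linear_combination l ^ 2 * σ (h z w₁) * a4
    have c4 : act (tenHom F U W (α, β)) T = T := (hT.eq_of_orth h3 hΓ hz hz0 hTO (orb_act hTO hk)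
      fun s hs t ht => by
        obtain ⟨t, ht, rfl⟩ := ht
        obtain ⟨a, b, rfl⟩ := hsp _ hx hxn s hs
        obtain ⟨a', b', rfl⟩ := hsp _ hx hxn t ht
        have d1 := hT.B_orb hz hTO hx hδ
        have d2 := hT.iso hk (u ⊗ₜ z) (u ⊗ₜ w₂ + u' ⊗ₜ w₁)
        rw [c1, smul_left, hT.B_orb hz hTO hδ hx, mul_eq_zero, map_eq_zero] at d2
        generalize u ⊗ₜ[F] w₂ + u' ⊗ₜ w₁ = x at c3 d1 d2
        simp only [LinearEquiv.coe_coe, map_add, map_smul, c1, LinearMap.add_apply, smul_left,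
          c3, d1, d2.resolve_left hl0, hT.B_iso u hz, smul_zero, add_zero, mul_zero]).symm
    obtain ⟨a, b, c5⟩ := hsp _ hx hxn _ (c4 ▸ apply_mem_act.2 hx)
    rw [c2] at c5
    have c6 := congrArg (fun p => f u' (cR U (h z) p)) c5
    have c7 := congrArg (cL W (f u)) c5
    simp only [map_add, map_smul, cR_tmul, map_sub, hz, a2, b5, hu'u, smul_eq_mul, mul_zero,
      zero_add, add_zero, sub_zero, mul_left_inj' (mul_ne_zero a3 hu')] at c6
    simp only [map_add, map_smul, cL_tmul, huu', zero_smul, smul_zero, add_zero, ← c6] at c7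
    have c8 : (l - l⁻¹) * f u u ≠ 0 := mul_ne_zero (fun e => hl' (by
      rw [sub_eq_zero] at e
      nth_rw 2 [e]
      exact mul_inv_cancel₀ hl0)) hu
    rw [← Submodule.smul_mem_iff _ c8, Submodule.mem_span_singleton]
    exact ⟨f u u * (a + l * h y w₂), by linear_combination (norm := module) -c7⟩
  obtain ⟨c, rfl⟩ := Submodule.mem_span_singleton.1 a5
  have a6 : u' ⊗ₜ ((h z w₁)⁻¹ • w₁) ∈ T := by
    rw [tmul_smul] at hx ⊢
    exact T.smul_mem _ ((T.add_mem_iff_right (T.smul_mem c hδ)).1 hx)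
  refine ⟨_, ⟨hz, isotropic_smul (by simpa [hz, hu'] using a4) _, by simp [a3]⟩, a6,
    hsp _ a6 fun e => ?_⟩
  obtain ⟨a, ha⟩ := Submodule.mem_span_singleton.1 e
  simpa [cR_tmul, hz, a3, hu0', eq_comm (a := (0 : U))] using congrArg (cR U (h z)) ha

include h2 h3 hq in
theorem not_mem_of_ne {g : U ⊗[F] W ≃ₗ[F] U ⊗[F] W} (hg : g ∈ M)
    (hne : act g (sR F U z) ≠ sR F U z) {u : U} (hu0 : u ≠ 0) : u ⊗ₜ z ∉ act g (sR F U z) := by
  intro hδ
  have hu := hT.norm_ne_zero_of_mem h2 hΓ hz hz0 hg hne hu0 hδ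
  obtain ⟨u', hu', huu'⟩ := exists_orth hT.hf hT.two hu
  have hu'u := hT.hf.flip_zero huu'
  have hu0' : u' ≠ 0 := by rintro rfl; simp at hu'
  obtain ⟨v, hp, hv, hsp⟩ := hT.exists_pure_of_mem h2 h3 hΓ hz hz0 hg hne hu hu' huu' hδ
  obtain ⟨u₁, e1⟩ := mem_sR.1 (mem_act.1 hδ)
  obtain ⟨u₂, e2⟩ := mem_sR.1 (mem_act.1 hv)
  have e3 : g (u₁ ⊗ₜ z) = u ⊗ₜ z := by rw [e1, apply_inv_apply]
  have e4 : g (u₂ ⊗ₜ z) = u' ⊗ₜ v := by rw [e2, apply_inv_apply]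
  have a1 : f u₁ u₁ ≠ 0 := hT.norm_ne_zero_of_mem h2 hΓ hz hz0 (M.inv_mem hg)
    (fun e => hne (by conv_lhs => rw [← e, act_act_inv]))
    (by rintro rfl; exact tmul_ne_zero' hu0 hz0 (by rw [← e3, zero_tmul, map_zero]))
    (by rw [e1, apply_mem_act]; exact tmul_mem_sR u z)
  obtain ⟨c, hc0, hc⟩ := hT.hf.inv.exists_skew'
  have a2 : f u₂ u₁ = 0 := by
    obtain ⟨l, hl, hl'⟩ := exists_mu_sq_ne hT.hf.inv
    have hl0 := mu_ne_zero hl
    obtain ⟨α, hα, b1, b2⟩ := exists_diag_sisom hT.hf hu hu' huu' hl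
    have hk := M.mul_mem (M.mul_mem (M.inv_mem hg) (hT.left hα)) hg
    have b3 : (g⁻¹ * tenHom F U W (α, 1) * g) (u₁ ⊗ₜ z) = l • u₁ ⊗ₜ z := by
      simp only [LinearEquiv.mul_apply, e3, tenHom_left, b1, ← smul_tmul', map_smul, ← e1]
    have b4 : (g⁻¹ * tenHom F U W (α, 1) * g) (u₂ ⊗ₜ z) = l⁻¹ • u₂ ⊗ₜ z := by
      simp only [LinearEquiv.mul_apply, e4, tenHom_left, b2, ← smul_tmul', map_smul, ← e2]
    have b5 : ∀ x, (g⁻¹ * tenHom F U W (α, 1) * g) (x ⊗ₜ z) ∈ sR F U z := fun x => by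
      obtain ⟨a, b, b5⟩ := hsp _ (apply_mem_act.2 (tmul_mem_sR x z))
      rw [← e3, ← e4, ← map_smul, ← map_smul, ← map_add, g.injective.eq_iff] at b5
      rw [b5, map_add, map_smul, map_smul, b3, b4]
      exact add_mem (Submodule.smul_mem _ _ (Submodule.smul_mem _ _ (tmul_mem_sR _ _)))
        (Submodule.smul_mem _ _ (Submodule.smul_mem _ _ (tmul_mem_sR _ _)))
    generalize g⁻¹ * tenHom F U W (α, 1) * g = k at hk b3 b4 b5
    obtain ⟨s, hs⟩ := hT.eq_of_range₃ hΓ hz hz0 (M.mul_mem (M.mul_mem hk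
      (hT.right (hT.hh.tv_mem_sisom hz hc))) (M.inv_mem hk)) fun p => by
        rw [LinearEquiv.mul_apply, LinearEquiv.mul_apply, ten_tv, map_add, apply_inv_apply,
          add_sub_cancel_left, map_smul]
        exact Submodule.smul_mem _ _ (b5 _)
    have b6 := hs (k (u₁ ⊗ₜ v))
    rw [LinearEquiv.mul_apply, LinearEquiv.mul_apply, inv_apply_apply, ten_tv, map_add,
      add_right_inj, cR_tmul, hp.hef, one_smul, map_smul, b3, smul_tmul', smul_tmul',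
      smul_tmul'] at b6
    have b7 := tmul_inj_left hz0 b6
    have b8 := hT.iso hk (u₁ ⊗ₜ z) (u₁ ⊗ₜ v)
    have b9 := hT.iso hk (u₂ ⊗ₜ z) (u₁ ⊗ₜ v)
    rw [b3, smul_left, hT.B_tmul, hT.tm, hp.hef, mul_one] at b8
    rw [b4, smul_left, hT.B_tmul, hT.tm, hp.hef, mul_one, map_inv₀, mu_σ hl, inv_inv] at b9
    have c1 := congrArg (f u₁) b7
    have c2 := congrArg (f u₂) b7
    simp only [map_smul, smul_eq_mul] at c1 c2
    have c3 : s = c := mul_right_cancel₀ a1 (by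
      linear_combination (-σ l) * c1 - s * b8 + c * f u₁ u₁ * hl)
    rw [c3, mul_right_inj' hc0] at c2
    have c4 : (l * l - 1) * f u₂ u₁ = 0 := by linear_combination l * c2 + b9
    exact (mul_eq_zero.1 c4).resolve_left (sub_ne_zero.2 hl')
  have a3 : f u₂ u₂ ≠ 0 := fun e => by
    obtain ⟨a, ha⟩ := Submodule.mem_span_singleton.1 (mem_span_of_iso_two hT.hf h2 (by
      rintro rfl
      exact tmul_ne_zero' hu0' (hp.symm hT.hh.toIsHermSymm).ne_zero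
        (by rw [← e4, zero_tmul, map_zero])) e a2)
    exact a1 (by rw [← ha]; exact isotropic_smul e a)
  have a4 : ∀ {x : U}, f x x ≠ 0 → ∀ {d : F}, d + σ d = 0 → d / f x x + σ (d / f x x) = 0 :=
    fun {x} hx d hd => by
    rw [map_div₀, hT.hf.norm_fixed, ← add_div, hd, zero_div]
  have a5 := skew_neg (skew_mul_fixed (a4 a1 hc) (hT.hf.norm_fixed u))
  refine hT.not_mem_tv_mul hΓ hq hu' hp (div_ne_zero (neg_ne_zero.2
    (mul_ne_zero (div_ne_zero hc0 a1) hu)) hu') (a4 hu' a5) (a4 a3 hc) ?_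
  convert M.mul_mem (hT.right (hT.hh.tv_mem_sisom hz a5)) (M.mul_mem (M.mul_mem hg
    (hT.right (hT.hh.tv_mem_sisom hz hc))) (M.inv_mem hg)) using 1
  ext p
  have b1 : (g * tenHom F U W (1, tv h z c hz hc) * g⁻¹) p =
      p + (c / f u₁ u₁ * B (u ⊗ₜ z) p) • u ⊗ₜ z + (c / f u₂ u₂ * B (u' ⊗ₜ v) p) • u' ⊗ₜ v := by
    rw [LinearEquiv.mul_apply, LinearEquiv.mul_apply, ten_tv, map_add, apply_inv_apply,
      hT.cR_tmul_eq h2 a1 a3 (hT.hf.flip_zero a2), ← isom_adj (hT.iso hg), ← isom_adj (hT.iso hg)]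
    simp only [map_add, map_smul, e3, e4]
    match_scalars <;> ring
  rw [LinearEquiv.mul_apply (tenHom F U W _), b1, ten_tv, hT.cR_tmul_eq h2 hu hu' huu',
    LinearEquiv.mul_apply, tv_apply, tv_apply]
  simp only [map_add, map_smul, hT.tm, hz, huu', hu'u, smul_eq_mul]
  match_scalars <;> field_simp <;> ring

include h2 h3 hq in
/-- Distinct conjugates of `U ⊗ z` intersect trivially. -/
theorem inf_eq_bot₃ {T₁ T₂ : Submodule F (U ⊗[F] W)} (h1 : T₁ ∈ Orb M z) (h4 : T₂ ∈ Orb M z)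
    (hne : T₁ ≠ T₂) : T₁ ⊓ T₂ = ⊥ := by
  obtain ⟨k, hk, rfl⟩ := h1
  obtain ⟨g, hg, h5⟩ := orb_act h4 (M.inv_mem hk)
  refine (Submodule.eq_bot_iff _).2 fun p hp => ?_
  obtain ⟨u, hu⟩ := mem_sR.1 (mem_act.1 hp.1)
  by_contra hp0
  refine hT.not_mem_of_ne h2 h3 hΓ hq hz hz0 hg (u := u) (fun e => hne ?_) ?_ ?_
  · rw [← e, ← h5, act_act_inv]
  · rintro rfl
    exact hp0 (k⁻¹.injective (by rw [← hu, zero_tmul, map_zero]))
  · rw [← h5, hu, apply_mem_act]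
    exact hp.2

variable {g : U ⊗[F] W ≃ₗ[F] U ⊗[F] W} (hg : g ∈ M) (hg' : g ∉ tenG F U W)
include h2 h3 hq hg hg'

theorem eq_zero_of_orb₃ {v : W} (hv : h v v = 0) (hv0 : v ≠ 0) {x : U ⊗[F] W}
    (hx : x ∈ act g (sR F U z)) (h0 : cR U (h v) x = 0) : x = 0 := by
  obtain ⟨c, hc0, hc⟩ := hT.hf.inv.exists_skew'
  have h1 : act g (sR F U z) ∈ Orb M z := ⟨g, hg, rfl⟩
  refine (Submodule.eq_bot_iff _).1 (hT.inf_eq_bot₃ h2 h3 hΓ hq hz hz0
    (orb_act h1 (hT.right (hT.hh.tv_mem_sisom hv hc))) h1 fun e =>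
      hg' (hT.mem_tenG_of_norm₃ hΓ hz hz0 hg hv hv0 hc hc0 e)) x ⟨?_, hx⟩
  have : tenHom F U W (1, tv h v c hv hc) x = x := by simp [ten_tv, h0]
  rw [← this]
  exact apply_mem_act.2 hx

theorem exists_cR_eq {v : W} (hv : h v v = 0) (hv0 : v ≠ 0) (y : U) :
    ∃ s ∈ act g (sR F U z), cR U (h v) s = y := by
  obtain ⟨s, hs⟩ := (LinearMap.injective_iff_surjective_of_finrank_eq_finrank
    (f := cR U (h v) ∘ₗ (act g (sR F U z)).subtype) (by rw [finrank_act, finrank_sR hz0])).1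
      ((injective_iff_map_eq_zero _).2 fun s hs => Subtype.ext
        (hT.eq_zero_of_orb₃ h2 h3 hΓ hq hz hz0 hg hg' hv hv0 s.2 hs)) y
  exact ⟨s, s.2, hs⟩

theorem eq_zero_of_perp {v : W} (hv : h v v = 0) (hv0 : v ≠ 0) {u : U}
    (H : ∀ s ∈ act g (sR F U z), B s (u ⊗ₜ v) = 0) : u = 0 := hT.hf.nondeg u fun y => by
  obtain ⟨s, hs, rfl⟩ := hT.exists_cR_eq h2 h3 hΓ hq hz hz0 hg hg' hv hv0 y
  exact (hT.B_tmul u v s).symm.trans (hT.hB.flip_zero (H s hs))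

theorem not_perp {y : W} (hy : h y y ≠ 0) : ¬ ∀ s ∈ act g (sR F U z), cR U (h y) s = 0 := by
  intro H
  have hy0 : y ≠ 0 := by rintro rfl; simp at hy
  have hpd : ∀ w : W, 2 ≤ finrank F (perp h (F ∙ w)) := fun w => by
    have := hT.hh.finrank_add_finrank_perp (F ∙ w)
    have := PForm.finrank_span_singleton_le (F := F) w
    omega
  obtain ⟨v, a1, hv0, hv⟩ := exists_isotropic_mem hT.hh.toIsHermSymm (hpd y)
  obtain ⟨v', a2, hv', hvv'⟩ := hT.hh.exists_hyperbolic_of_nondegOn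
    (hT.hh.nondegOn_perp (nondegOn_span_singleton hy)) hv hv0 a1
  have a3 : ∀ s ∈ act g (sR F U z), s = cR U (h v') s ⊗ₜ v + cR U (h v) s ⊗ₜ v' := fun s hs => by
    have := hT.eq_three_tmul h3 ⟨hv, hv', hvv'⟩ hy (hT.hh.flip_zero (mem_perp_span_singleton.1 a1))
      (hT.hh.flip_zero (mem_perp_span_singleton.1 a2)) s
    rwa [H s hs, zero_tmul, smul_zero, add_zero] at this
  have a4 : ∀ s ∈ act g (sR F U z), ∀ t ∈ act g (sR F U z),
      f (cR U (h v') s) (cR U (h v) t) + f (cR U (h v) s) (cR U (h v') t) = 0 := fun s hs t ht => by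
    have := hT.B_orb hz ⟨g, hg, rfl⟩ hs ht
    rwa [a3 s hs, add_left, hT.B_tmul, hT.B_tmul] at this
  obtain ⟨e, -, he0, he⟩ := exists_isotropic_mem hT.hf.toIsHermSymm (S := ⊤)
    (by rw [finrank_top, h2])
  obtain ⟨e', hp⟩ := hT.hf.exists_hypPair he he0
  obtain ⟨p₁, b1, b2⟩ := hT.exists_cR_eq h2 h3 hΓ hq hz hz0 hg hg' hv hv0 e
  obtain ⟨p₂, b3, b4⟩ := hT.exists_cR_eq h2 h3 hΓ hq hz hz0 hg hg' hv hv0 e'
  have c1 := a4 _ b1 _ b1
  have c2 := a4 _ b3 _ b3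
  have c3 := a4 _ b1 _ b3
  rw [b2, ← hT.hf.symm] at c1
  rw [b4, ← hT.hf.symm] at c2
  rw [b2, b4, ← hT.hf.symm] at c3
  have c4 := eq_hyp hT.hf h2 hp (cR U (h v') p₁)
  have c5 := eq_hyp hT.hf h2 hp (cR U (h v') p₂)
  generalize f e (cR U (h v') p₁) = t at c1 c4
  generalize f e' (cR U (h v') p₂) = m at c2 c5
  generalize f e' (cR U (h v') p₁) = s at c3 c4
  generalize f e (cR U (h v') p₂) = n at c3 c5
  obtain rfl : n = -σ s := by linear_combination c3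
  obtain ⟨ξ, η, l, d1, d2⟩ : ∃ ξ η l : F, ξ • e + η • e' ≠ 0 ∧
      ξ • (s • e + t • e') + η • (m • e + -σ s • e') = l • (ξ • e + η • e') := by
    by_cases ht : t = 0
    · exact ⟨1, 0, s, by simpa using he0, by simp [ht]⟩
    obtain ⟨ω, hω0, hω⟩ := hT.hf.inv.exists_skew
    obtain ⟨μ, hμ⟩ := exists_root_fixed hT.hf.inv (a := -(s - σ s) / ω)
      (b := (-(s * σ s) - t * m) / ω ^ 2)
      (by simp only [map_div₀, map_neg, map_sub, hT.hf.inv.invol, hω]; field_simp; ring)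
      (by
        simp only [map_div₀, map_neg, map_sub, map_mul, map_pow, hT.hf.inv.invol, hω,
          eq_neg_of_add_eq_zero_left c1, eq_neg_of_add_eq_zero_left c2]
        ring)
    refine ⟨ω * μ + σ s, t, ω * μ, fun e0 => ht ?_, ?_⟩
    · simpa [he, hp.hef] using congrArg (f e) e0
    · field_simp at hμ
      match_scalars
      · linear_combination -hμ
      · ring
  have d3 := Submodule.add_mem _ (Submodule.smul_mem _ ξ b1) (Submodule.smul_mem _ η b3)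
  have d4 := a3 _ d3
  have d5 : cR U (h v) (ξ • p₁ + η • p₂) = ξ • e + η • e' := by rw [map_add, map_smul, map_smul, b2, b4]
  rw [d5, map_add (cR U (h v')), map_smul, map_smul, c4, c5, d2, smul_tmul, ← tmul_add] at d4
  obtain ⟨w, e1, hw0, hw⟩ := exists_isotropic_mem hT.hh.toIsHermSymm (hpd (l • v + v'))
  have d6 := hT.eq_zero_of_orb₃ h2 h3 hΓ hq hz hz0 hg hg' hw hw0 d3 (by
    rw [d4, cR_tmul, hT.hh.flip_zero (mem_perp_span_singleton.1 e1), zero_smul])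
  exact d1 (by rw [← d5, d6, map_zero])

omit hz hz0 hg hg' in
/-- A proper overgroup of the tensor product subgroup preserves the decomposition. -/
theorem le_tenG₃ : M ≤ tenG F U W := by
  intro g₀ hg₀
  by_contra hg₀'
  obtain ⟨z, z', hz0, hz, hz', hzz'⟩ := hT.exists_pair
  have := hT.ntU
  obtain ⟨x₀, hx₀⟩ := exists_ne (0 : U)
  have : Finite (U ⊗[F] W) := Module.finite_of_finite F
  obtain ⟨c, hc0, hc⟩ := hT.hf.inv.exists_skew'
  obtain ⟨k, hk, hk0, hk1⟩ := id hq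
  let X := {T : Submodule F (U ⊗[F] W) // ∃ g ∈ M, g ∉ tenG F U W ∧ T = act g (sR F U z)}
  have : Nonempty X := ⟨⟨_, g₀, hg₀, hg₀', rfl⟩⟩
  choose γ hγ hγ' hγ'' using fun T : X => T.2
  let ζ : X → ∀ d : F, d + σ d = 0 → (U ⊗[F] W ≃ₗ[F] U ⊗[F] W) := fun T d hd =>
    γ T * tenHom F U W (1, tv h z d hz hd) * (γ T)⁻¹
  have b1 : ∀ T d hd, ζ T d hd ∈ M := fun T d hd =>
    M.mul_mem (M.mul_mem (hγ T) (hT.right (hT.hh.tv_mem_sisom hz hd))) (M.inv_mem (hγ T))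
  have b2 : ∀ T d hd, d ≠ 0 → ζ T d hd ∉ tenG F U W := fun T d hd hd0 e => hγ' T (inv_mem_iff.1
    (hT.mem_tenG_of_conj₃ hΓ hz hz0 (M.inv_mem (hγ T)) hd hd0 (by rwa [inv_inv])))
  have b3 : ∀ T d hd p, ζ T d hd p - p = γ T (d • cR U (h z) ((γ T)⁻¹ p) ⊗ₜ z) := fun T d hd p => by
    simp only [ζ, LinearEquiv.mul_apply, ten_tv, map_add, apply_inv_apply, add_sub_cancel_left]
  have b4 : ∀ T d hd p, ζ T d hd p - p ∈ T.1 := fun T d hd p => by
    rw [b3, hγ'' T, apply_mem_act]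
    exact Submodule.smul_mem _ _ (tmul_mem_sR _ _)
  have b5 : ∀ T d hd p, d ≠ 0 → ζ T d hd p = p → ∀ s ∈ T.1, B s p = 0 :=
    fun T d hd p hd0 hp s hs => by
    have := b3 T d hd p
    rw [hp, sub_self, eq_comm, LinearEquiv.map_eq_zero_iff, smul_eq_zero_iff_right hd0] at this
    rw [hγ'' T] at hs
    rw [← hT.iso (M.inv_mem (hγ T))]
    exact hT.B_sR (mem_act.1 hs) (tmul_inj_left (F := F) hz0 (by rw [this, zero_tmul]))
  have b6 : ∀ T d hd p, (∀ s ∈ T.1, B s p = 0) → ζ T d hd p = p := fun T d hd p hp => by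
    rw [← sub_eq_zero, b3, hT.cR_eq_zero (q := (γ T)⁻¹ p) fun x => by
      rw [← isom_adj (hT.iso (hγ T))]
      exact hp _ (hγ'' T ▸ apply_mem_act.2 (tmul_mem_sR x z))]
    simp
  let d : Bool → F := fun i => if i then c * k else c
  have c1 : ∀ i, d i + σ (d i) = 0 := fun i => by
    simp only [d]
    split_ifs
    exacts [skew_mul_fixed hc hk, hc]
  have c2 : ∀ i, d i ≠ 0 := fun i => by
    simp only [d]
    split_ifs
    exacts [mul_ne_zero hc0 hk0, hc0]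
  let Ψ : X × Bool → X := fun a => ⟨_, ζ a.1 _ (c1 a.2), b1 _ _ _, b2 _ _ _ (c2 _), rfl⟩
  obtain ⟨⟨T, i⟩, ⟨T', j⟩, d1, d2⟩ := Function.not_injective_iff.1 fun e : Ψ.Injective => by
    have := Nat.card_le_card_of_injective Ψ e
    rw [Nat.card_prod, Nat.card_eq_fintype_card (α := Bool), Fintype.card_bool] at this
    have := Nat.card_pos (α := X)
    omega
  replace d1 : act (ζ T _ (c1 i)) (sR F U z) = act (ζ T' _ (c1 j)) (sR F U z) :=
    congrArg Subtype.val d1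
  have hκM := M.mul_mem (M.inv_mem (b1 T _ (c1 i))) (b1 T' _ (c1 j))
  have d4 : ∀ x, ((ζ T _ (c1 i))⁻¹ * ζ T' _ (c1 j)) (x ⊗ₜ z) ∈ sR F U z := fun x => by
    rw [LinearEquiv.mul_apply, ← mem_act, d1, apply_mem_act]
    exact tmul_mem_sR x z
  have d5 := hT.mem_tenG_of_stab₃ hΓ hz hz0 hκM d4
  have d3 : T ≠ T' := by
    rintro rfl
    refine b2 T (-d i + d j) (skew_add (skew_neg (c1 i)) (c1 j)) (fun e => ?_) ?_
    · have e1 : c * (k - 1) ≠ 0 := mul_ne_zero hc0 (sub_ne_zero.2 hk1)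
      cases i <;> cases j <;> simp only [d, ne_eq, not_true, Bool.false_eq_true, ↓reduceIte] at d2 e
      · exact e1 (by linear_combination e)
      · exact e1 (by linear_combination -e)
    · convert d5 using 1
      simp only [ζ, conj_inv, conj_mul, ← map_inv, ← map_mul, Prod.inv_mk, Prod.mk_mul_mk, inv_one,
        mul_one, tv_inv, tv_mul]
  have d6 : ∀ T : X, finrank F T.1 = 2 := fun T => by
    rw [hγ'' T, finrank_act, finrank_sR hz0, h2]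
  have d7 : ∀ p, ((ζ T _ (c1 i))⁻¹ * ζ T' _ (c1 j)) p = p → ∀ s ∈ act (γ T) (sR F U z),
      B s p = 0 := fun p hp => by
    have e1 : ζ T' _ (c1 j) p = ζ T _ (c1 i) p := by
      conv_rhs => rw [← hp, LinearEquiv.mul_apply (ζ T _ (c1 i))⁻¹, apply_inv_apply]
    exact hγ'' T ▸ b5 T _ (c1 i) p (c2 i) (sub_eq_zero.1 ((Submodule.eq_bot_iff _).1
      (hT.inf_eq_bot₃ h2 h3 hΓ hq hz hz0 ⟨_, hγ T, hγ'' T⟩ ⟨_, hγ T', hγ'' T'⟩
        fun e => d3 (Subtype.ext e)) _ ⟨b4 T _ _ _, e1 ▸ b4 T' _ _ _⟩))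
  have d8 : ∀ p ∈ perp B (T.1 ⊔ T'.1), ((ζ T _ (c1 i))⁻¹ * ζ T' _ (c1 j)) p = p := fun p hp => by
    rw [perp_sup] at hp
    rw [LinearEquiv.mul_apply, b6 T' _ _ p hp.2]
    conv_lhs => rw [← b6 T _ (c1 i) p hp.1, inv_apply_apply]
  have d9 : 2 ≤ finrank F (perp B (T.1 ⊔ T'.1)) := by
    have e1 := hT.hB.finrank_add_finrank_perp (T.1 ⊔ T'.1)
    have e2 := Submodule.finrank_add_le_finrank_add_finrank T.1 T'.1
    rw [Module.finrank_tensorProduct, h2, h3] at e1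
    rw [d6, d6] at e2
    omega
  have P0 := fun {v : W} (hv : h v v = 0) (hv0 : v ≠ 0) {u : U} =>
    hT.eq_zero_of_perp h2 h3 hΓ hq hz hz0 (hγ T) (hγ' T) hv hv0 (u := u)
  generalize perp B (T.1 ⊔ T'.1) = Z at d8 d9
  obtain ⟨α, β, e⟩ := mem_tenG.1 d5
  rw [← e] at hκM d4 d7 d8
  obtain ⟨ρ, hρ⟩ := Submodule.mem_span_singleton.1 (mem_span_of_tmul_mem_sR
    ((LinearEquiv.map_ne_zero_iff α).2 hx₀) (y := β z) (d4 x₀))
  have e1 : ∀ p ∈ Z, cR U (h z) p = 0 := fun p hp => hT.cR_eq_zero fun x => by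
    obtain ⟨x, rfl⟩ := LinearMap.injective_iff_surjective.1
      ((injective_iff_map_eq_zero (ρ • α.toLinearMap - 1)).2 fun x hx => P0 hz hz0 (d7 _ (by
        rw [tenHom_tmul, ← hρ, ← smul_tmul, show ρ • α x = x from sub_eq_zero.1 hx]))) x
    have := hT.iso hκM (x ⊗ₜ z) p
    rw [d8 p hp, tenHom_tmul, ← hρ, ← smul_tmul] at this
    change B ((ρ • α x - x) ⊗ₜ z) p = 0
    rw [sub_tmul, sub_left, this, sub_self]
  obtain ⟨y, hy, hzy, hz'y⟩ := exists_hypPerp hT.hh hT.three ⟨hz, hz', hzz'⟩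
  have e2 : ∀ p ∈ Z, p = cR U (h z') p ⊗ₜ z + (h y y)⁻¹ • cR U (h y) p ⊗ₜ y := fun p hp => by
    have := hT.eq_three_tmul h3 ⟨hz, hz', hzz'⟩ hy hzy hz'y p
    rwa [e1 p hp, zero_tmul, add_zero] at this
  have e3 : ∀ a, ∃ p ∈ Z, cR U (h y) p = a := fun a => by
    have e3 : Function.Injective (cR U (h y) ∘ₗ Z.subtype) :=
      (injective_iff_map_eq_zero _).2 fun p hp => Subtype.ext (by
        have e4 := e2 p p.2
        rw [show cR U (h y) p = 0 from hp, zero_tmul, smul_zero, add_zero] at e4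
        rw [e4, P0 hz hz0 (u := cR U (h z') p) (e4 ▸ d7 _ (d8 p p.2)), zero_tmul]
        rfl)
    obtain ⟨p, hp⟩ := (LinearMap.injective_iff_surjective_of_finrank_eq_finrank (le_antisymm
      (LinearMap.finrank_le_finrank_of_injective e3) (h2 ▸ d9))).1 e3 a
    exact ⟨p, p.2, hp⟩
  have e4 : ∀ a, ((h y y)⁻¹ * h y (β y)) • α a = a := fun a => by
    obtain ⟨p, hp, rfl⟩ := e3 a
    have e4 := congrArg (cR U (h y)) (d8 p hp)
    conv_lhs at e4 => rw [e2 p hp]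
    simpa [tenHom_tmul, ← hρ, cR_tmul, hT.hh.flip_zero hzy, smul_smul] using e4
  generalize (h y y)⁻¹ * h y (β y) = τ at e4
  have e5 : τ ≠ 0 := by
    rintro rfl
    exact hx₀ (by rw [← e4 x₀, zero_smul])
  have e6 : ∀ x w, tenHom F U W (α, β) (x ⊗ₜ w) = x ⊗ₜ (τ⁻¹ • β w) := fun x w => by
    rw [tenHom_tmul, ← smul_tmul, (eq_inv_smul_iff₀ e5).2 (e4 x)]
  obtain ⟨p, hp, e7⟩ := e3 x₀
  obtain ⟨m, hm⟩ := exists_dual_one (F := F) hx₀
  have e8 : ∀ p, cL W m (tenHom F U W (α, β) p) = τ⁻¹ • β (cL W m p) := fun p => by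
    induction p using TensorProduct.induction_on with
    | zero => simp
    | add a b ha hb => simp [ha, hb]
    | tmul x w => rw [e6, cL_tmul, cL_tmul, map_smul, smul_comm]
  have e9 : ∀ x, ∀ s ∈ act (γ T) (sR F U z), B s (x ⊗ₜ cL W m p) = 0 := fun x =>
    d7 _ (by rw [e6, ← e8, d8 p hp])
  by_cases e10 : h (cL W m p) (cL W m p) = 0
  · refine hx₀ (P0 e10 (fun e11 => ?_) (e9 x₀))
    have := cL_cR m (h y) p
    rw [e11, map_zero, e7, hm] at this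
    exact zero_ne_one this
  · exact hT.not_perp h2 h3 hΓ hq hz hz0 (hγ T) (hγ' T) e10 fun s hs =>
      hT.cR_eq_zero fun x => hT.hB.flip_zero (e9 x s hs)

end UT

/-- `GU₂ ∘ GU₃` is maximal in `SU₆` for `q ≥ 3`. -/
theorem isMaximalIn_tenG₃ (hf : IsHerm f) (hh : IsHerm h) (hB : IsHerm B)
    (tm : ∀ x y w w', B (x ⊗ₜ w) (y ⊗ₜ w') = f x y * h w w') (h2 : finrank F U = 2)
    (h3 : finrank F W = 3) (hq : ∃ k : F, σ k = k ∧ k ≠ 0 ∧ k ≠ 1) :
    Geo.IsMaximalIn (sisom B) (tenG F U W ⊓ sisom B) := by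
  refine isMaximalIn_inf (fun hle => ?_) fun M h1 h4 => or_iff_not_imp_right.2 fun hM => by
    have hT : UT f h B M := ⟨hf, hh, hB, tm, h2.ge, by omega, Or.inr hq, h4, h1⟩
    exact hT.le_tenG₃ h2 h3 (hT.gs_of_not_le h2 hq hM) hq
  obtain ⟨u, -, hu0, hu⟩ := exists_isotropic_mem hf.toIsHermSymm (S := ⊤) (by rw [finrank_top, h2])
  obtain ⟨z, -, hz0, hz⟩ := exists_isotropic_mem hh.toIsHermSymm (S := ⊤)
    (by rw [finrank_top]; omega)
  obtain ⟨u', hu'⟩ := hf.exists_eq_one hu0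
  obtain ⟨z', hz'⟩ := hh.exists_eq_one hz0
  obtain ⟨c, hc0, hc⟩ := hf.inv.exists_skew'
  have h1 : B (u ⊗ₜ z) (u ⊗ₜ z) = 0 := by rw [tm, hu, zero_mul]
  obtain ⟨β, hβ⟩ := exists_eq_lTensor_of_rank (hle (hB.tv_mem_sisom h1 hc)) (S := F ∙ (u ⊗ₜ z))
    (fun p => by
      rw [tv_apply, add_sub_cancel_left]
      exact Submodule.smul_mem _ _ (Submodule.mem_span_singleton_self _))
    (by rw [finrank_span_singleton (tmul_ne_zero' hu0 hz0)]; omega)
  have h4 := hβ u' z'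
  rw [tv_apply, tm, hu', hz', mul_one, mul_one] at h4
  have h5 := congrArg (cL W (f u)) h4
  simp only [map_add, map_smul, cL_tmul, hu, hu', one_smul, zero_smul, smul_zero, add_zero] at h5
  rw [← h5, add_eq_left, smul_eq_zero_iff_right hc0] at h4
  exact tmul_ne_zero' hu0 hz0 h4

section Bridge

open Matrix

/-- The stabilizer in `SU_6(q)`, `q ≠ 2`, of a tensor decomposition with factors of dimensions
two and three is maximal. -/
theorem su_c4_six {F : Type*} [Field F] [Fintype F] {n q : ℕ} (hF : Fintype.card F = q ^ 2)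
    {n₁ n₂ : ℕ} (h1 : n₁ = 2) (h12 : n₂ = 3) (hq : q ≠ 2)
    (e : Fin n ≃ Fin n₁ × Fin n₂) (P : GL (Fin n) F) {f₁ : (Fin n₁ → F) → (Fin n₁ → F) → F}
    {f₂ : (Fin n₂ → F) → (Fin n₂ → F) → F} (hf₁ : Geo.IsUnitaryFormPow q f₁)
    (hf₂ : Geo.IsUnitaryFormPow q f₂)
    (hT : Geo.IsTensorFormStructure (fun x : F => x ^ q) (hermForm n F q) f₁ f₂ e P) :
    Geo.IsMaximalIn (GU n F q ⊓ Geo.specialLinear (Fin n) F)
      (Geo.tensorProductSubgroup n₁ n₂ e P ⊓ (GU n F q ⊓ Geo.specialLinear (Fin n) F)) := by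
  obtain ⟨B₁, hB₁, a1⟩ := exists_isHerm_of_isUnitaryFormPow hF hf₁
  obtain ⟨B₂, hB₂, a2⟩ := exists_isHerm_of_isUnitaryFormPow hF hf₂
  obtain ⟨c, hc0, hc⟩ := hT
  let T := H27.tenFrame e P
  let B := ((hermB hF n).comp T.toLinearMap).compl₂ T.toLinearMap
  have hBT : ∀ p p', hermB hF n (T p) (T p') = B p p' := fun _ _ => rfl
  have hB : IsHerm B := ⟨⟨isInvol_frobQ hF, fun x y => (isHerm_hermB hF n).symm _ _⟩,
    fun x hx => T.injective (by
      rw [map_zero]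
      exact (isHerm_hermB hF n).nondeg _ fun y => by
        obtain ⟨y, rfl⟩ := T.surjective y
        exact hx y)⟩
  have tm : ∀ x y w w', B (x ⊗ₜ w) (y ⊗ₜ w') = c * B₁ x y * B₂ w w' := fun x y w w' => by
    rw [← hBT, hermB_eq, mul_assoc, ← formOfGram_pure2 a1 a2]
    simp only [T, H27.tenFrame, LinearEquiv.trans_apply, H27.tenEquiv_tmul, H25.frameEquiv_apply]
    exact hc _ _
  have hne : Nonempty (Fin n) := ⟨e.symm (⟨0, by omega⟩, ⟨0, by omega⟩)⟩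
  have hcσ : frobQ hF c = c := by
    have : Nontrivial (Fin n₁ → F) := Module.nontrivial_of_finrank_pos (R := F) (by simp; omega)
    have : Nontrivial (Fin n₂ → F) := Module.nontrivial_of_finrank_pos (R := F) (by simp; omega)
    obtain ⟨x, hx⟩ := exists_ne (0 : Fin n₁ → F)
    obtain ⟨w, hw⟩ := exists_ne (0 : Fin n₂ → F)
    obtain ⟨y, hy⟩ := hB₁.exists_eq_one hx
    obtain ⟨w', hw'⟩ := hB₂.exists_eq_one hw
    have := hB.symm (x ⊗ₜ w) (y ⊗ₜ w')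
    rwa [tm, tm, hy, hw', hB₁.flip_one hy, hB₂.flip_one hw', mul_one, mul_one] at this
  have hB₁' : IsHerm (c • B₁) := ⟨⟨isInvol_frobQ hF, fun x y => by
      simp only [LinearMap.smul_apply, smul_eq_mul, map_mul, hcσ, hB₁.symm]⟩,
    fun x hx => hB₁.nondeg x fun y => by simpa [hc0] using hx y⟩
  have hS : ∀ g, g ∈ GU n F q ⊓ Geo.specialLinear (Fin n) F ↔
      ((glEquiv (Fin n) F).trans (autCongr T).symm) g ∈ sisom B := fun g => by
    rw [← glEquiv_mem_sisom hF, ← autCongr_mem_sisom hBT, MulEquiv.trans_apply,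
      MulEquiv.apply_symm_apply]
  refine isMaximalIn_of_equiv ((glEquiv (Fin n) F).trans (autCongr T).symm) hS (fun g => ?_)
    (isMaximalIn_tenG₃ hB₁' hB₂ hB tm (by simpa) (by simpa) ?_)
  · rw [Subgroup.mem_inf, Subgroup.mem_inf (p' := sisom B), hS, H27.mem_tensorProductSubgroup_iff]
    refine and_congr_left fun _ => ⟨fun ⟨α, β, H⟩ => ?_, fun H => ?_⟩
    · have : Nontrivial (Fin n₁ → F) := Module.nontrivial_of_finrank_pos (R := F) (by simp; omega)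
      have : Nontrivial (Fin n₂ → F) := Module.nontrivial_of_finrank_pos (R := F) (by simp; omega)
      exact mem_tenG_of_map (α := α) (β := β) fun x w => T.symm_apply_eq.2 (H _)
    · obtain ⟨α, β, H⟩ := mem_tenG.1 H
      exact ⟨α, β, fun p => T.symm_apply_eq.1 (LinearEquiv.congr_fun H p).symm⟩
  · exact exists_fixed_ne hF (fun _ => rfl) hq

end Bridge

end Cfsg.Agent.H26
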