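import Cfsg.Agent.H26.UTenSt

/-!
Overgroups of `GU(U) ∘ GU(W)` in `SU(U ⊗ W)`: the stabilizer of `U ⊗ z`, assuming only that the
operators in the centre of the unipotent radical are scalars.
-/

set_option autoImplicit false

namespace Cfsg.Agent.H26

open H31 Module TensorProduct

variable {F : Type*} [Field F] [Finite F] {σ : F →+* F} {U : Type*} [AddCommGroup U] [Module F U]
  {f : U →ₛₗ[σ] U →ₗ[F] F} [FiniteDimensional F U]
  {W : Type*} [AddCommGroup W] [Module F W] [FiniteDimensional F W]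
  {h : W →ₛₗ[σ] W →ₗ[F] F} {B : U ⊗[F] W →ₛₗ[σ] U ⊗[F] W →ₗ[F] F}
  {M : Subgroup (U ⊗[F] W ≃ₗ[F] U ⊗[F] W)}

namespace UT

variable (hT : UT f h B M)
include hT

/-- The operators in `Gam` are scalars. -/
def GS : Prop := ∀ γ ∈ hT.Gam, ∃ c : F, ∀ x, γ x = c • x

variable (hΓ : hT.GS) {z : W} (hz : h z z = 0) (hz0 : z ≠ 0)
  {g : U ⊗[F] W ≃ₗ[F] U ⊗[F] W} (hg : g ∈ M)
include hΓ hz hz0 hg

/-- The centre of the unipotent radical. -/
theorem eq_of_range₃ (H : ∀ p, g p - p ∈ sR F U z) :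
    ∃ c : F, ∀ p, g p = p + c • cR U (h z) p ⊗ₜ z := by
  obtain ⟨z', -, hzz'⟩ := hT.hh.exists_hyperbolic' hz hz0
  have h1 : ∀ p, cR U (h z) p = 0 → g p = p := fun p hp => hT.hB.ext_right fun q => by
    have a1 := hT.B_sR (H q) (q := g p) (by
      rw [← sub_add_cancel (g p) p, map_add, cR_sR hz (H p), hp, add_zero])
    rw [sub_left, hT.iso hg] at a1
    exact (sub_eq_zero.1 a1).symm
  let γ : End F U := cR U (h z') ∘ₗ (g.toLinearMap - 1) ∘ₗ (TensorProduct.mk F U W).flip z'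
  have h2 : ∀ p, g p = p + γ (cR U (h z) p) ⊗ₜ z := fun p => by
    have a1 := h1 (p - cR U (h z) p ⊗ₜ z') (by simp [cR_tmul, hzz'])
    obtain ⟨s, hs⟩ := mem_sR.1 (H (cR U (h z) p ⊗ₜ z'))
    have a2 : γ (cR U (h z) p) = s := by
      change cR U (h z') (g _ - _) = s
      erw [← hs]
      rw [cR_tmul, hT.hh.flip_one hzz', one_smul]
    rw [map_sub] at a1
    rw [a2, hs]
    linear_combination (norm := module) a1
  obtain ⟨c, hc⟩ := hΓ _ (hT.mem_Gam hz hz0 hg h2)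
  exact ⟨c, fun p => by rw [h2, hc, smul_tmul']⟩

/-- The unipotent radical of the stabilizer of `U ⊗ z`. -/
theorem eq_tRf₃ (hfix : ∀ x, g (x ⊗ₜ z) = x ⊗ₜ z)
    (H : ∀ p, cR U (h z) p = 0 → g p - p ∈ sR F U z) :
    ∃ v ν, h z v = 0 ∧ ∀ p, g p = tRf h z v ν p := by
  obtain ⟨z', -, hzz'⟩ := hT.hh.exists_hyperbolic' hz hz0
  have hz'z := hT.hh.flip_one hzz'
  have h0 := hT.cR_fix (hT.iso hg) hfix
  have h0' : ∀ p, g p - p - (g (cR U (h z) p ⊗ₜ z') - cR U (h z) p ⊗ₜ z') ∈ sR F U z := fun p => by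
    convert H (p - cR U (h z) p ⊗ₜ z') (by simp [cR_tmul, hzz']) using 1
    rw [map_sub]
    abel
  have h1 : ∀ y, h z y = 0 → ∃ c : F, ∀ x, g (x ⊗ₜ y) - x ⊗ₜ y +
      cR U (h y) (g (x ⊗ₜ z') - x ⊗ₜ z') ⊗ₜ z = c • x ⊗ₜ z := fun y hy => by
    obtain ⟨ν, r, hr, Hr⟩ := hT.exists_R' hz hy
    have a1 : ∀ p, g (r p) - r (g p) = g (cR U (h z) p ⊗ₜ y) - cR U (h z) p ⊗ₜ y +
        cR U (h y) (g p - p) ⊗ₜ z := fun p => by
      simp only [Hr, tRf, map_sub, map_add, map_smul, hfix, h0, sub_tmul]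
      abel
    obtain ⟨c, hc⟩ := hT.eq_of_range₃ hΓ hz hz0 (M.mul_mem (M.mul_mem hg hr)
      (M.inv_mem (M.mul_mem hr hg))) fun q => by
        obtain ⟨p, rfl⟩ := (r * g).surjective q
        rw [LinearEquiv.mul_apply _ (r * g)⁻¹, inv_apply_apply, LinearEquiv.mul_apply,
          LinearEquiv.mul_apply, a1]
        exact Submodule.add_mem _ (H _ (by simp [cR_tmul, hy])) (tmul_mem_sR _ _)
    refine ⟨c, fun x => ?_⟩
    have a2 := hc ((r * g) (x ⊗ₜ z'))
    rw [LinearEquiv.mul_apply _ (r * g)⁻¹, inv_apply_apply, LinearEquiv.mul_apply,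
      LinearEquiv.mul_apply, ← sub_eq_iff_eq_add', a1, Hr] at a2
    simpa [tRf, h0, cR_tmul, hzz', hy, hz] using a2
  have h2 : ∀ y, h z y = 0 → ∃ c : F, ∀ x, cR U (h y) (g (x ⊗ₜ z') - x ⊗ₜ z') = c • x :=
    fun y hy => by
    obtain ⟨θ, hθ⟩ := hT.hf.inv.ne_id
    obtain ⟨c₁, a1⟩ := h1 y hy
    obtain ⟨c₂, a2⟩ := h1 (θ • y) (by rw [smul_right, hy, mul_zero])
    refine ⟨(σ θ - θ)⁻¹ * (c₂ - θ * c₁), fun x => tmul_inj_left (F := F) hz0 ?_⟩
    have a3 := a1 x
    have a4 := a2 x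
    rw [LinearMap.map_smulₛₗ, cR_smul, tmul_smul, map_smul, ← smul_tmul'] at a4
    rw [← smul_tmul', mul_smul, eq_inv_smul_iff₀ (sub_ne_zero.2 hθ)]
    linear_combination (norm := module) a4 - θ • a3
  obtain ⟨v, hv⟩ := exists_tmul_of_cR ((1 - (TensorProduct.mk F U W).flip z ∘ₗ cR U (h z')) ∘ₗ
    (g.toLinearMap - 1) ∘ₗ (TensorProduct.mk F U W).flip z') fun l => by
      obtain ⟨y, rfl⟩ := hT.hh.exists_rep l
      obtain ⟨c, hc⟩ := h2 (y - h z y • z') (by simp [hzz'])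
      refine ⟨c, fun x => ?_⟩
      rw [← hc, map_sub h, LinearMap.map_smulₛₗ, cR_sub, cR_smul, hT.hh.symm]
      simp [cR_tmul, smul_sub, smul_comm (h z' z')]
  replace hv : ∀ x, g (x ⊗ₜ z') - x ⊗ₜ z' - cR U (h z') (g (x ⊗ₜ z') - x ⊗ₜ z') ⊗ₜ z = x ⊗ₜ v := hv
  have h3 : h z v = 0 := by
    have := hT.ntU
    obtain ⟨x, hx⟩ := exists_ne (0 : U)
    have := congrArg (cR U (h z)) (hv x)
    simpa [h0, cR_tmul, hz, hx, eq_comm (a := (0 : U))] using this
  obtain ⟨ν, r, hr, Hr⟩ := hT.exists_R' hz h3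
  obtain ⟨c, hc⟩ := hT.eq_of_range₃ hΓ hz hz0 (M.mul_mem hg (M.inv_mem hr)) fun q => by
    obtain ⟨p, rfl⟩ := r.surjective q
    rw [LinearEquiv.mul_apply, inv_apply_apply, Hr, tRf, ← hv]
    convert Submodule.add_mem _ (Submodule.add_mem _ (Submodule.add_mem _ (h0' p) (tmul_mem_sR
      (cR U (h z') (g (cR U (h z) p ⊗ₜ z') - cR U (h z) p ⊗ₜ z')) z))
      (tmul_mem_sR (cR U (h v) p) z)) (Submodule.smul_mem _ ν (tmul_mem_sR (cR U (h z) p) z))
      using 1
    abel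
  refine ⟨v, ν - c, h3, fun p => ?_⟩
  have := hc (r p)
  rw [LinearEquiv.mul_apply, inv_apply_apply, Hr] at this
  rw [this]
  simp only [tRf, map_add, map_sub, map_smul, cR_tmul, h3, hz, zero_smul, smul_zero, add_zero,
    sub_zero]
  module

/-- The stabilizer of `U ⊗ z` preserves the tensor decomposition. -/
theorem mem_tenG_of_stab₃ (H : ∀ x, g (x ⊗ₜ z) ∈ sR F U z) : g ∈ tenG F U W := by
  obtain ⟨z', -, hzz'⟩ := hT.hh.exists_hyperbolic' hz hz0
  have hz'z := hT.hh.flip_one hzz'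
  have := hT.ntU
  have := hT.ntW
  obtain ⟨α, hα⟩ : ∃ α : U ≃ₗ[F] U, ∀ x, g (x ⊗ₜ z) = α x ⊗ₜ z := by
    let α : End F U := cR U (h z') ∘ₗ g.toLinearMap ∘ₗ (TensorProduct.mk F U W).flip z
    have h1 : ∀ x, g (x ⊗ₜ z) = α x ⊗ₜ z := fun x => by
      obtain ⟨s, hs⟩ := mem_sR.1 (H x)
      have : α x = s := by
        change cR U (h z') (g (x ⊗ₜ z)) = s
        rw [← hs, cR_tmul, hz'z, one_smul]
      rw [this, hs]
    exact ⟨LinearEquiv.ofInjectiveEndo α fun x y e => tmul_inj_left (F := F) hz0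
      (g.injective (by rw [h1, h1, e])), h1⟩
  have hα' : ∀ x, g⁻¹ (x ⊗ₜ z) = α⁻¹ x ⊗ₜ z := fun x => g.injective (by
    rw [apply_inv_apply, hα, apply_inv_apply])
  have hS : ∀ p ∈ sR F U z, g p ∈ sR F U z := by
    rintro _ ⟨x, rfl⟩
    exact H x
  obtain ⟨c, hc0, hc⟩ := hT.hf.inv.exists_skew'
  obtain ⟨l, hl⟩ : ∃ l : F, ∀ p, α (cR U (h z) (g⁻¹ p)) = l • cR U (h z) p := by
    have a1 : ∀ p, (g * tenHom F U W (1, tv h z c hz hc) * g⁻¹) p =
        p + c • α (cR U (h z) (g⁻¹ p)) ⊗ₜ z := fun p => by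
      rw [LinearEquiv.mul_apply, LinearEquiv.mul_apply, ten_tv, map_add, apply_inv_apply, map_smul,
        hα]
    obtain ⟨d, hd⟩ := hT.eq_of_range₃ hΓ hz hz0 (M.mul_mem (M.mul_mem hg
      (hT.right (hT.hh.tv_mem_sisom hz hc))) (M.inv_mem hg)) fun p => by
        rw [a1, add_sub_cancel_left]
        exact Submodule.smul_mem _ _ (tmul_mem_sR _ _)
    refine ⟨c⁻¹ * d, fun p => tmul_inj_left (F := F) hz0 ?_⟩
    have := hd p
    rw [a1, add_right_inj] at this
    rw [← smul_tmul', mul_smul, ← this, inv_smul_smul₀ hc0]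
  have hl' : ∀ x, α x = l • cR U (h z) (g (x ⊗ₜ z')) := fun x => by
    rw [← hl, inv_apply_apply, cR_tmul, hzz', one_smul]
  have hl0 : l ≠ 0 := by
    rintro rfl
    obtain ⟨x, hx⟩ := exists_ne (0 : U)
    exact hx (α.injective (by rw [hl', zero_smul, map_zero]))
  have hsim : ∀ x y, f (α x) (α y) = l * f x y := fun x y => by
    rw [hl' y, smul_right, ← hT.B_tmul, ← hα, hT.iso hg, hT.tm, hzz', mul_one]
  have hperp : ∀ p, cR U (h z) p = 0 → cR U (h z) (g⁻¹ p) = 0 := fun p hp =>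
    α.injective (by rw [hl, hp, smul_zero, map_zero])
  have h1 : ∀ v, h z v = 0 → ∃ φ, ∀ x, g (x ⊗ₜ v) - α x ⊗ₜ φ ∈ sR F U z := fun v hv => by
    obtain ⟨ν, r, hr, Hr⟩ := hT.exists_R' hz hv
    obtain ⟨φ, ν', -, a1⟩ := hT.eq_tRf₃ hΓ hz hz0 (M.mul_mem (M.mul_mem hg hr) (M.inv_mem hg))
      (fun x => by
        rw [LinearEquiv.mul_apply, LinearEquiv.mul_apply, hα', Hr, tRf_tmul]
        simp [hz, hT.hh.flip_zero hv, hα])
      fun p hp => by
        rw [LinearEquiv.mul_apply, LinearEquiv.mul_apply, Hr, tRf, hperp p hp]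
        simpa using H _
    refine ⟨l⁻¹ • φ, fun x => ?_⟩
    have a2 := a1 (g (x ⊗ₜ z'))
    rw [LinearEquiv.mul_apply, LinearEquiv.mul_apply, inv_apply_apply, Hr, tRf, tRf, cR_tmul, hzz',
      one_smul, map_sub, map_sub, map_add, map_smul] at a2
    rw [hl', smul_tmul, smul_inv_smul₀ hl0]
    convert Submodule.sub_mem _ (Submodule.sub_mem _ (Submodule.add_mem _
      (H (cR U (h v) (x ⊗ₜ z'))) (Submodule.smul_mem _ ν (H x)))
      (tmul_mem_sR (cR U (h φ) (g (x ⊗ₜ z'))) z))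
      (Submodule.smul_mem _ ν' (tmul_mem_sR (cR U (h z) (g (x ⊗ₜ z'))) z)) using 1
    linear_combination (norm := module) a2
  have h2 : ∀ t ∈ sisom f, ∃ β : End F W, ∀ x w,
      g (tenHom F U W (t, 1) (g⁻¹ (α x ⊗ₜ w))) = α (t x) ⊗ₜ β w := fun t ht => by
    have a0 : α * t * α⁻¹ ∈ sisom f := mem_sisom.2 ⟨fun x y => by
      simp only [LinearEquiv.mul_apply]
      rw [hsim, ht.1, ← hsim, apply_inv_apply, apply_inv_apply], by
      rw [map_mul, map_mul, (mem_sisom.1 ht).2]; simp⟩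
    set t' := tenHom F U W (α * t * α⁻¹, 1) with ht'
    have a1 : ∀ p ∈ sR F U z, t' p ∈ sR F U z := by
      rintro _ ⟨x, rfl⟩
      exact tmul_mem_sR _ _
    obtain ⟨φ, ν', -, a2⟩ := hT.eq_tRf₃ hΓ hz hz0 (M.mul_mem (M.mul_mem hg (hT.left ht))
      (M.inv_mem (M.mul_mem (hT.left a0) hg)))
      (fun x => by
        rw [LinearEquiv.mul_apply _ _⁻¹, mul_inv_rev, tenHom_inv, inv_one]
        simp only [LinearEquiv.mul_apply, tenHom_left, hα, hα', mul_inv_rev, inv_inv,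
          apply_inv_apply, inv_apply_apply])
      fun p hp => by
        obtain ⟨q, rfl⟩ := (t' * g).surjective p
        have a3 : cR U (h z) q = 0 := by
          rw [← inv_apply_apply g q]
          refine hperp _ ?_
          rw [LinearEquiv.mul_apply, cR_ten (one_mem _)] at hp
          exact (α * t * α⁻¹).injective (by rw [map_zero]; exact hp)
        rw [LinearEquiv.mul_apply _ _⁻¹, inv_apply_apply]
        refine ker_cR_induction hzz' ((sR F U z).comap ((g * tenHom F U W (t, 1)).toLinearMap -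
          (t' * g).toLinearMap)).toAddSubgroup (fun x v hv => ?_) a3
        obtain ⟨φ, hφ⟩ := h1 v hv
        change g (t x ⊗ₜ v) - t' (g (x ⊗ₜ v)) ∈ sR F U z
        convert Submodule.sub_mem _ (hφ (t x)) (a1 _ (hφ x)) using 1
        rw [map_sub, ht', tenHom_left]
        simp
    refine ⟨1 + ro h φ z - (ro h z φ + ν' • ro h z z), fun x w => ?_⟩
    have a3 := a2 (α (t x) ⊗ₜ w)
    rw [LinearEquiv.mul_apply _ _⁻¹, mul_inv_rev, tenHom_inv, inv_one, tRf_tmul] at a3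
    simp only [LinearEquiv.mul_apply, tenHom_left, mul_inv_rev, inv_inv,
      apply_inv_apply, inv_apply_apply] at a3
    rw [a3]
    congr 1
    simp only [LinearMap.sub_apply, LinearMap.add_apply, End.one_apply, ro_apply,
      LinearMap.smul_apply]
    module
  have h3 : ∀ u, f u u = 0 → ∀ c : F, c + σ c = 0 → ∃ β : End F W, ∀ x w,
      c • g (u ⊗ₜ cL W (f u) (g⁻¹ (α x ⊗ₜ w))) =
        α x ⊗ₜ (β w - w) + (c * f u x) • α u ⊗ₜ β w := fun u hu c hc => by
    obtain ⟨β, hβ⟩ := h2 _ (hT.hf.tv_mem_sisom hu hc)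
    refine ⟨β, fun x w => ?_⟩
    have := hβ x w
    rw [ten_tv_left, map_add, apply_inv_apply, map_smul, tv_apply, map_add, map_smul, add_tmul,
      ← smul_tmul'] at this
    rw [tmul_sub]
    linear_combination (norm := module) this
  have h5 : ∀ u, f u u = 0 → ∀ x w,
      u ⊗ₜ cL W (f u) (g⁻¹ (α x ⊗ₜ w)) = f u x • g⁻¹ (α u ⊗ₜ w) := fun u hu => by
    by_cases hu0 : u = 0
    · simp [hu0]
    obtain ⟨β, hβ⟩ := h3 u hu c hc
    obtain ⟨u', hu'⟩ := hT.hf.exists_eq_one hu0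
    have hu1 : α u ≠ 0 := (LinearEquiv.map_ne_zero_iff α).2 hu0
    have a1 : ∀ w, β w = w := by
      rcases hT.big with h3' | ⟨k, hk, hk0, hk1⟩
      · let θ : End F W := c • cL W (f u) ∘ₗ (g⁻¹).toLinearMap ∘ₗ TensorProduct.mk F U W (α u')
        have b1 : ∀ w, g (u ⊗ₜ θ w) = α u' ⊗ₜ (β w - w) + c • α u ⊗ₜ β w := fun w => by
          have := hβ u' w
          rw [hu', mul_one, ← map_smul, ← tmul_smul] at this
          exact this
        have b2 : ∀ w, cL W (f (α u)) (g (u ⊗ₜ θ w)) = l • (β w - w) := fun w => by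
          simp [b1, cL_tmul, hsim, hu, hu', -map_sub]
        have b3 : Function.Injective θ := (injective_iff_map_eq_zero θ).2 fun w hw => by
          have b4 := b2 w
          have b5 := b1 w
          rw [hw, tmul_zero, map_zero] at b4 b5
          rw [map_zero, eq_comm, smul_eq_zero_iff_right hl0] at b4
          rw [b4, tmul_zero, zero_add, eq_comm, smul_eq_zero_iff_right hc0, sub_eq_zero.1 b4] at b5
          by_contra hw0
          exact tmul_ne_zero' hu1 hw0 b5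
        obtain ⟨x, hx, hx'⟩ := exists_perp_notMem hT.hf h3' hu0
        obtain ⟨m, hm, hm'⟩ := exists_dual_of_notMem hx'
        intro w
        obtain ⟨w₂, hw₂⟩ := LinearMap.injective_iff_surjective.1 b3
          (c • cL W (f u) (g⁻¹ (α x ⊗ₜ w)))
        have b4 := hβ x w
        rw [hx, mul_zero, zero_smul, add_zero, ← map_smul, ← tmul_smul, ← hw₂] at b4
        have b5 := b2 w₂
        rw [b4, cL_tmul, hsim, hx, mul_zero, zero_smul, eq_comm, smul_eq_zero_iff_right hl0] at b5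
        rw [b1, b5, tmul_zero, zero_add] at b4
        have b6 := congrArg (cL W (m ∘ₗ (α⁻¹).toLinearMap)) b4
        simpa [cL_tmul, hm, hm' u (Submodule.mem_span_singleton_self u), eq_comm (a := (0 : W)),
          sub_eq_zero, -map_sub] using b6
      · obtain ⟨β', hβ'⟩ := h3 u hu (c * k) (skew_mul_fixed hc hk)
        have b1 : ∀ w, β' w - w = k • (β w - w) := fun w => tmul_inj_right (F := F) hu1 (by
          have b2 := hβ u w
          have b3 := hβ' u w
          rw [hu, mul_zero, zero_smul, add_zero] at b2 b3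
          rw [tmul_smul, ← b2, ← b3, smul_smul, mul_comm])
        intro w
        have b2 := hβ u' w
        have b3 := hβ' u' w
        rw [b1, eq_add_of_sub_eq (b1 w), hu', mul_one] at b3
        rw [hu', mul_one] at b2
        have b4 : (c * k * (k - 1)) • α u ⊗ₜ[F] (β w - w) = 0 := by
          simp only [tmul_add, tmul_sub, tmul_smul, smul_sub] at b2 b3 ⊢
          linear_combination (norm := module) k • b2 - b3
        rw [smul_eq_zero_iff_right (mul_ne_zero (mul_ne_zero hc0 hk0) (sub_ne_zero.2 hk1))] at b4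
        by_contra hw
        exact tmul_ne_zero' hu1 (sub_ne_zero.2 hw) b4
    intro x w
    have := hβ x w
    rw [a1, sub_self, tmul_zero, zero_add, mul_smul, smul_right_inj hc0] at this
    exact g.injective (by rw [this, map_smul, apply_inv_apply])
  obtain ⟨β, hβ⟩ := exists_lTensor_of_cR ((g⁻¹ * tenHom F U W (α, 1)).toLinearMap) fun m w =>
    exists_scalar_of_ro hT.hf hT.two (cR U m ∘ₗ (g⁻¹ * tenHom F U W (α, 1)).toLinearMap ∘ₗ
      (TensorProduct.mk F U W).flip w) fun u hu x => by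
        have := congrArg (cR U m) (h5 u hu x w)
        rw [cR_tmul, cL_cR, map_smul] at this
        exact this.symm
  refine (inv_mem_iff).1 (mem_tenG_of_map (α := (α⁻¹).toLinearMap) (β := β) fun x w => ?_)
  have := hβ (α⁻¹ x) w
  rwa [LinearEquiv.coe_coe, LinearEquiv.mul_apply, tenHom_left, apply_inv_apply] at this

theorem mem_tenG_of_map_sR₃ {z₂ : W} (hz₂ : h z₂ z₂ = 0) (hz₂0 : z₂ ≠ 0)
    (H : ∀ x, g (x ⊗ₜ z) ∈ sR F U z₂) : g ∈ tenG F U W := by
  obtain ⟨β, hβ, rfl⟩ := hT.trans hz₂ hz₂0 hz hz0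
  refine (Subgroup.mul_mem_cancel_left _ (tenHom_mem 1 β)).1
    (hT.mem_tenG_of_stab₃ hΓ hz hz0 (M.mul_mem (hT.right hβ) hg) fun x => ?_)
  obtain ⟨y, hy⟩ := mem_sR.1 (H x)
  rw [LinearEquiv.mul_apply, ← hy]
  exact tmul_mem_sR _ _

/-- If a conjugate of `1 ⊗ t_z` is a tensor product, so is the conjugating element. -/
theorem mem_tenG_of_conj₃ {c : F} (hc : c + σ c = 0) (hc0 : c ≠ 0)
    (H : g⁻¹ * tenHom F U W (1, tv h z c hz hc) * g ∈ tenG F U W) : g ∈ tenG F U W := by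
  have h1 : ∀ p, (g⁻¹ * tenHom F U W (1, tv h z c hz hc) * g) p - p =
      g⁻¹ (c • cR U (h z) (g p) ⊗ₜ z) := fun p => by
    rw [LinearEquiv.mul_apply, LinearEquiv.mul_apply, ten_tv, map_add, inv_apply_apply,
      add_sub_cancel_left]
  obtain ⟨β, hβ⟩ := exists_eq_lTensor_of_rank H (S := act g⁻¹ (sR F U z)) (fun p => by
    rw [h1, apply_mem_act]
    exact Submodule.smul_mem _ _ (tmul_mem_sR _ _)) (by rw [finrank_act, finrank_sR hz0]; exact hT.lt)
  have h2 : ∀ x w, g (x ⊗ₜ (β w - w)) = c • cR U (h z) (g (x ⊗ₜ w)) ⊗ₜ z := fun x w => by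
    rw [tmul_sub, ← hβ, h1, apply_inv_apply]
  have := hT.ntU
  obtain ⟨x₀, hx₀⟩ := exists_ne (0 : U)
  obtain ⟨w, hw⟩ : ∃ w, β w - w ≠ 0 := by
    by_contra! h3
    obtain ⟨z', hz'⟩ := hT.hh.exists_eq_one hz0
    have h5 : ∀ p, cR U (h z) (g p) = 0 := fun p => by
      induction p using TensorProduct.induction_on with
      | zero => simp
      | add a b ha hb => simp [ha, hb]
      | tmul x w =>
        have := h2 x w
        rw [h3, tmul_zero, map_zero, eq_comm, smul_eq_zero_iff_right hc0] at this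
        exact tmul_inj_left (F := F) hz0 (by rw [this, zero_tmul])
    have := h5 (g⁻¹ (x₀ ⊗ₜ z'))
    rw [apply_inv_apply, cR_tmul, hz', one_smul] at this
    exact hx₀ this
  have h3 : ∀ x, g (x ⊗ₜ (β w - w)) ∈ sR F U z := fun x => by
    rw [h2]; exact Submodule.smul_mem _ _ (tmul_mem_sR _ _)
  refine hT.mem_tenG_of_map_sR₃ hΓ ?_ hw hg hz hz0 h3
  obtain ⟨y, hy⟩ := hT.hf.exists_eq_one hx₀
  have := hT.B_sR (h3 x₀) (cR_sR hz (h3 y))
  rwa [hT.iso hg, hT.tm, hy, one_mul] at this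

/-- If `1 ⊗ t_v` normalizes a conjugate of `U ⊗ z`, the conjugating element is a tensor product. -/
theorem mem_tenG_of_norm₃ {v : W} (hv : h v v = 0) (hv0 : v ≠ 0) {c : F} (hc : c + σ c = 0)
    (hc0 : c ≠ 0) (H : act (tenHom F U W (1, tv h v c hv hc)) (act g (sR F U z)) =
      act g (sR F U z)) : g ∈ tenG F U W :=
  hT.mem_tenG_of_conj₃ hΓ hv hv0 hg hc hc0 (hT.mem_tenG_of_stab₃ hΓ hz hz0
    (M.mul_mem (M.mul_mem (M.inv_mem hg) (hT.right (hT.hh.tv_mem_sisom hv hc))) hg) fun x => by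
      rw [LinearEquiv.mul_apply, LinearEquiv.mul_apply, ← mem_act, ← H, apply_mem_act,
        apply_mem_act]
      exact tmul_mem_sR x z)

end UT

end Cfsg.Agent.H26
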