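import Mathlib

/-!
Linear algebra of a tensor product `U ⊗ W`: contractions, the group of tensor products of
automorphisms, and tensor products of small rank distance from the identity.
-/

set_option autoImplicit false

namespace Cfsg.Agent.H26

open Module TensorProduct

variable {F U W : Type*} [Field F] [AddCommGroup U] [Module F U] [AddCommGroup W] [Module F W]

variable (U) in
/-- Contraction of the right factor. -/
noncomputable def cR (l : Dual F W) : U ⊗[F] W →ₗ[F] U :=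
  (TensorProduct.rid F U).toLinearMap ∘ₗ l.lTensor U

variable (W) in
/-- Contraction of the left factor. -/
noncomputable def cL (l : Dual F U) : U ⊗[F] W →ₗ[F] W :=
  (TensorProduct.lid F W).toLinearMap ∘ₗ l.rTensor W

theorem cR_tmul (l : Dual F W) (x : U) (w : W) : cR U l (x ⊗ₜ w) = l w • x := by simp [cR]

theorem cL_tmul (l : Dual F U) (x : U) (w : W) : cL W l (x ⊗ₜ w) = l x • w := by simp [cL]

theorem cR_add (l l' : Dual F W) (p : U ⊗[F] W) : cR U (l + l') p = cR U l p + cR U l' p := by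
  simp [cR, LinearMap.lTensor_add]

theorem cR_smul (c : F) (l : Dual F W) (p : U ⊗[F] W) : cR U (c • l) p = c • cR U l p := by
  simp [cR, LinearMap.lTensor_smul]

theorem cR_zero (p : U ⊗[F] W) : cR U (0 : Dual F W) p = 0 := by simp [cR]

theorem cR_sub (l l' : Dual F W) (p : U ⊗[F] W) : cR U (l - l') p = cR U l p - cR U l' p := by
  simp [cR, LinearMap.lTensor_sub]

theorem cL_cR (m : Dual F U) (l : Dual F W) (p : U ⊗[F] W) : l (cL W m p) = m (cR U l p) := by
  induction p using TensorProduct.induction_on with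
  | zero => simp
  | add a b ha hb => simp [ha, hb]
  | tmul x w => simp [cR_tmul, cL_tmul, mul_comm]

theorem cR_map (l : Dual F W) (α : End F U) (β : End F W) (p : U ⊗[F] W) :
    cR U l (TensorProduct.map α β p) = α (cR U (l ∘ₗ β) p) := by
  induction p using TensorProduct.induction_on with
  | zero => simp
  | add a b ha hb => simp [ha, hb]
  | tmul x w => simp [cR_tmul]

theorem exists_dual_one {x : U} (hx : x ≠ 0) : ∃ l : Dual F U, l x = 1 :=
  Module.Projective.exists_dual_eq_one F hx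

theorem exists_dual_of_notMem {S : Submodule F U} {x : U} (hx : x ∉ S) :
    ∃ l : Dual F U, l x = 1 ∧ ∀ s ∈ S, l s = 0 := by
  obtain ⟨l, h1, h2⟩ := S.exists_le_ker_of_notMem hx
  exact ⟨(l x)⁻¹ • l, by simp [h1], fun s hs => by simp [LinearMap.mem_ker.1 (h2 hs)]⟩

theorem eq_zero_of_dual {x : U} (h : ∀ l : Dual F U, l x = 0) : x = 0 := by
  by_contra hx
  obtain ⟨l, hl⟩ := exists_dual_one (F := F) hx
  simp [h] at hl

theorem tmul_inj_left {w : W} (hw : w ≠ 0) {x y : U} (h : x ⊗ₜ[F] w = y ⊗ₜ w) : x = y := by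
  obtain ⟨l, hl⟩ := exists_dual_one (F := F) hw
  simpa [cR_tmul, hl] using congrArg (cR U l) h

theorem tmul_inj_right {x : U} (hx : x ≠ 0) {v w : W} (h : x ⊗ₜ[F] v = x ⊗ₜ w) : v = w := by
  obtain ⟨l, hl⟩ := exists_dual_one (F := F) hx
  simpa [cL_tmul, hl] using congrArg (cL W l) h

theorem tmul_ne_zero' {x : U} (hx : x ≠ 0) {w : W} (hw : w ≠ 0) : x ⊗ₜ[F] w ≠ 0 :=
  fun h => hx (tmul_inj_left (F := F) hw (by rw [h, zero_tmul]))

theorem eq_zero_of_cR {p : U ⊗[F] W} (h : ∀ l : Dual F W, cR U l p = 0) : p = 0 := by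
  classical
  let b := Basis.ofVectorSpace F W
  have key : ∀ (p : U ⊗[F] W) i, TensorProduct.equivFinsuppOfBasisRight b p i =
      cR U (b.coord i) p := fun p i => by
    induction p using TensorProduct.induction_on with
    | zero => simp
    | add a b ha hb => simp [ha, hb]
    | tmul x w => simp [cR_tmul]
  refine (TensorProduct.equivFinsuppOfBasisRight b).injective (Finsupp.ext fun i => ?_)
  rw [key, h]; simp

/-- A linear map `U → U ⊗ W` all of whose contractions are scalars is `x ↦ x ⊗ v`. -/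
theorem exists_tmul_of_cR (ξ : U →ₗ[F] U ⊗[F] W)
    (hξ : ∀ l : Dual F W, ∃ c : F, ∀ x, cR U l (ξ x) = c • x) : ∃ v, ∀ x, ξ x = x ⊗ₜ v := by
  rcases subsingleton_or_nontrivial U with hU | hU
  · exact ⟨0, fun w => by rw [Subsingleton.elim w 0]; simp⟩
  obtain ⟨x₀, hx₀⟩ := exists_ne (0 : U)
  obtain ⟨m, hm⟩ := exists_dual_one (F := F) hx₀
  refine ⟨cL W m (ξ x₀), fun x => ?_⟩
  rw [← sub_eq_zero]
  refine eq_zero_of_cR fun l => ?_
  obtain ⟨c, hc⟩ := hξ l
  rw [map_sub, cR_tmul, cL_cR, hc, hc]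
  simp [hm]

/-- An endomorphism all of whose `End U`-components are scalars is `1 ⊗ β`. -/
theorem exists_lTensor_of_cR (k : End F (U ⊗[F] W))
    (hk : ∀ (l : Dual F W) (w : W), ∃ c : F, ∀ x, cR U l (k (x ⊗ₜ w)) = c • x) [Nontrivial U] :
    ∃ β : End F W, ∀ x w, k (x ⊗ₜ w) = x ⊗ₜ β w := by
  obtain ⟨x₀, hx₀⟩ := exists_ne (0 : U)
  obtain ⟨m, hm⟩ := exists_dual_one (F := F) hx₀
  refine ⟨cL W m ∘ₗ k ∘ₗ TensorProduct.mk F U W x₀, fun x w => ?_⟩
  obtain ⟨v, hv⟩ := exists_tmul_of_cR (k ∘ₗ (TensorProduct.mk F U W).flip w) fun l => hk l w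
  have h1 : ∀ x, k (x ⊗ₜ w) = x ⊗ₜ v := hv
  simp [h1, cL_tmul, hm]

variable (F U) in
/-- The subspace `U ⊗ z`. -/
def sR (z : W) : Submodule F (U ⊗[F] W) := LinearMap.range ((TensorProduct.mk F U W).flip z)

theorem mem_sR {z : W} {p : U ⊗[F] W} : p ∈ sR F U z ↔ ∃ x, x ⊗ₜ z = p := Iff.rfl

theorem tmul_mem_sR (x : U) (z : W) : x ⊗ₜ z ∈ sR F U z := ⟨x, rfl⟩

theorem finrank_sR {z : W} (hz : z ≠ 0) : finrank F (sR F U z) = finrank F U :=
  LinearMap.finrank_range_of_inj fun _ _ e => tmul_inj_left hz e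

theorem sR_smul {c : F} (hc : c ≠ 0) (z : W) : sR F U (c • z) = sR F U z := by
  ext p
  constructor
  · rintro ⟨x, rfl⟩
    exact ⟨c • x, smul_tmul c x z⟩
  · rintro ⟨x, rfl⟩
    exact ⟨c⁻¹ • x, by simp [smul_tmul, hc]⟩

theorem mem_span_of_tmul_mem_sR {x : U} (hx : x ≠ 0) {y z : W} (h : x ⊗ₜ y ∈ sR F U z) :
    y ∈ F ∙ z := by
  obtain ⟨x', h'⟩ := h
  obtain ⟨m, hm⟩ := exists_dual_one (F := F) hx
  have := congrArg (cL W m) (show x' ⊗ₜ z = x ⊗ₜ y from h')
  rw [cL_tmul, cL_tmul, hm, one_smul] at this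
  exact Submodule.mem_span_singleton.2 ⟨_, this⟩

theorem sR_eq_of_mem {y z : W} (hy : y ≠ 0) {p : U ⊗[F] W} (hp : p ≠ 0) (h1 : p ∈ sR F U y)
    (h2 : p ∈ sR F U z) : sR F U y = sR F U z := by
  obtain ⟨x, rfl⟩ := mem_sR.1 h1
  obtain ⟨c, rfl⟩ := Submodule.mem_span_singleton.1
    (mem_span_of_tmul_mem_sR (by rintro rfl; simp at hp) h2)
  exact sR_smul (by rintro rfl; simp at hy) z

/-- Induction over the kernel of a contraction. -/
theorem ker_cR_induction {l : Dual F W} {z' : W} (hz' : l z' = 1) (N : AddSubgroup (U ⊗[F] W))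
    (hN : ∀ x v, l v = 0 → x ⊗ₜ v ∈ N) {p : U ⊗[F] W} (hp : cR U l p = 0) : p ∈ N := by
  have key : ∀ p, p - cR U l p ⊗ₜ z' ∈ N := fun p => by
    induction p using TensorProduct.induction_on with
    | zero => simp
    | add a b ha hb =>
      convert N.add_mem ha hb using 1
      rw [map_add, add_tmul]
      abel
    | tmul x w =>
      convert hN x (w - l w • z') (by simp [hz']) using 1
      simp [cR_tmul, tmul_sub, smul_tmul]
  simpa [hp] using key p

variable (F U W) in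
/-- Tensor products of automorphisms. -/
noncomputable def tenHom : (U ≃ₗ[F] U) × (W ≃ₗ[F] W) →* (U ⊗[F] W ≃ₗ[F] U ⊗[F] W) where
  toFun g := TensorProduct.congr g.1 g.2
  map_one' := LinearEquiv.toLinearMap_injective (TensorProduct.ext' fun _ _ => rfl)
  map_mul' _ _ := LinearEquiv.toLinearMap_injective (TensorProduct.ext' fun _ _ => rfl)

theorem tenHom_tmul (α : U ≃ₗ[F] U) (β : W ≃ₗ[F] W) (x : U) (w : W) :
    tenHom F U W (α, β) (x ⊗ₜ w) = α x ⊗ₜ β w := rfl

theorem tenHom_left (α : U ≃ₗ[F] U) (x : U) (w : W) :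
    tenHom F U W (α, 1) (x ⊗ₜ w) = α x ⊗ₜ w := rfl

theorem tenHom_right (β : W ≃ₗ[F] W) (x : U) (w : W) :
    tenHom F U W (1, β) (x ⊗ₜ w) = x ⊗ₜ β w := rfl

theorem tenHom_apply (α : U ≃ₗ[F] U) (β : W ≃ₗ[F] W) (p : U ⊗[F] W) :
    tenHom F U W (α, β) p = TensorProduct.map α.toLinearMap β.toLinearMap p := rfl

theorem tenHom_inv (α : U ≃ₗ[F] U) (β : W ≃ₗ[F] W) :
    (tenHom F U W (α, β))⁻¹ = tenHom F U W (α⁻¹, β⁻¹) := (map_inv _ _).symm

theorem equiv_ext_tmul {g k : U ⊗[F] W ≃ₗ[F] U ⊗[F] W} (h : ∀ x w, g (x ⊗ₜ w) = k (x ⊗ₜ w)) :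
    g = k := LinearEquiv.toLinearMap_injective (TensorProduct.ext' h)

variable (F U W) in
/-- The stabilizer of the tensor decomposition. -/
noncomputable def tenG : Subgroup (U ⊗[F] W ≃ₗ[F] U ⊗[F] W) := (tenHom F U W).range

theorem mem_tenG {g : U ⊗[F] W ≃ₗ[F] U ⊗[F] W} :
    g ∈ tenG F U W ↔ ∃ α β, tenHom F U W (α, β) = g :=
  ⟨fun ⟨x, hx⟩ => ⟨x.1, x.2, hx⟩, fun ⟨α, β, h⟩ => ⟨(α, β), h⟩⟩

theorem tenHom_mem (α : U ≃ₗ[F] U) (β : W ≃ₗ[F] W) : tenHom F U W (α, β) ∈ tenG F U W := ⟨_, rfl⟩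

variable [FiniteDimensional F U] [FiniteDimensional F W]

theorem mem_tenG_of_map [Nontrivial U] [Nontrivial W] {g : U ⊗[F] W ≃ₗ[F] U ⊗[F] W}
    {α : End F U} {β : End F W} (h : ∀ x w, g (x ⊗ₜ w) = α x ⊗ₜ β w) : g ∈ tenG F U W := by
  obtain ⟨x₀, hx₀⟩ := exists_ne (0 : U)
  obtain ⟨w₀, hw₀⟩ := exists_ne (0 : W)
  have h1 : Function.Injective α := (injective_iff_map_eq_zero α).2 fun x hx => by
    by_contra h0
    exact tmul_ne_zero' h0 hw₀ (g.injective (by rw [h, hx, zero_tmul, map_zero]))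
  have h2 : Function.Injective β := (injective_iff_map_eq_zero β).2 fun w hw => by
    by_contra h0
    exact tmul_ne_zero' hx₀ h0 (g.injective (by rw [h, hw, tmul_zero, map_zero]))
  exact mem_tenG.2 ⟨LinearEquiv.ofInjectiveEndo α h1, LinearEquiv.ofInjectiveEndo β h2,
    equiv_ext_tmul fun x w => (h x w).symm⟩

theorem det_tenHom (α : U ≃ₗ[F] U) (β : W ≃ₗ[F] W) :
    LinearMap.det (tenHom F U W (α, β) : U ⊗[F] W →ₗ[F] U ⊗[F] W) =
      LinearMap.det (α : U →ₗ[F] U) ^ finrank F W * LinearMap.det (β : W →ₗ[F] W) ^ finrank F U := by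
  let b := Module.finBasis F U
  let c := Module.finBasis F W
  rw [← LinearMap.det_toMatrix (b.tensorProduct c), ← LinearMap.det_toMatrix b,
    ← LinearMap.det_toMatrix c]
  erw [TensorProduct.toMatrix_map b c b c]
  rw [Matrix.det_kronecker, Fintype.card_fin, Fintype.card_fin]

omit [FiniteDimensional F U] in
/-- A tensor product differing from the identity by a map of rank less than `dim W` is
`1 ⊗ β`. -/
theorem exists_eq_lTensor_of_rank {g : U ⊗[F] W ≃ₗ[F] U ⊗[F] W} (hg : g ∈ tenG F U W)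
    {S : Submodule F (U ⊗[F] W)} [FiniteDimensional F S] (hS : ∀ p, g p - p ∈ S)
    (hr : finrank F S < finrank F W) : ∃ β : End F W, ∀ x w, g (x ⊗ₜ w) = x ⊗ₜ β w := by
  obtain ⟨α, β, rfl⟩ := mem_tenG.1 hg
  have h1 : ∀ x, α x ∈ F ∙ x := fun x => by
    by_contra hx
    have hx0 : x ≠ 0 := by rintro rfl; simp at hx
    refine hr.not_ge (LinearMap.finrank_le_finrank_of_injective (f := LinearMap.codRestrict S
      (((tenHom F U W (α, β)).toLinearMap - 1) ∘ₗ TensorProduct.mk F U W x)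
        fun w => hS (x ⊗ₜ w))
      ((injective_iff_map_eq_zero _).2 fun w hw => ?_))
    have h2 : α x ⊗ₜ[F] β w - x ⊗ₜ w = 0 := congrArg Subtype.val hw
    obtain ⟨m, hm, hm'⟩ := exists_dual_of_notMem hx
    have := congrArg (cL W m) h2
    simpa [cL_tmul, hm, hm' x (Submodule.mem_span_singleton_self x)] using this
  obtain ⟨c, hc⟩ := α.toLinearMap.exists_eq_smul_id_of_forall_notLinearIndependent fun v => by
    by_cases hv : v = 0
    · simp [hv, linearIndependent_fin2]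
    · simpa [LinearIndependent.pair_iff' hv, Submodule.mem_span_singleton] using h1 v
  refine ⟨c • β.toLinearMap, fun x w => ?_⟩
  rw [tenHom_tmul, show α x = c • x from LinearMap.congr_fun hc x, smul_tmul]
  rfl

/-- A tensor product differing from the identity by a map of small rank has many fixed pure
tensors. -/
theorem exists_fixed_of_rank (h3 : 3 ≤ finrank F U) {α : U ≃ₗ[F] U} {β : W ≃ₗ[F] W}
    {S : Submodule F (U ⊗[F] W)} (hS : ∀ p, tenHom F U W (α, β) p - p ∈ S)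
    (hr : finrank F S ≤ 2 * finrank F U) (hlt : finrank F U < finrank F W)
    (h4 : 4 ≤ finrank F W) : ∃ (u : U) (K : Submodule F W), u ≠ 0 ∧ 2 ≤ finrank F K ∧
      ∀ v ∈ K, α u ⊗ₜ[F] β v = u ⊗ₜ v := by
  let N : End F (U ⊗[F] W) := (tenHom F U W (α, β)).toLinearMap - 1
  have hN : ∀ x w, N (x ⊗ₜ w) = α x ⊗ₜ β w - x ⊗ₜ w := fun _ _ => rfl
  by_cases hs : ∀ x, α x ∈ F ∙ x
  · -- `α` is a scalar
    obtain ⟨c, hc⟩ := α.toLinearMap.exists_eq_smul_id_of_forall_notLinearIndependent fun v => by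
      by_cases hv : v = 0
      · simp [hv, linearIndependent_fin2]
      · simpa [LinearIndependent.pair_iff' hv, Submodule.mem_span_singleton] using hs v
    have hc' : ∀ x, α x = c • x := LinearMap.congr_fun hc
    let γ : End F W := c • β.toLinearMap - 1
    have h1 : ∀ x w, N (x ⊗ₜ w) = x ⊗ₜ γ w := fun x w => by
      simp [hN, hc', γ, tmul_sub, smul_tmul]
    have h2 : LinearMap.range ((LinearMap.range γ).subtype.lTensor U) ≤ S := by
      rintro _ ⟨p, rfl⟩
      induction p using TensorProduct.induction_on with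
      | zero => simp
      | add a b ha hb => rw [map_add]; exact S.add_mem ha hb
      | tmul x w =>
        obtain ⟨_, w, rfl⟩ := w
        rw [LinearMap.lTensor_tmul, Submodule.subtype_apply, ← h1]
        exact hS _
    have h5 := Submodule.finrank_mono h2
    rw [LinearMap.finrank_range_of_inj
      (Module.Flat.lTensor_preserves_injective_linearMap _ (Submodule.injective_subtype _)),
      Module.finrank_tensorProduct] at h5
    have h6 : finrank F (LinearMap.range γ) ≤ 2 := by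
      by_contra h6
      nlinarith
    have h7 := γ.finrank_range_add_finrank_ker
    have : Nontrivial U := Module.nontrivial_of_finrank_pos (R := F) (by omega)
    obtain ⟨u, hu⟩ := exists_ne (0 : U)
    refine ⟨u, LinearMap.ker γ, hu, by omega, fun v hv => ?_⟩
    rw [← sub_eq_zero, ← hN, h1, LinearMap.mem_ker.1 hv, tmul_zero]
  push Not at hs
  obtain ⟨x₁, hx₁⟩ := hs
  have hx₁0 : x₁ ≠ 0 := by rintro rfl; simp at hx₁
  -- the kernel of `(w₁, w₂) ↦ N (x₁ ⊗ w₁ + x₂ ⊗ w₂)`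
  have key : ∀ x₂ : U, ∃ K : Submodule F W, 2 ≤ finrank F K ∧ ∀ w₂ ∈ K, ∃ w₁,
      α x₁ ⊗ₜ[F] β w₁ - x₁ ⊗ₜ w₁ + (α x₂ ⊗ₜ β w₂ - x₂ ⊗ₜ w₂) = 0 := fun x₂ => by
    let Φ : W × W →ₗ[F] S := LinearMap.codRestrict S (N ∘ₗ (TensorProduct.mk F U W x₁).coprod
      (TensorProduct.mk F U W x₂)) fun w => hS (x₁ ⊗ₜ w.1 + x₂ ⊗ₜ w.2)
    have h1 := Φ.finrank_range_add_finrank_ker
    have h2 := Submodule.finrank_le (LinearMap.range Φ)
    rw [finrank_prod] at h1
    have h5 : ∀ w ∈ LinearMap.ker Φ,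
        α x₁ ⊗ₜ[F] β w.1 - x₁ ⊗ₜ w.1 + (α x₂ ⊗ₜ β w.2 - x₂ ⊗ₜ w.2) = 0 := fun w hw => by
      have : N (x₁ ⊗ₜ w.1 + x₂ ⊗ₜ w.2) = 0 := congrArg Subtype.val hw
      rwa [map_add, hN, hN] at this
    refine ⟨(LinearMap.ker Φ).map (LinearMap.snd F W W), ?_, ?_⟩
    · rw [← LinearMap.range_domRestrict, LinearMap.finrank_range_of_inj]
      · omega
      refine (injective_iff_map_eq_zero _).2 fun w hw => Subtype.ext (Prod.ext ?_ hw)
      have h6 := h5 w.1 w.2
      rw [show w.1.2 = 0 from hw] at h6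
      obtain ⟨m, hm, hm'⟩ := exists_dual_of_notMem hx₁
      simpa [cL_tmul, hm, hm' x₁ (Submodule.mem_span_singleton_self x₁)] using
        congrArg (cL W m) h6
    · rintro _ ⟨w, hw, rfl⟩
      exact ⟨w.1, h5 w hw⟩
  set P : Submodule F U := Submodule.span F {x₁, α x₁} with hP
  have hP1 : x₁ ∈ P := Submodule.subset_span (by simp)
  have hP2 : α x₁ ∈ P := Submodule.subset_span (by simp)
  have hne : ∀ K : Submodule F W, 2 ≤ finrank F K → ∃ w ∈ K, w ≠ 0 := fun K hK =>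
    Submodule.exists_mem_ne_zero_of_ne_bot (by rintro rfl; simp at hK)
  have hP3 : α (α x₁) ∈ P := by
    by_contra h
    obtain ⟨K, hK, h1⟩ := key (α x₁)
    obtain ⟨w, hw, hw0⟩ := hne K hK
    obtain ⟨w₁, h2⟩ := h1 w hw
    obtain ⟨m, hm, hm'⟩ := exists_dual_of_notMem h
    exact hw0 (by simpa [cL_tmul, hm, hm' _ hP1, hm' _ hP2] using congrArg (cL W m) h2)
  have hP4 : ∀ p ∈ P, α p ∈ P := fun p hp => by
    obtain ⟨a, b, rfl⟩ := Submodule.mem_span_pair.1 hp
    rw [map_add, map_smul, map_smul]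
    exact P.add_mem (P.smul_mem _ hP2) (P.smul_mem _ hP3)
  have hP5 : finrank F P ≤ 2 := by
    classical
    have := finrank_span_finset_le_card (R := F) ({x₁, α x₁} : Finset U)
    rw [Set.finrank, Finset.coe_insert, Finset.coe_singleton] at this
    exact this.trans Finset.card_le_two
  obtain ⟨x₂, hx₂⟩ : ∃ x₂, x₂ ∉ P := by
    by_contra! h
    rw [Submodule.eq_top_iff'.2 h, finrank_top] at hP5
    omega
  obtain ⟨K, hK, h1⟩ := key x₂
  have h2 : ∀ m : Dual F U, (∀ p ∈ P, m p = 0) → ∀ w ∈ K, m (α x₂) • β w = m x₂ • w :=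
    fun m hm w hw => by
      obtain ⟨w₁, h2⟩ := h1 w hw
      simpa [cL_tmul, hm _ hP1, hm _ hP2, sub_eq_zero] using congrArg (cL W m) h2
  obtain ⟨m, hm, hm'⟩ := exists_dual_of_notMem hx₂
  set μ := m (α x₂) with hμ
  have h5 : ∀ w ∈ K, μ • β w = w := fun w hw => by simpa [hm] using h2 m hm' w hw
  have h6 : α x₂ - μ • x₂ ∈ P := by
    by_contra h
    obtain ⟨m', a1, a2⟩ := exists_dual_of_notMem h
    obtain ⟨w, hw, hw0⟩ := hne K hK
    have a3 := h2 m' a2 w hw
    rw [map_sub, map_smul, smul_eq_mul] at a1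
    have a4 : (m' (α x₂) - μ * m' x₂) • β w = 0 := by
      rw [sub_smul, a3, mul_comm, mul_smul, h5 w hw, sub_self]
    rw [a1, one_smul] at a4
    exact hw0 (β.injective (by rw [a4, map_zero]))
  -- `μ` is an eigenvalue of `α`
  obtain ⟨u, hu, hu0⟩ : ∃ u, α u = μ • u ∧ u ≠ 0 := by
    let Ψ : ↥(P ⊔ F ∙ x₂) →ₗ[F] P := LinearMap.codRestrict P
      ((α.toLinearMap - μ • 1) ∘ₗ (P ⊔ F ∙ x₂).subtype) fun y => by
        obtain ⟨p, hp, _, hq, h⟩ := Submodule.mem_sup.1 y.2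
        obtain ⟨c, rfl⟩ := Submodule.mem_span_singleton.1 hq
        convert P.add_mem (P.sub_mem (hP4 p hp) (P.smul_mem μ hp)) (P.smul_mem c h6) using 1
        simp only [LinearMap.comp_apply, Submodule.subtype_apply, ← h, LinearMap.sub_apply,
          LinearMap.smul_apply, End.one_apply, LinearEquiv.coe_coe, map_add, map_smul]
    have a1 : finrank F P < finrank F ↥(P ⊔ F ∙ x₂) := Submodule.finrank_lt_finrank_of_lt
      (lt_of_le_of_ne le_sup_left fun h => hx₂ (h ▸ Submodule.mem_sup_right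
        (Submodule.mem_span_singleton_self x₂)))
    obtain ⟨y, hy, hy0⟩ := Submodule.exists_mem_ne_zero_of_ne_bot
      (LinearMap.ker_ne_bot_of_finrank_lt (f := Ψ) a1)
    exact ⟨y, sub_eq_zero.1 (congrArg Subtype.val hy), fun h => hy0 (Subtype.ext h)⟩
  exact ⟨u, K, hu0, hK, fun v hv => by rw [hu, smul_tmul, h5 v hv]⟩

end Cfsg.Agent.H26
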