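import Cfsg.Agent.H26.UHerm
import Cfsg.Agent.H26.UTenLin
import Cfsg.Agent.H31.HermQ

/-!
Overgroups of `GU(U) ∘ GU(W)` in `SU(U ⊗ W)`: the centre of the unipotent radical of the
stabilizer of `U ⊗ z`.
-/

set_option autoImplicit false

namespace Cfsg.Agent.H26

open H31 Module TensorProduct

variable {F : Type*} [Field F] [Finite F] {σ : F →+* F} {U : Type*} [AddCommGroup U] [Module F U]
  {f : U →ₛₗ[σ] U →ₗ[F] F}

/-- The rank one operator `x ↦ f v x • u`. -/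
def ro (f : U →ₛₗ[σ] U →ₗ[F] F) (u v : U) : End F U := (f v).smulRight u

omit [Finite F] in
theorem ro_apply (u v x : U) : ro f u v x = f v x • u := rfl

omit [Finite F] in
theorem ro_conj {α : U ≃ₗ[F] U} (hα : α ∈ isom f) (u v : U) :
    α.toLinearMap * ro f u v * (α⁻¹).toLinearMap = ro f (α u) (α v) := by
  ext x
  simp [ro_apply, isom_adj hα]

theorem exists_isotropic_mem (hf : IsHermSymm f) {S : Submodule F U} (hS : 2 ≤ finrank F S) :
    ∃ e ∈ S, e ≠ 0 ∧ f e e = 0 :=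
  PForm.exists_isotropic_herm (involE hf.inv) hf.inv.invol hf.inv.ne_id (fun x y => f y x)
    (fun x y z => map_add _ x y) (fun c x y => smul_right f c y x) (fun x y => (hf.symm y x).symm)
    S hS

omit [Finite F] in
theorem exists_fixed_mul (hσ : IsInvol σ) {c d : F} (hc : c + σ c = 0) (hc0 : c ≠ 0)
    (hd : d + σ d = 0) : ∃ k, σ k = k ∧ d = k * c := by
  refine ⟨d / c, ?_, by field_simp⟩
  have : σ c ≠ 0 := (map_ne_zero σ).2 hc0
  rw [map_div₀]
  field_simp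
  linear_combination c * hd - d * hc

variable [FiniteDimensional F U]

theorem exists_eich (hf : IsHerm f) {u y : U} {ν : F} (h1 : f u u = 0) (h2 : f u y = 0)
    (h3 : ν + σ ν = f y y) :
    ∃ α ∈ sisom f, ∀ x, α x = x + f u x • y - (f y x + ν * f u x) • u :=
  ⟨_, E_le_sisom (h := hf) ((hermP_ev hf).2 ⟨h1, h2, h3⟩).equiv_mem_E, hermP_eich hf u y ν⟩

theorem exists_eich' (hf : IsHerm f) {u y : U} (h1 : f u u = 0) (h2 : f u y = 0) :
    ∃ ν, ν + σ ν = f y y ∧ ∃ α ∈ sisom f, ∀ x, α x = x + f u x • y - (f y x + ν * f u x) • u := by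
  obtain ⟨ν, hν⟩ := hf.inv.exists_trace_eq (hf.norm_fixed y)
  exact ⟨ν, hν, exists_eich hf h1 h2 hν⟩

omit [Finite F] in
theorem exists_perp_eq (hf : IsHerm f) {u v : U} (hv : v ∉ F ∙ u) (t : F) :
    ∃ y, f u y = 0 ∧ f y v = t := by
  obtain ⟨e, h1, h2⟩ := hf.exists_perp_of_notMem hv
  refine ⟨σ (t / f e v) • e, by rw [smul_right, mem_perp_span_singleton.1 h1, mul_zero], ?_⟩
  rw [smul_left, hf.inv.invol, div_mul_cancel₀ _ h2]

omit [Finite F] in
theorem exists_perp_notMem (hf : IsHerm f) (h3 : 3 ≤ finrank F U) {u : U} (hu : u ≠ 0) :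
    ∃ y, f u y = 0 ∧ y ∉ F ∙ u := by
  by_contra! H
  have h1 := Submodule.finrank_mono (show perp f (F ∙ u) ≤ F ∙ u from
    fun y hy => H y (mem_perp_span_singleton.1 hy))
  have h2 := hf.finrank_add_finrank_perp (F ∙ u)
  rw [finrank_span_singleton hu] at h1 h2
  omega

theorem exists_scalar_of_ro (hf : IsHerm f) (h2 : 2 ≤ finrank F U) (A : End F U)
    (hA : ∀ u, f u u = 0 → ∀ x, f u x • A u = f u (A x) • u) : ∃ c : F, ∀ x, A x = c • x := by
  obtain ⟨e, -, he0, he⟩ := exists_isotropic_mem hf.toIsHermSymm (S := ⊤) (by rwa [finrank_top])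
  exact (hermP hf).exists_scalar_of_comm A ((hermP_sing hf).2 he) he0
    fun z hz x => hA z ((hermP_sing hf).1 hz) x

/-- An `SU(U)`-invariant space of skew-adjoint operators consists of scalars or contains a
transvection group. -/
theorem exists_ro_mem (hf : IsHerm f) (h2 : 2 ≤ finrank F U)
    (hq : 3 ≤ finrank F U ∨ ∃ k : F, σ k = k ∧ k ≠ 0 ∧ k ≠ 1) (Γ : AddSubgroup (End F U))
    (hsm : ∀ k : F, σ k = k → ∀ γ ∈ Γ, k • γ ∈ Γ)
    (hcj : ∀ α ∈ sisom f, ∀ γ ∈ Γ, α.toLinearMap * γ * (α⁻¹).toLinearMap ∈ Γ)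
    (hsk : ∀ γ ∈ Γ, ∀ x y, f (γ x) y + f x (γ y) = 0) {γ : End F U} (hγ : γ ∈ Γ)
    (hns : ¬ ∃ c : F, ∀ x, γ x = c • x) :
    ∃ u, u ≠ 0 ∧ f u u = 0 ∧ ∀ c : F, c + σ c = 0 → c • ro f u u ∈ Γ := by
  suffices ∃ (u : U) (c : F), u ≠ 0 ∧ f u u = 0 ∧ c ≠ 0 ∧ c • ro f u u ∈ Γ by
    obtain ⟨u, c, hu0, hu, hc0, hc⟩ := this
    obtain ⟨y, hy⟩ := hf.exists_eq_one hu0
    have h1 := hsk _ hc y y
    simp only [LinearMap.smul_apply, ro_apply, hy, one_smul, smul_left, smul_right, mul_one,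
      hf.flip_one hy] at h1
    refine ⟨u, hu0, hu, fun d hd => ?_⟩
    obtain ⟨k, hk, rfl⟩ := exists_fixed_mul hf.inv (c := c) (by linear_combination h1) hc0 hd
    rw [mul_smul]
    exact hsm k hk _ hc
  have hcj' : ∀ α ∈ sisom f, ∀ {u v : U} {c μ : F}, α u = u →
      c • (ro f u v + ro f v u) + μ • ro f u u ∈ Γ →
      c • (ro f u (α v - v) + ro f (α v - v) u) ∈ Γ := fun α hα u v c μ h1 h3 => by
    have := Γ.sub_mem (hcj α hα _ h3) h3
    simp only [mul_add, add_mul, mul_smul_comm, smul_mul_assoc, ro_conj (sisom_le_isom hα),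
      h1] at this
    convert this using 1
    ext x
    simp only [LinearMap.smul_apply, LinearMap.add_apply, LinearMap.sub_apply, ro_apply, sub_left]
    module
  have K0 : ∀ {u v : U} {c μ : F}, u ≠ 0 → f u u = 0 → f u v = 0 → v ∉ F ∙ u → c ≠ 0 →
      c • (ro f u v + ro f v u) + μ • ro f u u ∈ Γ →
      ∃ (u : U) (c : F), u ≠ 0 ∧ f u u = 0 ∧ c ≠ 0 ∧ c • ro f u u ∈ Γ := by
    intro u v c μ hu0 hu huv hv hc h3
    obtain ⟨t, ht⟩ := hf.inv.exists_trace_ne_zero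
    obtain ⟨y, hy, hyv⟩ := exists_perp_eq hf hv t
    obtain ⟨ν, -, α, hα, H⟩ := exists_eich' hf hu hy
    refine ⟨u, -(c * (t + σ t)), hu0, hu, neg_ne_zero.2 (mul_ne_zero hc ht), ?_⟩
    convert hcj' α hα (by simp [H, hu, hf.flip_zero hy]) h3 using 1
    ext x
    simp only [LinearMap.smul_apply, LinearMap.add_apply, ro_apply, H, huv, hyv, zero_smul,
      mul_zero, add_zero, sub_sub_cancel_left, neg_left, smul_left]
    module
  obtain ⟨u, hu, x, hx⟩ : ∃ u, f u u = 0 ∧ ∃ x, f u x • γ u ≠ f u (γ x) • u := by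
    by_contra! H
    exact hns (exists_scalar_of_ro hf h2 γ H)
  have hu0 : u ≠ 0 := by rintro rfl; simp at hx
  have hsk' : ∀ x, f u (γ x) = -f (γ u) x := fun x => by linear_combination hsk γ hγ u x
  have hδ : ∀ c : F, c + σ c = 0 →
      (-c) • (ro f u (γ u) + ro f (γ u) u) + (-(c * c * f u (γ u))) • ro f u u ∈ Γ := fun c hc => by
    convert Γ.sub_mem (hcj _ (hf.tv_mem_sisom hu hc) γ hγ) hγ using 1
    ext x
    rw [tv_inv]
    simp only [LinearMap.smul_apply, LinearMap.add_apply, LinearMap.sub_apply, ro_apply,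
      End.mul_apply, LinearEquiv.coe_coe, tv_apply, map_add, map_smul, hsk' x, smul_eq_mul]
    module
  obtain ⟨c, hc0, hc⟩ := hf.inv.exists_skew'
  by_cases hv : γ u ∈ F ∙ u
  · obtain ⟨l, hl⟩ := Submodule.mem_span_singleton.1 hv
    refine ⟨u, -(c * (l + σ l)), hu0, hu, neg_ne_zero.2 (mul_ne_zero hc0 fun h => hx ?_), ?_⟩
    · rw [hsk', ← hl, smul_left, smul_smul, show σ l = -l by linear_combination h]
      congr 1; ring
    · convert hδ c hc using 1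
      ext x
      simp only [LinearMap.smul_apply, LinearMap.add_apply, ro_apply, ← hl, smul_left, smul_right,
        hu]
      module
  by_cases hκ : f u (γ u) = 0
  · exact K0 hu0 hu hκ hv (neg_ne_zero.2 hc0) (hδ c hc)
  rcases hq with h3 | ⟨k, hk, hk0, hk1⟩
  · obtain ⟨y, hy, hy'⟩ := exists_perp_notMem hf h3 hu0
    obtain ⟨ν, -, α, hα, H⟩ := exists_eich' hf hu hy
    refine K0 (v := α (γ u) - γ u) (μ := 0) hu0 hu (by simp [H, hu, hy]) (fun h => hy' ?_)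
      (neg_ne_zero.2 hc0)
      (by simpa using hcj' α hα (by simp [H, hu, hf.flip_zero hy]) (hδ c hc))
    rw [H, add_sub_assoc, add_sub_cancel_left] at h
    have := Submodule.add_mem _ h (Submodule.smul_mem _ (f y (γ u) + ν * f u (γ u))
      (Submodule.mem_span_singleton_self u))
    rwa [sub_add_cancel, Submodule.smul_mem_iff _ hκ] at this
  · refine ⟨u, (k - k * k) * (c * c * f u (γ u)), hu0, hu, mul_ne_zero ?_
      (mul_ne_zero (mul_ne_zero hc0 hc0) hκ), ?_⟩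
    · rw [← mul_one_sub]
      exact mul_ne_zero hk0 (sub_ne_zero.2 hk1.symm)
    · convert Γ.sub_mem (hδ (c * k) (skew_mul_fixed hc hk)) (hsm k hk _ (hδ c hc)) using 1
      module

variable {W : Type*} [AddCommGroup W] [Module F W] [FiniteDimensional F W]
  {h : W →ₛₗ[σ] W →ₗ[F] F} {B : U ⊗[F] W →ₛₗ[σ] U ⊗[F] W →ₗ[F] F}
  {M : Subgroup (U ⊗[F] W ≃ₗ[F] U ⊗[F] W)}

/-- A subgroup of `SU(U ⊗ W)` containing the stabilizer of the tensor decomposition. -/
structure UT (f : U →ₛₗ[σ] U →ₗ[F] F) (h : W →ₛₗ[σ] W →ₗ[F] F)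
    (B : U ⊗[F] W →ₛₗ[σ] U ⊗[F] W →ₗ[F] F) (M : Subgroup (U ⊗[F] W ≃ₗ[F] U ⊗[F] W)) : Prop where
  hf : IsHerm f
  hh : IsHerm h
  hB : IsHerm B
  tm : ∀ x y w w', B (x ⊗ₜ w) (y ⊗ₜ w') = f x y * h w w'
  two : 2 ≤ finrank F U
  lt : finrank F U < finrank F W
  big : 3 ≤ finrank F U ∨ ∃ k : F, σ k = k ∧ k ≠ 0 ∧ k ≠ 1
  le : M ≤ sisom B
  ten : tenG F U W ⊓ sisom B ≤ M

namespace UT

variable (hT : UT f h B M)
include hT

omit [Finite F] [FiniteDimensional F U] [FiniteDimensional F W] in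
theorem B_tmul (y : U) (z : W) (p : U ⊗[F] W) : B (y ⊗ₜ z) p = f y (cR U (h z) p) := by
  induction p using TensorProduct.induction_on with
  | zero => simp
  | add a b ha hb => simp [ha, hb]
  | tmul x w => simp [hT.tm, cR_tmul, mul_comm]

omit [Finite F] [FiniteDimensional F U] [FiniteDimensional F W] in
theorem B_sR {z : W} {p q : U ⊗[F] W} (hp : p ∈ sR F U z) (hq : cR U (h z) q = 0) :
    B p q = 0 := by
  obtain ⟨x, rfl⟩ := mem_sR.1 hp
  rw [hT.B_tmul, hq, map_zero]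

omit [Finite F] [FiniteDimensional F U] [FiniteDimensional F W] hT in
theorem cR_sR {y z : W} (hz : h y z = 0) {p : U ⊗[F] W} (hp : p ∈ sR F U z) :
    cR U (h y) p = 0 := by
  obtain ⟨x, rfl⟩ := mem_sR.1 hp
  rw [cR_tmul, hz, zero_smul]

omit [Finite F] [FiniteDimensional F U] [FiniteDimensional F W] in
theorem cR_eq_zero {z : W} {q : U ⊗[F] W} (hq : ∀ x, B (x ⊗ₜ z) q = 0) : cR U (h z) q = 0 :=
  hT.hf.nondeg' _ fun x => by rw [← hT.B_tmul, hq]

omit [Finite F] [FiniteDimensional F U] [FiniteDimensional F W] in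
theorem iso {g : U ⊗[F] W ≃ₗ[F] U ⊗[F] W} (hg : g ∈ M) : g ∈ isom B := sisom_le_isom (hT.le hg)

omit [Finite F] [FiniteDimensional F U] [FiniteDimensional F W] hT in
theorem cR_ten {β : W ≃ₗ[F] W} (hβ : β ∈ isom h) (α : U ≃ₗ[F] U) (z : W) (p : U ⊗[F] W) :
    cR U (h z) (tenHom F U W (α, β) p) = α (cR U (h (β⁻¹ z)) p) := by
  rw [tenHom_apply, cR_map, show h z ∘ₗ β.toLinearMap = h (β⁻¹ z) from
    LinearMap.ext fun w => isom_adj' hβ z w]
  rfl

omit [Finite F] [FiniteDimensional F U] [FiniteDimensional F W] in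
theorem ten_isom {α : U ≃ₗ[F] U} (hα : α ∈ isom f) {β : W ≃ₗ[F] W} (hβ : β ∈ isom h) :
    tenHom F U W (α, β) ∈ isom B := fun p q => by
  induction p using TensorProduct.induction_on with
  | zero => simp
  | add a b ha hb => simp [ha, hb]
  | tmul x w => rw [tenHom_tmul, hT.B_tmul, hT.B_tmul, cR_ten hβ, hα, inv_apply_apply]

omit [Finite F] in
theorem ten_mem {α : U ≃ₗ[F] U} (hα : α ∈ sisom f) {β : W ≃ₗ[F] W} (hβ : β ∈ sisom h) :
    tenHom F U W (α, β) ∈ M :=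
  hT.ten ⟨tenHom_mem α β, mem_sisom'.2 ⟨hT.ten_isom hα.1 hβ.1, by
    rw [det_tenHom, (mem_sisom'.1 hα).2, (mem_sisom'.1 hβ).2]; simp⟩⟩

omit [Finite F] in
theorem left {α : U ≃ₗ[F] U} (hα : α ∈ sisom f) : tenHom F U W (α, 1) ∈ M :=
  hT.ten_mem hα (one_mem _)

omit [Finite F] in
theorem right {β : W ≃ₗ[F] W} (hβ : β ∈ sisom h) : tenHom F U W (1, β) ∈ M :=
  hT.ten_mem (one_mem _) hβ

omit [Finite F] [FiniteDimensional F U] [FiniteDimensional F W] in
theorem three : 3 ≤ finrank F W := by have := hT.two; have := hT.lt; omega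

omit [Finite F] [FiniteDimensional F U] [FiniteDimensional F W] in
theorem ntU : Nontrivial U := Module.nontrivial_of_finrank_pos (R := F) (by have := hT.two; omega)

omit [Finite F] [FiniteDimensional F U] [FiniteDimensional F W] in
theorem ntW : Nontrivial W := Module.nontrivial_of_finrank_pos (R := F) (by have := hT.three; omega)

omit [Finite F] [FiniteDimensional F U] in
theorem trans {z z' : W} (hz : h z z = 0) (hz0 : z ≠ 0) (hz' : h z' z' = 0) (hz0' : z' ≠ 0) :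
    ∃ β ∈ sisom h, β z = z' := by
  obtain ⟨β, h1, h2⟩ := hT.hh.exists_suOn_map hT.hh.nondegOn_top Submodule.mem_top
    Submodule.mem_top hz0 hz0' (hz.trans hz'.symm) (Or.inl (by rw [finrank_top]; exact hT.three))
  exact ⟨β, h1.1, h2⟩

omit [Finite F] [FiniteDimensional F U] [FiniteDimensional F W] in
theorem cR_fix {g : U ⊗[F] W ≃ₗ[F] U ⊗[F] W} (hg : g ∈ isom B) {z : W}
    (hfix : ∀ x, g (x ⊗ₜ z) = x ⊗ₜ z) (p : U ⊗[F] W) : cR U (h z) (g p) = cR U (h z) p :=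
  hT.hf.ext_right fun x => by rw [← hT.B_tmul, ← hT.B_tmul, ← hg (x ⊗ₜ z) p, hfix]

/-- The operators `γ` such that `p ↦ p + γ (c_z p) ⊗ z` lies in `M`. -/
def Gam (_ : UT f h B M) : AddSubgroup (End F U) where
  carrier := {γ | ∀ z, h z z = 0 → ∃ g ∈ M, ∀ p, g p = p + γ (cR U (h z) p) ⊗ₜ z}
  zero_mem' _ _ := ⟨1, M.one_mem, by simp⟩
  add_mem' {γ γ'} h1 h2 z hz := by
    obtain ⟨g, hg, H⟩ := h1 z hz
    obtain ⟨g', hg', H'⟩ := h2 z hz
    exact ⟨g * g', M.mul_mem hg hg', fun p => by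
      simp [H, H', cR_tmul, hz, add_tmul, add_assoc, add_comm, add_left_comm]⟩
  neg_mem' {γ} h1 z hz := by
    obtain ⟨g, hg, H⟩ := h1 z hz
    exact ⟨g⁻¹, M.inv_mem hg, fun p => g.injective (by
      rw [apply_inv_apply]; simp [H, cR_tmul, hz, neg_tmul])⟩

omit [Finite F] in
theorem mem_Gam {γ : End F U} {z : W} (hz : h z z = 0) (hz0 : z ≠ 0)
    {g : U ⊗[F] W ≃ₗ[F] U ⊗[F] W} (hg : g ∈ M) (H : ∀ p, g p = p + γ (cR U (h z) p) ⊗ₜ z) :
    γ ∈ hT.Gam := fun z' hz' => by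
  by_cases hz0' : z' = 0
  · exact ⟨1, M.one_mem, by simp [hz0']⟩
  obtain ⟨β, hβ, rfl⟩ := hT.trans hz hz0 hz' hz0'
  refine ⟨_, M.mul_mem (M.mul_mem (hT.right hβ) hg) (M.inv_mem (hT.right hβ)), fun p => ?_⟩
  rw [LinearEquiv.mul_apply, LinearEquiv.mul_apply, H, map_add, apply_inv_apply, tenHom_tmul,
    tenHom_inv, cR_ten (inv_mem hβ.1)]
  rfl

omit [FiniteDimensional F U] [FiniteDimensional F W] in
theorem smul_mem_Gam {k : F} (hk : σ k = k) {γ : End F U} (hγ : γ ∈ hT.Gam) : k • γ ∈ hT.Gam :=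
  fun z hz => by
  obtain ⟨l, rfl⟩ := hT.hf.inv.exists_norm_eq hk
  obtain ⟨g, hg, H⟩ := hγ (l • z) (isotropic_smul hz l)
  refine ⟨g, hg, fun p => ?_⟩
  rw [H, LinearMap.map_smulₛₗ, cR_smul, map_smul, ← smul_tmul, smul_smul, LinearMap.smul_apply]

omit [Finite F] in
theorem conj_mem_Gam {α : U ≃ₗ[F] U} (hα : α ∈ sisom f) {γ : End F U} (hγ : γ ∈ hT.Gam) :
    α.toLinearMap * γ * (α⁻¹).toLinearMap ∈ hT.Gam := fun z hz => by
  obtain ⟨g, hg, H⟩ := hγ z hz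
  refine ⟨_, M.mul_mem (M.mul_mem (hT.left hα) hg) (M.inv_mem (hT.left hα)), fun p => ?_⟩
  rw [LinearEquiv.mul_apply, LinearEquiv.mul_apply, H, map_add, apply_inv_apply, tenHom_tmul,
    tenHom_inv, cR_ten (inv_mem (one_mem _))]
  rfl

omit [FiniteDimensional F U] in
theorem exists_pair : ∃ z z' : W, z ≠ 0 ∧ h z z = 0 ∧ h z' z' = 0 ∧ h z z' = 1 := by
  obtain ⟨z, -, hz0, hz⟩ := exists_isotropic_mem hT.hh.toIsHermSymm (S := ⊤)
    (by rw [finrank_top]; have := hT.three; omega)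
  obtain ⟨z', h1, h2⟩ := hT.hh.exists_hyperbolic' hz hz0
  exact ⟨z, z', hz0, hz, h1, h2⟩

omit [FiniteDimensional F U] in
theorem skew_of_mem_Gam {γ : End F U} (hγ : γ ∈ hT.Gam) (x y : U) :
    f (γ x) y + f x (γ y) = 0 := by
  obtain ⟨z, z', -, hz, -, hzz'⟩ := hT.exists_pair
  obtain ⟨g, hg, H⟩ := hγ z hz
  have := hT.iso hg (x ⊗ₜ z') (y ⊗ₜ z')
  simp only [H, cR_tmul, hzz', one_smul, LinearMap.add_apply, map_add, hT.tm, hz,
    hT.hh.flip_one hzz'] at this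
  linear_combination this

/-- Transvections with centres `u ⊗ z` generate everything. -/
theorem sisom_le_of_hasTv (h4 : 4 ≤ finrank F W) {u₀ : U} (hu0 : u₀ ≠ 0) (hu : f u₀ u₀ = 0)
    (ht : ∀ z, h z z = 0 → HasTv B M (u₀ ⊗ₜ z)) : sisom B ≤ M := by
  set P := hermP hT.hB with hP
  have sing : ∀ (u : U) {z}, h z z = 0 → P.Sing (u ⊗ₜ z) := fun u z hz =>
    (hermP_sing hT.hB).2 (by rw [hT.tm, hz, mul_zero])
  have Yc : ∀ {e} (he : P.Sing e) {g}, g ∈ M → g e = e → ∀ {y}, y ∈ PForm.Ygrp M he →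
      g y ∈ PForm.Ygrp M he := fun {e} he g hg h1 y ⟨ν, hy⟩ =>
    ⟨ν, h1 ▸ hy.conj hg (hermP_isom hT.hB ▸ hT.iso hg)⟩
  have hiso : ∀ {z : W}, z ≠ 0 → ∃ w, h z w = 0 ∧ w ∉ F ∙ z ∧ h w w = 0 := fun {z} hz => by
    obtain ⟨e, h1, h2, h3⟩ := (hermP hT.hh).exists_sing_perp_notMem (F ∙ z)
      (by rw [finrank_span_singleton hz, hermP_d]; omega)
    exact ⟨e, mem_perp_span_singleton.1 h1, h2, (hermP_sing hT.hh).1 h3⟩
  have step : ∀ (u : U) {z} (hz : h z z = 0), z ≠ 0 → ∀ (x : U) w₀, w₀ ∉ F ∙ z →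
      (∀ c : F, c • x ⊗ₜ w₀ ∈ PForm.Ygrp M (sing u hz)) → ∀ w, h z w = 0 →
      x ⊗ₜ w ∈ PForm.Ygrp M (sing u hz) := by
    intro u z hz hz0 x w₀ h1 h2 w hw
    let A : Submodule F W :=
      { carrier := {w | ∀ c : F, c • x ⊗ₜ w ∈ PForm.Ygrp M (sing u hz)}
        add_mem' := fun {a b} ha hb c => by
          rw [tmul_add, smul_add]; exact AddSubgroup.add_mem _ (ha c) (hb c)
        zero_mem' := fun c => by simp
        smul_mem' := fun d a ha c => by rw [tmul_smul, smul_smul]; exact ha _ }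
    obtain ⟨e, a1, a2, a3⟩ := hiso hz0
    have := PForm.irr_sub (P := hermP hT.hh) (S := F ∙ z) (Y := A) (fun e y ν hv he hy w hw c => by
      have b1 : hv.equiv z = z := (hermP hT.hh).eich_apply_of_orth₂ ν
        (hT.hh.flip_zero (mem_perp_span_singleton.1 he))
        (hT.hh.flip_zero (mem_perp_span_singleton.1 hy))
      have := Yc _ (hT.right (E_le_sisom (h := hT.hh) hv.equiv_mem_E))
        (by rw [tenHom_tmul, b1]; rfl) (hw c)
      rwa [map_smul, tenHom_tmul] at this)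
      ⟨e, mem_perp_span_singleton.2 a1, a2, (hermP_sing hT.hh).2 a3⟩
      (Or.inl (hermP_Λ_ne_bot hT.hh)) (x := w₀) h2 h1 (mem_perp_span_singleton.2 hw) 1
    rwa [one_smul] at this
  obtain ⟨c, hc0, hc⟩ := hT.hf.inv.exists_skew'
  -- a second vector
  have second : ∀ {u : U}, u ≠ 0 → f u u = 0 → (∀ z, h z z = 0 → HasTv B M (u ⊗ₜ z)) →
      ∃ u', f u u' ≠ 0 ∧ f u' u' = 0 ∧ ∀ z, h z z = 0 → HasTv B M (u' ⊗ₜ z) := by
    intro u hu0 hu ht
    obtain ⟨e, he, hue⟩ := hT.hf.exists_hyperbolic' hu hu0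
    refine ⟨tv f e c he hc u, ?_, isotropic_map (hT.hf.tv_mem_isom he hc) hu, fun z hz => ?_⟩
    · simpa [tv_apply, hu, hue, hT.hf.flip_one hue] using hc0
    · exact (ht z hz).map (hT.iso (hT.left (hT.hf.tv_mem_sisom he hc)))
        (hT.left (hT.hf.tv_mem_sisom he hc))
  have Y1 : ∀ {u : U}, u ≠ 0 → f u u = 0 → (∀ z, h z z = 0 → HasTv B M (u ⊗ₜ z)) →
      ∀ {z} (hz : h z z = 0), z ≠ 0 → ∀ (x : U) w, h z w = 0 →
      x ⊗ₜ w ∈ PForm.Ygrp M (sing u hz) := by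
    intro u hu0 hu ht z hz hz0
    obtain ⟨w₀, a1, a2, a3⟩ := hiso hz0
    have ei : ∀ w, h w w = 0 → P.Ei M (u ⊗ₜ w) 0 c := fun w hw =>
      ei_of_hasTv (ht w hw) (by rw [hT.tm, hu, zero_mul]) hc
    have b1 := step u hz hz0 u w₀ a2 fun d => by
      have := (ei z hz).of_tv_add (ei ((-d / c) • w₀) (isotropic_smul a3 _))
        (by
          rw [← tmul_add]
          exact ei _ (by simp [hz, a1, a3, hT.hh.flip_zero a1]))
        (by rw [hermP_f, hT.tm, hu, zero_mul])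
      refine ⟨0, ?_⟩
      convert this using 1
      rw [hermP_ε, tmul_smul, smul_smul]
      congr 1
      field_simp
    obtain ⟨u', c1, c2, c3⟩ := second hu0 hu ht
    obtain ⟨w₁, d1, d2⟩ := exists_perp_eq hT.hh a2 1
    have c4 := hT.hf.flip_ne_zero c1
    have b2 := step u hz hz0 u' w₀ a2 fun d => by
      have e1 : B (u' ⊗ₜ w₀) (u' ⊗ₜ w₀) = 0 := by rw [hT.tm, a3, mul_zero]
      have e2 := b1 ((d / (c * f u' u)) • w₁) (by rw [smul_right, d1, mul_zero])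
      have := AddSubgroup.sub_mem _ (Yc _ (c3 w₀ a3 c e1 hc) (tv_apply_of_perp _ _
        (by rw [hT.tm, hT.hh.flip_zero a1, mul_zero])) e2) e2
      rw [tv_apply, add_sub_cancel_left, hT.tm, smul_right, hT.hh.flip_one d2] at this
      convert this using 2
      field_simp
    have b3 : ∀ x, f u x = 0 → ∀ w, h z w = 0 → x ⊗ₜ w ∈ PForm.Ygrp M (sing u hz) :=
      fun x hx w hw => by
      obtain ⟨ν, -, α, hα, H⟩ := exists_eich' hT.hf hu hx
      have e1 := b2 ((f u u')⁻¹ • w) (by rw [smul_right, hw, mul_zero])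
      have e2 := b1 (((f x u' + ν * f u u') * (f u u')⁻¹) • w) (by rw [smul_right, hw, mul_zero])
      have := AddSubgroup.add_mem _ (AddSubgroup.sub_mem _ (Yc _ (hT.left hα)
        (by simp [tenHom_tmul, H, hu, hT.hf.flip_zero hx]) e1) e1) e2
      convert this using 1
      simp only [tenHom_left, H, sub_tmul, add_tmul, tmul_smul, ← smul_tmul', map_smul]
      match_scalars <;> field_simp <;> ring
    intro x w hw
    have := AddSubgroup.add_mem _ (b3 (x - (f u x / f u u') • u') (by simp [c1]) w hw)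
      (b2 ((f u x / f u u') • w) (by rw [smul_right, hw, mul_zero]))
    rwa [← smul_tmul, ← add_tmul, sub_add_cancel] at this
  have full : ∀ {u : U}, u ≠ 0 → f u u = 0 → (∀ z, h z z = 0 → HasTv B M (u ⊗ₜ z)) →
      ∀ {z}, h z z = 0 → z ≠ 0 → P.Full M (u ⊗ₜ z) := by
    intro u hu0 hu ht z hz hz0
    obtain ⟨z', hz', hzz'⟩ := hT.hh.exists_hyperbolic' hz hz0
    have a0 := hT.hh.finrank_hypPerp (e := z) (f := z') ⟨hz, hz', hzz'⟩
    obtain ⟨w, a1, hw0, hw⟩ := exists_isotropic_mem hT.hh.toIsHermSymm (S := hypPerp h z z')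
      (by omega)
    obtain ⟨a1, a2⟩ := mem_hypPerp.1 a1
    obtain ⟨w₀, a3, a4⟩ := exists_perp_eq hT.hh (u := z) (v := w) (fun h1 => by
      obtain ⟨d, rfl⟩ := Submodule.mem_span_singleton.1 h1
      rw [smul_right, hT.hh.flip_one hzz', mul_one] at a2
      simp [a2] at hw0) 1
    obtain ⟨u', hu'⟩ := hT.hf.exists_eq_one hu0
    refine full_of_Y (by rw [hT.tm, hu, zero_mul]) (ht z hz) fun y hy => ?_
    rw [hT.B_tmul] at hy
    obtain ⟨ν, b1⟩ := Y1 hu0 hu ht hw hw0 (cR U (h z) y) z' (hT.hh.flip_zero a2)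
    obtain ⟨g, hg, -, H⟩ := exists_of_ei b1
    have b2 := Y1 hu0 hu ht hz hz0 u' w₀ a3
    have b3 := AddSubgroup.add_mem _ (AddSubgroup.sub_mem _ (Yc _ hg
      (by simp [H, hT.tm, hu, hT.hf.flip_zero hy]) b2) b2) (Y1 hu0 hu ht hz hz0 u
        ((B (cR U (h z) y ⊗ₜ z') (u' ⊗ₜ w₀) + ν) • w) (by rw [smul_right, a1, mul_zero]))
    rw [H, hT.tm, hu', hT.hh.flip_one a4, tmul_smul] at b3
    have b4 := ker_cR_induction hzz' (PForm.Ygrp M (sing u hz)) (Y1 hu0 hu ht hz hz0)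
      (p := y - cR U (h z) y ⊗ₜ z') (by simp [cR_tmul, hzz'])
    change y ∈ PForm.Ygrp M (sing u hz)
    convert AddSubgroup.add_mem _ b3 b4 using 1
    module
  obtain ⟨z, z', hz0, hz, hz', hzz'⟩ := hT.exists_pair
  obtain ⟨u', c1, c2, c3⟩ := second hu0 hu ht
  refine sisom_le_of_E_le (h := hT.hB) (Or.inl ?_) ((full hu0 hu ht hz hz0).E_le
    (full (by rintro rfl; simp at c1) c2 c3 hz' (by rintro rfl; simp at hzz'))
    (by rw [hermP_f, hT.tm, hzz', mul_one]; exact c1))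
  rw [Module.finrank_tensorProduct]
  have := hT.two
  nlinarith

/-- In a proper overgroup the operators `γ` are scalars. -/
theorem scalar_of_mem_Gam (h4 : 4 ≤ finrank F W) (hM : ¬ sisom B ≤ M) {γ : End F U}
    (hγ : γ ∈ hT.Gam) : ∃ c : F, ∀ x, γ x = c • x := by
  by_contra hns
  obtain ⟨u, hu0, hu, H⟩ := exists_ro_mem hT.hf hT.two hT.big hT.Gam
    (fun k hk γ => hT.smul_mem_Gam hk) (fun α hα γ => hT.conj_mem_Gam hα)
    (fun γ => hT.skew_of_mem_Gam) hγ hns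
  refine hM (hT.sisom_le_of_hasTv h4 hu0 hu fun z hz c h1 hc => ?_)
  obtain ⟨g, hg, H'⟩ := H c hc z hz
  convert hg using 1
  ext p
  rw [tv_apply, H', hT.B_tmul, LinearMap.smul_apply, ro_apply, smul_smul, smul_tmul']

end UT

end Cfsg.Agent.H26
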