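import Cfsg.Agent.H26.PC2Geo
import Cfsg.Agent.H26.Extr

/-!
Maximality of the stabilizer of a pair of complementary totally singular subspaces of dimension at
least three in a unitary space.
-/

set_option autoImplicit false

namespace Cfsg.Agent.H26

open Module

variable {F : Type*} [Field F] {V : Type*} [AddCommGroup V] [Module F V]

namespace PForm

variable {P : PForm F V} {M : Subgroup (V ≃ₗ[F] V)}

variable (P M) in
/-- A pair of complementary totally singular subspaces such that the Eichler transformations in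
`M` with centre in one of them are those of the Levi factor. -/
structure GoodPair (A B : Submodule F V) : Prop where
  ts : P.TSPair A B
  three : 3 ≤ finrank F A
  eiA : ∀ e ∈ A, ∀ y ∈ B, P.f y e = 0 → P.Ei M e y 0
  eiB : ∀ e ∈ B, ∀ y ∈ A, P.f y e = 0 → P.Ei M e y 0
  yA : ∀ e ∈ A, e ≠ 0 → ∀ y ν, P.Ei M e y ν → y ∈ B ⊔ F ∙ e
  yB : ∀ e ∈ B, e ≠ 0 → ∀ y ν, P.Ei M e y ν → y ∈ A ⊔ F ∙ e

theorem TSPair.act {A B : Submodule F V} (h : P.TSPair A B) {g : V ≃ₗ[F] V} (hg : g ∈ P.isom) :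
    P.TSPair (act g A) (act g B) where
  singA a ha := (h.singA _ (mem_act.1 ha)).of_map (P.isom.inv_mem hg)
  singB a ha := (h.singB _ (mem_act.1 ha)).of_map (P.isom.inv_mem hg)
  orthA := by rw [act_perp hg]; exact Submodule.map_mono h.orthA
  orthB := by rw [act_perp hg]; exact Submodule.map_mono h.orthB
  compl := (Submodule.orderIsoMapComap g).isCompl h.compl
  dim := by rw [finrank_act, finrank_act, h.dim]

namespace GoodPair

variable {A B A' B' : Submodule F V}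

theorem symm (h : P.GoodPair M A B) : P.GoodPair M B A :=
  ⟨h.ts.symm, h.ts.dim ▸ h.three, h.eiB, h.eiA, h.yB, h.yA⟩

theorem act (h : P.GoodPair M A B) (hM : M ≤ P.isom) {g : V ≃ₗ[F] V} (hg : g ∈ M) :
    P.GoodPair M (act g A) (act g B) := by
  have h1 : ∀ {A B : Submodule F V}, (∀ e ∈ A, ∀ y ∈ B, P.f y e = 0 → P.Ei M e y 0) →
      ∀ e ∈ H26.act g A, ∀ y ∈ H26.act g B, P.f y e = 0 → P.Ei M e y 0 := fun H e he y hy h0 => by
    simpa only [apply_inv_apply] using (H _ (mem_act.1 he) _ (mem_act.1 hy)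
      (by rw [isom_f (hM (M.inv_mem hg)), h0])).conj hg (hM hg)
  have h2 : ∀ {A B : Submodule F V}, (∀ e ∈ A, e ≠ 0 → ∀ y ν, P.Ei M e y ν → y ∈ B ⊔ F ∙ e) →
      ∀ e ∈ H26.act g A, e ≠ 0 → ∀ y ν, P.Ei M e y ν → y ∈ H26.act g B ⊔ F ∙ e :=
    fun H e he h0 y ν hi => by
    obtain ⟨b, hb, c, hc⟩ := mem_sup_span.1 (H _ (mem_act.1 he) (by simpa using h0) _ _
      (hi.conj (M.inv_mem hg) (hM (M.inv_mem hg))))
    exact mem_sup_span.2 ⟨g b, apply_mem_act.2 hb, c, by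
      rw [← apply_inv_apply g y, hc, map_add, map_smul, apply_inv_apply]⟩
  exact ⟨h.ts.act (hM hg), by rw [finrank_act]; exact h.three, h1 h.eiA, h1 h.eiB, h2 h.yA,
    h2 h.yB⟩

theorem y (h : P.GoodPair M A B) (h' : P.GoodPair M A' B') {e b : V} (he : e ∈ A) (he' : e ∈ A')
    (h0 : e ≠ 0) (hb : b ∈ B) (hbe : P.f b e = 0) : ∃ b' ∈ B', ∃ c : F, b = b' + c • e :=
  mem_sup_span.1 (h'.yA e he' h0 b 0 (h.eiA e he b hb hbe))

variable [FiniteDimensional F V] (hσ : ∃ a, P.σ a ≠ a)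
include hσ

theorem le_of_two (h : P.GoodPair M A B) (h' : P.GoodPair M A' B') {e₁ e₂ : V} (h1 : e₁ ∈ A)
    (h1' : e₁ ∈ A') (h2 : e₂ ∈ A) (h2' : e₂ ∈ A') (h0 : e₁ ≠ 0) (hn : e₂ ∉ F ∙ e₁) : B ≤ B' := by
  have h0' : e₂ ≠ 0 := by rintro rfl; exact hn (zero_mem _)
  have hn' : e₁ ∉ F ∙ e₂ := by
    simpa using notMem_sup_span_exchange (S := ⊥) (x := e₁) (e := e₂) (by simpa using h0)
      (by simpa using hn)
  obtain ⟨b₁, a1, a2, a3⟩ := h.ts.exists_f ((Submodule.span_singleton_le_iff_mem _ _).2 h2) h1 hn' P.ε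
  obtain ⟨b₂, a4, a5, a6⟩ := h.ts.exists_f ((Submodule.span_singleton_le_iff_mem _ _).2 h1) h2 hn P.ε
  rw [mem_perp_span_singleton] at a2 a5
  replace a3 : P.f b₁ e₁ = 1 := by rw [P.herm, a3, σ_ε, P.ε_sq]
  replace a6 : P.f b₂ e₂ = 1 := by rw [P.herm, a6, σ_ε, P.ε_sq]
  obtain ⟨p₁, c1, c₁, c2⟩ := h.y h' h2 h2' h0' a1 a2
  obtain ⟨p₂, c3, c₂, c4⟩ := h.y h' h1 h1' h0 a4 a5
  have key : ∀ l : F, P.σ l * c₁ + l * c₂ = 0 := fun l => by
    obtain ⟨p, d1, t, d2⟩ := h.y h' (A.add_mem h1 (A.smul_mem l h2))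
      (A'.add_mem h1' (A'.smul_mem l h2')) (b := b₂ - P.σ l • b₁) (fun e => by
        have := congrArg (P.f b₁) e
        simp [f_add_right, f_smul_right, a2, a3, f_zero_right] at this)
      (B.sub_mem a4 (B.smul_mem _ a1))
      (by simp [f_sub_left, P.f_smul_left, f_add_right, f_smul_right, a2, a3, a5, a6])
    have d3 : (c₂ - t) • e₁ - (P.σ l * c₁ + t * l) • e₂ = 0 := h'.ts.eq_zero
      (A'.sub_mem (A'.smul_mem _ h1') (A'.smul_mem _ h2')) (by
        convert B'.add_mem (B'.sub_mem d1 c3) (B'.smul_mem (P.σ l) c1) using 1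
        linear_combination (norm := module) d2 - c4 + P.σ l • c2)
    have d4 := congrArg (fun x => P.f x b₁) d3
    have d5 := congrArg (fun x => P.f x b₂) d3
    simp only [f_sub_left, P.f_smul_left, f_symm_one a3, f_symm_one a6, f_symm_zero a2,
      f_symm_zero a5, f_zero_left, mul_zero, sub_zero, zero_sub, neg_eq_zero,
      mul_eq_zero_iff_right P.ε_ne_zero] at d4 d5
    linear_combination d5 + l * d4
  obtain ⟨θ, hθ⟩ := hσ
  have k1 := key 1
  have k2 := key θ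
  rw [map_one] at k1
  have k3 : c₁ = 0 := (mul_eq_zero.1 (show (P.σ θ - θ) * c₁ = 0 by
    linear_combination k2 - θ * k1)).resolve_left (sub_ne_zero.2 hθ)
  have k4 : c₂ = 0 := by linear_combination k1 - k3
  rw [k3, zero_smul, add_zero] at c2
  rw [k4, zero_smul, add_zero] at c4
  intro b hb
  have k5 := B.sub_mem (B.sub_mem hb (B.smul_mem (P.f b e₁) a1)) (B.smul_mem (P.f b e₂) a4)
  have k6 : b - P.f b e₁ • b₁ - P.f b e₂ • b₂ ∈ B' := h'.ts.strong_two (τ := 1) h1' h2' h0 hn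
    (b := b - P.f b e₁ • b₁ - P.f b e₂ • b₂)
    (mem_sup_span.2 (h.y h' h1 h1' h0 k5 (by simp [f_sub_left, P.f_smul_left, a3, a5])))
    (mem_sup_span.2 (h.y h' h2 h2' h0' k5 (by simp [f_sub_left, P.f_smul_left, a2, a6])))
  rw [← c2] at c1
  rw [← c4] at c3
  simpa using B'.add_mem (B'.add_mem k6 (B'.smul_mem (P.f b e₂) c3)) (B'.smul_mem (P.f b e₁) c1)

theorem le_le_of_two (h : P.GoodPair M A B) (h' : P.GoodPair M A' B') {e₁ e₂ : V} (h1 : e₁ ∈ A)
    (h1' : e₁ ∈ A') (h2 : e₂ ∈ A) (h2' : e₂ ∈ A') (h0 : e₁ ≠ 0) (hn : e₂ ∉ F ∙ e₁) :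
    A ≤ A' ∧ B ≤ B' := by
  have h3 := h.le_of_two hσ h' h1 h1' h2 h2' h0 hn
  have h4 := h.symm.three
  obtain ⟨b, hb, hb0⟩ := exists_mem_ne_zero_of_finrank (A := B) (by omega)
  obtain ⟨b', hb', hn'⟩ := exists_mem_notMem_of_finrank_lt (A := B) (S := F ∙ b)
    (by have := finrank_span_singleton_le (F := F) b; omega)
  exact ⟨h.symm.le_of_two hσ h'.symm hb (h3 hb) hb' (h3 hb') hb0 hn', h3⟩

theorem le_le (hM : M ≤ P.isom) (h : P.GoodPair M A B) (h' : P.GoodPair M A' B') {e : V}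
    (he : e ∈ A) (he' : e ∈ A') (h0 : e ≠ 0) : A ≤ A' ∧ B ≤ B' := by
  have h3 := h.three
  have h4 := h.symm.three
  obtain ⟨z, hz, -, h1⟩ := h'.ts.exists_f bot_le he' (by simpa using h0) 1
  have h5 := finrank_le_inf_perp (P := P) B e
  have h6 := finrank_le_inf_perp (P := P) (B ⊓ P.perp (F ∙ e)) z
  obtain ⟨b, ⟨⟨hb, hbe⟩, hbz⟩, hb0⟩ := exists_mem_ne_zero_of_finrank
    (A := (B ⊓ P.perp (F ∙ e)) ⊓ P.perp (F ∙ z)) (by omega)
  replace hbe : P.f b e = 0 := mem_perp_span_singleton.1 hbe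
  replace hbz : P.f b z = 0 := mem_perp_span_singleton.1 hbz
  have hb' : b ∈ B' := by
    obtain ⟨p, a1, c, rfl⟩ := h.y h' he he' h0 hb hbe
    rw [P.f_add_left, P.f_smul_left, h1, h'.ts.orthB a1 z hz] at hbz
    simpa [show c = 0 by simpa using hbz] using a1
  have h7 := finrank_le_inf_perp (P := P) A b
  obtain ⟨x, ⟨hx, hxb⟩, hxe⟩ := exists_mem_notMem_of_finrank_lt (A := A ⊓ P.perp (F ∙ b))
    (S := F ∙ e) (by have := finrank_span_singleton_le (F := F) e; omega)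
  replace hxb : P.f x b = 0 := mem_perp_span_singleton.1 hxb
  obtain ⟨a, ha, c, hc⟩ := h.symm.y h'.symm hb hb' hb0 hx hxb
  refine h.le_le_of_two hσ h' he he' hx ?_ h0 hxe
  by_contra hxA
  have hc0 : c ≠ 0 := by rintro rfl; exact hxA (by simpa [hc] using ha)
  have hbb := (h.ts.singB b hb).f_self
  have hab : P.f a b = 0 := by simpa [hc, P.f_add_left, P.f_smul_left, hbb] using hxb
  obtain ⟨t, ht, -, htb⟩ := h.ts.symm.exists_f bot_le hb (by simpa using hb0) P.ε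
  replace htb : P.f t b = 1 := by rw [P.herm, htb, σ_ε, P.ε_sq]
  have hta : P.f t a = -P.σ c := by
    have := h.ts.orthA ht x hx
    rw [hc, f_add_right, f_smul_right, htb] at this
    linear_combination this
  have key : ∀ l : F, P.ε * (l * c) = P.σ (l * c) := fun l => by
    have hi := h'.eiA _ (A'.smul_mem l ha) b hb' (by rw [f_smul_right, f_symm_zero hab, mul_zero])
    have a1 : hi.ev.equiv e = e := P.eich_apply_of_orth₂ _
      (h'.ts.orthA he' _ (A'.smul_mem l ha)) (f_symm_zero hbe)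
    have a2 : hi.ev.equiv x = x := P.eich_apply_of_orth₂ _ (by
      rw [f_smul_right, hc, P.f_add_left, P.f_smul_left, (h'.ts.singA a ha).f_self,
        f_symm_zero hab]
      ring) hxb
    have a3 := ((h.act hM hi.mem).le_le_of_two hσ h (a1 ▸ apply_mem_act.2 he) he
      (a2 ▸ apply_mem_act.2 hx) hx h0 hxe).1 (apply_mem_act.2 ht)
    rw [EV.equiv_apply, eich_apply, f_smul_right, hta, htb] at a3
    have a4 : (P.ε * (l * c) - P.σ (l * c)) • b = 0 := h.ts.eq_zero (by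
      convert A.add_mem (A.sub_mem a3 ht) (A.smul_mem (P.ε * l) hx) using 1
      rw [hc, map_mul]
      module) (B.smul_mem _ hb)
    exact sub_eq_zero.1 ((smul_eq_zero_iff_left hb0).1 a4)
  obtain ⟨θ, hθ⟩ := hσ
  have k1 := key c⁻¹
  have k2 := key (θ * c⁻¹)
  rw [inv_mul_cancel₀ hc0, mul_one, map_one] at k1
  rw [inv_mul_cancel_right₀ hc0, k1, one_mul] at k2
  exact hθ k2.symm

theorem le_pairStab (hM : M ≤ P.isom) (h : P.GoodPair M A B) : M ≤ pairStab A B := by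
  intro g hg
  have h' := h.act hM hg
  have h3 := h.three
  have h4 := h'.three
  by_cases h1 : ∃ e ∈ H26.act g A, e ∈ A ∧ e ≠ 0
  · obtain ⟨e, a1, a2, a3⟩ := h1
    obtain ⟨a4, a5⟩ := h'.le_le hσ hM h a1 a2 a3
    exact mem_pairStab_of_fix (fun x hx => a4 (apply_mem_act.2 hx))
      fun x hx => a5 (apply_mem_act.2 hx)
  by_cases h2 : ∃ e ∈ H26.act g A, e ∈ B ∧ e ≠ 0
  · obtain ⟨e, a1, a2, a3⟩ := h2
    obtain ⟨a4, a5⟩ := h'.le_le hσ hM h.symm a1 a2 a3
    exact mem_pairStab_of_swap h.ts.dim (fun x hx => a4 (apply_mem_act.2 hx))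
      fun x hx => a5 (apply_mem_act.2 hx)
  push Not at h1 h2
  exfalso
  obtain ⟨t, ht, ht0⟩ := exists_mem_ne_zero_of_finrank (A := H26.act g A) (by omega)
  obtain ⟨a, ha, b, hb, rfl⟩ := h.ts.exists_add t
  have ha0 : a ≠ 0 := by rintro rfl; exact ht0 (h2 _ ht (by simpa using hb))
  have h5 := finrank_le_inf_perp (P := P) A b
  obtain ⟨e, ⟨he, heb⟩, hea⟩ := exists_mem_notMem_of_finrank_lt (A := A ⊓ P.perp (F ∙ b))
    (S := F ∙ a) (by have := finrank_span_singleton_le (F := F) a; omega)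
  replace heb : P.f e b = 0 := mem_perp_span_singleton.1 heb
  obtain ⟨y, hy, hye, hay⟩ := h.ts.exists_f ((Submodule.span_singleton_le_iff_mem _ _).2 he) ha
    (by simpa using (notMem_sup_span_exchange (S := (⊥ : Submodule F V)) (x := a) (e := e)
      (by simpa using ha0) (by simpa using hea))) P.ε
  have hi := h.eiA e he y hy (mem_perp_span_singleton.1 hye)
  have h6 := finrank_le_inf_perp (P := P) (H26.act g A) e
  have h7 := finrank_le_inf_perp (P := P) (H26.act g A ⊓ P.perp (F ∙ e)) y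
  obtain ⟨w, ⟨⟨hw, hwe⟩, hwy⟩, hw0⟩ := exists_mem_ne_zero_of_finrank
    (A := (H26.act g A ⊓ P.perp (F ∙ e)) ⊓ P.perp (F ∙ y)) (by omega)
  have h8 : hi.ev.equiv w = w := P.eich_apply_of_orth₂ _ (mem_perp_span_singleton.1 hwe)
    (mem_perp_span_singleton.1 hwy)
  have h9 := ((h'.act hM hi.mem).le_le hσ hM h' (h8 ▸ apply_mem_act.2 hw) hw hw0).1
    (apply_mem_act.2 ht)
  rw [EV.equiv_apply, eich_apply_of_orth _ _ (by
    rw [P.f_add_left, h.ts.orthA ha e he, f_symm_zero heb, add_zero]), P.f_add_left, hay,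
    h.ts.orthB hb y hy, add_zero, P.ε_sq, one_smul] at h9
  exact hea (by rw [h1 e (by simpa using Submodule.sub_mem _ ht h9) he]; exact zero_mem _)

end GoodPair

theorem TSPair.c2_unitary [FiniteDimensional F V] {A B : Submodule F V} (h : P.TSPair A B)
    (h3 : 3 ≤ finrank F A) (hσ : ∃ a, P.σ a ≠ a) (hΛ : ∀ ν ∈ P.Λ, ∃ a, ν = a - P.ε * P.σ a)
    (hMI : M ≤ P.isom) (hH : pairStab A B ⊓ P.E ≤ M)
    (hs : ∃ s ∈ P.E, (∀ a ∈ A, s a ∈ B) ∧ ∀ b ∈ B, s b ∈ A) : M ≤ pairStab A B ∨ P.E ≤ M := by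
  refine or_iff_not_imp_right.2 fun hE => ?_
  have hd := h.dim
  have hH' : pairStab B A ⊓ P.E ≤ M := by rwa [pairStab_comm]
  obtain ⟨s, hsE, hsA, hsB⟩ := hs
  have hsM : s ∈ M := hH ⟨mem_pairStab_of_swap hd hsA hsB, hsE⟩
  exact GoodPair.le_pairStab hσ hMI ⟨h, h3, fun e he y hy => h.ei hH he hy,
    fun e he y hy => h.symm.ei hH' he hy,
    fun e he h0 y ν => h.Y3 hH h3 hΛ ⟨s, hsM, E_le_isom hsE, hsA⟩ hE he h0,
    fun e he h0 y ν => h.symm.Y3 hH' (by omega) hΛ ⟨s, hsM, E_le_isom hsE, hsB⟩ hE he h0⟩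

end PForm

open PForm

/-- The stabilizer in `SU_n(q)` of a pair of complementary totally isotropic subspaces of
dimension at least three is maximal. -/
theorem su_c2_ts_three {F : Type*} [Field F] [Fintype F] {q : ℕ} (hF : Fintype.card F = q ^ 2)
    {n : ℕ} (hn : n ≠ 3) {k : ℕ} (h3 : 3 ≤ k) {D : Fin 2 → Submodule F (Fin n → F)}
    (hD : Geo.IsMDecomposition k D) (hts : ∀ i, Geo.IsTotallySingularFor (hermForm n F q) (D i)) :
    Geo.IsMaximalIn (GU n F q ⊓ Geo.specialLinear (Fin n) F)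
      (Geo.decompositionStabilizer D ⊓ (GU n F q ⊓ Geo.specialLinear (Fin n) F)) := by
  obtain ⟨l, hl⟩ := exists_trace_one (isUnitaryForm_hermForm hF n)
  have h : (unitP (isUnitaryForm_hermForm hF n) l hl).TSPair (D 0) (D 1) :=
    ⟨fun x hx => (unitP_sing_iff _ l hl x).2 (hts 0 x hx x hx),
      fun x hx => (unitP_sing_iff _ l hl x).2 (hts 1 x hx x hx), fun u hu v hv => hts 0 u hu v hv,
      fun u hu v hv => hts 1 u hu v hv, isCompl_of_isMDecomposition hD,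
      by rw [hD.finrank_eq, hD.finrank_eq]⟩
  rw [← hD.finrank_eq 0] at h3
  exact isMaximalIn_of_E _ (mem_GU_inf_iff hF hn l hl) _ (mem_decompositionStabilizer_two D)
    (h.not_E_le (by omega)) fun M h1 h2 => h.c2_unitary h3
      (exists_ne_of_ne_refl (isUnitaryForm_hermForm hF n).ne_refl) (unitP_Λ_min _ l hl)
      (h2.trans E_le_isom) h1 (h.exists_swap (Or.inl (unitP_Λ_ne_bot _ l hl)))

end Cfsg.Agent.H26
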