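import Cfsg.Agent.H74.UVDefs

/-! Project UV, piece ORBN: the number of orbits on vectors. -/

set_option autoImplicit false

namespace Cfsg.Agent.H26.UvOrbn

open Cfsg Module Cfsg.Agent.H31 Cfsg.Agent.H77.Sg Cfsg.Agent.H11 Cfsg.Agent.H74.UV
open Cfsg.Agent.H53.Uw (St fx Sk)
open scoped ComplexConjugate

universe u

theorem orth {G : Type u} [Group G] [Fintype G] {φ ψ : G → ℂ} (z : G) {a b : ℂ}
    (h1 : ∀ g, φ (z * g) = a * φ g) (h2 : ∀ g, ψ (z * g) = b * ψ g) (h : a * conj b ≠ 1) :
    classInner φ ψ = 0 := by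
  have e : ∑ g, φ g * conj (ψ g) = a * conj b * ∑ g, φ g * conj (ψ g) := by
    rw [Finset.mul_sum, ← Equiv.sum_comp (Equiv.mulLeft z) fun g => φ g * conj (ψ g)]
    refine Finset.sum_congr rfl fun g _ => ?_
    rw [Equiv.coe_mulLeft, h1, h2, map_mul]
    ring
  rw [classInner_def, (mul_left_eq_self₀.1 e.symm).resolve_left h, mul_zero]

theorem orbn : OrbnStmt.{u} := by
  intro E K _ _ _ _ _ σ B q R t G C Z
  classical
  have S := C.st
  refine ⟨?_, fun I h1 h2 => ?_⟩
  · let f : Option {a : E // σ a = a} → MulAction.orbitRel.Quotient (isom B) K := fun o =>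
      o.elim (Quotient.mk'' 0) fun a => if h : ∃ v, v ≠ 0 ∧ B v v = a then Quotient.mk'' h.choose
        else Quotient.mk'' 0
    have hf : Function.Surjective f := by
      rintro ⟨v⟩
      by_cases v0 : v = 0
      · exact ⟨none, by rw [v0]; rfl⟩
      · have h : ∃ w, w ≠ 0 ∧ B w w = B v v := ⟨v, v0, rfl⟩
        refine ⟨some ⟨B v v, S.herm.toIsHermSymm.norm_fixed v⟩, ?_⟩
        simp only [f, Option.elim, dif_pos h]
        obtain ⟨g, hg, e⟩ := S.herm.witt_one v0 h.choose_spec.1 h.choose_spec.2.symm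
        exact Quotient.sound' ⟨⟨g, hg⟩, e⟩
    have := Nat.card_le_card_of_surjective f hf
    rwa [Finite.card_option, card_fixed S.card S.pow] at this
  let := Fintype.ofFinite G
  let := Fintype.ofFinite K
  let := Fintype.ofFinite (MulAction.orbitRel.Quotient G K)
  have : Finite (Ch K q) := Nat.finite_of_card_ne_zero (by rw [C.cardCh]; omega)
  let := Fintype.ofFinite (Ch K q)
  have e1 : classInner (fun g : G => wo q g.1) (fun g : G => wo q g.1) = nO G := by
    have e := MulAction.sum_card_fixedBy_eq_card_orbits_mul_card_group G K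
    refine mul_left_cancel₀ (card_ne_zero G) ?_
    rw [card_mul_classInner, nO, Nat.card_eq_fintype_card, Nat.card_eq_fintype_card, mul_comm,
      ← Nat.cast_mul, ← e, Nat.cast_sum]
    refine Finset.sum_congr rfl fun g _ => ?_
    rw [← Nat.card_eq_fintype_card, show conj (wo q g.1) = wo q g.1 by simp [wo], Z.sq]
    rfl
  have e2 : (fun g : G => wo q g.1) = ∑ ν : Ch K q, fun g : G => ze q ν g.1 := by
    funext g
    rw [Finset.sum_apply, ← Z.sum, finsum_eq_sum_of_fintype]
  have e3 : ∀ ν ν' : Ch K q, ν ≠ ν' →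
      classInner (fun g : G => ze q ν g.1) (fun g : G => ze q ν' g.1) = 0 := fun ν ν' h => by
    obtain ⟨z, hz⟩ := DFunLike.ne_iff.1 h
    refine orth ⟨mulH E K z, (C.mem _).2 ⟨z, z.2, 1, one_mem _, (mul_one _).symm⟩⟩
      (fun g => Z.cen ν z g) (fun g => Z.cen ν' z g) fun e => hz ?_
    rw [conj_monoidHom_apply, map_inv, ← Units.val_mul, Units.val_eq_one, mul_inv_eq_one] at e
    exact e
  have e4 : ∀ ν : Ch K q, classInner (fun g : G => ze q ν g.1) (fun g : G => ze q ν g.1) =
      1 + if ν ∈ I then 1 else 0 := fun ν => by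
    split_ifs with h
    · obtain ⟨μ, χ, k1, k2, k3, -⟩ := h1 ν h
      have k4 := isIrrCharacter_monoidHom μ
      rw [show (fun g : G => ze q ν g.1) = (fun g => (μ g : ℂ)) + χ from funext k3,
        classInner_add_left, classInner_add_right, classInner_add_right, classInner_irr_self k4,
        classInner_irr_self k1, classInner_irr_of_ne k1 k4 k2, classInner_irr_of_ne k4 k1 k2.symm]
      ring
    · rw [classInner_irr_self (h2 ν h), add_zero]
  rw [e2, classInner_sum_left, Finset.sum_congr rfl fun ν _ => by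
    rw [classInner_sum_right, Finset.sum_eq_single_of_mem ν (Finset.mem_univ ν)
      fun ν' _ h => e3 ν ν' h.symm, e4], Finset.sum_add_distrib, Finset.sum_const,
    Finset.sum_ite_mem, Finset.univ_inter, Finset.sum_const, Finset.card_univ,
    ← Nat.card_eq_fintype_card, C.cardCh, nsmul_one, nsmul_one] at e1
  exact_mod_cast e1.symm

end Cfsg.Agent.H26.UvOrbn
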