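import Cfsg.Agent.H74.UVDefs

/-! Project UV (S5855): the piece TENA. -/

set_option autoImplicit false
open Finset Polynomial

namespace Cfsg.Agent.H26.UvTena

open Cfsg.Agent.H74.UV

universe u

theorem expand {K ι : Type u} [Field K] (q n : ℕ) (s : Finset ι) (α : ι → K)
    (f : ι → Polynomial K) (hf : ∀ i ∈ s, (f i).natDegree < q) (y : Fin n → K) :
    ∑ i ∈ s, α i * ∏ j : Fin n, (f i).eval (y j) =
      ∑ a : Fin n → Fin q, (∑ i ∈ s, α i * ∏ j : Fin n, (f i).coeff (a j)) *
        ∏ j : Fin n, y j ^ (a j : ℕ) := by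
  classical
  simp only [Finset.sum_mul]
  rw [Finset.sum_comm]
  refine Finset.sum_congr rfl fun i hi => ?_
  have h1 : ∀ j : Fin n, (f i).eval (y j) = ∑ a : Fin q, (f i).coeff a * y j ^ (a : ℕ) := by
    intro j
    rw [Polynomial.eval_eq_sum_range' (hf i hi), Finset.sum_range]
  simp only [h1]
  rw [Finset.prod_univ_sum, Fintype.piFinset_univ, Finset.mul_sum]
  refine Finset.sum_congr rfl fun a _ => ?_
  rw [Finset.prod_mul_distrib, mul_assoc]

theorem tena : TenaStmt.{u} := by
  classical
  intro K ι _ q n S s α f hq hS hf h y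
  set β : (Fin n → Fin q) → K := fun a => ∑ i ∈ s, α i * ∏ j : Fin n, (f i).coeff (a j) with hβ
  set P : Polynomial K := ∑ a : Fin n → Fin q, monomial (finFunctionFinEquiv a : ℕ) (β a) with hP
  have hpos : 0 < q ^ n := pow_pos (by omega) n
  have hdeg : P.natDegree < S.card := by
    have : P.natDegree ≤ q ^ n - 1 := by
      refine Polynomial.natDegree_sum_le_of_forall_le _ _ fun a _ => ?_
      have h1 := (finFunctionFinEquiv a).2
      exact (Polynomial.natDegree_monomial_le _).trans (by omega)
    omega
  have hev : ∀ c ∈ S, P.eval c = 0 := by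
    intro c hc
    rw [← h c hc, expand q n s α f hf, hP, Polynomial.eval_finsetSum]
    refine Finset.sum_congr rfl fun a _ => ?_
    rw [Polynomial.eval_monomial, finFunctionFinEquiv_apply, ← Finset.prod_pow_eq_pow_sum]
    congr 1
    refine Finset.prod_congr rfl fun j _ => ?_
    rw [← pow_mul, mul_comm]
  have hP0 : P = 0 := Polynomial.eq_zero_of_natDegree_lt_card_of_eval_eq_zero' P S hev hdeg
  have hβ0 : ∀ a, β a = 0 := by
    intro a
    have h1 : P.coeff (finFunctionFinEquiv a : ℕ) = β a := by
      rw [hP, Polynomial.finsetSum_coeff, Finset.sum_eq_single a]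
      · simp
      · intro b _ hb
        rw [Polynomial.coeff_monomial, if_neg]
        intro e
        exact hb (finFunctionFinEquiv.injective (Fin.ext e))
      · simp
    rw [← h1, hP0, Polynomial.coeff_zero]
  rw [expand q n s α f hf]
  exact Finset.sum_eq_zero fun a _ => by
    have := hβ0 a
    simp only [hβ] at this
    rw [this, zero_mul]

end Cfsg.Agent.H26.UvTena
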